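/-
Stabilisers of pairs of complementary totally singular subspaces in `Sp`, `SU` and `Ω`.
-/
import Cfsg.Agent.Geom.MaxTSP

set_option autoImplicit false
set_option linter.unusedSectionVars false

namespace CF.Geom

open Module QuadraticMap

variable {F V : Type*} [Field F] [AddCommGroup V] [Module F V] {σ : F →+* F}
  [FiniteDimensional F V]

section General

variable {B : V →ₛₗ[σ] V →ₗ[F] F} {Q : V → F} {X X' Z : Submodule F V}

theorem TSP.exists_move (h : TSP B Q X X') (h' : TSP B Q Z X') :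
    ∃ g ∈ Isom B Q, Z.map (g : V →ₗ[F] V) = X ∧ ∀ y ∈ X', g y = y := by
  let g : V →ₗ[F] V := LinearMap.id - X'.projection X h.c.symm ∘ₗ Z.projection X' h'.c
  have hg : ∀ z ∈ Z, ∀ y ∈ X', ∃ a ∈ X, z - a ∈ X' ∧ g (z + y) = a + y := fun z hz y hy => by
    obtain ⟨a, ha, b, hb, rfl⟩ := h.exists_add z
    refine ⟨a, ha, by simpa using hb, ?_⟩
    have e1 : Z.projection X' h'.c (a + b + y) = a + b := by
      rw [map_add, Submodule.projection_apply_of_mem_left _ hz,
        (Submodule.projection_apply_eq_zero_iff _).2 hy, add_zero]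
    have e2 : X'.projection X h.c.symm (a + b) = b := by
      rw [map_add, Submodule.projection_apply_of_mem_left _ hb,
        (Submodule.projection_apply_eq_zero_iff _).2 ha, zero_add]
    simp only [g, LinearMap.sub_apply, LinearMap.id_apply, LinearMap.comp_apply, e1, e2]
    abel
  have hB : ∀ u v, B (g u) (g v) = B u v := fun u v => by
    obtain ⟨z, hz, y, hy, rfl⟩ := h'.exists_add u
    obtain ⟨z', hz', y', hy', rfl⟩ := h'.exists_add v
    obtain ⟨a, ha, e1, e2⟩ := hg z hz y hy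
    obtain ⟨a', ha', e1', e2'⟩ := hg z' hz' y' hy'
    have k1 := h.p' _ e1 _ hy'
    have k2 := h.p' _ hy _ e1'
    rw [e2, e2']
    simp only [map_add, map_sub, LinearMap.add_apply, LinearMap.sub_apply, h.p a ha a' ha',
      h'.p z hz z' hz'] at k1 k2 ⊢
    linear_combination -k1 - k2
  obtain ⟨e, he⟩ := h.witt.exists_equiv g hB
  refine ⟨e, mem_isom.2 ⟨fun u v => by rw [he, he, hB], fun u => ?_⟩, ?_, fun y hy => ?_⟩
  · obtain ⟨z, hz, y, hy, rfl⟩ := h'.exists_add u
    obtain ⟨a, ha, e1, e2⟩ := hg z hz y hy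
    have k1 := h.p' _ e1 _ hy
    rw [map_sub, LinearMap.sub_apply, sub_eq_zero] at k1
    rw [he, e2]
    exact h.witt.add _ _ _ _ ((h.q a ha).trans (h'.q z hz).symm) rfl k1.symm
  · refine Submodule.eq_of_le_of_finrank_eq ?_ (by rw [finrank_map_equiv, h.finrank_eq h'])
    rintro _ ⟨z, hz, rfl⟩
    obtain ⟨a, ha, -, e2⟩ := hg z hz 0 X'.zero_mem
    rw [add_zero, add_zero, ← he] at e2
    exact e2 ▸ ha
  · obtain ⟨a, ha, e1, e2⟩ := hg 0 Z.zero_mem y hy
    rw [h.eq_zero ha (by simpa using e1)] at e2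
    simpa [he] using e2

theorem TSP.exists_swap (h : TSP B Q X X') :
    ∃ g ∈ Isom B Q, X.map (g : V →ₗ[F] V) = X' ∧ X'.map (g : V →ₗ[F] V) = X := by
  obtain ⟨g, hg, e⟩ := h.witt.exists_isom_totally_singular h.q h.q'
    (fun y hy => mem_perp.2 fun x hx => h.p x hx y hy)
    (fun y hy => mem_perp.2 fun x hx => h.p' x hx y hy) (h.symm.finrank_eq h)
  have h1 := (h.map hg).symm
  rw [e] at h1
  obtain ⟨k, hk, e1, e2⟩ := h.exists_move h1
  refine ⟨k * g, Subgroup.mul_mem _ hk hg, ?_, by rw [map_mul_equiv, e1]⟩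
  rw [map_mul_equiv, e]
  exact mem_subStab.1 (mem_subStab_iff_le.2 fun y hy => by rwa [e2 y hy])

theorem tsp_of {ι : Type} {B : (ι → F) →ₛₗ[σ] (ι → F) →ₗ[F] F} {Q : (ι → F) → F}
    (h : IsWittPair σ B Q) {k : ℕ} {D : Fin 2 → Submodule F (ι → F)}
    (hD : Cfsg.Geo.IsMDecomposition k D) (hq : ∀ i, ∀ x ∈ D i, Q x = Q 0)
    (hp : ∀ i, ∀ x ∈ D i, ∀ y ∈ D i, B x y = 0) : TSP B Q (D 0) (D 1) := by
  refine ⟨h, hq 0, hq 1, hp 0, hp 1, hD.indep.pairwiseDisjoint (by decide), codisjoint_iff.2 ?_⟩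
  rw [eq_top_iff, ← hD.iSup_eq_top]
  exact iSup_le (Fin.forall_fin_two.2 ⟨le_sup_left, le_sup_right⟩)

end General

theorem sp_maxIn_tsp {B : LinearMap.BilinForm F V} (hB : B.Nondegenerate) (hA : B.IsAlt)
    (h2 : (2 : F) ≠ 0) {D : Fin 2 → Submodule F V} (h : TSP B (fun _ => (0 : F)) (D 0) (D 1))
    (h3 : 3 ≤ finrank F (D 0)) : MaxIn (SpG B) (decStab D) := by
  refine (polarG_sp hB hA).maxIn_tsp (fun u f w w' c _ _ e1 e2 _ => ⟨c / 2, ?_⟩) h h3
    (Or.inl fun a b e => ?_) h.exists_swap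
  · have k1 := hA.neg_eq u f
    have k2 := hA.neg_eq w w'
    simp only [map_smul, LinearMap.smul_apply, smul_eq_mul, ← k1, ← k2, e1, e2]
    field_simp; ring
  · have k1 := hA.neg_eq a b
    have := e 1
    rw [one_smul, ← k1] at this
    exact (mul_eq_zero.1 (by linear_combination this : (2 : F) * B a b = 0)).resolve_left h2

theorem su_maxIn_tsp {B : V →ₛₗ[σ] V →ₗ[F] F} [Finite F] (hH : IsHerm B) (hB : B.Nondegenerate)
    {D : Fin 2 → Submodule F V} (h : TSP B (fun x => B x x) (D 0) (D 1))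
    (h3 : 3 ≤ finrank F (D 0)) : MaxIn (SUG B) (decStab D) := by
  refine (polarG_su' hH hB (by have := h.two_mul; omega)).maxIn_tsp
    (fun u f w w' c qu qf e1 e2 e3 => ?_) h h3 (Or.inl fun a b e => ?_) ?_
  · obtain ⟨t, ht⟩ := exists_trace_ne_zero σ (Or.inl hH.ne_id)
    have e4 : σ c = -c := by
      simp only [map_zero, map_add, map_smulₛₗ, LinearMap.add_apply, LinearMap.smul_apply,
        smul_eq_mul, RingHom.id_apply] at qu qf e3
      rw [qu, qf, e1, hH.flip_one e1] at e3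
      linear_combination e3
    refine ⟨c * t / (t + σ t), ?_⟩
    simp only [map_smulₛₗ, LinearMap.smul_apply, smul_eq_mul, RingHom.id_apply, hH.flip_one e1,
      hH.flip_one e2, e2, map_div₀, map_mul, map_add, hH.invol, e4]
    rw [add_comm (σ t) t]
    field_simp; ring
  · obtain ⟨ν, hν⟩ : ∃ ν, σ ν ≠ ν := by
      by_contra hc
      push Not at hc
      exact hH.ne_id (RingHom.ext hc)
    have k1 := e 1
    have k2 := e ν
    simp only [one_smul, map_smulₛₗ, LinearMap.smul_apply, smul_eq_mul, RingHom.id_apply,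
      ← k1] at k1 k2
    exact (mul_eq_zero.1 (by linear_combination σ ν * k1 - k2 : (σ ν - ν) * B a b = 0)).resolve_left
      (sub_ne_zero.2 hν)
  · obtain ⟨g, hg, e1, e2⟩ := h.exists_swap
    obtain ⟨e, he, h0⟩ := exists_notMem_of_finrank_lt (X := D 0) (Z := ⊥)
      (by rw [finrank_bot]; omega)
    obtain ⟨f, hf, ef⟩ := h.dual₀ he (by simpa using h0)
    have ee := h.p e he e he
    have ff := h.p' f hf f hf
    obtain ⟨n, hn, _, ⟨l, rfl⟩, e3⟩ := Subgroup.mem_sup_of_normal_left.1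
      ((uEichSub_sup_uDil hH hB ee ff ef).symm ▸ Subgroup.mem_top (⟨g, hg⟩ : UG B))
    have e4 : g = n.1 * (uDil hH ee ff ef l).1 := (congrArg Subtype.val e3).symm
    have s0 : (D 0).map ((uDil hH ee ff ef l).1 : V →ₗ[F] V) = D 0 :=
      mem_subStab.1 (mem_subStab_iff_le.2 fun x hx => by
        rw [uDil_apply, h.p e he x hx]
        simpa using (D 0).add_mem hx ((D 0).smul_mem _ he))
    have s1 : (D 1).map ((uDil hH ee ff ef l).1 : V →ₗ[F] V) = D 1 :=
      mem_subStab.1 (mem_subStab_iff_le.2 fun x hx => by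
        rw [uDil_apply, h.p' f hf x hx]
        simpa using (D 1).add_mem hx ((D 1).smul_mem _ hf))
    rw [e4, map_mul_equiv] at e1 e2
    exact ⟨n.1, mem_SUG_iff.2 (uEichSub_le_suSub hH hn), s0 ▸ e1, s1 ▸ e2⟩

theorem tsp_quad {Q : QuadraticForm F V} (hQ : (polarBilin Q).Nondegenerate) {X X' : Submodule F V}
    (h1 : ∀ x ∈ X, Q x = 0) (h2 : ∀ x ∈ X', Q x = 0) (hc : IsCompl X X') :
    TSP (polarBilin Q) Q X X' :=
  ⟨isWittPair_quad Q hQ, by simpa using h1, by simpa using h2,
    fun _ hx _ hy => polar_eq_zero_of_totally_singular h1 hx hy,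
    fun _ hx _ hy => polar_eq_zero_of_totally_singular h2 hx hy, hc⟩

theorem omega_maxIn_tsp [Finite F] {Q : QuadraticForm F V} {D : Fin 2 → Submodule F V}
    (h : TSP (polarBilin Q) Q (D 0) (D 1)) (h5 : 5 ≤ finrank F (D 0))
    (he : Even (finrank F (D 0))) : MaxIn (OmG Q) (decStab D) := by
  have hQ := h.witt.nondegenerate
  have hd := h.two_mul
  refine (polarG_omega' hQ (by omega)).maxIn_tsp
    (fun u f w w' c qu qf e1 e2 e3 => ⟨0, ?_⟩) h (by omega) (Or.inr h5) ?_
  · rw [map_zero] at qu qf e3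
    rw [quad_add, quad_smul, qu, qf, polar_smul_right, polar_comm] at e3
    have : c = 0 := by
      rw [polarBilin_apply_apply] at e1
      simpa [e1] using e3
    simp [this]
  · obtain ⟨g, hg, e1, e2⟩ := h.exists_swap
    obtain ⟨e, he0, h0⟩ := exists_notMem_of_finrank_lt (X := D 0) (Z := ⊥)
      (by rw [finrank_bot]; omega)
    obtain ⟨f, hf, ef⟩ := h.dual₀ he0 (by simpa using h0)
    have qe : Q e = 0 := by simpa using h.q e he0
    have qf : Q f = 0 := by simpa using h.q' f hf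
    obtain ⟨vs, hvs, e3⟩ := mem_reflSub_iff.1
      ((reflSub_eq_top hQ (Or.inr (by omega))).symm ▸ Subgroup.mem_top (⟨g, hg⟩ : OG Q))
    have hX : MaxTS Q (D 0) := ⟨hd, by simpa using h.q⟩
    have hev : Even vs.length := by
      rw [hX.even_length_iff hQ vs hvs, e3]
      change Even (_ - finrank F ↥(D 0 ⊓ (D 0).map (g : V →ₗ[F] V)))
      rw [e1, h.c.inf_eq_bot, finrank_bot]
      exact he
    have ha := prod_map_ne_zero hvs
    set a := (vs.map Q).prod with hadef
    have hm := prod_oRefl_mem_commutator hQ (vs ++ [e - a • f, e - (1 : F) • f])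
      (by simp only [List.mem_append, List.mem_cons]
          rintro v (hv | rfl | rfl | hv)
          · exact hvs v hv
          · rw [quad_hyp_sub qe qf ef]; simpa using ha
          · rw [quad_hyp_sub qe qf ef]; simp
          · simp at hv)
      (by simpa [Nat.even_add] using hev)
      ⟨a, by simp only [List.map_append, List.prod_append, List.map_cons, List.prod_cons,
        quad_hyp_sub qe qf ef, ← hadef]; simp⟩
    rw [List.map_append, List.prod_append, e3] at hm
    have e4 : (([e - a • f, e - (1 : F) • f]).map (oRefl Q)).prod = oTor Q e f a := by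
      simp [oTor]
    rw [e4] at hm
    refine ⟨_, mem_OmG.2 hm, ?_, ?_⟩
    · rw [map_mul_coe, map_oTor qe qf ef ha (Or.inl he0) (Or.inr fun x hx => h.p e he0 x hx), e1]
    · rw [map_mul_coe, map_oTor qe qf ef ha (Or.inr fun x hx => h.p' f hf x hx) (Or.inl hf), e2]

end CF.Geom
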