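/-
Overgroups of subfield subgroups of the classical groups: finding a rational point.
-/
import Cfsg.Agent.Geom.C5A
import Cfsg.Agent.MaxSub.SL2Lem

set_option autoImplicit false
set_option linter.unusedSectionVars false

namespace CF.Geom

open Module

variable {F V : Type*} [Field F] [AddCommGroup V] [Module F V] {ι : Type} [Fintype ι]
  {σ : F →+* F} {ε : V ≃ₗ[F] (ι → F)} {F₀ : Subfield F}

theorem card_sq_le_ncard [Finite F] (K : Subfield F) {a b : F} (ha : a ≠ 0) (hb : b / a ∉ K)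
    {A : Set F} (h : ∀ i ∈ K, ∀ j ∈ K, i * a + j * b ∈ A) : Nat.card K ^ 2 ≤ A.ncard := by
  rw [pow_two, ← Nat.card_prod, ← Nat.card_coe_set_eq]
  refine Nat.card_le_card_of_injective (fun p => ⟨_, h p.1 p.1.2 p.2 p.2.2⟩) ?_
  rintro ⟨i, j⟩ ⟨i', j'⟩ e
  have e : (i : F) * a + j * b = i' * a + j' * b := congrArg Subtype.val e
  have hj : (j : F) = j' := by_contra fun hj => hb (by
    rw [show b / a = (i' - i) / (j - j') by
      rw [div_eq_div_iff ha (sub_ne_zero.2 hj)]; linear_combination e]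
    exact div_mem (sub_mem i'.2 i.2) (sub_mem j.2 j'.2))
  rw [hj] at e
  exact Prod.ext (Subtype.ext (mul_right_cancel₀ ha (add_right_cancel e))) (Subtype.ext hj)

/-- No element outside `F₀` is quadratic over `F₀`. -/
def NoQuad (F₀ : Subfield F) : Prop := ∀ τ, τ ∉ F₀ → ∀ a ∈ F₀, ∀ b ∈ F₀, τ ^ 2 ≠ a * τ + b

/-- The long root elements of an orthogonal group. -/
def HasSiegel (B : V →ₛₗ[σ] V →ₗ[F] F) (Q : V → F) : Prop :=
  ∀ z z', Q z = Q 0 → Q z' = Q 0 → B z z' = 0 →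
    ∃ s ∈ Isom B Q, ∀ x, s x = x + B z x • z' - B z' x • z

theorem not_mem_span_symm {u v : V} (h0 : v ≠ 0) (h : u ∉ F ∙ v) : v ∉ F ∙ u := fun e => by
  obtain ⟨c, rfl⟩ := Submodule.mem_span_singleton.1 e
  exact h ((Submodule.smul_mem_iff _ (left_ne_zero_of_smul h0)).1
    (Submodule.mem_span_singleton_self _))

namespace RCtx

variable [Finite F] {B : V →ₛₗ[σ] V →ₗ[F] F} {Q : V → F} {G M : Subgroup (V ≃ₗ[F] V)}
  (h : RCtx B Q G ε F₀ M)
include h

theorem conj_Rad {g k : V ≃ₗ[F] V} (hg : g ∈ M) {z : V} (hk : k ∈ Rad B Q z ⊤) :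
    g * k * g⁻¹ ∈ Rad B Q (g z) ⊤ := Rad_mono _ le_top (conj_mem_Rad (h.isom hg) hk)

theorem Q1 (hσ : ∀ a, σ a = a) {e u : V} (he : IsRat ε F₀ e) (q : Q e = Q 0) (h0 : e ≠ 0)
    (qu : Q u = Q 0) (hue : B u e = 0) {s : V ≃ₗ[F] V} (hM : s ∈ M) (hs : s ∈ Rad B Q u ⊤)
    (hse : s e ≠ e) : ∃ c : F, c ≠ 0 ∧ IsRat ε F₀ (c • u) := by
  have heu := h.witt.refl hue
  have e0 := h.witt.self_eq_zero q
  obtain ⟨b, hb⟩ := Submodule.mem_span_singleton.1 (hs.2.2.1 e hue)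
  have hb' : s e = e + b • u := by rw [hb]; abel
  have b0 : b ≠ 0 := by rintro rfl; exact hse (by simpa using hb')
  have hu : u ∉ F ∙ e := fun e1 => by
    obtain ⟨c, rfl⟩ := Submodule.mem_span_singleton.1 e1
    have := hs.2.1
    rw [map_smul] at this
    by_cases c0 : c = 0
    · exact hse (by simpa [c0] using hb')
    · exact hse (smul_right_injective V c0 this)
  obtain ⟨y, y1, y2, y3⟩ := h.exists_not_perp (S := {e}) (by simpa using he) hu
  have y4 : B y u ≠ 0 := fun e => y3 (h.witt.refl e)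
  by_cases hc : ∃ y', IsRat ε F₀ y' ∧ B e y' = 0 ∧ B y' u / B y u ∉ F₀
  · obtain ⟨y', z1, z2, z3⟩ := hc
    obtain ⟨k, k1, l, m, -, k2, -, k3⟩ := MaxSub.exists_slope_vec F₀ M ⊥ e u
      (fun k _ x hx => by simpa using hx) {a | ∃ k ∈ M, k e = e ∧ k u = u + a • e}
      (fun a ⟨k, k1, k2, k3⟩ => ⟨k, k1, by simp [k2], by simp [k3]⟩)
      (card_sq_le_ncard F₀ y4 z3 fun i hi j hj => by
        obtain ⟨k, k1, k2, k3⟩ := h.ratRad' he q h0 ((y1.smul hi).add (z1.smul hj))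
          (by simp [y2 e rfl, z2])
        exact ⟨k, k1, k2.2.1, by simp [k3 u heu, hσ]⟩) hM b0 (by simp [hb']) (by simp [hs.2.1])
    exact absurd (by simpa [hσ, pow_two] using (h.P2 he q h0 k1 (sub_eq_zero.1 k2)).1) k3
  push Not at hc
  obtain ⟨x, x1, x2⟩ := h.rat_mod (y := (B y u)⁻¹ • u) he fun x hx hex => by
    simpa [div_eq_inv_mul] using hc x hx hex
  obtain ⟨m, hm⟩ := Submodule.mem_span_singleton.1 x2
  have hu' : u = B y u • (x + m • e) := by rw [hm, add_sub_cancel, smul_inv_smul₀ y4]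
  obtain ⟨w, w1, -, w2, w3, w4⟩ := h.sing e x he x1
  obtain ⟨v, v1, v2, v3⟩ := h.exists_dual (S := {e, x}) (by simp [he, x1]) w1 w4
  obtain ⟨ρ, r1, r2, r3⟩ := h.ratRad' he q h0 w1 w2
  have r4 : ρ u = u := by
    rw [r3 u heu, hu']; simp [h.witt.refl w2, h.witt.refl w3]
  have v4 : B u v = 0 := by rw [hu']; simp [v2 e (by simp), v2 x (by simp)]
  obtain ⟨l, hl⟩ := Submodule.mem_span_singleton.1 (hs.2.2.1 v v4)
  have hl' : s v = v + l • u := by rw [hl]; abel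
  have r5 : ρ v = v + e := by rw [r3 v (v2 e (by simp)), v3, one_smul]
  have i1 : s⁻¹ v = v - l • u := s.injective (by
    rw [apply_inv_apply, map_sub, map_smul, hl', hs.2.1]; abel)
  have i2 : s⁻¹ e = e - b • u := s.injective (by
    rw [apply_inv_apply, map_sub, map_smul, hb', hs.2.1]; abel)
  have i3 : ρ⁻¹ v = v - e := ρ.injective (by rw [apply_inv_apply, map_sub, r5, r2.2.1]; abel)
  have i4 : ρ⁻¹ u = u := ρ.injective (by rw [apply_inv_apply, r4])
  have i5 : ρ⁻¹ e = e := (inv_mem r2).2.1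
  have c1 := h.ratM_of_fix he q h0 (mul_mem (mul_mem (mul_mem r1 hM) (inv_mem r1)) (inv_mem hM))
    (by simp only [LinearEquiv.mul_apply, i2, map_sub, map_smul, i4, i5, hb', hs.2.1, map_add, r4,
      r2.2.1]; abel) v v1
  refine ⟨-b, neg_ne_zero.2 b0, ?_⟩
  convert c1.sub v1 using 1
  simp only [LinearEquiv.mul_apply, i1, map_sub, map_smul, i3, i4, hb', hl', hs.2.1, map_add, r4,
    r5, r2.2.1]
  module

theorem Q2 (hσ : ∀ a, σ a = a) {g : V ≃ₗ[F] V} (hg : g ∈ M) {e z : V} (he : IsRat ε F₀ e)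
    (q : Q e = Q 0) (h0 : e ≠ 0) (hz : IsRat ε F₀ z) (qz : Q z = Q 0) (z0 : z ≠ 0)
    (hez : B e (g z) = 0) : g ∈ RG ε F₀ := by
  by_cases h1 : g⁻¹ e ∈ F ∙ z
  · obtain ⟨c, hc⟩ := Submodule.mem_span_singleton.1 h1
    have : c • g z = e := by rw [← map_smul, hc, apply_inv_apply]
    exact h.mem_RG_of_point hg hz qz z0 (c := c) (by rintro rfl; exact h0 (by simp [← this]))
      (this ▸ he)
  obtain ⟨w, w1, w2, w3⟩ := h.exists_not_perp (S := {z}) (by simpa using hz) h1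
  obtain ⟨k, k1, k2, k3⟩ := h.ratRad' hz qz z0 w1 (w2 z rfl)
  obtain ⟨c, c0, hc⟩ := h.Q1 hσ he q h0 ((h.mapQ hg z).trans qz) (h.witt.refl hez)
    (mul_mem (mul_mem hg k1) (inv_mem hg)) (h.conj_Rad hg k2) fun e1 => by
      rw [LinearEquiv.mul_apply, LinearEquiv.mul_apply, k3 _ (by
        rw [← h.mapB hg, apply_inv_apply]; exact h.witt.refl hez), map_add, apply_inv_apply,
        add_eq_left, g.map_eq_zero_iff, smul_eq_zero] at e1
      exact e1.elim (fun e => w3 (h.witt.refl e)) z0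
  exact h.mem_RG_of_point hg hz qz z0 c0 hc

theorem le_of_siegel (hσ : ∀ a, σ a = a) (hS : HasSiegel B Q) : M ≤ RG ε F₀ := fun g hg => by
  obtain ⟨z, z1, z2, z0⟩ := h.exists_sing
  obtain ⟨y, y1, y2, y3, y4⟩ := h.sing₁ z1
  have y5 := h.witt.refl y3
  have zz := h.witt.self_eq_zero z2
  have yy := h.witt.self_eq_zero y2
  obtain ⟨e, e1, e2, e3⟩ := h.exists_sing_not_perp (v := g z) (by simpa using z0)
  have e0 : e ≠ 0 := by rintro rfl; simp at e3
  obtain ⟨s, s1, s2⟩ := hS z y z2 y2 y3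
  have s3 : ∀ a b : F, b ≠ 0 → s ∈ Rad B Q (a • z + b • y) ⊤ := fun a b b0 =>
    ⟨s1, by simp [s2, zz, yy, y3, y5], fun x hx => Submodule.mem_span_singleton.2
      ⟨B z x / b, by
        simp only [map_add, map_smulₛₗ, LinearMap.add_apply, LinearMap.smul_apply, hσ,
          smul_eq_mul] at hx
        rw [s2, show B y x = -(a * B z x) / b by field_simp; linear_combination hx]
        match_scalars <;> field_simp <;> ring⟩, fun _ => trivial⟩
  have s4 : s ∈ M := h.mem_of_Rad y2 (by rintro rfl; exact y4 (zero_mem _))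
    (by simpa using s3 0 1 one_ne_zero) fun v hv => by
      rw [s2]; exact (hv.add (y1.smul (h.ratB _ _ z1 hv))).sub (z1.smul (h.ratB _ _ y1 hv))
  have q1 : Q ((-B e (g y)) • z + B e (g z) • y) = Q 0 := by
    rw [h.witt.norm_add_singular (h.witt.norm_smul_singular y2 _) (by simp [y3])]
    exact h.witt.norm_smul_singular z2 _
  obtain ⟨c, c0, hc⟩ := h.Q1 hσ e1 e2 e0 ((h.mapQ hg _).trans q1)
    (h.witt.refl (by simp; ring)) (mul_mem (mul_mem hg s4) (inv_mem hg))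
    (h.conj_Rad hg (s3 _ _ e3)) fun e4 => by
      rw [LinearEquiv.mul_apply, LinearEquiv.mul_apply, ← apply_inv_apply g e, inv_apply_apply,
        g.injective.eq_iff, s2, add_sub_assoc, add_eq_left, sub_eq_zero] at e4
      have e5 : B z (g⁻¹ e) ≠ 0 := fun e => e3 (h.witt.refl (by
        rwa [← h.mapB hg, apply_inv_apply] at e))
      exact y4 ((Submodule.smul_mem_iff _ e5).1 (e4 ▸ Submodule.smul_mem _ _
        (Submodule.mem_span_singleton_self z)))
  obtain ⟨w, w1, w2, w3, w4, w5⟩ := h.sing z y z1 y1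
  refine h.Q2 hσ hg hc (h.witt.norm_smul_singular ((h.mapQ hg _).trans q1) c) ?_ w1 w2
    (by rintro rfl; exact w5 (zero_mem _)) (by simp [h.mapB hg, w3, w4])
  refine smul_ne_zero c0 (g.map_ne_zero_iff.2 fun e4 => y4 ((Submodule.smul_mem_iff _ e3).1 ?_))
  rw [eq_neg_of_add_eq_zero_right e4]
  exact neg_mem (Submodule.smul_mem _ _ (Submodule.mem_span_singleton_self z))

theorem le_of_two {θ : F} (hθ : ∀ a : F, ∃ x ∈ F₀, ∃ y ∈ F₀, a = x + θ * y) : M ≤ RG ε F₀ :=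
  fun g hg => by
  have := h.fd
  obtain ⟨e, e1, e2, e0⟩ := h.exists_sing
  obtain ⟨x, y, x1, y1, e3⟩ := exists_rat_two ε hθ (g⁻¹ e)
  obtain ⟨z, z1, z2, z3, z4, z5⟩ := h.sing x y x1 y1
  have z0 : z ≠ 0 := by rintro rfl; exact z5 (zero_mem _)
  obtain ⟨x', y', x2, y2, e4⟩ := exists_rat_two ε hθ (g z)
  obtain ⟨w, w1, w2⟩ := exists_notMem_of_finrank_lt (X := perp B (Submodule.span F {x, y, z}))
    (Z := (Submodule.span F {x', y'}).map (g⁻¹ : V ≃ₗ[F] V).toLinearMap) (by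
      have h1 := h.witt.finrank_perp (Submodule.span F {x, y, z})
      have h2 : finrank F (Submodule.span F ({x, y, z} : Set V)) ≤ 3 := by
        classical
        have := (finrank_span_finset_le_card (R := F) {x, y, z}).trans Finset.card_le_three
        rwa [Finset.coe_insert, Finset.coe_insert, Finset.coe_singleton] at this
      have h3 := IsWittPair.finrank_span_pair_le (F := F) x' y'
      have h4 := h.six
      rw [LinearEquiv.finrank_map_eq]; omega)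
  obtain ⟨w, w1, w3, w2⟩ := exists_rat_notMem h.ratB (S := {x, y, z}) (by simp [x1, y1, z1])
    (mem_perp_span.1 w1) w2
  obtain ⟨v, v1, v2, v3⟩ := h.exists_not_perp (S := {x', y'}) (by simp [x2, y2]) (y := g w)
    fun e => w2 ⟨_, e, inv_apply_apply g w⟩
  obtain ⟨k, k1, k2, k3⟩ := h.ratRad' z1 z2 z0 w1 (w3 z (by simp))
  have := (h.ratM_of_fix e1 e2 e0 (mul_mem (mul_mem hg k1) (inv_mem hg)) (by
    rw [LinearEquiv.mul_apply, LinearEquiv.mul_apply, k3 _ (by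
      simp [e3, h.witt.refl z3, h.witt.refl z4]), e3, map_add (B w)]
    simp [h.witt.refl (w3 x (by simp)), h.witt.refl (w3 y (by simp)), ← e3, apply_inv_apply])
    v v1).sub v1
  rw [LinearEquiv.mul_apply, LinearEquiv.mul_apply, k3 _ (by
    rw [← h.mapB hg, apply_inv_apply, e4]; simp [v2 x' (by simp), v2 y' (by simp)]), map_add,
    apply_inv_apply, add_sub_cancel_left, map_smul, ← h.mapB hg, apply_inv_apply] at this
  exact h.mem_RG_of_point hg z1 z2 z0 v3 this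

theorem Q3 {u : V} (u0 : u ≠ 0) (hu : ∀ c : F, c ≠ 0 → ¬ IsRat ε F₀ (c • u)) :
    ∃ e e', IsRat ε F₀ e ∧ IsRat ε F₀ e' ∧ Q e = Q 0 ∧ Q e' = Q 0 ∧ B e e' = 0 ∧ B e u ≠ 0 ∧
      B e' u / B e u ∉ F₀ := by
  by_contra! hc
  have key : ∀ e, IsRat ε F₀ e → Q e = Q 0 → B e u ≠ 0 → ∀ x, IsRat ε F₀ x → B e x = 0 →
      B x u / B e u ∈ F₀ := fun e e1 e2 e3 x hx hex => by
    obtain ⟨z, z1, z2, z3, z4⟩ := h.sing₁ e1
    exact h.span_sing e1 z1 z2 z3 z4 (P := fun a => B a u / B e u ∈ F₀)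
      (fun a b ha hb => by simpa [add_div] using add_mem ha hb)
      (fun c hc a ha => by simpa [mul_div_assoc] using mul_mem (h.sig _ hc) ha)
      (hc e z e1 z1 e2 z2 z3 e3) (fun s s1 s2 s3 _ => hc e s e1 s1 e2 s2 s3 e3) hx hex
  obtain ⟨e, e1, e2, e3⟩ := h.exists_sing_not_perp u0
  obtain ⟨z, z1, z2, z3, z4⟩ := h.sing₁ e1
  have c1 := add_mem (one_mem F₀) (neg_mem (h.sig _ (hc e z e1 z1 e2 z2 z3 e3)))
  have f1 := z1.add (e1.smul c1)
  have f2 : Q (z + (1 + -σ (B z u / B e u)) • e) = Q 0 := by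
    rw [h.witt.norm_add_singular (h.witt.norm_smul_singular e2 _) (by simp [h.witt.refl z3]), z2]
  have f3 : B (z + (1 + -σ (B z u / B e u)) • e) u = B e u := by
    simp only [map_add, map_smulₛₗ, LinearMap.add_apply, LinearMap.smul_apply, map_one, map_neg,
      h.invol, smul_eq_mul]
    field_simp; ring
  have f4 : z + (1 + -σ (B z u / B e u)) • e ∉ F ∙ e := fun e4 => z4 (by
    simpa using sub_mem e4 (Submodule.smul_mem _ (1 + -σ (B z u / B e u))
      (Submodule.mem_span_singleton_self e)))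
  generalize z + (1 + -σ (B z u / B e u)) • e = e' at f1 f2 f3 f4
  obtain ⟨d, d1, d2, d3⟩ := h.exists_dual (S := {e}) (by simpa using e1) f1 f4
  refine hu _ (inv_ne_zero e3) (h.rat_of fun x hx => ?_)
  have c2 := h.ratB _ _ f1 hx
  have g1 := key e' f1 f2 (f3 ▸ e3) _ (hx.sub (d1.smul c2)) (by simp [d3])
  have g2 := key e e1 e2 e3 _ (d1.smul c2) (by simp [d2 e rfl])
  rw [f3] at g1
  convert add_mem g1 g2 using 1
  simp; field_simp; ring

theorem trans_mem {s : F} (hs : s ∈ F₀) (ht : TransC B Q s) {v : V} (hv : IsRat ε F₀ v)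
    (q : Q v = Q 0) (h0 : v ≠ 0) : ∃ t ∈ M, ∀ x, t x = x + (s * B v x) • v := by
  obtain ⟨t, t1, t2⟩ := ht v q
  exact ⟨t, h.mem_of_Rad q h0 (Rad_mono _ le_top (h.witt.mem_Rad_of_trans q t1 t2)) fun x hx =>
    t2 x ▸ hx.add (hv.smul (mul_mem hs (h.ratB _ _ hv hx))), t2⟩

theorem le_of_trans (hq : NoQuad F₀) {F₁ : Subfield F} (h1 : F₁ ≤ F₀) {c : F} (hc : c ∈ F₀)
    (c0 : c ≠ 0) (ht : ∀ i ∈ F₁, TransC B Q (c * i)) : M ≤ RG ε F₀ := fun g hg => by
  obtain ⟨z, z1, z2, z0⟩ := h.exists_sing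
  by_contra hn
  obtain ⟨e, e', e1, e2, q1, q2, e3, e4, e5⟩ := h.Q3 (u := g z) (by simpa using z0)
    fun c c0 hc => hn (h.mem_RG_of_point hg z1 z2 z0 c0 hc)
  have ht1 : TransC B Q c := by simpa using ht 1 (one_mem _)
  obtain ⟨t, t1, t2⟩ := h.trans_mem hc ht1 z1 z2 z0
  have s1 := mul_mem (mul_mem hg t1) (inv_mem hg)
  have s2 : ∀ x, (g * t * g⁻¹) x = x + (c * B (g z) x) • g z := fun x => by
    rw [LinearEquiv.mul_apply, LinearEquiv.mul_apply, t2, map_add, map_smul, ← h.mapB hg,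
      apply_inv_apply]
  have qu := h.witt.self_eq_zero ((h.mapQ hg z).trans z2)
  generalize g * t * g⁻¹ = s at s1 s2
  generalize g z = u at e4 e5 s2 qu
  have e0 : e ≠ 0 := by rintro rfl; simp at e4
  have ee := h.witt.self_eq_zero q1
  have ee' := h.witt.self_eq_zero q2
  have e6 := h.witt.refl e3
  set τ := σ (B e' u / B e u) with hτ
  have τ1 : τ ∉ F₀ := fun e => e5 (by simpa [hτ, h.invol] using h.sig _ e)
  have τ2 : σ τ * B e u = B e' u := by rw [hτ, h.invol]; field_simp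
  clear_value τ
  have n1 : e' ∉ F ∙ e := fun e7 => by
    obtain ⟨a, rfl⟩ := Submodule.mem_span_singleton.1 e7
    exact e5 (by simpa [e4] using h.sig _ (e1.mem_of_smul e0 e2))
  have n2 := not_mem_span_symm e0 n1
  obtain ⟨α, α1, hα⟩ : ∃ α ∈ F₀, (α + τ) * σ (α + τ) ∉ F₀ := by
    by_contra! hc
    have a0 := hc 0 (zero_mem _)
    have a1 := sub_mem (sub_mem (hc 1 (one_mem _)) a0) (one_mem _)
    exact hq τ τ1 _ a1 _ (neg_mem a0) (by simp; ring)
  have x1 := (e1.smul α1).add e2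
  have x2 : Q (α • e + e') = Q 0 := by
    rw [h.witt.norm_add_singular q2 (by simp [e3])]; exact h.witt.norm_smul_singular q1 _
  have x0 : α • e + e' ≠ 0 := fun e7 => n1 (by
    rw [eq_neg_of_add_eq_zero_right e7]
    exact neg_mem (Submodule.smul_mem _ _ (Submodule.mem_span_singleton_self e)))
  have r1 : B u (e' - τ • e) = 0 := h.witt.refl (by simp [τ2])
  obtain ⟨k, ⟨k1, k2⟩, l, m, -, k3, -, k4⟩ := MaxSub.exists_slope_vec F₁
    (M ⊓ MulAction.stabilizer _ (e' - τ • e)) (F ∙ (e' - τ • e)) e u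
    (fun k hk x hx => by
      obtain ⟨a, rfl⟩ := Submodule.mem_span_singleton.1 hx
      rw [map_smul, show k (e' - τ • e) = e' - τ • e from hk.2]; exact hx)
    {a | ∃ k ∈ M ⊓ MulAction.stabilizer _ (e' - τ • e), k e - e ∈ F ∙ (e' - τ • e) ∧
      k u - (u + a • e) ∈ F ∙ (e' - τ • e)} (fun a ha => ha)
    (card_sq_le_ncard F₁ (a := c * B e u) (b := c * B e u * ((α + τ) * σ (α + τ)))
      (mul_ne_zero c0 e4) (fun e => hα (h1 (by simpa [c0, e4] using e))) fun i hi j hj => by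
      obtain ⟨a, a1, a2⟩ := h.trans_mem (mul_mem hc (h1 hi)) (ht i hi) e1 q1 e0
      obtain ⟨b, b1, b2⟩ := h.trans_mem (mul_mem hc (h1 hj)) (ht j hj) x1 x2 x0
      refine ⟨a * b, ⟨mul_mem a1 b1, show (a * b) (e' - τ • e) = _ by
        simp [a2, b2, ee, ee', e3, e6]⟩, by simp [a2, b2, ee, e6],
        Submodule.mem_span_singleton.2 ⟨c * j * B (α • e + e') u, ?_⟩⟩
      simp only [LinearEquiv.mul_apply, a2, b2, map_add, map_smulₛₗ, LinearMap.add_apply,
        LinearMap.smul_apply, smul_eq_mul, ee, e3, ← τ2, RingHom.id_apply]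
      module)
    (s := s) ⟨s1, show s (e' - τ • e) = _ by rw [s2, r1]; simp⟩ (b := c * B u e)
    (mul_ne_zero c0 fun e => e4 (h.witt.refl e)) (by simp [s2]) (by simp [s2, qu])
  replace k2 : k (e' - τ • e) = e' - τ • e := k2
  obtain ⟨m, hm⟩ := Submodule.mem_span_singleton.1 k3
  have k5 : k e = l • e + m • (e' - τ • e) := by rw [hm]; abel
  obtain ⟨a, a1, a2⟩ := h.trans_mem hc ht1 e1 q1 e0
  have a3 : ∀ x, (k * a * k⁻¹) x = x + (c * B (k e) x) • k e := fun x => by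
    rw [LinearEquiv.mul_apply, LinearEquiv.mul_apply, a2, map_add, map_smul, ← h.mapB k1,
      apply_inv_apply]
  obtain ⟨v, v1, -, v2⟩ := h.exists_sing_not_perp (v := k e) (by simpa using e0)
  have a4 := (h.ratM_of_fix e1 q1 e0 (mul_mem (mul_mem k1 a1) (inv_mem k1))
    (by rw [a3, k5]; simp [ee, e6]) v v1).sub v1
  rw [a3, add_sub_cancel_left] at a4
  obtain ⟨κ, κ0, hκ⟩ := h.mem_RG_of_point k1 e1 q1 e0
    (mul_ne_zero c0 fun e => v2 (h.witt.refl e)) a4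
  have b1 := (hκ e).1 e1
  have b2 := (hκ e').1 e2
  rw [show κ • k e = (κ * (l - m * τ)) • e + (κ * m) • e' by rw [k5]; module] at b1
  rw [show κ • k e' = (κ * τ * (l - 1 - τ * m)) • e + (κ * (1 + τ * m)) • e' by
    rw [← sub_add_cancel e' (τ • e), map_add, k2, map_smul, k5]; module] at b2
  have p1 := h.coeff e1 e2 n2 b1
  have p2 := h.coeff e2 e1 n1 (by rwa [add_comm] at b1)
  have p3 := h.coeff e1 e2 n2 b2
  have p4 := h.coeff e2 e1 n1 (by rwa [add_comm] at b2)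
  have m0 : m = 0 := by_contra fun m0 => hq τ τ1 _ (div_mem (sub_mem p4 p1) p2) _ (div_mem p3 p2)
    (by field_simp; ring)
  have l1 : l = 1 := by_contra fun l1 => τ1 (by
    have := div_mem p3 (sub_mem p1 p4)
    have l2 := sub_ne_zero.2 l1
    rwa [m0, show κ * τ * (l - 1 - τ * 0) / (κ * (l - 0 * τ) - κ * (1 + τ * 0)) = τ by
      rw [div_eq_iff (by simpa [← mul_sub_one, κ0] using l2)]; ring] at this)
  exact k4 (by simp [l1])

end RCtx

theorem RForm.maxIn [Finite F] {B : V →ₛₗ[σ] V →ₗ[F] F} {Q : V → F} {G : Subgroup (V ≃ₗ[F] V)}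
    (h : RForm B Q G ε F₀) (TT : ∀ M : Subgroup (V ≃ₗ[F] V), G ⊓ RG ε F₀ ≤ M → M ≤ G →
      ∀ e, IsRat ε F₀ e → Q e = Q 0 → e ≠ 0 → (∀ w, B e w = 0 → RD B Q M e w) → Rad B Q e ⊤ ≤ M)
    (hc : (∃ θ : F, ∀ a : F, ∃ x ∈ F₀, ∃ y ∈ F₀, a = x + θ * y) ∨
      ((∀ a, σ a = a) ∧ HasSiegel B Q) ∨ (NoQuad F₀ ∧ ∃ F₁ ≤ F₀, ∃ c ∈ F₀, c ≠ 0 ∧
        ∀ i ∈ F₁, TransC B Q (c * i))) : MaxIn G (RG ε F₀) := by
  refine ⟨h.not_le, fun M h1 h2 m hm hm' => by_contra fun hn => hm' ?_⟩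
  have h' : RCtx B Q G ε F₀ M := ⟨h, h1, h2, hn, TT M h1 h2⟩
  rcases hc with ⟨θ, hθ⟩ | ⟨h3, h4⟩ | ⟨h3, F₁, h4, c, h5, h6, h7⟩
  exacts [h'.le_of_two hθ hm, h'.le_of_siegel h3 h4 hm, h'.le_of_trans h3 h4 h5 h6 h7 hm]

end CF.Geom
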