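/-
Subfield subgroups of the classical groups are maximal.
-/
import Cfsg.Agent.Geom.C5B
import Cfsg.Agent.Geom.MaxC1T
import Cfsg.Agent.Classical.Subfields
import Cfsg.Agent.MaxSub.ProperL

set_option autoImplicit false
set_option linter.unusedSectionVars false

namespace CF.Geom

open Module QuadraticMap

variable {F V : Type*} [Field F] [AddCommGroup V] [Module F V] {ι : Type} [Fintype ι]
  {σ : F →+* F} {ε : V ≃ₗ[F] (ι → F)} {F₀ : Subfield F}

section Fld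

theorem exists_theta [Finite F] (h : Nat.card F₀ ^ 2 = Nat.card F) :
    ∃ θ : F, ∀ a : F, ∃ x ∈ F₀, ∃ y ∈ F₀, a = x + θ * y := by
  obtain ⟨θ, hθ⟩ : ∃ θ, θ ∉ F₀ := by
    by_contra! hc
    have := Fintype.ofFinite F
    exact MaxSub.ne_top_of_card_eq_pow le_rfl (by rw [h, Nat.card_eq_fintype_card])
      (eq_top_iff.2 fun c _ => hc c)
  refine ⟨θ, fun a => ?_⟩
  have := card_sq_le_ncard F₀ (a := 1) (b := θ) one_ne_zero (by simpa using hθ)
    (A := {a | ∃ x ∈ F₀, ∃ y ∈ F₀, a = x + θ * y}) fun i hi j hj => ⟨i, hi, j, hj, by ring⟩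
  rw [h, ← Set.ncard_univ] at this
  exact (Set.eq_of_subset_of_ncard_le (Set.subset_univ _) this).ge trivial

theorem noQuad [Finite F] {r : ℕ} (hr : r.Prime) (h2 : r ≠ 2) (h : Nat.card F₀ ^ r = Nat.card F) :
    NoQuad F₀ := fun τ hτ a ha b hb e => by
  let R : Subring F :=
    { carrier := {β | ∃ x ∈ F₀, ∃ y ∈ F₀, β = x + τ * y}
      mul_mem' := by
        rintro _ _ ⟨x, hx, y, hy, rfl⟩ ⟨z, hz, w, hw, rfl⟩
        exact ⟨_, add_mem (mul_mem hx hz) (mul_mem hb (mul_mem hy hw)), _,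
          add_mem (add_mem (mul_mem hx hw) (mul_mem hy hz)) (mul_mem ha (mul_mem hy hw)),
          by linear_combination y * w * e⟩
      one_mem' := ⟨1, one_mem _, 0, zero_mem _, by simp⟩
      add_mem' := by
        rintro _ _ ⟨x, hx, y, hy, rfl⟩ ⟨z, hz, w, hw, rfl⟩
        exact ⟨_, add_mem hx hz, _, add_mem hy hw, by ring⟩
      zero_mem' := ⟨0, zero_mem _, 0, zero_mem _, by simp⟩
      neg_mem' := by
        rintro _ ⟨x, hx, y, hy, rfl⟩
        exact ⟨_, neg_mem hx, _, neg_mem hy, by ring⟩ }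
  let K : Subfield F := ⟨R, fun a ha => by
    by_cases h0 : a = 0
    · rw [h0, inv_zero]; exact R.zero_mem
    · exact MaxSub.inv_mem_of_finite R ha (mul_inv_cancel₀ h0) (inv_mul_cancel₀ h0)⟩
  rcases Classical.subfield_eq_or_eq_top hr h (K' := K)
    (fun x hx => ⟨x, hx, 0, zero_mem _, by simp⟩) with e1 | e1
  · exact hτ (e1.le (show τ ∈ K from ⟨0, zero_mem _, 1, one_mem _, by simp⟩))
  · have h3 := Nat.card_le_card_of_surjective (fun p : F₀ × F₀ => (p.1 : F) + τ * p.2) fun c => by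
      obtain ⟨x, hx, y, hy, rfl⟩ : c ∈ K := e1.ge trivial
      exact ⟨(⟨x, hx⟩, ⟨y, hy⟩), rfl⟩
    rw [Nat.card_prod, ← pow_two, ← h, Nat.pow_le_pow_iff_right Finite.one_lt_card] at h3
    have := hr.two_le
    omega

theorem exists_ternary [Finite F] (K : Subfield F) {a b c d e f : F} (ha : a ∈ K) (hb : b ∈ K)
    (hc : c ∈ K) (hd : d ∈ K) (he : e ∈ K) (hf : f ∈ K) : ∃ x ∈ K, ∃ y ∈ K, ∃ z ∈ K,
      ¬ (x = 0 ∧ y = 0 ∧ z = 0) ∧
        a * x ^ 2 + b * y ^ 2 + c * z ^ 2 + d * (x * y) + e * (x * z) + f * (y * z) = 0 := by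
  obtain ⟨v, h1, h2⟩ := exists_singular_of_three_le (F := K) (V := Fin 3 → K)
    ((⟨a, ha⟩ : K) • proj 0 0 + (⟨b, hb⟩ : K) • proj 1 1 + (⟨c, hc⟩ : K) • proj 2 2 +
      (⟨d, hd⟩ : K) • proj 0 1 + (⟨e, he⟩ : K) • proj 0 2 + (⟨f, hf⟩ : K) • proj 1 2) (by simp)
  refine ⟨_, (v 0).2, _, (v 1).2, _, (v 2).2, fun ⟨e0, e1, e2⟩ => h1 (funext fun i => ?_), ?_⟩
  · fin_cases i <;> exact Subtype.ext (by assumption)
  · simpa [pow_two] using congrArg Subtype.val h2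

end Fld

section Sing

variable [Finite F] {B : V →ₛₗ[σ] V →ₗ[F] F} {Q : V → F}

theorem exists_rat_perp (h : IsWittPair σ B Q)
    (hB : ∀ x y, IsRat ε F₀ x → IsRat ε F₀ y → B x y ∈ F₀) {a b : V} (ha : IsRat ε F₀ a)
    (hb : IsRat ε F₀ b) {Z : Submodule F V} (hZ : finrank F Z + 3 ≤ finrank F V) :
    ∃ c, IsRat ε F₀ c ∧ B a c = 0 ∧ B b c = 0 ∧ c ∉ Z := by
  have : FiniteDimensional F V := ε.symm.finiteDimensional
  obtain ⟨w, w1, w2⟩ := exists_notMem_of_finrank_lt (X := perp B (Submodule.span F {a, b}))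
    (Z := Z) (by
      have h1 := h.finrank_perp (Submodule.span F {a, b})
      have h3 := IsWittPair.finrank_span_pair_le (F := F) a b
      omega)
  obtain ⟨w, w1, w3, w2⟩ := exists_rat_notMem hB (S := {a, b}) (by simp [ha, hb])
    (mem_perp_span.1 w1) w2
  exact ⟨w, w1, w3 a (by simp), w3 b (by simp), w2⟩

theorem finrank_sup_span_le [FiniteDimensional F V] (Z : Submodule F V) (u : V) :
    finrank F ↥(Z ⊔ F ∙ u) ≤ finrank F Z + 1 :=
  (Submodule.finrank_add_le_finrank_add_finrank _ _).trans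
    (Nat.add_le_add_left (finrank_span_singleton_le u) _)

theorem sing_of_one (h : IsWittPair σ B Q)
    (hB : ∀ x y, IsRat ε F₀ x → IsRat ε F₀ y → B x y ∈ F₀) (h5 : 5 ≤ finrank F V)
    (hQ : ∀ u, IsRat ε F₀ u → Q u = Q 0) (a b : V) (ha : IsRat ε F₀ a) (hb : IsRat ε F₀ b) :
    ∃ c, IsRat ε F₀ c ∧ Q c = Q 0 ∧ B a c = 0 ∧ B b c = 0 ∧ c ∉ Submodule.span F {a, b} :=
  let ⟨c, h1, h2⟩ := exists_rat_perp h hB ha hb (Z := Submodule.span F {a, b}) (by
    have := IsWittPair.finrank_span_pair_le (F := F) a b; omega)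
  ⟨c, h1, hQ c h1, h2⟩

theorem sing_of_three (h : IsWittPair σ B Q)
    (hB : ∀ x y, IsRat ε F₀ x → IsRat ε F₀ y → B x y ∈ F₀) (h7 : 7 ≤ finrank F V)
    (hQ : ∀ u v w, IsRat ε F₀ u → IsRat ε F₀ v → IsRat ε F₀ w → ∃ x ∈ F₀, ∃ y ∈ F₀, ∃ z ∈ F₀,
      ¬ (x = 0 ∧ y = 0 ∧ z = 0) ∧ Q (x • u + y • v + z • w) = Q 0)
    (a b : V) (ha : IsRat ε F₀ a) (hb : IsRat ε F₀ b) :
    ∃ c, IsRat ε F₀ c ∧ Q c = Q 0 ∧ B a c = 0 ∧ B b c = 0 ∧ c ∉ Submodule.span F {a, b} := by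
  have : FiniteDimensional F V := ε.symm.finiteDimensional
  have h0 := IsWittPair.finrank_span_pair_le (F := F) a b
  generalize Submodule.span F {a, b} = Z at h0 ⊢
  obtain ⟨u, u1, u2, u3, u4⟩ := exists_rat_perp h hB ha hb (Z := Z) (by omega)
  have h1 := finrank_sup_span_le Z u
  obtain ⟨v, v1, v2, v3, v4⟩ := exists_rat_perp h hB ha hb (Z := Z ⊔ F ∙ u) (by omega)
  have h2 := finrank_sup_span_le (Z ⊔ F ∙ u) v
  obtain ⟨w, w1, w2, w3, w4⟩ := exists_rat_perp h hB ha hb (Z := (Z ⊔ F ∙ u) ⊔ F ∙ v) (by omega)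
  obtain ⟨x, hx, y, hy, z, hz, h3, h4⟩ := hQ u v w u1 v1 w1
  refine ⟨_, ((u1.smul hx).add (v1.smul hy)).add (w1.smul hz), h4, by simp [u2, v2, w2],
    by simp [u3, v3, w3], fun e => h3 ?_⟩
  have key : ∀ {Z : Submodule F V} {u t : V} {x : F}, u ∉ Z → t ∈ Z → t + x • u ∈ Z → x = 0 :=
    fun {Z u t x} h1 h2 h3 => by_contra fun h0 =>
      h1 ((Z.smul_mem_iff h0).1 ((Z.add_mem_iff_right h2).1 h3))
  have m : ∀ (Z : Submodule F V) (u : V) (x : F), x • u ∈ Z ⊔ F ∙ u := fun Z u x =>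
    Submodule.mem_sup_right (Submodule.smul_mem _ _ (Submodule.mem_span_singleton_self u))
  have z0 := key w4 (add_mem (Submodule.mem_sup_left (m Z u x)) (m _ v y))
    (Submodule.mem_sup_left (Submodule.mem_sup_left e))
  rw [z0, zero_smul, add_zero] at e
  have y0 := key v4 (m Z u x) (Submodule.mem_sup_left e)
  rw [y0, zero_smul, add_zero] at e
  exact ⟨key u4 Z.zero_mem (by simpa using e), y0, z0⟩

theorem RForm.Rad_le_of_comT {G M : Subgroup (V ≃ₗ[F] V)} {ζ : F} (h : RForm (ζ • B) Q G ε F₀)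
    (hζ : ζ ≠ 0) (hW : IsWittPair σ B Q) (hT : ComT B Q) (e : V) (he : IsRat ε F₀ e)
    (q : Q e = Q 0) (h0 : e ≠ 0) (hR : ∀ w, (ζ • B) e w = 0 → RD (ζ • B) Q M e w) :
    Rad (ζ • B) Q e ⊤ ≤ M := by
  have := h.fd
  obtain ⟨z, z1, -, z3, z4⟩ := h.sing₁ he
  obtain ⟨w, -, w2, w3⟩ := h.exists_dual (S := {e}) (by simpa using he) z1 z4
  rw [Rad_smul_form hζ]
  exact hW.Rad_le_of_RD hT h0 q (fun x hx => (hR (ζ⁻¹ • x) (by simp [hx])).of_smul_form hζ)
    (w := z) (w' := ζ • w) (by simpa [hζ] using z3) (by simpa [hζ] using w2 e rfl)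
    (by simpa using w3)

end Sing

theorem comT_alt {B : LinearMap.BilinForm F V} (hA : B.IsAlt) (h2 : (2 : F) ≠ 0) :
    ComT B (fun _ => (0 : F)) := fun u f w w' c _ _ e1 e2 _ => ⟨c / 2, by
  have k1 := hA.neg_eq u f
  have k2 := hA.neg_eq w w'
  simp only [map_smul, LinearMap.smul_apply, smul_eq_mul, ← k1, ← k2, e1, e2]
  field_simp; ring⟩

theorem comT_herm [Finite F] {B : V →ₛₗ[σ] V →ₗ[F] F} (hH : IsHerm B) :
    ComT B (fun x => B x x) := fun u f w w' c qu qf e1 e2 e3 => by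
  obtain ⟨t, ht⟩ := exists_trace_ne_zero σ (Or.inl hH.ne_id)
  have e4 : σ c = -c := by
    simp only [map_zero, map_add, map_smulₛₗ, LinearMap.add_apply, LinearMap.smul_apply,
      smul_eq_mul, RingHom.id_apply] at qu qf e3
    rw [qu, qf, e1, hH.flip_one e1] at e3
    linear_combination e3
  refine ⟨c * t / (t + σ t), ?_⟩
  simp only [map_smulₛₗ, LinearMap.smul_apply, smul_eq_mul, RingHom.id_apply, hH.flip_one e1,
    hH.flip_one e2, e2, map_div₀, map_mul, map_add, hH.invol, e4]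
  rw [add_comm (σ t) t]
  field_simp; ring

theorem comT_quad (Q : QuadraticForm F V) : ComT (polarBilin Q) Q :=
  fun u f w w' c qu qf e1 _ e3 => ⟨0, by
    rw [map_zero] at qu qf e3
    rw [quad_add, quad_smul, qu, qf, polar_smul_right, polar_comm] at e3
    have : c = 0 := by
      rw [polarBilin_apply_apply] at e1
      simpa [e1] using e3
    simp [this]⟩

theorem IsWittPair.Rad_le_of_centre [FiniteDimensional F V] {B : V →ₛₗ[σ] V →ₗ[F] F} {Q : V → F}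
    (h : IsWittPair σ B Q) {M : Subgroup (V ≃ₗ[F] V)} {u : V} (hu0 : u ≠ 0) (hu : Q u = Q 0)
    (hR : ∀ w, B u w = 0 → RD B Q M u w)
    (hc : ∀ c : F, ∃ t ∈ M, t ∈ Rad B Q u ⊤ ∧ ∀ x, t x = x + (c * B u x) • u) :
    Rad B Q u ⊤ ≤ M := fun g hg => by
  obtain ⟨f, -, hf⟩ := h.exists_hyperbolic hu0 hu
  obtain ⟨g1, m1, r1, e1⟩ := (hR (g f - f) (Rad_disp_perp hg f)).neg
  obtain ⟨c, hc'⟩ := Submodule.mem_span_singleton.1 (e1 (g f) (by rw [RD.apply_eq hg, hf]))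
  obtain ⟨t, t1, t2, t3⟩ := hc c
  refine (M.mul_mem_cancel_left m1).1 (h.Rad_ext (Subgroup.mul_mem _ r1 hg) t2 (y := f)
    (by simp [hf]) ?_ ▸ t1)
  rw [t3, hf, mul_one, hc', LinearEquiv.mul_apply]; abel

section Sp

variable [Finite F] {B : LinearMap.BilinForm F V}

theorem RForm.Rad_le_alt (h : RForm B (fun _ => (0 : F)) (SpG B) ε F₀) (hA : B.IsAlt)
    (h2 : (2 : F) = 0) {M : Subgroup (V ≃ₗ[F] V)} (hM : SpG B ⊓ RG ε F₀ ≤ M) (e : V)
    (he : IsRat ε F₀ e) (h0 : e ≠ 0) (hR : ∀ w, B e w = 0 → RD B (fun _ => (0 : F)) M e w) :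
    Rad B (fun _ => (0 : F)) e ⊤ ≤ M := by
  have := h.fd
  refine h.witt.Rad_le_of_centre h0 rfl hR fun c => ?_
  obtain ⟨l, rfl⟩ : IsSquare c := FiniteField.isSquare_of_char_two
    (by have := CharTwo.of_one_ne_zero_of_two_eq_zero one_ne_zero h2; exact ringChar.eq F 2) c
  obtain ⟨f, -, hf⟩ := h.witt.exists_hyperbolic h0 rfl
  have hfe : B f e = -1 := by rw [← hA.neg_eq, hf]
  have key : ∀ y, IsRat ε F₀ y → B e y = 0 → y ∉ F ∙ e → ∀ l s : F, s ∈ F₀ →
      ∃ t ∈ M, ∀ x, t x = x + (s * B (y + l • e) x) • (y + l • e) := fun y hy y1 y2 l s hs => by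
    obtain ⟨w, -, w1, w2⟩ := h.exists_dual (S := {e}) (by simpa using he) hy y2
    obtain ⟨k, k1, k2, k3⟩ := hR (-l • w) (by simp [w1 e rfl])
    obtain ⟨m, m1, m2⟩ := h.witt.Rad_perp_eq rfl k2 (k3 f hf) y1
    obtain ⟨t, t1, t2⟩ := transC_alt hA s y rfl
    have t3 : t ∈ M := hM ⟨t1, RatM.mem fun x hx =>
      t2 x ▸ hx.add (hy.smul (mul_mem hs (h.ratB _ _ hy hx)))⟩
    have m3 : m = l := by
      have := hA.neg_eq y w
      simp only [hfe, map_smul, LinearMap.smul_apply, ← this, w2, smul_eq_mul] at m2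
      linear_combination -m2
    refine ⟨k * t * k⁻¹, mul_mem (mul_mem k1 t3) (inv_mem k1), fun x => ?_⟩
    rw [LinearEquiv.mul_apply, LinearEquiv.mul_apply, t2, map_add, map_smul, apply_inv_apply,
      ← (mem_isom.1 k2.1).1, apply_inv_apply, m1, m3]
  obtain ⟨y, y1, -, y2, y3⟩ := h.sing₁ he
  obtain ⟨z, z1, -, z2, z3, z4⟩ := h.sing e y he y1
  have z5 : z ∉ F ∙ e := fun e => z4 (Submodule.span_mono (by simp) e)
  have z6 : y + z ∉ F ∙ e := fun e1 => z4 (by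
    simpa using sub_mem (Submodule.span_mono (t := {e, y}) (by simp) e1)
      (Submodule.subset_span (by simp : y ∈ ({e, y} : Set V))))
  have z7 : B e (y + z) = 0 := by simp [y2, z2]
  obtain ⟨a, a1, a2⟩ := key y y1 y2 y3 l 1 (one_mem _)
  obtain ⟨b, b1, b2⟩ := key z z1 z2 z5 l 1 (one_mem _)
  obtain ⟨c, c1, c2⟩ := key _ (y1.add z1) z7 z6 l (-1) (neg_mem (one_mem _))
  obtain ⟨a', a3, a4⟩ := key y y1 y2 y3 0 (-1) (neg_mem (one_mem _))
  obtain ⟨b', b3, b4⟩ := key z z1 z2 z5 0 (-1) (neg_mem (one_mem _))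
  obtain ⟨c', c3, c4⟩ := key _ (y1.add z1) z7 z6 0 1 (one_mem _)
  obtain ⟨t, t1, t2⟩ := transC_alt hA (l * l) e rfl
  refine ⟨t, ?_, Rad_mono _ le_top (h.witt.mem_Rad_of_trans rfl t1 t2), t2⟩
  convert mul_mem (mul_mem (mul_mem a1 b1) c1) (mul_mem (mul_mem a3 b3) c3) using 1
  ext x
  simp only [LinearEquiv.mul_apply, t2, a2, b2, c2, a4, b4, c4, map_add, map_smul,
    LinearMap.add_apply, LinearMap.smul_apply, hA e, hA y, hA z, y2, z2, z3, h.witt.refl y2,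
    h.witt.refl z2, h.witt.refl z3, smul_eq_mul]
  module

theorem sp_maxIn_RG (hB : B.Nondegenerate) (hA : B.IsAlt) (h6 : 6 ≤ finrank F V) {r : ℕ}
    (hr : r.Prime) (hc : Nat.card F₀ ^ r = Nat.card F)
    (hR : ∀ x y, IsRat ε F₀ x → IsRat ε F₀ y → B x y ∈ F₀) : MaxIn (SpG B) (RG ε F₀) := by
  have : FiniteDimensional F V := ε.symm.finiteDimensional
  have := Fintype.ofFinite F
  have hG := polarG_sp hB hA
  have h : RForm B (fun _ => (0 : F)) (SpG B) ε F₀ :=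
    ⟨hG, fun _ => rfl, fun _ h => h, hR, fun _ _ _ _ _ _ => ⟨0, zero_mem _, rfl⟩,
      sing_of_one hG.witt hR (by omega) fun _ _ => rfl, h6,
      fun K => Classical.subfield_eq_or_eq_top hr hc,
      MaxSub.ne_top_of_card_eq_pow hr.two_le (by rw [hc, Nat.card_eq_fintype_card])⟩
  refine h.maxIn (fun M h1 _ e he _ h0 h3 => ?_) ?_
  · by_cases h2 : (2 : F) = 0
    · exact h.Rad_le_alt hA h2 h1 e he h0 h3
    · have := RForm.Rad_le_of_comT (B := B) (ζ := 1) (M := M) (by rwa [one_smul]) one_ne_zero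
        hG.witt (comT_alt hA h2) e he rfl h0 (by rwa [one_smul])
      rwa [one_smul] at this
  · by_cases h2 : r = 2
    · exact Or.inl (exists_theta (h2 ▸ hc))
    · exact Or.inr (Or.inr ⟨noQuad hr h2 hc, F₀, le_rfl, 1, one_mem _, one_ne_zero,
        fun i _ => transC_alt hA _⟩)

end Sp

section SU

variable [Finite F] {B : V →ₛₗ[σ] V →ₗ[F] F}

theorem rform_su (hH : IsHerm B) (hB : B.Nondegenerate) (h7 : 7 ≤ finrank F V) {r : ℕ}
    (hr : r.Prime) (hc : Nat.card F₀ ^ r = Nat.card F) (hs : ∀ a ∈ F₀, σ a ∈ F₀)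
    (hR : ∀ x y, IsRat ε F₀ x → IsRat ε F₀ y → B x y ∈ F₀) {ν : F} (h1 : ν ∈ F₀)
    (h2 : ν + σ ν ≠ 0) : RForm B (fun x => B x x) (SUG B) ε F₀ := by
  have : FiniteDimensional F V := ε.symm.finiteDimensional
  have := Fintype.ofFinite F
  have hG := polarG_su' hH hB (by omega)
  refine ⟨hG, hH.invol, hs, hR, fun p y hp hy q h0 => ?_,
    sing_of_three hG.witt hR h7 fun u v w hu hv hw => ?_, by omega,
    fun K => Classical.subfield_eq_or_eq_top hr hc,
    MaxSub.ne_top_of_card_eq_pow hr.two_le (by rw [hc, Nat.card_eq_fintype_card])⟩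
  · have h3 : B y p ≠ 0 := fun e => h0 (hG.witt.refl e)
    refine ⟨-(B y y * ν / ((ν + σ ν) * B y p)), neg_mem (div_mem (mul_mem (hR _ _ hy hy) h1)
      (mul_mem (add_mem h1 (hs _ h1)) (hR _ _ hy hp))), ?_⟩
    simp only [map_zero] at q
    simp only [map_add, map_smulₛₗ, LinearMap.add_apply, LinearMap.smul_apply, q, map_neg,
      map_div₀, map_mul, hH.eq, hH.invol, RingHom.id_apply, smul_eq_mul, map_zero,
      add_comm (σ ν) ν]
    field_simp; ring
  · have k1 : ∀ x, IsRat ε F₀ x → B x x ∈ F₀ ⊓ σ.eqLocusField (RingHom.id F) := fun x hx =>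
      ⟨hR _ _ hx hx, hH.eq x x⟩
    have k2 : ∀ x y, IsRat ε F₀ x → IsRat ε F₀ y →
        B x y + B y x ∈ F₀ ⊓ σ.eqLocusField (RingHom.id F) := fun x y hx hy =>
      ⟨add_mem (hR _ _ hx hy) (hR _ _ hy hx), show σ _ = _ by simp [hH.eq, add_comm]⟩
    obtain ⟨x, ⟨x1, x2⟩, y, ⟨y1, y2⟩, z, ⟨z1, z2⟩, h3, h4⟩ := exists_ternary _ (k1 u hu) (k1 v hv)
      (k1 w hw) (k2 u v hu hv) (k2 u w hu hw) (k2 v w hv hw)
    refine ⟨x, x1, y, y1, z, z1, h3, ?_⟩
    simp only [map_add, map_smulₛₗ, LinearMap.add_apply, LinearMap.smul_apply,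
      show σ x = x from x2, show σ y = y from y2, show σ z = z from z2, RingHom.id_apply,
      smul_eq_mul, map_zero]
    linear_combination h4

theorem su_maxIn_RG (hH : IsHerm B) (hB : B.Nondegenerate) (h7 : 7 ≤ finrank F V) {r : ℕ}
    (hr : r.Prime) (hc : Nat.card F₀ ^ r = Nat.card F) (hs : ∀ a ∈ F₀, σ a ∈ F₀)
    (hR : ∀ x y, IsRat ε F₀ x → IsRat ε F₀ y → B x y ∈ F₀) (h2 : r ≠ 2 ∨ (2 : F) ≠ 0) :
    MaxIn (SUG B) (RG ε F₀) := by
  have : FiniteDimensional F V := ε.symm.finiteDimensional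
  have hν : r ≠ 2 → ∃ ν ∈ F₀, σ ν ≠ ν := fun h2 => by
    by_contra! hn
    have h3 := (Classical.subfield_eq_or_eq_top hr hc (K' := σ.eqLocusField (RingHom.id F))
      hn).resolve_right fun e => hH.ne_id (RingHom.ext fun a => (e.ge trivial : a ∈ _))
    obtain ⟨τ, hτ⟩ : ∃ τ, σ τ ≠ τ := by
      by_contra! hn
      exact hH.ne_id (RingHom.ext hn)
    exact noQuad hr h2 hc τ (fun e => hτ (hn τ e)) (τ + σ τ)
      (h3.le (show σ _ = _ by simp [hH.invol, add_comm])) (-(τ * σ τ))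
      (h3.le (show σ _ = _ by simp [hH.invol, mul_comm])) (by ring)
  obtain ⟨ν, h3, h4⟩ : ∃ ν ∈ F₀, ν + σ ν ≠ 0 := by
    by_cases h5 : (2 : F) = 0
    · obtain ⟨ν, h3, h4⟩ := hν (h2.resolve_right (not_not.2 h5))
      exact ⟨ν, h3, fun e => h4 (by linear_combination e - ν * h5)⟩
    · exact ⟨1, one_mem _, by rwa [map_one, one_add_one_eq_two]⟩
  have h := rform_su hH hB h7 hr hc hs hR h3 h4
  refine h.maxIn (fun M _ _ e he q h0 h3 => ?_) ?_
  · have := RForm.Rad_le_of_comT (B := B) (ζ := 1) (M := M) (by rwa [one_smul]) one_ne_zero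
      h.witt (comT_herm hH) e he q h0 (by rwa [one_smul])
    rwa [one_smul] at this
  · by_cases h5 : r = 2
    · exact Or.inl (exists_theta (h5 ▸ hc))
    · obtain ⟨μ, h6, h7⟩ := hν h5
      exact Or.inr (Or.inr ⟨noQuad hr h5 hc, F₀ ⊓ σ.eqLocusField (RingHom.id F), inf_le_left,
        μ - σ μ, sub_mem h6 (hs _ h6), sub_ne_zero.2 h7.symm, fun i hi => transC_herm hH (by
          simp only [map_mul, map_sub, hH.invol, show σ i = i from hi.2]; ring)⟩)

theorem su_maxIn_RG_alt (hH : IsHerm B) (hB : B.Nondegenerate) (h6 : 6 ≤ finrank F V)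
    (hc : Nat.card F₀ ^ 2 = Nat.card F) (hs : ∀ a ∈ F₀, σ a ∈ F₀) {ζ : F} (hζ : ζ ≠ 0)
    (hR : ∀ x y, IsRat ε F₀ x → IsRat ε F₀ y → ζ * B x y ∈ F₀)
    (hA : ∀ x, IsRat ε F₀ x → B x x = 0) : MaxIn (SUG B) (RG ε F₀) := by
  have : FiniteDimensional F V := ε.symm.finiteDimensional
  have := Fintype.ofFinite F
  have hG := polarG_su' hH hB (by omega)
  have hG' := hG.smul_form hζ
  have h : RForm (ζ • B) (fun x => B x x) (SUG B) ε F₀ :=
    ⟨hG', hH.invol, hs, hR, fun _ y _ hy _ _ => ⟨0, zero_mem _, by simpa using hA y hy⟩,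
      sing_of_one hG'.witt hR (by omega) fun u hu => by simpa using hA u hu, h6,
      fun K => Classical.subfield_eq_or_eq_top Nat.prime_two hc,
      MaxSub.ne_top_of_card_eq_pow le_rfl (by rw [hc, Nat.card_eq_fintype_card])⟩
  exact h.maxIn (fun M _ _ => h.Rad_le_of_comT hζ hG.witt (comT_herm hH))
    (Or.inl (exists_theta hc))

end SU

theorem omega_maxIn_RG [Finite F] {Q : QuadraticForm F V} (hQ : (polarBilin Q).Nondegenerate)
    (h7 : 7 ≤ finrank F V) {r : ℕ} (hr : r.Prime) (hc : Nat.card F₀ ^ r = Nat.card F) {ζ : F}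
    (hζ : ζ ≠ 0) (hR : ∀ x, IsRat ε F₀ x → ζ * Q x ∈ F₀) : MaxIn (OmG Q) (RG ε F₀) := by
  have : FiniteDimensional F V := ε.symm.finiteDimensional
  have := Fintype.ofFinite F
  have hG := polarG_omega' hQ (by omega)
  have hG' := hG.smul_form hζ
  have hR' : ∀ x y, IsRat ε F₀ x → IsRat ε F₀ y → (ζ • polarBilin Q) x y ∈ F₀ :=
    fun x y hx hy => by
      convert sub_mem (sub_mem (hR _ (hx.add hy)) (hR _ hx)) (hR _ hy) using 1
      simp [polar]; ring
  have h : RForm (ζ • polarBilin Q) Q (OmG Q) ε F₀ := by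
    refine ⟨hG', fun _ => rfl, fun _ h => h, hR', fun p y hp hy q h0 => ?_,
      sing_of_three hG'.witt hR' h7 fun u v w hu hv hw => ?_, by omega,
      fun K => Classical.subfield_eq_or_eq_top hr hc,
      MaxSub.ne_top_of_card_eq_pow hr.two_le (by rw [hc, Nat.card_eq_fintype_card])⟩
    · refine ⟨_, neg_mem (div_mem (hR y hy) (hR' p y hp hy)), ?_⟩
      have h1 : polar Q p y ≠ 0 := by simpa [hζ] using h0
      rw [map_zero] at q
      rw [quad_add, quad_smul, q, polar_smul_right, polar_comm Q y, map_zero]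
      simp only [LinearMap.smul_apply, polarBilin_apply_apply, smul_eq_mul]
      field_simp; ring
    · obtain ⟨x, x1, y, y1, z, z1, h3, h4⟩ := exists_ternary _ (hR u hu) (hR v hv)
        (hR w hw) (hR' u v hu hv) (hR' u w hu hw) (hR' v w hv hw)
      refine ⟨x, x1, y, y1, z, z1, h3, mul_left_cancel₀ hζ ?_⟩
      simp only [LinearMap.smul_apply, polarBilin_apply_apply, smul_eq_mul] at h4
      simp only [quad_add, quad_smul, polar_add_left, polar_smul_left, polar_smul_right, map_zero,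
        smul_eq_mul]
      linear_combination h4
  refine h.maxIn (fun M _ _ => h.Rad_le_of_comT hζ hG.witt (comT_quad Q))
    (Or.inr (Or.inl ⟨fun _ => rfl, fun z z' q q' e => ?_⟩))
  rw [map_zero] at q q'
  have e' : polar Q z (ζ • z') = 0 := by simpa using e
  exact ⟨(eichler q e').1, (Isom_smul (B := polarBilin Q) hζ).ge (eichler q e').2, fun x => by
    simp [eichler_apply, quad_smul, q', smul_smul, mul_comm]⟩

open Matrix in
theorem rat_of_structure [DecidableEq ι] {f : (ι → F) → (ι → F) → F} {ζ : F} {P : GL ι F}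
    (h : Cfsg.Geo.IsFormRationalStructure f F₀ ζ P) {x y : ι → F}
    (hx : IsRat (glEquiv ι F P).symm F₀ x) (hy : IsRat (glEquiv ι F P).symm F₀ y) :
    ζ * f x y ∈ F₀ := by
  obtain ⟨u, hu, rfl⟩ := hx.exists_mulVec
  obtain ⟨v, hv, rfl⟩ := hy.exists_mulVec
  exact h u v hu hv

open Matrix in
theorem rat_of_quadStructure [DecidableEq ι] {Q : (ι → F) → F} {P : GL ι F}
    (h : Cfsg.Geo.IsQuadFormRationalStructure Q F₀ P) {x : ι → F}
    (hx : IsRat (glEquiv ι F P).symm F₀ x) : Q x ∈ F₀ := by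
  obtain ⟨u, hu, rfl⟩ := hx.exists_mulVec
  exact h u hu

end CF.Geom
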