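/-
Overgroups of the full monomial group in an orthogonal group over a prime field.
-/
import Cfsg.Agent.Geom.FrO2

set_option autoImplicit false
set_option linter.unusedSectionVars false

namespace CF.Geom

open Module QuadraticMap

variable {F : Type*} [Field F] {ι : Type} [Fintype ι] [DecidableEq ι]
  {X : Subgroup ((ι → F) ≃ₗ[F] (ι → F))}

theorem exists_third_supp {v : ι → F} {i j : ι} (ij : i ≠ j) (h : v ⬝ᵥ v ≠ v i ^ 2 + v j ^ 2) :
    ∃ l, l ≠ i ∧ l ≠ j ∧ v l ≠ 0 := by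
  by_contra! hc
  exact h (dot_two ij hc)

theorem not_lam_three (h2 : (2 : F) ≠ 0) : ¬ Lam (3 : F) := by
  rintro (e | e | e)
  · exact h2 (by linear_combination e)
  · exact one_ne_zero (α := F) (by linear_combination e)
  · exact one_ne_zero (α := F) (by linear_combination e)

theorem not_lam_four (h2 : (2 : F) ≠ 0) (h3 : (3 : F) ≠ 0) (h5 : (5 : F) ≠ 0) : ¬ Lam (4 : F) := by
  rintro (e | e | e)
  · exact h3 (by linear_combination e)
  · exact h2 (by linear_combination e)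
  · exact h5 (by linear_combination e)

theorem cast_natCard (F : Type*) [Field F] [Finite F] {n : ℕ} (h : Nat.card F = n) : (n : F) = 0 := by
  have := Fintype.ofFinite F
  rw [← h, Nat.card_eq_fintype_card]; exact Nat.cast_card_eq_zero F

namespace RX

theorem two_nz (h : RX X) (v : ι → F) (i j k : ι) : (∃ a b, a ≠ b ∧ v a = 0 ∧ v b = 0) ∨
    ∃ a b, a ≠ b ∧ a ≠ i ∧ a ≠ j ∧ a ≠ k ∧ b ≠ i ∧ b ≠ j ∧ b ≠ k ∧ v a ≠ 0 ∧ v b ≠ 0 := by
  obtain ⟨a, a1, a2, a3, -⟩ := h.fresh i j k i i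
  obtain ⟨b, b1, b2, b3, b4, -⟩ := h.fresh i j k a i
  obtain ⟨c, c1, c2, c3, c4, c5⟩ := h.fresh i j k a b
  by_cases ea : v a = 0 <;> by_cases eb : v b = 0 <;> by_cases ec : v c = 0
  all_goals first
    | exact Or.inl ⟨_, _, b4, eb, ea⟩
    | exact Or.inl ⟨_, _, c4, ec, ea⟩
    | exact Or.inl ⟨_, _, c5, ec, eb⟩
    | exact Or.inr ⟨_, _, b4, b1, b2, b3, a1, a2, a3, eb, ea⟩
    | exact Or.inr ⟨_, _, c4, c1, c2, c3, a1, a2, a3, ec, ea⟩
    | exact Or.inr ⟨_, _, c5, c1, c2, c3, b1, b2, b3, ec, eb⟩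

variable [Finite F]

/-- The large prime case, assuming that `X` does not contain `Ω`. -/
structure Big (X : Subgroup ((ι → F) ≃ₗ[F] (ι → F))) : Prop extends RX X where
  p : (Nat.card F).Prime
  c5 : 5 < Nat.card F
  h3 : (3 : F) ≠ 0
  h5 : (5 : F) ≠ 0
  no : ¬ OmG (sqF ι F) ≤ X

namespace Big

variable {v : ι → F} {i j k : ι}

theorem S2 (h : Big X) (hv : Xi X v) (ij : i ≠ j) (hi : v i ≠ 0) (hj : v j ≠ 0)
    (hs : ∀ l, l ≠ i → l ≠ j → v l = 0) : 4 * v i ^ 2 = 2 := by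
  have key : ∀ {i j : ι}, i ≠ j → v i ≠ 0 → v j ≠ 0 → (∀ l, l ≠ i → l ≠ j → v l = 0) →
      Lam (4 * v i ^ 2) := fun {i j} ij hi hj hs => by
    obtain ⟨k, k1, k2, -⟩ := h.fresh i j i i i
    obtain ⟨g, hg, e⟩ := h.c i j k ij k1.symm k2.symm
    have e1 := (dot_two ij hs).symm.trans hv.one
    have e2 : g v = v i • ee F j + v j • ee F k := by
      rw [e v, hs k k1 k2]; nth_rw 1 [eq_two_ee ij hs]; module
    have hw := e2 ▸ h.map hv hg
    have o : Orth3 (sqF ι F) (ee F i) (v i • ee F j + v j • ee F k)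
        (v j ^ 2 • (v j • ee F j - v i • ee F k)) := by
      refine ⟨by simp [sqF_ee], by simp [hw.q], ?_, ?_, ?_, ?_⟩
      · rw [quad_smul, sqF_apply]
        simp [ee_ne j k2, ee_ne k k2.symm, hj]
        rw [← pow_two, ← pow_two, add_comm, e1]; exact one_ne_zero
      · simp [polar_sqF, ee_ne i ij.symm, ee_ne i k1]
      · simp [polar_sqF, ee_ne i ij.symm, ee_ne i k1]
      · rw [polar_sqF]; simp [ee_ne j k2, ee_ne k k2.symm]; ring_nf; simp
    refine ((good_or_lam h.nd h.two h.p o (hw.q.trans (sqF_ee i).symm) (hv.q.trans (sqF_ee i).symm)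
      (α := v i) (α' := v i * v j) ?_ hi (mul_ne_zero hi hj) (h.r i) hw.mem hv.mem).resolve_left
      fun hG => h.no (h.three h.c5 h.h3 o (h.xi_ee i) hG ij k1.symm k2.symm (by simp)
        (by simpa [ee_ne k k2.symm] using hi) (by simp [ee_ne j k2, hi, hj]))).1
    nth_rw 1 [eq_two_ee ij hs]
    linear_combination (norm := module) (-(v j * e1)) • ee F j
  have e1 := (dot_two ij hs).symm.trans hv.one
  have l1 := key ij hi hj hs
  have l2 := key ij.symm hj hi fun l a b => hs l b a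
  have two := h.two
  rcases l1 with a | a | a
  · exact absurd (by convert l2 using 1; linear_combination a - 4 * e1) (not_lam_three two)
  · exact a
  rcases l2 with b | b | b
  · exact absurd (Or.inr (Or.inr (by
      linear_combination a + (4 * v i ^ 2) * (b - 4 * e1)))) (not_lam_three two)
  · linear_combination 4 * e1 - b
  · exact mul_left_cancel₀ two (by
      linear_combination a - b + (4 * (4 * v j ^ 2 - 4 * v i ^ 2 + 1)) * e1)

theorem ND (h : Big X) (hv : Xi X v) (ij : i ≠ j) (hi : v i ≠ 0) (hj : v j ≠ 0)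
    (e : v i ^ 2 + v j ^ 2 ≠ 1) :
    Lam (4 * v i ^ 2) ∧ Lam (4 * v j ^ 2) ∧ Lam (4 * v i ^ 2 * (4 * v j ^ 2)) := by
  obtain ⟨k, k1, k2, hk⟩ := exists_third_supp ij (hv.one ▸ e.symm)
  have o : Orth3 (sqF ι F) (ee F i) (ee F j) (v - v i • ee F i - v j • ee F j) := by
    refine ⟨by simp [sqF_ee], by simp [sqF_ee], fun e' => e ?_, ?_, ?_, ?_⟩
    · simp [sqF_apply, ee_ne j ij, ee_ne i ij.symm, hv.one] at e'
      linear_combination -e'
    all_goals rw [polar_sqF]; simp [ee_ne i ij.symm, ee_ne j ij]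
  exact (good_or_lam h.nd h.two h.p o ((sqF_ee j).trans (sqF_ee i).symm)
    (hv.q.trans (sqF_ee i).symm) (by module) hi hj (h.r i) (h.r j) hv.mem).resolve_left
    fun hG => h.no (h.three h.c5 h.h3 o (h.xi_ee i) hG ij k1.symm k2.symm (by simp) (by simp)
      (by simpa [ee_ne i k1, ee_ne j k2] using hk))

theorem DG (h : Big X) (hv : Xi X v) (ij : i ≠ j) (ki : k ≠ i) (kj : k ≠ j) (hi : v i ≠ 0)
    (hj : v j ≠ 0) (hk : v k ≠ 0) : v i ^ 2 + v j ^ 2 ≠ 1 := fun e => by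
  obtain ⟨u, hu⟩ : ∃ u, u = v i • ee F i + v j • ee F j := ⟨_, rfl⟩
  obtain ⟨z, hz⟩ : ∃ z, z = v - u := ⟨_, rfl⟩
  have ui : u i = v i := by simp [hu, ee_ne j ij]
  have uj : u j = v j := by simp [hu, ee_ne i ij.symm]
  have uu : u ⬝ᵥ u = 1 := by nth_rw 2 [hu]; simp [ui, uj]; linear_combination e
  have vu : v ⬝ᵥ u = 1 := by simp [hu]; linear_combination e
  have zu : z ⬝ᵥ u = 0 := by simp [hz, uu, vu]
  have zz : z ⬝ᵥ z = 0 := by simp [hz, uu, vu, hv.one, dotProduct_comm u v]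
  have step : ∀ {s t : F}, Xi X (u + s • z) → Xi X (u + t • z) → Xi X (u + (2 * s - t) • z) :=
    fun {s t} h1 h2 => by
      have := (h.refl h1 h2).neg
      simp only [dotProduct_add, add_dotProduct, dotProduct_smul, smul_dotProduct, uu, zu, zz,
        dotProduct_comm u z, smul_zero, add_zero] at this
      convert this using 1; module
  have b1 : Xi X (u + (1 : F) • z) := by simpa [hz] using hv
  have b0 : Xi X (u + (-1 : F) • z) := by
    have := (h.flip (h.flip hv i) j).neg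
    simp only [Pi.sub_apply, Pi.smul_apply, ee_ne i ij.symm] at this
    convert this using 1; rw [hz, hu]; module
  have all : ∀ n : ℕ, Xi X (u + (2 * n - 1 : F) • z) ∧ Xi X (u + (2 * n + 1 : F) • z) := fun n => by
    induction n with
    | zero => simpa using And.intro b0 b1
    | succ n ih =>
      refine ⟨by convert ih.2 using 3; push_cast; ring, ?_⟩
      convert step ih.2 ih.1 using 3; push_cast; ring
  have all' : ∀ c : F, Xi X (u + c • z) := fun c => by
    obtain ⟨n, hn⟩ := exists_natCast h.p ((c - 1) / 2)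
    convert (all n).2 using 3; rw [hn]; field_simp [h.two]; ring
  have xi : 4 * v i ^ 2 = 2 := ui ▸ h.S2 (by simpa using all' 0) ij (ui ▸ hi) (uj ▸ hj)
    fun l a b => by simp [hu, ee_ne i a, ee_ne j b]
  have zi : z i = 0 := by simp [hz, ui]
  have zk : z k = v k := by simp [hz, hu, ee_ne i ki, ee_ne j kj]
  have uk : u k = 0 := by simp [hu, ee_ne i ki, ee_ne j kj]
  have key : ∀ c : F, c ≠ 0 → 4 * (c * v k) ^ 2 = 1 ∨ 4 * (c * v k) ^ 2 = 2 := fun c c0 => by
    by_cases e' : v i ^ 2 + (c * v k) ^ 2 = 1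
    · exact Or.inr (by linear_combination 4 * e' - xi)
    have := h.ND (all' c) ki.symm (by simpa [zi, ui] using hi) (by simp [uk, zk, c0, hk])
      (by simpa [zi, ui, uk, zk] using e')
    simp only [Pi.add_apply, Pi.smul_apply, zi, ui, uk, zk, smul_eq_mul, mul_zero, add_zero,
      zero_add] at this
    rcases lam_pair h.two h.h3 h.h5 this.1 this.2.1 this.2.2 with a | a | a
    · exact absurd (by linear_combination a - xi) (one_ne_zero (α := F))
    · exact Or.inl a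
    · exact Or.inl (by linear_combination a.2 - xi)
  have k2 : (4 : F) * v k ^ 2 ≠ 0 := mul_ne_zero (by
    convert mul_ne_zero h.two h.two using 1; ring) (pow_ne_zero _ hk)
  have h8 : (8 : F) ≠ 0 := by convert mul_ne_zero h.two (mul_ne_zero h.two h.two) using 1; ring
  rcases key 1 one_ne_zero with a | a <;> rcases key 2 h.two with b | b <;>
    rcases key 3 h.h3 with c | c
  all_goals first
    | exact mul_ne_zero h.h3 k2 (by linear_combination b - a)
    | exact mul_ne_zero h8 k2 (by linear_combination c - a)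
    | exact mul_ne_zero h.h5 k2 (by linear_combination c - b)

theorem pair (h : Big X) (hv : Xi X v) (ij : i ≠ j) (ki : k ≠ i) (kj : k ≠ j) (hi : v i ≠ 0)
    (hj : v j ≠ 0) (hk : v k ≠ 0) : Lam (4 * v j ^ 2) ∧ (4 * v i ^ 2 = 1 ∨ 4 * v j ^ 2 = 1 ∨
      (4 * v i ^ 2 * (4 * v j ^ 2) = 1 ∧ 4 * v i ^ 2 + 4 * v j ^ 2 = 3)) :=
  have := h.ND hv ij hi hj (h.DG hv ij ki kj hi hj hk)
  ⟨this.2.1, lam_pair h.two h.h3 h.h5 this.1 this.2.1 this.2.2⟩

theorem ne_zero_of (hi : 4 * v i ^ 2 = 1) : v i ≠ 0 := fun e => by simp [e] at hi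

theorem three_supp (h : Big X) (hv : Xi X v) (hi : 4 * v i ^ 2 = 1) :
    ∃ l m, l ≠ i ∧ m ≠ i ∧ m ≠ l ∧ v l ≠ 0 ∧ v m ≠ 0 := by
  obtain ⟨l, li, hl⟩ := exists_other (v := v) (i := i) fun e =>
    h.h3 (by linear_combination hi + 4 * e - 4 * hv.one)
  by_contra! hc
  exact one_ne_zero (α := F) (by
    linear_combination hi - h.S2 hv li.symm (ne_zero_of hi) hl fun m a b => hc l m li a b hl)

theorem K (h : Big X) (hv : Xi X v) (hi : 4 * v i ^ 2 = 1) (jk : j ≠ k) (hj : v j = 0)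
    (hk : v k = 0) : False := by
  have i0 := ne_zero_of hi
  have ij : i ≠ j := by rintro rfl; exact i0 hj
  have ik : i ≠ k := by rintro rfl; exact i0 hk
  obtain ⟨l, m, li, mi, ml, hl, hm⟩ := h.three_supp hv hi
  have lj : l ≠ j := by rintro rfl; exact hl hj
  have L := (h.pair hv li.symm mi ml i0 hl hm).1
  have c0 : 2 * v i ^ 2 - 1 ≠ 0 := fun e => one_ne_zero (α := F) (by
    linear_combination hi - 2 * e)
  have c1 : (2 * v i ^ 2 - 1) * v i - v i ≠ 0 := fun e => mul_ne_zero h.h3 i0 (by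
    linear_combination (v i) * hi - 2 * e)
  have := (h.pair (h.shift_refl hv ij ik jk hj hk) li.symm ij.symm lj.symm
    (by simpa [ee_ne j ij] using c1) (by simp [ee_ne i li, ee_ne j lj, c0, hl])
    (by simpa [ee_ne i ij.symm, hj] using i0)).2
  simp only [Pi.add_apply, Pi.sub_apply, Pi.smul_apply, ee_ne j ij, ee_ne i li, ee_ne j lj,
    ee_self, smul_eq_mul, mul_zero, mul_one, add_zero, sub_zero] at this
  have e1 : 4 * (4 * ((2 * v i ^ 2 - 1) * v i - v i) ^ 2) = 9 := by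
    linear_combination (16 * v i ^ 4 - 28 * v i ^ 2 + 9) * hi
  have e2 : 4 * (4 * ((2 * v i ^ 2 - 1) * v l) ^ 2) = 4 * v l ^ 2 := by
    linear_combination (4 * v l ^ 2 * (4 * v i ^ 2 - 3)) * hi
  rcases this with a | a | a
  · exact h.h5 (by linear_combination 4 * a - e1)
  · exact not_lam_four h.two h.h3 h.h5 (by convert L using 1; linear_combination e2 - 4 * a)
  · exact not_lam_three h.two (by convert L using 1; linear_combination e1 + e2 - 4 * a.2)

theorem one (h : Big X) (hv : Xi X v) (ij : i ≠ j) (ik : i ≠ k) (jk : j ≠ k) (hi : v i ≠ 0)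
    (hj : v j ≠ 0) (hk : v k ≠ 0) : 4 * v i ^ 2 = 1 ∨ 4 * v j ^ 2 = 1 ∨ 4 * v k ^ 2 = 1 := by
  by_contra! hc
  have a := ((h.pair hv ij ik.symm jk.symm hi hj hk).2.resolve_left hc.1).resolve_left hc.2.1
  have b := ((h.pair hv ik ij.symm jk hi hk hj).2.resolve_left hc.1).resolve_left hc.2.2
  have c := ((h.pair hv jk ij ik hj hk hi).2.resolve_left hc.2.1).resolve_left hc.2.2
  have e1 : 2 * (4 * v i ^ 2) = 3 := by linear_combination a.2 + b.2 - c.2
  have e2 : 2 * (4 * v j ^ 2) = 3 := by linear_combination a.2 - b.2 + c.2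
  exact h.h5 (by linear_combination 4 * a.1 - (2 * (4 * v j ^ 2)) * e1 - 3 * e2)

theorem K3 (h : Big X) (hv : Xi X v) (ij : i ≠ j) (ik : i ≠ k) (jk : j ≠ k) (hi : v i ≠ 0)
    (hj : v j ≠ 0) (hk : v k ≠ 0) {a b : ι} (ab : a ≠ b) (ha : v a = 0) (hb : v b = 0) : False := by
  rcases h.one hv ij ik jk hi hj hk with e | e | e <;> exact h.K hv e ab ha hb

theorem NO3 (h : Big X) (hv : Xi X v) (ij : i ≠ j) (ik : i ≠ k) (jk : j ≠ k) (hi : v i ≠ 0)
    (hj : v j ≠ 0) (hk : v k ≠ 0) : False := by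
  rcases three_parts (A := fun l => 4 * v l ^ 2 = 1) (B := fun l => v l ≠ 0 ∧ 4 * v l ^ 2 ≠ 1)
    h.n6 v (fun l hl => by tauto) with ⟨a, b, c, ab, ac, bc, ha, hb, hc⟩ |
    ⟨a, b, c, ab, ac, bc, ha, hb, hc⟩ | ⟨a, b, ab, ha, hb⟩
  · rcases h.two_nz v a b c with ⟨x, y, xy, hx, hy⟩ | ⟨x, y, xy, x1, x2, x3, y1, y2, y3, hx, hy⟩
    · exact h.K hv ha xy hx hy
    have hu := h.FL3 hv ab ac bc (by linear_combination ha + hb + hc)
    obtain ⟨u, eu⟩ : ∃ u, u = (2 : F) • (v - v a • ee F a - v b • ee F b - v c • ee F c) := ⟨_, rfl⟩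
    rw [← eu] at hu
    have ux : u x = 2 * v x := by simp [eu, ee_ne a x1, ee_ne b x2, ee_ne c x3]
    have uy : u y = 2 * v y := by simp [eu, ee_ne a y1, ee_ne b y2, ee_ne c y3]
    have x0 : u x ≠ 0 := ux ▸ mul_ne_zero h.two hx
    have y0 : u y ≠ 0 := uy ▸ mul_ne_zero h.two hy
    by_cases hs : ∀ l, l ≠ x → l ≠ y → u l = 0
    · have e1 := h.S2 hu xy x0 y0 hs
      have e2 := h.S2 hu xy.symm y0 x0 fun l p q => hs l q p
      rw [ux] at e1; rw [uy] at e2
      rcases (h.pair hv xy x1.symm y1.symm hx hy (ne_zero_of ha)).2 with e | e | e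
      · exact h.two (by linear_combination e1 - 4 * e)
      · exact h.two (by linear_combination e2 - 4 * e)
      · exact mul_ne_zero h.two (mul_ne_zero h.two h.two) (by
          linear_combination e1 + e2 - 4 * e.2)
    push Not at hs
    obtain ⟨l, l1, l2, hl⟩ := hs
    exact h.K3 hu xy l1.symm l2.symm x0 y0 hl ab (by simp [eu, ee_ne b ab, ee_ne c ac])
      (by simp [eu, ee_ne a ab.symm, ee_ne c bc])
  · rcases h.one hv ab ac bc ha.1 hb.1 hc.1 with e | e | e
    exacts [ha.2 e, hb.2 e, hc.2 e]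
  · exact h.K3 hv ij ik jk hi hj hk ab ha hb

theorem fin (h : Big X) {m : (ι → F) ≃ₗ[F] (ι → F)} (hm : m ∈ X) (ij : i ≠ j)
    (hi : m (ee F k) i ≠ 0) (hj : m (ee F k) j ≠ 0) : False := by
  have hv := h.map (h.xi_ee k) hm
  obtain ⟨v, ev⟩ : ∃ v, v = m (ee F k) := ⟨_, rfl⟩
  rw [← ev] at hv hi hj
  have hs : ∀ l, l ≠ i → l ≠ j → v l = 0 := fun l a b => by
    by_contra hl; exact h.NO3 hv ij a.symm b.symm hi hj hl
  have e1 := h.S2 hv ij hi hj hs
  obtain ⟨c, c1, c2, -⟩ := h.fresh i j i i i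
  obtain ⟨d, d1, d2, d3, -⟩ := h.fresh i j c i i
  have hw := h.map (h.shift hv c1.symm d1.symm d3.symm (hs c c1 c2) (hs d d1 d2)) (inv_mem hm)
  have e2 := dot_map h.two (h.le hm) (m⁻¹ (v - v i • ee F i + v i • ee F c)) (ee F k)
  rw [← ev, ← LinearEquiv.mul_apply, mul_inv_cancel] at e2
  simp only [LinearEquiv.coe_one, id_eq, add_dotProduct, sub_dotProduct, smul_dotProduct,
    single_dotProduct, dotProduct_single, hv.one, hs c c1 c2, smul_eq_mul] at e2
  obtain ⟨w, ew⟩ : ∃ w, w = m⁻¹ (v - v i • ee F i + v i • ee F c) := ⟨_, rfl⟩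
  rw [← ew] at hw e2
  have e3 : 2 * (2 * w k) = 2 * 1 := by linear_combination -4 * e2 - e1
  have e4 : 4 * w k ^ 2 = 1 := by
    linear_combination (2 * w k + 1) * mul_left_cancel₀ h.two e3
  obtain ⟨l, n, li, ni, nl, hl, hn⟩ := h.three_supp hw e4
  exact h.NO3 hw li.symm ni.symm nl.symm (ne_zero_of e4) hl hn

end Big

theorem p3 (h : RX X) (h3 : Nat.card F = 3) {v : ι → F} (hv : Xi X v) {i j : ι} (ij : i ≠ j)
    (hi : v i ≠ 0) (hj : v j ≠ 0) : OmG (sqF ι F) ≤ X := by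
  have := Fintype.ofFinite F
  have hp : (Nat.card F).Prime := h3 ▸ Nat.prime_three
  have sq : ∀ a : F, a ≠ 0 → a ^ 2 = 1 := fun a ha => by
    simpa [← Nat.card_eq_fintype_card, h3] using FiniteField.pow_card_sub_one_eq_one a ha
  have c3 : (3 : F) = 0 := cast_natCard F h3
  have key : (∃ a b, a ≠ b ∧ v a = 0 ∧ v b = 0) → OmG (sqF ι F) ≤ X :=
    fun ⟨a, b, ab, ha, hb⟩ => h.SD hp hv ij.symm ab (sq _ hi) hj ha hb
  rcases three_parts (A := fun l => v l ^ 2 = 1) (B := fun l => v l ^ 2 = 1) h.n6 v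
    (fun l hl => Or.inl (sq _ hl)) with ⟨a, b, c, ab, ac, bc, ha, hb, hc⟩ |
    ⟨a, b, c, ab, ac, bc, ha, hb, hc⟩ | e
  on_goal 3 => exact key e
  all_goals
    rcases h.two_nz v a b c with e | ⟨x, y, xy, x1, x2, x3, y1, y2, y3, hx, hy⟩
    · exact key e
    refine h.SD hp (h.FL3 hv ab ac bc (by linear_combination 4 * (ha + hb + hc) + 3 * c3))
      xy.symm ab (sq _ ?_) ?_ ?_ ?_
    · simp [ee_ne a x1, ee_ne b x2, ee_ne c x3, hx, h.two]
    · simp [ee_ne a y1, ee_ne b y2, ee_ne c y3, hy, h.two]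
    · simp [ee_ne b ab, ee_ne c ac]
    · simp [ee_ne a ab.symm, ee_ne c bc]

theorem p5 (h : RX X) (h5 : Nat.card F = 5) {v : ι → F} (hv : Xi X v) {i j : ι} (ij : i ≠ j)
    (hi : v i ≠ 0) (hj : v j ≠ 0) : OmG (sqF ι F) ≤ X := by
  have := Fintype.ofFinite F
  have hp : (Nat.card F).Prime := h5 ▸ Nat.prime_five
  have sq : ∀ a : F, a ≠ 0 → a ^ 2 = 1 ∨ a ^ 2 = -1 := fun a ha => sq_eq_one_iff.1 (by
    rw [← pow_mul]
    simpa [← Nat.card_eq_fintype_card, h5] using FiniteField.pow_card_sub_one_eq_one a ha)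
  have c5 : (5 : F) = 0 := cast_natCard F h5
  have key : ∀ {w : ι → F}, Xi X w → ∀ {a b j k : ι}, a ≠ b → j ≠ k → w a ≠ 0 → w b ≠ 0 →
      w j = 0 → w k = 0 → OmG (sqF ι F) ≤ X := fun {w} hw {a b j k} ab jk ha hb hj hk => by
    rcases sq _ ha with ea | ea
    · exact h.SD hp hw ab.symm jk ea hb hj hk
    rcases sq _ hb with eb | eb
    · exact h.SD hp hw ab jk eb ha hj hk
    obtain ⟨c, ca, cb, hc⟩ := exists_third_supp (v := w) ab fun e => h.two (by
      linear_combination hw.one - e - ea - eb + c5)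
    rcases sq _ hc with ec | ec
    · exact h.SD hp hw ca.symm jk ec ha hj hk
    have aj : a ≠ j := by rintro rfl; exact ha hj
    have ak : a ≠ k := by rintro rfl; exact ha hk
    have bj : b ≠ j := by rintro rfl; exact hb hj
    have cj : c ≠ j := by rintro rfl; exact hc hj
    have hu := h.shift_refl hw aj ak jk hj hk
    obtain ⟨u, eu⟩ : ∃ u, u = (2 * w a ^ 2 - 1) • w - w a • ee F a + w a • ee F j := ⟨_, rfl⟩
    rw [← eu] at hu
    have ua : u a = w a := by simp [eu, ee_ne j aj]; linear_combination (w a) * (2 * ea - c5)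
    have uj : u j = w a := by simp [eu, ee_ne a aj.symm, hj]
    have ub : u b = 2 * w b := by
      simp [eu, ee_ne a ab.symm, ee_ne j bj, hb]; linear_combination (2 * ea - c5)
    have uc : u c = 2 * w c := by
      simp [eu, ee_ne a ca, ee_ne j cj, hc]; linear_combination (2 * ea - c5)
    refine h.SD hp (h.FL2 hu cb.symm (by
      rw [ub, uc]; linear_combination 16 * (eb + ec) - 7 * c5)) aj.symm cb ?_ ?_ ?_ ?_
    · simp [-sq_eq_one_iff, ee_ne b ab, ee_ne c ca.symm, ua]; linear_combination 4 * ea - c5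
    · simp [ee_ne b bj.symm, ee_ne c cj.symm, uj, ha, h.two]
    · simp [ee_ne b cb]
    · simp [ee_ne c cb.symm]
  rcases three_parts (A := fun l => v l ^ 2 = 1) (B := fun l => v l ^ 2 = -1) h.n6 v
    (fun l hl => sq _ hl) with ⟨a, b, c, ab, ac, bc, ha, hb, hc⟩ |
    ⟨a, b, c, ab, ac, bc, ha, hb, hc⟩ | ⟨a, b, ab, ha, hb⟩
  · have hu := h.FL2 hv ab (by linear_combination 4 * (ha + hb) + c5)
    obtain ⟨u, eu⟩ : ∃ u, u = (2 : F) • (v - v a • ee F a - v b • ee F b) := ⟨_, rfl⟩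
    rw [← eu] at hu
    have uc : u c = 2 * v c := by simp [eu, ee_ne a ac.symm, ee_ne b bc.symm]
    obtain ⟨l, lc, hl⟩ := exists_other (v := u) (i := c) fun e => h.two (by
      rw [uc] at e; linear_combination e - hu.one + 4 * hc + c5)
    exact key hu lc ab hl (fun e => by simp [uc, h.two] at e; simp [e] at hc)
      (by simp [eu, ee_ne b ab]) (by simp [eu, ee_ne a ab.symm])
  · rcases h.two_nz v a b c with ⟨x, y, xy, hx, hy⟩ | ⟨x, y, xy, x1, x2, x3, y1, y2, y3, hx, hy⟩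
    · exact key hv ij xy hi hj hx hy
    refine key (h.FL3 hv ab ac bc (by linear_combination 4 * (ha + hb + hc) - 3 * c5))
      xy ab ?_ ?_ ?_ ?_
    · simp [ee_ne a x1, ee_ne b x2, ee_ne c x3, hx, h.two]
    · simp [ee_ne a y1, ee_ne b y2, ee_ne c y3, hy, h.two]
    · simp [ee_ne b ab, ee_ne c ac]
    · simp [ee_ne a ab.symm, ee_ne c bc]
  · exact key hv ij ab hi hj ha hb

/-- An overgroup of the monomial group containing a non-monomial element contains `Ω`. -/
theorem le_of_supp (h : RX X) (hp : (Nat.card F).Prime) {m : (ι → F) ≃ₗ[F] (ι → F)} (hm : m ∈ X)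
    {i j k : ι} (ij : i ≠ j) (hi : m (ee F k) i ≠ 0) (hj : m (ee F k) j ≠ 0) :
    OmG (sqF ι F) ≤ X := by
  by_cases h3 : Nat.card F = 3
  · exact h.p3 h3 (h.map (h.xi_ee k) hm) ij hi hj
  by_cases h5 : Nat.card F = 5
  · exact h.p5 h5 (h.map (h.xi_ee k) hm) ij hi hj
  have := Fintype.ofFinite F
  have hc : CharP F (Nat.card F) := charP_of_card_eq_prime (hp := ⟨hp⟩) Nat.card_eq_fintype_card.symm
  have key : ∀ r : ℕ, r.Prime → Nat.card F ≠ r → (r : F) ≠ 0 := fun r hr e e' =>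
    e ((Nat.prime_dvd_prime_iff_eq hp hr).1 ((CharP.cast_eq_zero_iff F _ r).1 e'))
  have h2 : Nat.card F ≠ 2 := fun e => h.two (cast_natCard F e)
  by_contra hn
  refine Big.fin ⟨h, hp, ?_, key 3 Nat.prime_three h3, key 5 Nat.prime_five h5, hn⟩ hm ij hi hj
  have := hp.two_le
  by_contra! hle
  exact absurd ((show Nat.card F = 4 by omega) ▸ hp) (by norm_num)

end RX

end CF.Geom
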