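/-
Maximality of the stabiliser of an orthonormal frame in `Ω_n(p)`: elements fixing a frame line.
-/
import Cfsg.Agent.Geom.FrO3
import Cfsg.Agent.Geom.FrG

set_option autoImplicit false
set_option linter.unusedSectionVars false

namespace CF.Geom

open Module QuadraticMap

variable {F : Type*} [Field F] {ι : Type} [Fintype ι] [DecidableEq ι]
  {M : Subgroup ((ι → F) ≃ₗ[F] (ι → F))}

theorem oRefl_sqF (y x : ι → F) :
    (oRefl (sqF ι F) y).1 x = x - ((y ⬝ᵥ y)⁻¹ * (2 * (y ⬝ᵥ x))) • y := by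
  rw [oRefl_apply, sqF_apply, polar_sqF]

theorem oRefl_pair_mem_MonG (h2 : (2 : F) ≠ 0) {a b : ι} (ab : a ≠ b) {α β : F} (h0 : α ≠ 0)
    (e : β ^ 2 = α ^ 2) : (oRefl (sqF ι F) (α • ee F a + β • ee F b)).1 ∈ MonG ι F := by
  have e1 : (α • ee F a + β • ee F b) ⬝ᵥ (α • ee F a + β • ee F b) = 2 * α ^ 2 := by
    simp [ee_ne a ab.symm, ee_ne b ab]; linear_combination e
  refine mem_MonG_of fun i => ?_
  by_cases ia : i = a
  · refine ⟨b, fun l hl => ?_⟩
    rw [oRefl_sqF, e1, ia]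
    by_cases la : l = a
    · simp [la, ee_ne b ab]; field_simp; ring
    · simp [ee_ne a la, ee_ne b hl]
  by_cases ib : i = b
  · refine ⟨a, fun l hl => ?_⟩
    rw [oRefl_sqF, e1, ib]
    by_cases lb : l = b
    · simp [lb, ee_ne a ab.symm]; field_simp; linear_combination -e
    · simp [ee_ne a hl, ee_ne b lb]
  · refine ⟨i, fun l hl => ?_⟩
    simp [oRefl_sqF, ee_ne a ia, ee_ne b ib, ee_ne i hl]

theorem oRefl_ee_mem_MonG (i : ι) : (oRefl (sqF ι F) (ee F i)).1 ∈ MonG ι F :=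
  mem_MonG_of fun j => ⟨j, fun l hl => by
    by_cases e : i = j <;> simp [oRefl_ee, e, ee_ne j hl, ee_ne j]⟩

/-- The product of two coordinate reflections. -/
noncomputable def tt (F : Type*) [Field F] (i j : ι) : (ι → F) ≃ₗ[F] (ι → F) :=
  (oRefl (sqF ι F) (ee F i)).1 * (oRefl (sqF ι F) (ee F j)).1

theorem tt_apply {i j : ι} (ij : i ≠ j) (x : ι → F) :
    tt F i j x = x - (2 * x i) • ee F i - (2 * x j) • ee F j := by
  simp only [tt, LinearEquiv.mul_apply, oRefl_ee, Pi.sub_apply, Pi.smul_apply, ee_ne j ij]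
  module

theorem tt_ne {i j l : ι} (ij : i ≠ j) (li : l ≠ i) (lj : l ≠ j) (x : ι → F) :
    tt F i j x l = x l := by simp [tt_apply ij, ee_ne i li, ee_ne j lj]

theorem tt_left {i j : ι} (ij : i ≠ j) (x : ι → F) : tt F i j x i = -x i := by
  simp [tt_apply ij, ee_ne j ij]; ring

theorem tt_right {i j : ι} (ij : i ≠ j) (x : ι → F) : tt F i j x j = -x j := by
  simp [tt_apply ij, ee_ne i ij.symm]; ring

theorem tt_mem (h2 : (2 : F) ≠ 0) (i j : ι) : tt F i j ∈ OmG (sqF ι F) ⊓ MonG ι F :=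
  ⟨oRefl_mul_mem_OmG (sqF_nondegenerate h2) (by simp [sqF_ee]) (by simp [sqF_ee]),
    mul_mem (oRefl_ee_mem_MonG i) (oRefl_ee_mem_MonG j)⟩

theorem exists_cyc (h2 : (2 : F) ≠ 0) {i j k : ι} (ij : i ≠ j) (ik : i ≠ k) (jk : j ≠ k) :
    ∃ g ∈ OmG (sqF ι F) ⊓ MonG ι F, IsCyc g i j k := by
  have e : ∀ {a b : ι}, a ≠ b → ((1 : F) • ee F a + (-1 : F) • ee F b) ⬝ᵥ
      ((1 : F) • ee F a + (-1 : F) • ee F b) = 2 := fun {a b} ab => by
    simp [ee_ne a ab.symm, ee_ne b ab]; ring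
  refine ⟨_, ⟨oRefl_mul_mem_OmG (sqF_nondegenerate h2) (by rw [sqF_apply, e ik]; exact h2)
    (by rw [sqF_apply, sqF_apply, e ik, e ij]), mul_mem
    (oRefl_pair_mem_MonG h2 ik one_ne_zero (by simp))
    (oRefl_pair_mem_MonG h2 ij one_ne_zero (by simp))⟩, fun x => ?_⟩
  simp only [LinearEquiv.mul_apply, oRefl_sqF, e ik, e ij]
  simp [ee_ne i ij.symm, ee_ne i ik.symm, ee_ne j ij, ee_ne k ik, ee_ne j jk.symm, ee_ne k jk]
  match_scalars <;> field_simp <;> ring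

theorem dot_res (o : ι) (v w : ι → F) : res F o v ⬝ᵥ res F o w = v ⬝ᵥ w - v o * w o := by
  rw [eq_sub_iff_add_eq', dotProduct, dotProduct, Fintype.sum_eq_add_sum_subtype_ne _ o]; rfl

theorem exists_res (o : ι) (y : {j // j ≠ o} → F) : ∃ v, v o = 0 ∧ res F o v = y :=
  ⟨fun l => if h : l = o then 0 else y ⟨l, h⟩, by simp, funext fun l => by simp [res_apply, l.2]⟩

theorem fix_line (h2 : (2 : F) ≠ 0) {g : (ι → F) ≃ₗ[F] (ι → F)} (hg : g ∈ OG (sqF ι F)) {o : ι}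
    (h : ∀ l, l ≠ o → g (ee F o) l = 0) :
    g (g (ee F o)) = ee F o ∧ ∀ v, v o = 0 → g v o = 0 := by
  have e1 := dot_map h2 hg (ee F o) (ee F o)
  nth_rw 1 [eq_smul_ee h] at e1
  simp only [smul_dotProduct, single_dotProduct, one_mul, ee_self, smul_eq_mul] at e1
  refine ⟨by rw [eq_smul_ee h, map_smul, eq_smul_ee h]; simp [smul_smul, e1], fun v hv => ?_⟩
  have e2 := dot_map h2 hg (ee F o) v
  rw [eq_smul_ee h] at e2
  simp only [smul_dotProduct, single_dotProduct, one_mul, hv, smul_eq_mul, mul_eq_zero] at e2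
  exact e2.resolve_left (left_ne_zero_of_mul_eq_one e1)

theorem fix_line_Qt {g : (ι → F) ≃ₗ[F] (ι → F)} {o : ι}
    {x : ({j // j ≠ o} → F) ≃ₗ[F] ({j // j ≠ o} → F)} (e : ∀ v, res F o (g v) = x (res F o v))
    (l : ι) (hl : l ≠ o) : g (ee F o) l = 0 := by
  simpa [res_ee_self, res_apply] using congrFun (e (ee F o)) ⟨l, hl⟩

variable [Finite F]

/-- A proper overgroup of the monomial subgroup of `Ω_n(p)`. -/
structure FC (M : Subgroup ((ι → F) ≃ₗ[F] (ι → F))) : Prop where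
  p : (Nat.card F).Prime
  two : (2 : F) ≠ 0
  n7 : 7 ≤ Fintype.card ι
  lo : OmG (sqF ι F) ⊓ MonG ι F ≤ M
  hi : M ≤ OG (sqF ι F)
  no : ¬ OmG (sqF ι F) ≤ M

namespace FC

theorem nd (h : FC M) : (polarBilin (sqF ι F)).Nondegenerate := sqF_nondegenerate h.two

theorem fresh (h : FC M) (a b c d e f : ι) :
    ∃ l, l ≠ a ∧ l ≠ b ∧ l ≠ c ∧ l ≠ d ∧ l ≠ e ∧ l ≠ f := by
  simpa using exists_notMem_list [a, b, c, d, e, f] (lt_of_lt_of_le (by simp) h.n7)

theorem rx (h : FC M) (o : ι) : RX (Qt (res F o) M) := by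
  refine ⟨?_, fun i => ⟨_, h.lo (tt_mem h.two i.1 o), fun v => ?_⟩, fun i j k ij ik jk => ?_, ?_,
    h.two⟩
  · rintro x ⟨g, hg, e⟩
    refine mem_OG.2 fun y => ?_
    obtain ⟨v, v0, rfl⟩ := exists_res o y
    rw [← e, sqF_apply, sqF_apply, dot_res, dot_res, dot_map h.two (h.hi hg),
      (fix_line h.two (h.hi hg) (fix_line_Qt e)).2 v v0, v0]
  · simp [tt_apply i.2, oRefl_ee, res_ee, res_ee_self, res_apply]
  · obtain ⟨g, hg, e⟩ := exists_cyc h.two (Subtype.coe_ne_coe.2 ij) (Subtype.coe_ne_coe.2 ik)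
      (Subtype.coe_ne_coe.2 jk)
    obtain ⟨x, hx⟩ := exists_induced (g := g) (o := o) fun l hl => by
      rw [e.fix (ee_ne o i.2) (ee_ne o j.2) (ee_ne o k.2), ee_ne o hl]
    refine ⟨x, ⟨g, h.lo hg, hx⟩, fun y => ?_⟩
    obtain ⟨v, -, rfl⟩ := exists_res o y
    simp [← hx, e v, res_ee, res_apply]
  · have := h.n7
    simp only [ne_eq, Fintype.card_subtype_compl, Fintype.card_unique]; omega

theorem not_le (h : FC M) (o : ι) : ¬ OmG (sqF {j // j ≠ o} F) ≤ Qt (res F o) M := fun hle => by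
  have hG : Good (polarBilin (sqF ι F)) (sqF ι F) M (LinearMap.ker (pr F o)) :=
    fun u hu qu hp => (Rad_le_iff_eichler h.nd (by rintro rfl; exact hp (zero_mem _))
      (by simpa using qu) hu).2 fun w hw e => by
    have u0 : u o = 0 := hu
    have w0 : w o = 0 := hw
    have qu' : sqF ι F u = 0 := by simpa using qu
    have q1 : sqF _ F (res F o u) = 0 := by rw [sqF_apply, dot_res, ← sqF_apply, qu', u0]; simp
    have q2 : polar (sqF _ F) (res F o u) (res F o w) = 0 := by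
      rw [polar_sqF, dot_res, u0, zero_mul, sub_zero, ← polar_sqF, e]
    obtain ⟨g, hg, e1⟩ := hle (mem_OmG.2 (eichlerSub_le_commutator (h.rx o).nd
      (Or.inl (ne_zero_ne_one_of_two h.two)) (eichler_mem q1 q2)))
    obtain ⟨e2, e3⟩ := fix_line h.two (h.hi hg) (fix_line_Qt e1)
    have e4 : ∀ v, v o = 0 → (eichler qu' e).1 v o = 0 := fun v hv => by
      simp [eichler_apply, u0, w0, hv]
    have e5 : ∀ v, v o = 0 → g v = (eichler qu' e).1 v := fun v hv => funext fun l => by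
      by_cases hl : l = o
      · rw [hl, e3 v hv, e4 v hv]
      · simpa [res_apply, eichler_apply, polar_sqF, sqF_apply, dot_res, u0, w0] using
          congrFun (e1 v) ⟨l, hl⟩
    have e6 : (eichler qu' e).1 (ee F o) = ee F o := by simp [eichler_apply, polar_sqF, u0, w0]
    refine mem_of_sq_mem (odd_ringChar h.two) (eichler_pow_char qu' e) ?_
    convert mul_mem hg hg using 1
    refine LinearEquiv.ext fun v => ?_
    have e7 : (v - v o • ee F o) o = 0 := by simp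
    rw [← sub_add_cancel v (v o • ee F o)]
    simp only [LinearEquiv.mul_apply, map_add, map_smul, e2, e6]
    rw [e5 _ e7, e5 _ (e4 _ e7)]
  obtain ⟨a, a1, -⟩ := h.fresh o o o o o o
  obtain ⟨b, b1, b2, -⟩ := h.fresh o a o o o o
  obtain ⟨c, c1, c2, c3, -⟩ := h.fresh o a b o o o
  obtain ⟨l, l1, l2, l3, l4, -⟩ := h.fresh o a b c o o
  obtain ⟨m, m1, m2, m3, m4, m5, -⟩ := h.fresh o a b c l o
  have o3 := orth3_ee (F := F) b2.symm c2.symm c3.symm
  have hU : Submodule.span F {ee F a, ee F b, ee F c} ≤ LinearMap.ker (pr F o) :=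
    Submodule.span_le.2 (by
      rintro _ (rfl | rfl | rfl); exacts [ee_ne a a1.symm, ee_ne b b1.symm, ee_ne c c1.symm])
  obtain ⟨Y, h1, hY⟩ := exists_maxGood h.nd (o3.disjoint h.two) (o3.finrank_span h.two).ge hU hG
  obtain ⟨g, hg, e⟩ := exists_cyc h.two l1 m5.symm m1.symm
  have h3 : ee F o ∈ Y := hY.le h.nd (o3.disjoint h.two) (o3.finrank_span h.two).ge (hU.trans h1)
    (Submodule.span_le.2 (by
      rintro _ (rfl | rfl | rfl)
      · exact ⟨_, ee_ne a a1.symm, e.fix (ee_ne _ l2) (ee_ne _ a1.symm) (ee_ne _ m2)⟩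
      · exact ⟨_, ee_ne b b1.symm, e.fix (ee_ne _ l3) (ee_ne _ b1.symm) (ee_ne _ m3)⟩
      · exact ⟨_, ee_ne c c1.symm, e.fix (ee_ne _ l4) (ee_ne _ c1.symm) (ee_ne _ m4)⟩))
    (hG.map (h.hi (h.lo hg)) (h.lo hg)) ⟨_, ee_ne l l1.symm, e.ee l1 m5.symm⟩
  have : Y = ⊤ := eq_top_iff.2 fun v _ => by
    rw [← sub_add_cancel v (v o • ee F o)]
    exact add_mem (h1 (by simp)) (Y.smul_mem _ h3)
  exact h.no ((polarG_omega' h.nd (by simpa using (by decide : 5 ≤ 7).trans h.n7)).le_of_good_top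
    (this ▸ hY.1))

theorem A (h : FC M) {g : (ι → F) ≃ₗ[F] (ι → F)} (hg : g ∈ M) {i j : ι}
    (e : ∀ l, l ≠ j → g (ee F i) l = 0) : g ∈ MonG ι F := by
  have key : ∀ {g : (ι → F) ≃ₗ[F] (ι → F)}, g ∈ M → (∀ l, l ≠ i → g (ee F i) l = 0) →
      g ∈ MonG ι F := fun {g} hg e => by
    obtain ⟨x, hx⟩ := exists_induced e
    refine mem_MonG_of fun k => ?_
    by_cases ki : k = i
    · exact ⟨i, ki ▸ e⟩
    have e1 := (fix_line h.two (h.hi hg) e).2 _ (ee_ne k (Ne.symm ki))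
    by_contra! hc
    obtain ⟨a, a1, a2⟩ := hc i
    obtain ⟨b, b1, b2⟩ := hc a
    have b3 : b ≠ i := by rintro rfl; exact b2 e1
    refine h.not_le i ((h.rx i).le_of_supp h.p ⟨g, hg, hx⟩ (i := ⟨a, a1⟩) (j := ⟨b, b3⟩)
      (k := ⟨k, ki⟩) (fun e => b1 (congrArg Subtype.val e).symm) ?_ ?_)
    all_goals rwa [← res_ee, ← hx]
  by_cases ij : j = i
  · exact key hg (ij ▸ e)
  obtain ⟨k, k1, k2, -⟩ := h.fresh i j i i i i
  obtain ⟨c, hc, e1⟩ := exists_cyc h.two ij k2.symm k1.symm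
  refine (Subgroup.mul_mem_cancel_left _ hc.2).1 (key (mul_mem (h.lo hc) hg) fun l hl => ?_)
  rw [LinearEquiv.mul_apply, eq_smul_ee e, map_smul, e1.ee ij k2.symm]
  simp [ee_ne i hl]

theorem K (h : FC M) {g x : (ι → F) ≃ₗ[F] (ι → F)} (hg : g ∈ M)
    (hx : x ∈ OmG (sqF ι F) ⊓ MonG ι F) {a : ι} (e : x (g (ee F a)) = g (ee F a)) (b : ι) :
    x (g (ee F b)) = g (ee F b) ∨ x (g (ee F b)) = -g (ee F b) ∨
      g (ee F b) ⬝ᵥ x (g (ee F b)) = 0 := by
  have h1 := mul_mem (mul_mem (inv_mem hg) (h.lo hx)) hg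
  obtain ⟨π, ν, -, h2, -⟩ := exists_of_mem_MonG (h.A h1 (i := a) (j := a) fun l hl => by
    simp [e, inv_apply_apply, ee_ne a hl])
  have h3 : x (g (ee F b)) = ν b • g (ee F (π b)) := by
    rw [← map_smul, ← h2]; simp [apply_inv_apply]
  by_cases hb : π b = b
  · have h4 := dot_map h.two (h.hi h1) (ee F b) (ee F b)
    rw [h2] at h4
    rw [hb] at h3
    simp only [smul_dotProduct, dotProduct_smul, single_dotProduct, ee_self, smul_eq_mul,
      mul_one, mul_self_eq_one_iff] at h4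
    rcases h4 with e | e <;> simp [h3, e]
  · simp [h3, dot_map h.two (h.hi hg), ee_ne _ hb]

end FC

end CF.Geom
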