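/-
Maximality of the stabiliser of an orthonormal frame in `Ω_n(p)`.
-/
import Cfsg.Agent.Geom.FrO4

set_option autoImplicit false
set_option linter.unusedSectionVars false

namespace CF.Geom

open Module QuadraticMap

variable {F : Type*} [Field F] {ι : Type} [Fintype ι] [DecidableEq ι]
  {M : Subgroup ((ι → F) ≃ₗ[F] (ι → F))}

/-- A monomial map with displacement rank at most two moves at most four basis vectors. -/
theorem mon_rank_two' {k : (ι → F) ≃ₗ[F] (ι → F)} (hk : k ∈ MonG ι F) {p q : ι → F}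
    (hr : ∀ z, ∃ α β : F, k z - z = α • p + β • q) (L : List ι)
    (hL : L.length + 4 < Fintype.card ι) : ∃ j, j ∉ L ∧ k (ee F j) = ee F j := by
  by_contra! hc
  obtain ⟨ρ, κ, -, h1, -⟩ := exists_of_mem_MonG hk
  have e1 : ∀ j, j ∉ L → (k (ee F j) - ee F j) j ≠ 0 := fun j hj e => by
    by_cases h : ρ j = j
    · rw [h1, h] at e
      exact hc j hj (by rw [h1, h, show κ j = 1 by simpa [sub_eq_zero] using e, one_smul])
    · simp [h1, ee_ne _ (Ne.symm h)] at e
  have e2 : ∀ j l, l ≠ j → l ≠ ρ j → (k (ee F j) - ee F j) l = 0 := fun j l a b => by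
    simp [h1, ee_ne _ a, ee_ne _ b]
  obtain ⟨j, hj⟩ := exists_notMem_list L (by omega)
  obtain ⟨l, hl⟩ := exists_notMem_list (j :: ρ j :: L) (by simp; omega)
  obtain ⟨r, hr'⟩ := exists_notMem_list (j :: ρ j :: l :: ρ l :: L) (by simp; omega)
  simp only [List.mem_cons, not_or] at hl hr'
  obtain ⟨a₁, b₁, f₁⟩ := hr (ee F j)
  obtain ⟨a₂, b₂, f₂⟩ := hr (ee F l)
  obtain ⟨a₃, b₃, f₃⟩ := hr (ee F r)
  have g1 := e1 j hj
  have g2 := e1 l hl.2.2
  have g3 := e1 r hr'.2.2.2.2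
  have g4 := e2 j l hl.1 hl.2.1
  have g5 := e2 j r hr'.1 hr'.2.1
  have g6 := e2 l r hr'.2.2.1 hr'.2.2.2.1
  rw [f₁] at g1 g4 g5
  rw [f₂] at g2 g6
  rw [f₃] at g3
  simp only [Pi.add_apply, Pi.smul_apply, smul_eq_mul] at g1 g2 g3 g4 g5 g6
  have k1 : a₁ * b₂ - a₂ * b₁ = 0 := mul_right_cancel₀ g3 (by
    linear_combination (a₃ * b₂ - a₂ * b₃) * g5 + (a₁ * b₃ - a₃ * b₁) * g6)
  have k2 : a₁ = 0 := mul_right_cancel₀ g2 (by linear_combination a₂ * g4 + q l * k1)
  have k3 : b₁ = 0 := mul_right_cancel₀ g2 (by linear_combination b₂ * g4 - p l * k1)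
  exact g1 (by simp [k2, k3])

theorem exists_col (g : (ι → F) ≃ₗ[F] (ι → F)) (j : ι) : ∃ b, g (ee F b) j ≠ 0 :=
  exists_dual_ne (φ := pr F j ∘ₗ (g : (ι → F) →ₗ[F] (ι → F))) (x := g⁻¹ (ee F j))
    (by simp [apply_inv_apply])

theorem inv_col (h2 : (2 : F) ≠ 0) {g : (ι → F) ≃ₗ[F] (ι → F)} (hg : g ∈ OG (sqF ι F)) (j b : ι) :
    g⁻¹ (ee F j) b = g (ee F b) j := by
  simpa [apply_inv_apply] using (dot_map h2 hg (g⁻¹ (ee F j)) (ee F b)).symm

theorem conj_tt {g : (ι → F) ≃ₗ[F] (ι → F)} (hg : g ∈ OG (sqF ι F)) (i j : ι) :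
    g * tt F i j * g⁻¹ = (oRefl (sqF ι F) (g (ee F i))).1 * (oRefl (sqF ι F) (g (ee F j))).1 := by
  rw [← conj_oRefl' hg, ← conj_oRefl' hg, tt]; group

theorem conj_tt_apply (h2 : (2 : F) ≠ 0) {g : (ι → F) ≃ₗ[F] (ι → F)} (hg : g ∈ OG (sqF ι F))
    {i j : ι} (ij : i ≠ j) (x : ι → F) : (g * tt F i j * g⁻¹) x =
      x - (2 * (g (ee F i) ⬝ᵥ x)) • g (ee F i) - (2 * (g (ee F j) ⬝ᵥ x)) • g (ee F j) := by
  rw [conj_tt hg, LinearEquiv.mul_apply, oRefl_unit (by simp [dot_map h2 hg]),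
    oRefl_unit (by simp [dot_map h2 hg])]
  simp [dot_map h2 hg, ee_ne i ij.symm]
  module

theorem conj_tt_mon {g : (ι → F) ≃ₗ[F] (ι → F)} (hg : g ∈ OG (sqF ι F)) {π : Equiv.Perm ι}
    {ν : ι → F} (h0 : ∀ i, ν i ≠ 0) (h : ∀ i, g (ee F i) = ν i • ee F (π i)) (i j : ι) :
    g * tt F i j * g⁻¹ = tt F (π i) (π j) := by
  rw [conj_tt hg, h, h, oRefl_smul (h0 i), oRefl_smul (h0 j), tt]

theorem tt_comm {i j : ι} (ij : i ≠ j) : tt F i j = tt F j i :=
  LinearEquiv.ext fun x => by rw [tt_apply ij, tt_apply ij.symm]; module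

theorem tt_inj (h2 : (2 : F) ≠ 0) {a b c d : ι} (ab : a ≠ b) (cd : c ≠ d) :
    tt F a b = tt F c d ↔ (a = c ∧ b = d) ∨ (a = d ∧ b = c) := by
  refine ⟨fun e => ?_, by rintro (⟨rfl, rfl⟩ | ⟨rfl, rfl⟩); exacts [rfl, tt_comm ab]⟩
  have key : ∀ {a b : ι}, a ≠ b → tt F a b = tt F c d → a = c ∨ a = d := fun {a b} ab e => by
    by_contra! hc
    have := tt_left ab (ee F a)
    rw [e, tt_ne cd hc.1 hc.2, ee_self] at this
    exact h2 (by linear_combination this)
  have := key ab e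
  have := key ab.symm ((tt_comm ab).symm.trans e)
  grind

variable [Finite F]

namespace FC

variable {g : (ι → F) ≃ₗ[F] (ι → F)} {a b j k l m : ι}

theorem one (h : FC M) (hg : g ∈ M) (b : ι) : g (ee F b) ⬝ᵥ g (ee F b) = 1 := by
  simp [dot_map h.two (h.hi hg)]

theorem T (h : FC M) (hg : g ∈ M) (jk : j ≠ k) (hj : g (ee F a) j = 0) (hk : g (ee F a) k = 0)
    (b : ι) : (g (ee F b) j = 0 ∧ g (ee F b) k = 0) ∨
      (∀ m, m ≠ j → m ≠ k → g (ee F b) m = 0) ∨ 2 * (g (ee F b) j ^ 2 + g (ee F b) k ^ 2) = 1 := by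
  have z : ∀ {x : F}, x = -x → x = 0 := fun {x} e =>
    mul_left_cancel₀ h.two (by linear_combination e)
  rcases h.K hg (tt_mem h.two j k) (a := a) (by simp [tt_apply jk, hj, hk]) b with e | e | e
  · exact Or.inl ⟨z (by rw [← tt_left jk, e]), z (by rw [← tt_right jk, e])⟩
  · exact Or.inr (Or.inl fun m h1 h2 => z (by rw [← Pi.neg_apply, ← e, tt_ne jk h1 h2]))
  · simp only [tt_apply jk, dotProduct_sub, dotProduct_smul, h.one hg, dotProduct_single,
      smul_eq_mul] at e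
    exact Or.inr (Or.inr (by linear_combination -e))

theorem P1 (h : FC M) (hg : g ∈ M) (hn : g ∉ MonG ι F) (jk : j ≠ k) (jl : j ≠ l) (kl : k ≠ l)
    (hj : g (ee F a) j = 0) (hk : g (ee F a) k = 0) (hl : g (ee F a) l = 0)
    (h0 : g (ee F b) j ≠ 0) : g (ee F b) l ≠ 0 := fun e => by
  obtain ⟨c, hc, ec⟩ := exists_cyc h.two jk jl kl
  have t1 : 2 * g (ee F b) j ^ 2 = 1 := by
    rcases h.T hg jl hj hl b with t | t | t
    · exact absurd t.1 h0
    · exact absurd (h.A hg (i := b) (j := j) fun m hm => by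
        by_cases ml : m = l
        exacts [ml ▸ e, t m hm ml]) hn
    · linear_combination t - 2 * g (ee F b) l * e
  rcases h.K hg hc (ec.fix hj hk hl) b with t | t | t
  · have := congrFun t j
    simp [ec (g (ee F b)), ee_ne k jk, ee_ne l jl, e, h0.symm] at this
  · have := congrFun t j
    simp [ec (g (ee F b)), ee_ne k jk, ee_ne l jl, e, h0] at this
  · simp only [ec (g (ee F b)), dotProduct_add, dotProduct_smul, h.one hg, dotProduct_single,
      smul_eq_mul, e] at t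
    rcases h.T hg kl hk hl b with s | s | s
    · rw [s.1] at t; exact one_ne_zero (α := F) (by linear_combination 2 * t + t1)
    · exact h0 (s j jk jl)
    · rw [e] at s
      have k0 : g (ee F b) k ≠ 0 := fun e => by simp [e] at s
      exact mul_ne_zero h.two (mul_ne_zero h0 k0) (by linear_combination 2 * t + t1 + s)

theorem P (h : FC M) (hg : g ∈ M) (hn : g ∉ MonG ι F) (jk : j ≠ k) (jl : j ≠ l) (kl : k ≠ l)
    (hj : g (ee F a) j = 0) (hk : g (ee F a) k = 0) (hl : g (ee F a) l = 0)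
    (h0 : g (ee F b) j ≠ 0) : 4 * g (ee F b) j ^ 2 = 1 := by
  have l0 := h.P1 hg hn jk jl kl hj hk hl h0
  have k0 := h.P1 hg hn jl jk kl.symm hj hl hk h0
  have t1 := ((h.T hg jk hj hk b).resolve_left fun t => h0 t.1).resolve_left
    fun t => l0 (t l jl.symm kl.symm)
  have t2 := ((h.T hg jl hj hl b).resolve_left fun t => h0 t.1).resolve_left
    fun t => k0 (t k jk.symm kl)
  have t3 := ((h.T hg kl hk hl b).resolve_left fun t => k0 t.1).resolve_left
    fun t => h0 (t j jk jl)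
  linear_combination t1 + t2 - t3

theorem F5 (h : FC M) (hg : g ∈ M) (hn : g ∉ MonG ι F) {o : ι} (jk : j ≠ k) (jl : j ≠ l)
    (jm : j ≠ m) (kl : k ≠ l) (km : k ≠ m) (lm : l ≠ m) (oj : o ≠ j) (ok : o ≠ k) (ol : o ≠ l)
    (om : o ≠ m) (hj : g (ee F a) j = 0) (hk : g (ee F a) k = 0) (hl : g (ee F a) l = 0)
    (hm : g (ee F a) m = 0) (ho : g (ee F a) o = 0) : False := by
  obtain ⟨b, h0⟩ := exists_col g j
  have z : ∀ {x : F}, x = -x → x = 0 := fun {x} e =>
    mul_left_cancel₀ h.two (by linear_combination e)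
  rcases h.K hg (mul_mem (tt_mem h.two j k) (tt_mem h.two l m)) (a := a)
    (by simp [tt_apply jk, tt_apply lm, hj, hk, hl, hm]) b with e | e | e <;>
    rw [LinearEquiv.mul_apply] at e
  · exact h0 (z (by nth_rw 1 [← congrFun e j]; rw [tt_left jk, tt_ne lm jl jm]))
  · exact h.P1 hg hn jk oj.symm ok.symm hj hk ho h0
      (z (by rw [← Pi.neg_apply, ← e, tt_ne jk oj ok, tt_ne lm ol om]))
  · simp only [tt_apply jk, tt_ne lm jl jm, tt_ne lm kl km] at e
    simp only [tt_apply lm, dotProduct_sub, dotProduct_smul, h.one hg, dotProduct_single,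
      smul_eq_mul] at e
    have a1 := h.P hg hn jk jl kl hj hk hl h0
    have a2 := h.P hg hn jk.symm kl jl hk hj hl (h.P1 hg hn jl jk kl.symm hj hl hk h0)
    have a3 := h.P hg hn jl.symm kl.symm jk hl hj hk (h.P1 hg hn jk jl kl hj hk hl h0)
    have a4 := h.P hg hn jm.symm km.symm jk hm hj hk (h.P1 hg hn jk jm km hj hk hm h0)
    exact h.two (by linear_combination -2 * e - a1 - a2 - a3 - a4)

theorem F7 (h : FC M) (hg : g ∈ M) (hn : g ∉ MonG ι F) (jk : j ≠ k) (jl : j ≠ l) (kl : k ≠ l)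
    (hj : g (ee F a) j = 0) (hk : g (ee F a) k = 0) (hl : g (ee F a) l = 0)
    (hs : ∀ s, s ≠ j → s ≠ k → s ≠ l → 4 * g (ee F a) s ^ 2 = 1) : False := by
  obtain ⟨b, h0⟩ := exists_col g j
  have z : ∀ {x : F}, x = -x → x = 0 := fun {x} e =>
    mul_left_cancel₀ h.two (by linear_combination e)
  have k0 := h.P1 hg hn jl jk kl.symm hj hl hk h0
  have l0 := h.P1 hg hn jk jl kl hj hk hl h0
  have a1 := h.P hg hn jk jl kl hj hk hl h0
  have a2 := h.P hg hn jk.symm kl jl hk hj hl k0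
  have a3 := h.P hg hn jl.symm kl.symm jk hl hj hk l0
  have o1 := h.one hg a
  have o2 := h.one hg b
  have o3 : g (ee F a) ⬝ᵥ g (ee F b) = 0 := by
    rw [dot_map h.two (h.hi hg), single_dotProduct, one_mul]
    exact ee_ne b (by rintro rfl; exact h0 hj)
  have K := fun x hx e => h.K hg (x := x) hx (a := a) e b
  generalize g (ee F a) = u at *
  generalize g (ee F b) = w at *
  have h4 : (4 : F) ≠ 0 := by convert mul_ne_zero h.two h.two using 1; ring
  have key : ∀ s t, s ≠ j → s ≠ k → s ≠ l → t ≠ j → t ≠ k → t ≠ l → u t * w s = u s * w t :=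
    fun s t s1 s2 s3 t1 t2 t3 => by
    by_cases st : s = t
    · rw [st]
    have b1 := hs s s1 s2 s3
    have b2 := hs t t1 t2 t3
    have u0 : u t ≠ 0 := fun e => by simp [e] at b2
    have q1 : (u t • ee F s + (-u s) • ee F t) ⬝ᵥ (u t • ee F s + (-u s) • ee F t) = 2⁻¹ := by
      refine eq_inv_of_mul_eq_one_left (mul_left_cancel₀ h.two ?_)
      simp [ee_ne s (Ne.symm st), ee_ne t st]; linear_combination b1 + b2
    have q2 : (w j • ee F j + w k • ee F k) ⬝ᵥ (w j • ee F j + w k • ee F k) = 2⁻¹ := by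
      refine eq_inv_of_mul_eq_one_left (mul_left_cancel₀ h.two ?_)
      simp [ee_ne j jk.symm, ee_ne k jk]; linear_combination a1 + a2
    have r1 : (oRefl (sqF ι F) (w j • ee F j + w k • ee F k)).1 w =
        w - (2 * w j) • ee F j - (2 * w k) • ee F k := by
      rw [oRefl_sqF, q2]; simp
      linear_combination (norm := module) -(a1 + a2) • (w j • ee F j + w k • ee F k)
    rcases K _ ⟨oRefl_mul_mem_OmG h.nd (by rw [sqF_apply, q1]; exact inv_ne_zero h.two)
      (by rw [sqF_apply, sqF_apply, q1, q2]), mul_mem (oRefl_pair_mem_MonG h.two st u0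
      (mul_left_cancel₀ h4 (by linear_combination b1 - b2))) (oRefl_pair_mem_MonG h.two jk h0
      (mul_left_cancel₀ h4 (by linear_combination a2 - a1)))⟩ (by
        rw [LinearEquiv.mul_apply, oRefl_of_polar_eq_zero (x := u) (by simp [polar_sqF, hj, hk]),
          oRefl_of_polar_eq_zero (by rw [polar_sqF]; simp; ring_nf; simp)]) with e | e | e <;>
      rw [LinearEquiv.mul_apply, r1, oRefl_sqF, q1] at e
    · have := congrFun e j
      simp [ee_ne k jk, ee_ne s s1.symm, ee_ne t t1.symm, h.two, h0] at this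
    · have := congrFun e l
      simp only [Pi.sub_apply, Pi.add_apply, Pi.smul_apply, Pi.neg_apply, ee_ne j jl.symm,
        ee_ne k kl.symm, ee_ne s s3.symm, ee_ne t t3.symm, smul_zero, sub_zero, add_zero] at this
      exact absurd (z this) l0
    · simp only [dotProduct_sub, dotProduct_add, add_dotProduct, dotProduct_smul, smul_dotProduct,
        dotProduct_single, single_dotProduct, o2, ee_ne s s1.symm, ee_ne s s2.symm, ee_ne t t1.symm,
        ee_ne t t2.symm, smul_eq_mul, inv_inv, Pi.add_apply, Pi.smul_apply] at e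
      refine sub_eq_zero.1 (pow_eq_zero_iff (n := 2) (by simp) |>.1 (mul_left_cancel₀
        (mul_ne_zero h.two h4) ?_))
      linear_combination -2 * e - a1 - a2
  obtain ⟨s, s1, s2, s3, -⟩ := h.fresh j k l j j j
  have e1 : u s • w = w s • u + (u s * w j) • ee F j + (u s * w k) • ee F k +
      (u s * w l) • ee F l := funext fun t => by
    by_cases t1 : t = j
    · simp [t1, hj, ee_ne k jk, ee_ne l jl]
    by_cases t2 : t = k
    · simp [t2, hk, ee_ne j jk.symm, ee_ne l kl]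
    by_cases t3 : t = l
    · simp [t3, hl, ee_ne j jl.symm, ee_ne k kl.symm]
    simp [ee_ne j t1, ee_ne k t2, ee_ne l t3, key t s t1 t2 t3 s1 s2 s3, mul_comm]
  have e2 := congrArg (u ⬝ᵥ ·) e1
  have e3 := congrArg (w ⬝ᵥ ·) e1
  simp only [dotProduct_add, dotProduct_smul, dotProduct_single, o1, o2, o3, hj, hk, hl,
    dotProduct_comm w u, smul_eq_mul] at e2 e3
  have u0 : u s ≠ 0 := fun e => by simpa [e] using hs s s1 s2 s3
  exact u0 (by linear_combination 4 * e3 + u s * (a1 + a2 + a3))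

theorem N7 (h : FC M) (h7 : Fintype.card ι = 7) (hg : g ∈ M) (hn : g ∉ MonG ι F) (jk : j ≠ k)
    (jl : j ≠ l) (kl : k ≠ l) (hj : g (ee F a) j = 0) (hk : g (ee F a) k = 0)
    (hl : g (ee F a) l = 0) : False := by
  classical
  have hi : g⁻¹ ∉ MonG ι F := fun e => hn (inv_mem_iff.1 e)
  have r : ∀ b, g⁻¹ (ee F j) b ≠ 0 → 4 * g⁻¹ (ee F j) b ^ 2 = 1 := fun b => by
    rw [inv_col h.two (h.hi hg)]; exact h.P hg hn jk jl kl hj hk hl
  have r0 : g⁻¹ (ee F j) a = 0 := by rw [inv_col h.two (h.hi hg), hj]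
  have o := h.one (inv_mem hg) j
  have A := fun i => h.A (inv_mem hg) (i := j) (j := i)
  have F7 := fun a b c => h.F7 (inv_mem hg) hi (a := j) (j := a) (k := b) (l := c)
  generalize g⁻¹ (ee F j) = u at *
  obtain ⟨S, hS⟩ : ∃ S, S = Finset.univ.filter (u · ≠ 0) := ⟨_, rfl⟩
  have m : ∀ b, b ∈ S ↔ u b ≠ 0 := by simp [hS]
  have c1 : (S.card : F) = 4 := by
    rw [← mul_one (4 : F), ← o, dotProduct, Finset.mul_sum, Finset.card_eq_sum_ones, Nat.cast_sum]
    refine (Finset.sum_congr rfl fun b hb => ?_).trans (Finset.sum_subset (Finset.subset_univ S)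
      fun b _ hb => by simp [not_not.1 ((m b).not.1 hb)])
    rw [← pow_two, r b ((m b).1 hb), Nat.cast_one]
  have c2 : S.card < 7 := h7 ▸ Finset.card_lt_card
    (Finset.ssubset_univ_iff.2 fun e => (m a).1 (e ▸ Finset.mem_univ a) r0)
  have c3 : Sᶜ.card = 7 - S.card := by rw [Finset.card_compl, h7]
  obtain ⟨n, hn'⟩ : ∃ n, S.card = n := ⟨_, rfl⟩
  rw [hn'] at c1 c2 c3
  have two := h.two
  interval_cases n
  · exact mul_ne_zero two two (by linear_combination -c1)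
  · obtain ⟨i, rfl⟩ := Finset.card_eq_one.1 hn'
    exact hi (A i fun l hl => not_not.1 ((m l).not.1 (by simpa using hl)))
  · exact two (by linear_combination -c1)
  · exact one_ne_zero (α := F) (by linear_combination -c1)
  · obtain ⟨x, y, z, xy, xz, yz, e⟩ := Finset.card_eq_three.1 c3
    have m' : ∀ b, u b = 0 ↔ b = x ∨ b = y ∨ b = z := fun b => by
      simpa [m] using Finset.ext_iff.1 e b
    exact F7 x y z xy xz yz (by simp [m']) (by simp [m']) (by simp [m'])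
      fun s s1 s2 s3 => r s (by simp [m', s1, s2, s3])
  · exact one_ne_zero (α := F) (by linear_combination c1)
  · exact two (by linear_combination c1)

theorem Z (h : FC M) (h8 : Fintype.card ι ≠ 8) (hg : g ∈ M)
    (H : ∀ L : List ι, L.length + 4 < Fintype.card ι → ∃ j, j ∉ L ∧ g (ee F a) j = 0) :
    g ∈ MonG ι F := by
  by_contra hn
  have h7 := h.n7
  obtain ⟨j, -, hj⟩ := H [] (by simp; omega)
  obtain ⟨k, k1, hk⟩ := H [j] (by simp; omega)
  obtain ⟨l, l1, hl⟩ := H [j, k] (by simp; omega)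
  simp only [List.mem_cons, List.not_mem_nil, or_false, not_or] at k1 l1
  by_cases e : Fintype.card ι = 7
  · exact h.N7 e hg hn (Ne.symm k1) (Ne.symm l1.1) (Ne.symm l1.2) hj hk hl
  obtain ⟨m, m1, hm⟩ := H [j, k, l] (by simp; omega)
  obtain ⟨o, o1, ho⟩ := H [j, k, l, m] (by simp; omega)
  simp only [List.mem_cons, List.not_mem_nil, or_false, not_or] at m1 o1
  exact h.F5 hg hn (Ne.symm k1) (Ne.symm l1.1) (Ne.symm m1.1) (Ne.symm l1.2) (Ne.symm m1.2.1)
    (Ne.symm m1.2.2) o1.1 o1.2.1 o1.2.2.1 o1.2.2.2 hj hk hl hm ho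

theorem dih (h : FC M) (h8 : Fintype.card ι ≠ 8) :
    Dih M (MonG ι F) {t | ∃ i j, i ≠ j ∧ t = tt F i j} := by
  have z : ∀ {x : F}, x = -x → x = 0 := fun {x} e =>
    mul_left_cancel₀ h.two (by linear_combination e)
  refine ⟨?_, ?_, ?_, ?_, ?_, ?_⟩
  · rintro _ ⟨i, j, -, rfl⟩; exact h.lo (tt_mem h.two i j)
  · rintro _ ⟨i, j, -, rfl⟩; exact (tt_mem h.two i j).2
  · rintro _ ⟨i, j, ij, rfl⟩
    nth_rw 2 [tt_comm ij]
    rw [tt, tt, mul_assoc, ← mul_assoc (oRefl _ (ee F j)).1, oRefl_sq, one_mul, oRefl_sq]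
  · rintro g hg hg' _ ⟨i, j, ij, rfl⟩
    obtain ⟨π, ν, h0, h1, -⟩ := exists_of_mem_MonG hg'
    exact ⟨_, _, π.injective.ne ij, conj_tt_mon (h.hi hg) h0 h1 i j⟩
  · rintro g hg _ ⟨i, j, ij, rfl⟩ e
    refine h.Z h8 hg (a := i) fun L hL => ?_
    obtain ⟨l, l1, l2⟩ := mon_rank_two' e (p := g (ee F i)) (q := g (ee F j)) (fun x =>
      ⟨-(2 * (g (ee F i) ⬝ᵥ x)), -(2 * (g (ee F j) ⬝ᵥ x)), by
        rw [conj_tt_apply h.two (h.hi hg) ij]; module⟩) L hL
    have := congrArg (g (ee F i) ⬝ᵥ ·) l2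
    rw [conj_tt_apply h.two (h.hi hg) ij] at this
    simp [dot_map h.two (h.hi hg), ee_ne i ij.symm, h.two] at this
    exact ⟨l, l1, this⟩
  · rintro g hg _ ⟨a, b, ab, rfl⟩ _ ⟨c, d, cd, rfl⟩ _ ⟨a', b', ab', rfl⟩ _ ⟨c', d', cd', rfl⟩ h1 - e
    have : ∃ i, (tt F a b * tt F c d) (ee F i) = -ee F i := by
      have key : ∀ {a b : ι}, a ≠ b → a ≠ c → a ≠ d → (tt F a b * tt F c d) (ee F a) = -ee F a :=
        fun {a b} ab ac ad => by
          rw [LinearEquiv.mul_apply, tt_apply cd, ee_ne a ac.symm, ee_ne a ad.symm]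
          simp [tt_apply ab, ee_ne a ab.symm]; module
      by_cases e1 : a ≠ c ∧ a ≠ d
      · exact ⟨a, key ab e1.1 e1.2⟩
      by_cases e2 : b ≠ c ∧ b ≠ d
      · exact ⟨b, tt_comm (F := F) ab ▸ key ab.symm e2.1 e2.2⟩
      refine absurd ?_ h1
      rw [(tt_inj h.two ab cd.symm).2 (by grind), tt, tt, mul_assoc,
        ← mul_assoc (oRefl _ (ee F c)).1, oRefl_sq, one_mul, oRefl_sq]
    obtain ⟨i, hi⟩ := this
    refine h.Z h8 hg (a := i) fun L hL => ?_
    obtain ⟨l, hl⟩ := exists_notMem_list (a' :: b' :: c' :: d' :: L) (by simp; omega)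
    simp only [List.mem_cons, not_or] at hl
    refine ⟨l, hl.2.2.2.2, z ?_⟩
    have := congrFun (congrArg (· (g (ee F i))) e) l
    simp only [LinearEquiv.mul_apply (g * _), inv_apply_apply, LinearEquiv.mul_apply g, hi] at this
    rw [LinearEquiv.mul_apply, tt_ne ab' hl.1 hl.2.1, tt_ne cd' hl.2.2.1 hl.2.2.2.1, map_neg] at this
    exact this.symm

theorem le_MonG (h : FC M) (h8 : Fintype.card ι ≠ 8) : M ≤ MonG ι F := fun g hg => by
  classical
  by_contra hn
  have h7 := h.n7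
  have : Finite ((ι → F) ≃ₗ[F] (ι → F)) := Finite.of_injective _ DFunLike.coe_injective
  obtain ⟨a, b, ab⟩ := Fintype.exists_pair_of_one_lt_card (α := ι) (by omega)
  obtain ⟨S, h1, h2, h3⟩ := (h.dih h8).exists_regular hg hn ⟨a, b, ab, rfl⟩
  choose π ν n0 n1 n2 using fun s : S => exists_of_mem_MonG (h2 s s.2).2.1
  obtain ⟨-, ⟨y, hy⟩, -⟩ := pairs_count π (x := ⟨1, h1⟩) (fun i k i' k' ik ik' => by
    obtain ⟨s, ⟨s1, s2⟩, s3⟩ := h3 _ ⟨i, k, ik, rfl⟩ _ ⟨i', k', ik', rfl⟩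
    have key : ∀ y : S, y.1 * tt F i k * y.1⁻¹ = tt F i' k' ↔ _ := fun y => by
      rw [conj_tt_mon (h.hi (h2 y y.2).1) (n0 y) (n1 y), tt_inj h.two ((π y).injective.ne ik) ik']
    exact ⟨⟨s, s1⟩, (key _).1 s2, fun y hy => Subtype.ext (s3 y ⟨y.2, (key y).2 hy⟩)⟩)
    (Equiv.ext fun i => by_contra fun e => by
      simpa [ee_ne (π ⟨1, h1⟩ i) (j := i) (Ne.symm e)] using congrFun (n1 ⟨1, h1⟩ i) i) (by omega)
  obtain ⟨-, -, -, _, _, ⟨g₁, hg₁, _, ⟨i₁, j₁, ij₁, rfl⟩, rfl⟩, ⟨g₂, hg₂, _, ⟨i₂, j₂, ij₂, rfl⟩, rfl⟩,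
    e⟩ := h2 y y.2
  let W := Submodule.span F
    (({g₁ (ee F i₁), g₁ (ee F j₁), g₂ (ee F i₂), g₂ (ee F j₂)} : Finset (ι → F)) : Set (ι → F))
  have w1 : finrank F W ≤ 4 := (finrank_span_finset_le_card _).trans Finset.card_le_four
  have w2 := finrank_le_fix_add y.1 W fun x => by
    have m : ∀ v ∈ ({g₁ (ee F i₁), g₁ (ee F j₁), g₂ (ee F i₂), g₂ (ee F j₂)} : Finset (ι → F)),
      ∀ c : F, c • v ∈ W := fun v hv c => W.smul_mem c (Submodule.subset_span hv)
    rw [e, LinearEquiv.mul_apply, conj_tt_apply h.two (h.hi hg₁) ij₁, sub_right_comm,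
      sub_right_comm _ _ x]
    refine sub_mem (sub_mem ?_ (m _ (by simp) _)) (m _ (by simp) _)
    rw [conj_tt_apply h.two (h.hi hg₂) ij₂, sub_right_comm, sub_sub_cancel_left]
    exact sub_mem (neg_mem (m _ (by simp) _)) (m _ (by simp) _)
  have w3 := three_mul_finrank_fix_le (fun i => LinearMap.ker (pr F i)) (k := 1) (fun i => by
    have := (pr F i).finrank_range_add_finrank_ker
    have := (Submodule.finrank_le (LinearMap.range (pr F i))).trans_eq (finrank_self F)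
    omega) (fun x hx => funext hx) (π y) hy (LinearMap.ker ((y.1 : (ι → F) →ₗ[F] (ι → F)) - 1))
    fun x hx i hi => by
      have e1 : y.1 x = x := sub_eq_zero.1 hx
      have e2 := n2 y x i
      rw [e1, show x i = 0 from hi, mul_zero] at e2
      exact e2
  rw [finrank_fintype_fun_eq_card] at w2
  omega

end FC

/-- The monomial subgroup of `Ω_n(p)` is maximal for `n = 7` and `n ≥ 9`. -/
theorem omega_maxIn_MonG (hp : (Nat.card F).Prime) (h2 : (2 : F) ≠ 0) (h7 : 7 ≤ Fintype.card ι)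
    (h8 : Fintype.card ι ≠ 8) : MaxIn (OmG (sqF ι F)) (MonG ι F) := by
  refine ⟨fun hle => ?_, fun M h1 h3 m hm hm' => by_contra fun hn =>
    hm' (FC.le_MonG ⟨hp, h2, h7, h1, h3.trans OmG_le, hn⟩ h8 hm)⟩
  obtain ⟨a⟩ : Nonempty ι := Fintype.card_pos_iff.1 (by omega)
  obtain ⟨b, ba⟩ := exists_notMem_list [a] (by simp; omega)
  obtain ⟨c, ca⟩ := exists_notMem_list [a, b] (by simp; omega)
  obtain ⟨d, da⟩ := exists_notMem_list [a, b, c] (by simp; omega)
  simp only [List.mem_cons, List.not_mem_nil, or_false, not_or] at ba ca da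
  obtain ⟨y, hy⟩ : ∃ y, y = (2 : F)⁻¹ • (ee F a + ee F b + ee F c + ee F d) := ⟨_, rfl⟩
  have ya : y a = 2⁻¹ := by
    simp [hy, ee_ne b (Ne.symm ba), ee_ne c (Ne.symm ca.1), ee_ne d (Ne.symm da.1)]
  have yb : y b = 2⁻¹ := by simp [hy, ee_ne a ba, ee_ne c (Ne.symm ca.2), ee_ne d (Ne.symm da.2.1)]
  have yc : y c = 2⁻¹ := by simp [hy, ee_ne a ca.1, ee_ne b ca.2, ee_ne d (Ne.symm da.2.2)]
  have yd : y d = 2⁻¹ := by simp [hy, ee_ne a da.1, ee_ne b da.2.1, ee_ne c da.2.2]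
  have q : y ⬝ᵥ y = 1 := by
    nth_rw 2 [hy]; simp [ya, yb, yc, yd]; field_simp; ring
  obtain ⟨π, ν, -, h3, -⟩ := exists_of_mem_MonG (hle (oRefl_mul_mem_OmG (sqF_nondegenerate h2)
    (v := y) (w := ee F a) (by simp [sqF_apply, q]) (by simp [sqF_apply, q])))
  have key : ∀ l, l ≠ b → y l = 2⁻¹ → l = π b := fun l hl e => by_contra fun e' => by
    have := congrFun (h3 b) l
    rw [LinearEquiv.mul_apply, oRefl_ee, oRefl_unit q] at this
    simp [ee_ne b (Ne.symm ba), ee_ne b hl, ee_ne _ e', yb, e, h2] at this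
  exact ca.1 ((key c ca.2 yc).trans (key a (Ne.symm ba) ya).symm)

theorem MaxIn.of_equiv {G G' : Type*} [Group G] [Group G'] (e : G ≃* G') {K H : Subgroup G}
    {K' H' : Subgroup G'} (h : MaxIn K H) (hK : ∀ g, e g ∈ K' ↔ g ∈ K)
    (hH : ∀ g, e g ∈ H' ↔ g ∈ H) : MaxIn K' H' := by
  refine ⟨fun hle => h.1 fun g hg => (hH g).1 (hle ((hK g).2 hg)), fun M h1 h2 m hm hm' g hg => ?_⟩
  obtain ⟨m, rfl⟩ := e.surjective m
  obtain ⟨g, rfl⟩ := e.surjective g
  exact h.2 (M.comap e.toMonoidHom) (fun x hx => h1 ⟨(hK x).2 hx.1, (hH x).2 hx.2⟩)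
    (fun x hx => (hK x).1 (h2 hx)) m hm (fun e => hm' ((hH m).2 e)) ((hK g).1 hg)

section Transport

variable {V W : Type*} [AddCommGroup V] [Module F V] [AddCommGroup W] [Module F W]

theorem autCongr_mem_OmG {Q : QuadraticForm F V} {Q' : QuadraticForm F W} (e : V ≃ₗ[F] W) {δ : F}
    (hδ : δ ≠ 0) (h : ∀ x, Q' (e x) = δ * Q x) (g : V ≃ₗ[F] V) :
    autCongr e g ∈ OmG Q' ↔ g ∈ OmG Q := by
  have h1 : OG Q' = (OG Q).map (autCongr e).toMonoidHom := Subgroup.ext fun g => by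
    obtain ⟨g, rfl⟩ := (autCongr e).surjective g
    refine Iff.trans ?_ (Subgroup.mem_map_iff_mem (f := (autCongr e).toMonoidHom)
      (autCongr e).injective).symm
    rw [mem_OG, mem_OG, e.surjective.forall]
    simp [autCongr_apply, h, hδ]
  rw [OmG, OmG, Subgroup.map_subtype_commutator, Subgroup.map_subtype_commutator, h1,
    ← Subgroup.map_commutator]
  exact Subgroup.mem_map_iff_mem (f := (autCongr e).toMonoidHom) (autCongr e).injective

theorem ODec.exists_frame [FiniteDimensional F V] {σ : F →+* F} {B : V →ₛₗ[σ] V →ₗ[F] F}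
    {Q : V → F} {D : ι → Submodule F V} (h : ODec B Q 1 D) (o : ι) :
    ∃ (e : (ι → F) ≃ₗ[F] V) (δ : F), δ ≠ 0 ∧ (∀ i, (F ∙ ee F i).map (e : (ι → F) →ₗ[F] V) = D i) ∧
      ∀ x y, B (e x) (e y) = δ * ∑ i, σ (x i) * y i := by
  choose φ hφ using h.iso o
  obtain ⟨⟨v, hv⟩, v0⟩ := (D o).nontrivial_iff_ne_bot.2 (h.ne_bot o) |>.exists_pair_ne.elim
    fun a ⟨b, ab⟩ => (⟨a - b, sub_ne_zero.2 ab⟩ : ∃ v : D o, v ≠ 0)
  have e1 : ∀ i, (F ∙ (φ i ⟨v, hv⟩ : V)) = D i := fun i =>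
    Submodule.eq_of_le_of_finrank_eq ((Submodule.span_singleton_le_iff_mem _ _).2 (φ i _).2)
      (by rw [h.dim, finrank_span_singleton (by simpa using v0)])
  have e2 : B v v ≠ 0 := fun e => v0 (Subtype.ext (Submodule.disjoint_def.1 (h.nondeg o) v hv
    (mem_perp.2 fun x hx => by
      obtain ⟨c, rfl⟩ := (finrank_eq_one_iff_of_nonzero' _ v0).1 (h.dim o) ⟨x, hx⟩ |>.imp
        fun c (e : c • (⟨v, hv⟩ : D o) = _) => (congrArg Subtype.val e : c • v = x)
      simp [e])))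
  let f : (ι → F) →ₗ[F] V := Fintype.linearCombination F fun i => (φ i ⟨v, hv⟩ : V)
  have e3 : ∀ i, f (ee F i) = φ i ⟨v, hv⟩ := fun i => by simp [f]
  have e4 : ∀ x y, B (f x) (f y) = B v v * ∑ i, σ (x i) * y i := fun x y => by
    simp only [f, Fintype.linearCombination_apply, map_sum, LinearMap.sum_apply, map_smulₛₗ,
      LinearMap.smul_apply, smul_eq_mul, Finset.mul_sum, RingHom.id_apply]
    refine Finset.sum_congr rfl fun i _ => ?_
    rw [Finset.sum_eq_single i (fun j _ hj => by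
      rw [h.B_eq_zero hj (φ j _).2 (φ i _).2]; simp) (by simp), (hφ i).1]
    ring
  refine ⟨LinearEquiv.ofBijective f ⟨(injective_iff_map_eq_zero _).2 fun y hy => funext fun i => ?_,
    LinearMap.range_eq_top.1 (eq_top_iff.2 (h.top ▸ iSup_le fun i => e1 i ▸
      (Submodule.span_singleton_le_iff_mem _ _).2 ⟨_, e3 i⟩))⟩, _, e2, fun i => ?_, e4⟩
  · have := e4 (ee F i) y
    rw [hy, map_zero, Finset.sum_eq_single i (fun j _ hj => by simp [ee_ne i hj]) (by simp)] at this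
    simpa [e2] using this
  · rw [Submodule.map_span, Set.image_singleton]; exact (congrArg (F ∙ ·) (e3 i)).trans (e1 i)

/-- Stabilisers of orthogonal frames are maximal in `Ω_n(p)` for `n = 7` and `n ≥ 9`. -/
theorem omega_maxIn_frame [FiniteDimensional F V] {Q : QuadraticForm F V} {D : ι → Submodule F V}
    (h : ODec (polarBilin Q) Q 1 D) (hp : (Nat.card F).Prime) (h2 : (2 : F) ≠ 0)
    (h7 : 7 ≤ finrank F V) (h8 : finrank F V ≠ 8) : MaxIn (OmG Q) (decStab D) := by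
  rcases isEmpty_or_nonempty ι with hι | ⟨⟨o⟩⟩
  · have := h.top
    rw [iSup_of_empty] at this
    rw [← finrank_top, ← this] at h7; simp at h7
  obtain ⟨e, δ, hδ, h1, h3⟩ := h.exists_frame o
  rw [← e.finrank_eq, finrank_fintype_fun_eq_card] at h7 h8
  refine (omega_maxIn_MonG hp h2 h7 h8).of_equiv (autCongr e) (autCongr_mem_OmG e
    (div_ne_zero hδ h2) fun x => mul_left_cancel₀ h2 ?_) (autCongr_mem_decStab e h1)
  rw [← polar_self', ← polarBilin_apply_apply, h3, sqF_apply]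
  field_simp; rfl

end Transport

end CF.Geom
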