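/-
The `p`-fusion system of `Aₙ` has no proper normal subsystem of index prime to `p`
(`p` odd, `p² ≤ n`, `n ≡ 0, 1 mod p`).
-/
import Cfsg.Agent.Geom.AltF1
import Cfsg.Agent.Classical.SymSyl

set_option autoImplicit false
set_option linter.unusedSectionVars false

namespace CF.Geom

open Subgroup Equiv Cfsg CF.Perm

variable {M R : Type*} {p : ℕ} [hp : Fact p.Prime] [Fintype M] [DecidableEq M] [Fintype R]
  [DecidableEq R]

/-- Blockwise multiplication by units. -/
def wrD (R : Type*) : (M → (ZMod p)ˣ) →* Perm (M × ZMod p ⊕ R) :=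
  MonoidHom.mk' (fun u => Equiv.sumCongr (prodCongrRight fun i => (u i).mulLeft) 1) fun u v => by
    ext (⟨i, z⟩ | r) <;> simp [mul_assoc]

@[simp] theorem wrD_inl (u : M → (ZMod p)ˣ) (i : M) (z : ZMod p) :
    wrD R u (.inl (i, z)) = .inl (i, u i * z) := rfl

@[simp] theorem wrD_inr (u : M → (ZMod p)ˣ) (r : R) : wrD R u (.inr r) = .inr r := rfl

theorem wrD_mul_wr (u : M → (ZMod p)ˣ) (σ : Perm M) (f : M → ZMod p) :
    wrD R u * wr R σ f = wr R σ (fun i => (u (σ i) : ZMod p) * f i) * wrD R (u ∘ σ) := by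
  ext (⟨i, z⟩ | r) <;> simp [mul_add]

theorem mem_base {g : Perm (M × ZMod p ⊕ R)} : g ∈ wrSub R p ⊥ ↔ ∃ f, wr R 1 f = g := by
  simp [mem_wrSub]

theorem wr_mem_norm (σ : Perm M) (f : M → ZMod p) :
    wr R σ f ∈ normalizer (wrSub R p (⊥ : Subgroup (Perm M)) : Set _) :=
  mem_normalizer_fintype fun x hx => by
    obtain ⟨g, rfl⟩ := mem_base.1 hx
    simp [wr_inv, wr_mul, wr_mem_wrSub]

theorem wrD_mem_norm (u : M → (ZMod p)ˣ) :
    wrD R u ∈ normalizer (wrSub R p (⊥ : Subgroup (Perm M)) : Set _) :=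
  mem_normalizer_fintype fun x hx => by
    obtain ⟨g, rfl⟩ := mem_base.1 hx
    simp [wrD_mul_wr, wr_mem_wrSub]

theorem blk {g : Perm (M × ZMod p ⊕ R)} {i k : M} {a : ZMod p} (ha : a ≠ 0)
    (h : g * wr R 1 (Pi.single i 1) = wr R 1 (Pi.single k a) * g) :
    ∃ b, ∀ z, g (.inl (i, z)) = .inl (k, a * z + b) := by
  have h1 : ∀ z, g (.inl (i, z + 1)) = wr R 1 (Pi.single k a) (g (.inl (i, z))) := fun z => by
    simpa using DFunLike.congr_fun h (.inl (i, z))
  have h2 : g (.inl (i, 0 + 1)) ≠ g (.inl (i, 0)) := by simp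
  rw [h1] at h2
  obtain ⟨b, hb⟩ : ∃ b, g (.inl (i, 0)) = .inl (k, b) := by
    generalize g (.inl (i, 0)) = w at h2
    rcases w with ⟨l, b⟩ | r
    · by_cases e : l = k
      · exact ⟨b, by rw [e]⟩
      · simp [e] at h2
    · simp at h2
  refine ⟨b, fun z => ?_⟩
  obtain ⟨n, rfl⟩ := ZMod.natCast_zmod_surjective z
  induction n with
  | zero => simpa
  | succ n ih => rw [Nat.cast_succ, h1, ih]; simp; ring

theorem fixR [Subsingleton R] {g : Perm (M × ZMod p ⊕ R)} (h : ∀ w, ∃ v, g (.inl w) = .inl v)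
    (r : R) : g (.inr r) = .inr r := by
  choose f hf using h
  rcases e : g (.inr r) with w | s
  · obtain ⟨w, rfl⟩ := Finite.surjective_of_injective (f := f)
      (fun a b h => Sum.inl_injective (g.injective (by rw [hf, hf, h]))) w
    cases g.injective (e.trans (hf w).symm)
  · rw [Subsingleton.elim s r]

theorem cent_base [Subsingleton R] (c : Perm (M × ZMod p ⊕ R))
    (h : ∀ x ∈ wrSub R p (⊥ : Subgroup (Perm M)), x * c = c * x) : c ∈ wrSub R p ⊥ := by
  choose b hb using fun i => blk one_ne_zero (h (wr R 1 (Pi.single i 1)) (mem_base.2 ⟨_, rfl⟩)).symm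
  refine mem_base.2 ⟨b, Equiv.ext ?_⟩
  rintro (⟨i, z⟩ | r)
  · simp [hb]
  · exact (fixR (fun w => ⟨_, hb w.1 w.2⟩) r).symm

theorem exists_eq_wr [Subsingleton R] {Q : Subgroup (Perm M)} {g : Perm (M × ZMod p ⊕ R)}
    (h : ∀ x ∈ wrSub R p Q, g * x * g⁻¹ ∈ wrSub R p Q) : ∃ σ b u, g = wr R σ b * wrD R u := by
  have : ∀ i, ∃ k, ∃ a : (ZMod p)ˣ, ∃ b, ∀ z, g (.inl (i, z)) = .inl (k, a * z + b) := fun i => by
    obtain ⟨σ, -, f, e⟩ := h (wr R 1 (Pi.single i 1)) (wr_mem_wrSub.2 (one_mem _))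
    have h1 := congrArg (·.support.card) e
    rw [Perm.card_support_conj, card_support_wr, card_support_wr, show (Finset.univ.filter fun k =>
      (1 : Perm M) k ≠ k ∨ (Pi.single i 1 : M → ZMod p) k ≠ 0) = {i} by ext; simp [Pi.single_apply],
      Nat.mul_left_inj hp.out.ne_zero, Finset.card_singleton, Finset.card_eq_one] at h1
    obtain ⟨k, hk⟩ := h1
    have h2 : ∀ l, σ l ≠ l ∨ f l ≠ 0 ↔ l = k := by simpa [Finset.ext_iff] using hk
    obtain rfl : σ = 1 := Equiv.ext fun l => by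
      by_contra h3
      exact h3 (((h2 _).1 (.inl fun e => h3 (σ.injective e))).trans ((h2 _).1 (.inl h3)).symm)
    have h3 : f k ≠ 0 := by simpa using (h2 k).2 rfl
    refine ⟨k, .mk0 _ h3, blk h3 ?_⟩
    rw [← mul_inv_eq_iff_eq_mul, ← e, wr_inj]
    refine ⟨rfl, funext fun l => ?_⟩
    by_cases e : l = k
    · simp [e]
    · simpa [e] using (h2 l).not.2 e
  choose σ u b hb using this
  have inj : Function.Injective σ := fun i k e => by
    have := hb k (((u k)⁻¹ : (ZMod p)ˣ) * (b i - b k))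
    rw [Units.mul_inv_cancel_left, sub_add_cancel, ← e, ← zero_add (b i), ← mul_zero (u i : ZMod p),
      ← hb] at this
    exact (congrArg Prod.fst (Sum.inl_injective (g.injective this))).symm
  refine ⟨.ofBijective σ (Finite.injective_iff_bijective.1 inj), b, u, Equiv.ext ?_⟩
  rintro (⟨i, z⟩ | r)
  · simp [hb]
  · exact fixR (fun w => ⟨_, hb w.1 w.2⟩) r

theorem alt_le_of_pow (h2 : Odd p) (hM : p ≤ Fintype.card M) {D : Subgroup (Perm M)}
    (h : ∀ σ : Perm M, σ ^ p = 1 → σ ∈ D) : alternatingGroup M ≤ D := by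
  by_cases e : p = 3
  · rw [← Perm.closure_three_cycles_eq_alternating, closure_le]
    exact fun σ hσ => h σ (by rw [e, ← Perm.IsThreeCycle.orderOf hσ, pow_orderOf_eq_one])
  have h5 := hp.out.five_le_of_ne_two_of_ne_three (by rintro rfl; exact absurd h2 (by decide)) e
  obtain ⟨τ, hτ⟩ := exists_prime_orderOf_dvd_card' (G := Perm M) p (by
    rw [Nat.card_perm, Nat.card_eq_fintype_card]; exact hp.out.dvd_factorial.2 hM)
  refine (Perm.alternatingGroup_le_of_normal (N := normalClosure {τ}) (by simpa using h5.trans hM)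
    ((nontrivial_iff_exists_ne_one _).2 ⟨τ, subset_normalClosure rfl, fun e => hp.out.ne_one (by
      rw [← hτ, e, orderOf_one])⟩)).trans ((closure_le _).2 fun σ hσ => h σ ?_)
  obtain ⟨_, rfl, c⟩ := Group.mem_conjugatesOfSet_iff.1 hσ
  obtain ⟨c, rfl⟩ := isConj_iff.1 c
  rw [conj_pow, ← hτ, pow_orderOf_eq_one]; simp

section

variable (R) (ι : ZMod p ↪ M)

/-- Permutations of `p` chosen blocks. -/
noncomputable def bP : Perm (ZMod p × ZMod p) →* Perm (M × ZMod p ⊕ R) :=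
  Perm.viaEmbeddingHom ((ι.prodMap (.refl _)).trans .inl)

variable {R ι}

@[simp] theorem bP_in (φ : Perm (ZMod p × ZMod p)) (i z : ZMod p) :
    bP R ι φ (.inl (ι i, z)) = .inl (ι (φ (i, z)).1, (φ (i, z)).2) :=
  Perm.viaEmbedding_apply φ ((ι.prodMap (.refl _)).trans .inl) (i, z)

theorem bP_out (φ : Perm (ZMod p × ZMod p)) {i : M} (h : i ∉ Set.range ι) (z : ZMod p) :
    bP R ι φ (.inl (i, z)) = .inl (i, z) :=
  Perm.viaEmbedding_apply_of_notMem _ _ _ fun ⟨w, e⟩ => h ⟨w.1, congrArg Prod.fst (Sum.inl.inj e)⟩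

@[simp] theorem bP_inr (φ : Perm (ZMod p × ZMod p)) (r : R) : bP R ι φ (.inr r) = .inr r :=
  Perm.viaEmbedding_apply_of_notMem _ _ _ fun ⟨_, e⟩ => nomatch e

theorem bP_ext (ι : ZMod p ↪ M) {g h : Perm (M × ZMod p ⊕ R)}
    (h1 : ∀ i z, g (.inl (ι i, z)) = h (.inl (ι i, z)))
    (h2 : ∀ i ∉ Set.range ι, ∀ z, g (.inl (i, z)) = h (.inl (i, z)))
    (h3 : ∀ r, g (.inr r) = h (.inr r)) : g = h := by
  ext (⟨i, z⟩ | r)
  · by_cases e : i ∈ Set.range ι
    · obtain ⟨i, rfl⟩ := e; exact h1 i z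
    · exact h2 i e z
  · exact h3 r

theorem bP_comm (φ : Perm (ZMod p × ZMod p)) {i : M} (h : i ∉ Set.range ι) :
    wr R 1 (Pi.single i 1) * bP R ι φ = bP R ι φ * wr R 1 (Pi.single i 1) :=
  have : ∀ k, (Pi.single i 1 : M → ZMod p) (ι k) = 0 := fun k =>
    Pi.single_eq_of_ne (fun e => h ⟨k, e⟩) _
  bP_ext ι (by simp [this]) (fun k hk z => by simp [bP_out _ hk]) (by simp)

variable (R ι) in
/-- The self-centralizing subgroup: translations on `p` blocks and cycles on the others. -/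
def bR : Subgroup (Perm (M × ZMod p ⊕ R)) := centralizer
  (Set.range (fun v => bP R ι (Equiv.addRight v)) ∪ (fun i => wr R 1 (Pi.single i 1)) '' (Set.range ι)ᶜ)

theorem cent_bR (c : Perm (M × ZMod p ⊕ R)) (h : ∀ x ∈ bR R ι, x * c = c * x) : c ∈ bR R ι := by
  refine fun x hx => h x ?_
  rintro _ (⟨v, rfl⟩ | ⟨i, hi, rfl⟩) <;> rcases hx with ⟨w, rfl⟩ | ⟨k, hk, rfl⟩
  · simp only [← map_mul]; congr 1; ext1; simp [add_right_comm]
  · exact (bP_comm _ hk).symm
  · exact bP_comm _ hi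
  · simp [wr_mul, add_comm]

theorem bP_mem_norm {φ : Perm (ZMod p × ZMod p)} (h : ∀ v w, φ (v + w) = φ v + φ w) :
    bP R ι φ ∈ normalizer (bR R ι : Set _) :=
  mem_normalizer_fintype fun x hx y hy => by
    obtain ⟨y', h1, h2⟩ : ∃ y', y' * x = x * y' ∧ y * bP R ι φ = bP R ι φ * y' := by
      rcases hy with ⟨v, rfl⟩ | ⟨i, hi, rfl⟩
      · obtain ⟨v, rfl⟩ := φ.surjective v
        exact ⟨_, hx _ (.inl ⟨v, rfl⟩), by simp only [← map_mul]; congr 1; ext1; simp [h]⟩
      · exact ⟨_, hx _ (.inr ⟨i, hi, rfl⟩), bP_comm _ hi⟩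
    rw [← mul_assoc, ← mul_assoc, h2, mul_assoc _ y', h1, eq_mul_inv_of_mul_eq h2]
    group

theorem bR_le [Subsingleton R] {Q : Subgroup (Perm M)}
    (h : (Equiv.addRight (1 : ZMod p)).viaEmbedding ι ∈ Q) : bR R ι ≤ wrSub R p Q := fun c hc => by
  classical
  have h1 : ∀ v, c (.inl (ι v.1, v.2)) = bP R ι (Equiv.addRight v) (c (.inl (ι 0, 0))) := fun v => by
    simpa using (DFunLike.congr_fun (hc _ (.inl ⟨v, rfl⟩)) (.inl (ι 0, 0))).symm
  obtain ⟨a, b, h2⟩ : ∃ a b, c (.inl (ι 0, 0)) = .inl (ι a, b) := by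
    have h2 : c (.inl (ι 0, 1)) ≠ c (.inl (ι 0, 0)) := by simp
    rw [h1 (0, 1)] at h2
    generalize c (.inl (ι 0, 0)) = w at h2
    rcases w with ⟨l, b⟩ | r
    · by_cases e : l ∈ Set.range ι
      · obtain ⟨l, rfl⟩ := e; exact ⟨l, b, rfl⟩
      · exact absurd (bP_out _ e _) h2
    · simp at h2
  have h3 : ∀ i z, c (.inl (ι i, z)) = .inl (ι (i + a), z + b) := fun i z => by
    simp [h1 (i, z), h2, add_comm]
  choose! f hf using fun i (hi : i ∉ Set.range ι) =>
    blk one_ne_zero (hc _ (.inr ⟨i, hi, rfl⟩)).symm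
  refine ⟨(Equiv.addRight a).viaEmbedding ι, ?_, fun i => if i ∈ Set.range ι then b else f i,
    bP_ext ι (fun i z => by simp [h3, Perm.viaEmbedding_apply]) (fun i hi z => by
      simp [hf i hi, Perm.viaEmbedding_apply_of_notMem _ _ _ hi, show ¬∃ y, ι y = i from hi])
      fun r => (fixR (fun w => ?_) r).symm⟩
  · convert pow_mem h a.val
    rw [← Perm.viaEmbeddingHom_apply, ← Perm.viaEmbeddingHom_apply, ← map_pow]
    simp
  · by_cases e : w.1 ∈ Set.range ι
    · obtain ⟨_, z⟩ := w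
      obtain ⟨i, rfl⟩ := e
      exact ⟨_, h3 i z⟩
    · exact ⟨_, hf _ e w.2⟩

/-- The elementary shear `(i, z) ↦ (i, z + c i)`. -/
def shr : Multiplicative (ZMod p) →* Perm (ZMod p × ZMod p) :=
  MonoidHom.mk' (fun c => prodCongrRight fun i => Equiv.addRight (c.toAdd * i)) fun u v => by
    ext ⟨i, z⟩ <;> simp; ring

theorem shr_pow (c : Multiplicative (ZMod p)) : shr c ^ p = 1 := by
  rw [← map_pow, show c ^ p = 1 from Multiplicative.ext (by simp), map_one]

@[simp] theorem shr_apply (c i z : ZMod p) : shr (.ofAdd c) (i, z) = (i, z + c * i) := rfl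

open scoped _root_.Classical in
theorem bP_diag (a : (ZMod p)ˣ) : wrTop R p ((a⁻¹.mulLeft).viaEmbedding ι) *
    wrD R (fun i => if i ∈ Set.range ι then a else 1) = bP R ι (shr (.ofAdd a)) *
      bP R ι (prodComm _ _ * shr (.ofAdd (-(a⁻¹ : (ZMod p)ˣ))) * (prodComm _ _)⁻¹) *
      bP R ι (shr (.ofAdd (a - 1))) * bP R ι (prodComm _ _ * shr (.ofAdd 1) * (prodComm _ _)⁻¹) *
      bP R ι (shr (.ofAdd (-1))) := by
  refine bP_ext ι (fun i z => ?_) (fun i hi z => ?_) fun r => by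
    simp only [Perm.mul_apply, bP_inr, wrTop_apply, wrD_inr, wr_inr]
  · simp only [Perm.mul_apply, bP_in, wrTop_apply, wrD_inl, wr_inl, Perm.inv_def, prodComm_symm,
      prodComm_apply, Prod.swap_prod_mk, shr_apply, Perm.viaEmbedding_apply, if_pos (Set.mem_range_self i),
      Units.mulLeft_apply, Units.val_neg, Units.val_inv_eq_inv_val, Pi.zero_apply, Sum.inl.injEq,
      Prod.mk.injEq, ι.apply_eq_iff_eq]
    constructor <;> field_simp <;> ring
  · simp only [Perm.mul_apply, bP_out _ hi, wrTop_apply, wrD_inl, wr_inl, if_neg hi,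
      Perm.viaEmbedding_apply_of_notMem _ _ _ hi, Units.val_one, one_mul, Pi.zero_apply, add_zero]

end

theorem nm_odd [Subsingleton R] (h2 : Odd p) (hM : p ≤ Fintype.card M) (Q : Sylow p (Perm M))
    {N : Subgroup _ → _ → Prop} (h : Cl p (alternatingGroup _) (wrSub R p (Q : Subgroup (Perm M))) N)
    {g : Perm (M × ZMod p ⊕ R)} (h1 : g ∈ alternatingGroup _)
    (hg : ∀ x ∈ wrSub R p (Q : Subgroup (Perm M)), g * x * g⁻¹ ∈ wrSub R p Q) :
    N (wrSub R p Q) g := by
  classical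
  have hA : wrSub R p ⊥ ≤ wrSub R p (Q : Subgroup (Perm M)) := fun _ ⟨σ, h, e⟩ => ⟨σ, bot_le (a := Q.1) h, e⟩
  have ev : ∀ {x : Perm (M × ZMod p ⊕ R)}, x ^ p = 1 → x ∈ alternatingGroup _ :=
    sign_eq_one_of_pow_odd h2
  refine h.ext ((Cl.mem_sub h (hR := hA)).1 ?_).2.2 hA le_rfl cent_base hg
  have h3 : 3 ≤ p := by have := hp.out.two_le; obtain ⟨k, hk⟩ := h2; omega
  have a1 : ∀ f, wr R 1 f ∈ h.sub hA := fun f =>
    h.pow_mem_sub hA (ev (wr_one_pow _)) (wr_mem_norm _ _) (wr_one_pow _)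
  have a2 : ∀ u, ∀ σ ∈ alternatingGroup M, wrD R u * wrTop R p σ * (wrD R u)⁻¹ ∈ h.sub hA :=
    fun u => alt_le_of_pow h2 hM (D := (h.sub hA).comap ((MulAut.conj (wrD R u)).toMonoidHom.comp
      (wrTop R p))) fun σ hσ =>
      have : (wrD R u * wrTop R p σ * (wrD R u)⁻¹) ^ p = 1 := by
        rw [conj_pow, ← map_pow, hσ]; simp
      h.pow_mem_sub hA (ev this) (mul_mem (mul_mem (wrD_mem_norm u) (wr_mem_norm _ _))
        (inv_mem (wrD_mem_norm u))) this
  have a3 : ∀ σ ∈ alternatingGroup M, wrTop R p σ ∈ h.sub hA := by simpa using a2 1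
  obtain ⟨ι, hι⟩ := exists_cycle_mem hM Q
  have a4 : ∀ u, ∏ i, u i = 1 → wrD R u ∈ h.sub hA := fun u hu => by
    have := div_mulSingle_mem (D := (h.sub hA).comap (wrD R)) (ι 0) (fun i c => ?_) u
    · simpa [hu] using this
    have := alternatingGroup.isPretransitive_of_three_le_card (α := M) (by simpa using h3.trans hM)
    obtain ⟨σ, e⟩ := MulAction.exists_smul_eq (alternatingGroup M) i (ι 0)
    have := mul_mem (inv_mem (a3 _ σ.2)) (a2 (Pi.mulSingle (ι 0) c) _ σ.2)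
    rw [wrTop_apply, wrD_mul_wr, show Pi.mulSingle (ι 0) c ∘ σ.1 = Pi.mulSingle i c from
      funext fun k => by simp [← show σ.1 i = ι 0 from e, Pi.mulSingle_apply]] at this
    simpa [mem_comap, div_eq_mul_inv, mul_assoc, ← Pi.zero_def] using this
  have hR := bR_le (R := R) hι
  have b1 : ∀ c, bP R ι (shr c) ∈ h.sub hR := fun c =>
    have : bP R ι (shr c) ^ p = 1 := by rw [← map_pow, shr_pow, map_one]
    h.pow_mem_sub hR (ev this) (bP_mem_norm fun v w => by
      simp [shr, Prod.ext_iff, prodCongrRight]; ring) this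
  have b2 : ∀ c, bP R ι (prodComm _ _ * shr c * (prodComm _ _)⁻¹) ∈ h.sub hR := fun c =>
    have : bP R ι (prodComm _ _ * shr c * (prodComm _ _)⁻¹) ^ p = 1 := by
      rw [← map_pow, conj_pow, shr_pow]; simp
    h.pow_mem_sub hR (ev this) (bP_mem_norm fun v w => by
      simp [shr, Prod.ext_iff, prodCongrRight, Perm.inv_def]; ring) this
  obtain ⟨σ, b, u, rfl⟩ := exists_eq_wr hg
  set a := ∏ i, u i with ha
  let v : M → (ZMod p)ˣ := fun i => if i ∈ Set.range ι then a else 1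
  let τ : Perm M := (a⁻¹.mulLeft).viaEmbedding ι
  have b3 : wrTop R p τ * wrD R v ∈ h.sub hR := by
    rw [bP_diag]
    exact mul_mem (mul_mem (mul_mem (mul_mem (b1 _) (b2 _)) (b1 _)) (b2 _)) (b1 _)
  have n3 := mul_mem (wr_mem_norm (R := R) τ 0) (wrD_mem_norm v)
  have b4 : wrTop R p τ * wrD R v ∈ h.sub hA :=
    ⟨b3.1, n3, h.jump b3.2.2 hR hA cent_bR b3.2.1 n3⟩
  have b5 := a4 (u / v) (by
    simp only [Pi.div_apply, Finset.prod_div_distrib, v, ← ha, Finset.prod_ite, Finset.prod_const]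
    rw [show Finset.univ.filter (· ∈ Set.range ι) = Finset.univ.map ι by ext; simp, Finset.card_map,
      Finset.card_univ, ZMod.card, one_pow, mul_one, div_eq_one, Units.ext_iff, Units.val_pow_eq_pow_val,
      ZMod.pow_card])
  have e : wr R σ b * wrD R u = wrTop R p (σ * τ⁻¹) * wr R 1 (b ∘ ⇑τ⁻¹) *
      ((wrTop R p τ * wrD R v) * wrD R (u / v)) := by
    rw [mul_assoc (wrTop R p τ), ← map_mul, mul_div_cancel, ← mul_assoc]
    simp [wrTop_apply, wr_mul, Function.comp_def]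
  rw [e] at h1 ⊢
  refine mul_mem (mul_mem (a3 _ ?_) (a1 _)) (mul_mem b4 b5)
  rw [mul_mem_cancel_right (mul_mem b4.1 b5.1), mul_mem_cancel_right (a1 _).1,
    Perm.mem_alternatingGroup, sign_wrTop'] at h1
  rcases Int.units_eq_one_or (Perm.sign (σ * τ⁻¹)) with e | e
  · exact e
  · rwa [e, h2.neg_one_pow, ← e] at h1

theorem alt_fusion_simple {n : ℕ} (hn : 6 ≤ n) (hnp : p ^ 2 ≤ n) (hb : n % p ≤ 1)
    (S : Sylow p (alternatingGroup (Fin n))) :
    (groupFusionSystem (S : Subgroup (alternatingGroup (Fin n)))).IsSimple p := by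
  obtain ⟨P, hP⟩ := exists_sylow_map_eq S
  obtain ⟨e, Q, hQ⟩ := exists_sylow_model P
  have : Subsingleton (Fin (Nat.card (Fin n) % p)) := Fin.subsingleton_iff_le_one.2 (by simpa)
  have hM : p ≤ Fintype.card (Fin (Nat.card (Fin n) / p)) := by
    simpa [Nat.le_div_iff_mul_le hp.out.pos, ← sq]
  have h3 : 3 ≤ Fintype.card (Fin (Nat.card (Fin n) / p)) := by
    rcases hp.out.eq_two_or_odd' with rfl | ⟨k, hk⟩
    · simp; omega
    · have := hp.out.two_le; omega
  let j := e.permCongrHom.toMonoidHom.comp (alternatingGroup (Fin n)).subtype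
  have hj : Function.Injective j := e.permCongrHom.injective.comp Subtype.val_injective
  have hr : j.range = alternatingGroup _ := by
    ext g
    refine ⟨by rintro ⟨x, rfl⟩; simpa [j, permCongrHom] using Perm.mem_alternatingGroup.1 x.2, fun h =>
      ⟨⟨e.permCongrHom.symm g, by simpa [permCongrHom] using h⟩, e.permCongrHom.apply_symm_apply g⟩⟩
  have hS : ∀ x, x ∈ S ↔ x.1 ∈ P := fun x => by
    rw [← SetLike.mem_coe, ← Sylow.coe_coe, SetLike.mem_coe, ← mem_map_iff_mem (subtype_injective _), hP]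
    exact and_iff_left x.2
  have hS' : ∀ x, x ∈ S ↔ j x ∈ wrSub _ p Q := fun x => (hS x).trans (hQ _)
  refine simple_of_cl (P := wrSub _ p Q ⊓ alternatingGroup _) hj S (Subgroup.ext fun x =>
    (hS' x).trans (and_iff_left (hr.le ⟨x, rfl⟩)).symm) (hr ▸ inf_le_right) (S.ne_bot_of_dvd_card ?_) (fun T hT sc => ?_) ?_
  · have : Nontrivial (Fin n) := Fin.nontrivial_iff_two_le.2 (by omega)
    refine Nat.dvd_of_mul_dvd_mul_left two_pos ?_
    rw [two_mul_nat_card_alternatingGroup, Nat.card_perm, Nat.card_eq_fintype_card, Fintype.card_fin]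
    rcases hp.out.eq_two_or_odd' with rfl | ho
    · exact Nat.dvd_factorial (by norm_num) (by omega)
    · exact Nat.dvd_factorial (by have := hp.out.pos; omega) (by have := hp.out.two_le; nlinarith)
  · refine or_iff_not_imp_left.2 fun h => hT.antisymm fun s hs => ?_
    obtain ⟨x, hx⟩ := exists_prime_orderOf_dvd_card' (G := T) p (((S.isPGroup'.to_le hT).card_eq_or_dvd).resolve_left
      (mt card_eq_one.1 h))
    refine (mem_map_iff_mem (subtype_injective _)).1 ((closure_le (T.map (alternatingGroup _).subtype)).2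
      (fun y hy => ?_) (sylow_inf_alt_le_closure P ⟨(hS s).1 hs, s.2⟩))
    refine mem_map_of_mem (x := ⟨y, hy.1.2⟩) _ ((mem_map_iff_mem hj).1 (mem_of_sc h3 hM Q
      (hr ▸ map_le_range _ _) ?_ (mem_map_of_mem j x.2) (fun e => hp.out.ne_one ?_) ?_
      ((hQ _).1 hy.1.1) (hr.le ⟨_, rfl⟩) ?_))
    · rintro _ ⟨x, hx, rfl⟩ g hg h
      obtain ⟨g, rfl⟩ := hr.ge hg
      simp only [← map_mul, ← map_inv] at h ⊢
      exact mem_map_of_mem _ (sc x hx g ((hS' _).2 h))
    · rw [← hx, orderOf_eq_one_iff]; exact Subtype.ext (hj (e.trans (map_one j).symm))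
    · rw [← map_pow, ← coe_pow, show x ^ p = 1 from hx ▸ pow_orderOf_eq_one x]; simp
    · exact (map_pow j _ _).symm.trans ((congrArg j (Subtype.ext hy.2)).trans (map_one j))
  · intro N h g h1 h2
    rcases hp.out.eq_two_or_odd' with rfl | ho
    · obtain ⟨g, rfl⟩ := h1
      have h4 : g ∈ S := (CF.Classical.normalizer_sylow_two_alt (by simpa) S).le
        (mem_normalizer_fintype fun x hx => (hS' _).2 (by
          simpa using (h2 _ ⟨(hS' x).1 hx, hr.le ⟨_, rfl⟩⟩).1))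
      obtain ⟨k, hk⟩ := S.isPGroup' ⟨g, h4⟩
      exact h.pelt k le_rfl ⟨_, rfl⟩ (mem_normalizer_fintype h2) (by
        rw [← map_pow, show g ^ 2 ^ k = 1 from congrArg Subtype.val hk, map_one])
    · rw [hr] at h h1
      rw [inf_eq_left.2 (le_alt_of_isPGroup (p := p) (by rintro rfl; exact absurd ho (by decide))
        ((P.isPGroup'.map e.permCongrHom.toMonoidHom).to_le fun x hx =>
          ⟨_, (hQ _).2 ((e.permCongrHom.apply_symm_apply x).symm ▸ hx),
            e.permCongrHom.apply_symm_apply x⟩))] at h h2 ⊢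
      exact nm_odd ho hM Q h h1 h2

end CF.Geom
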