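/-
Coverings of linear groups by the conjugates of two proper subgroups: generalities, `PSL`.
-/
import Cfsg.Agent.Cls.SS
import Cfsg.Agent.Geom.SLT

set_option autoImplicit false
set_option linter.unusedSectionVars false

namespace CF.Geom.Cv

open Subgroup Module Polynomial CF.Cls

variable {F V G T U : Type*} [Field F] [AddCommGroup V] [Module F V] [Group G]
  {L : Subgroup (V ≃ₗ[F] V)}

/-- `G` is the union of the conjugates of two proper subgroups. -/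
def Two (G : Type*) [Group G] : Prop :=
  ∃ H K : Subgroup G, H ≠ ⊤ ∧ K ≠ ⊤ ∧ ∀ g : G, ∃ x : G, x * g * x⁻¹ ∈ H ∨ x * g * x⁻¹ ∈ K

/-- `g` is a scalar. -/
def Sc (g : V ≃ₗ[F] V) : Prop := ∃ c : F, ∀ v, g v = c • v

/-- a proper subgroup containing the scalars -/
def Pr (L H : Subgroup (V ≃ₗ[F] V)) : Prop := ¬ L ≤ H ∧ ∀ g ∈ L, Sc g → g ∈ H

/-- the linear version -/
def TwoL (L : Subgroup (V ≃ₗ[F] V)) : Prop :=
  ∃ H K, Pr L H ∧ Pr L K ∧ ∀ g ∈ L, ∃ x ∈ L, x * g * x⁻¹ ∈ H ∨ x * g * x⁻¹ ∈ K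

theorem TwoL.quot (h : TwoL L) (ρ : G →* (V ≃ₗ[F] V)) (hr : ρ.range = L) (Z : Subgroup G) [Z.Normal]
    (hz : ∀ z ∈ Z, Sc (ρ z)) : Two (G ⧸ Z) := by
  obtain ⟨H, K, h1, h2, h3⟩ := h
  have m : ∀ g, ρ g ∈ L := fun g => hr ▸ ⟨g, rfl⟩
  have k : ∀ H, Pr L H → (H.comap ρ).map (QuotientGroup.mk' Z) ≠ ⊤ := fun H h e => h.1 fun x hx => by
    obtain ⟨g, rfl⟩ := hr.ge hx
    obtain ⟨y, hy, e⟩ := e.ge (mem_top (QuotientGroup.mk' Z g))
    have := (H.comap ρ).mul_mem hy (h.2 _ (m _) (hz _ (QuotientGroup.eq.1 e)))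
    rwa [mul_inv_cancel_left] at this
  refine ⟨_, _, k H h1, k K h2, fun g => ?_⟩
  obtain ⟨g, rfl⟩ := QuotientGroup.mk'_surjective Z g
  obtain ⟨x, hx, e⟩ := h3 _ (m g)
  obtain ⟨x, rfl⟩ := hr.ge hx
  exact ⟨QuotientGroup.mk' Z x, e.imp (fun e => ⟨x * g * x⁻¹, by simpa using e, by simp⟩)
    fun e => ⟨x * g * x⁻¹, by simpa using e, by simp⟩⟩

theorem TwoL.two (h : TwoL L) (ρ : G →* (V ≃ₗ[F] V)) (hr : ρ.range = L) : Two G := by
  obtain ⟨H, K, h1, h2, h3⟩ := h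
  have k : ∀ H, Pr L H → H.comap ρ ≠ ⊤ := fun H h e => h.1 fun x hx => by
    obtain ⟨g, rfl⟩ := hr.ge hx
    exact e.ge (mem_top g)
  refine ⟨_, _, k H h1, k K h2, fun g => ?_⟩
  obtain ⟨x, hx, e⟩ := h3 _ (hr.le ⟨g, rfl⟩)
  obtain ⟨x, rfl⟩ := hr.ge hx
  exact ⟨x, by simpa using e⟩

/-- `R g x y`: `g` maps the object `x` to `y` -/
structure Gpd (R : (V ≃ₗ[F] V) → T → T → Prop) : Prop where
  one : ∀ x, R 1 x x
  mul : ∀ {g h x y z}, R g x y → R h y z → R (h * g) x z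
  inv : ∀ {g x y}, R g x y → R g⁻¹ y x

/-- an orbit of objects with proper stabilisers -/
structure Orb (L : Subgroup (V ≃ₗ[F] V)) (R : (V ≃ₗ[F] V) → T → T → Prop) (A : T → Prop) : Prop where
  gpd : Gpd R
  sc : ∀ x, A x → ∀ g ∈ L, Sc g → R g x x
  pr : ∀ x, A x → ∃ g ∈ L, ¬ R g x x
  tr : ∀ x y, A x → A y → ∃ g ∈ L, R g x y

theorem Orb.ex {R : (V ≃ₗ[F] V) → T → T → Prop} {A : T → Prop} (h : Orb L R A) {x : T} (hx : A x) :
    ∃ H, Pr L H ∧ ∀ g y, A y → R g y y → ∃ a ∈ L, a * g * a⁻¹ ∈ H := by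
  refine ⟨⟨⟨⟨{g | R g x x}, fun a b => h.gpd.mul b a⟩, h.gpd.one x⟩, h.gpd.inv⟩,
    ⟨fun e => ?_, h.sc x hx⟩, fun g y hy e => ?_⟩
  · obtain ⟨g, hg, n⟩ := h.pr x hx
    exact n (e hg)
  · obtain ⟨a, ha, k⟩ := h.tr y x hy hx
    exact ⟨a, ha, (mul_assoc a g _).symm ▸ (h.gpd.mul (h.gpd.mul (h.gpd.inv k) e) k : R _ x x)⟩

theorem twoL_of {R : (V ≃ₗ[F] V) → T → T → Prop} {A : T → Prop} {S : (V ≃ₗ[F] V) → U → U → Prop}
    {B : U → Prop} (hA : Orb L R A) (hB : Orb L S B)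
    (h : ∀ g ∈ L, (∃ x, A x ∧ R g x x) ∨ ∃ y, B y ∧ S g y y) : TwoL L := by
  by_cases a : ∃ x, A x <;> by_cases b : ∃ y, B y
  · obtain ⟨H, h1, h2⟩ := hA.ex a.choose_spec
    obtain ⟨K, k1, k2⟩ := hB.ex b.choose_spec
    refine ⟨H, K, h1, k1, fun g hg => ?_⟩
    rcases h g hg with ⟨x, hx, e⟩ | ⟨x, hx, e⟩
    · exact (h2 g x hx e).imp fun _ e => ⟨e.1, .inl e.2⟩
    · exact (k2 g x hx e).imp fun _ e => ⟨e.1, .inr e.2⟩
  · obtain ⟨H, h1, h2⟩ := hA.ex a.choose_spec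
    refine ⟨H, H, h1, h1, fun g hg => ?_⟩
    obtain ⟨x, hx, e⟩ := (h g hg).resolve_right fun ⟨y, hy, _⟩ => b ⟨y, hy⟩
    exact (h2 g x hx e).imp fun _ e => ⟨e.1, .inl e.2⟩
  · obtain ⟨H, h1, h2⟩ := hB.ex b.choose_spec
    refine ⟨H, H, h1, h1, fun g hg => ?_⟩
    obtain ⟨x, hx, e⟩ := (h g hg).resolve_left fun ⟨y, hy, _⟩ => a ⟨y, hy⟩
    exact (h2 g x hx e).imp fun _ e => ⟨e.1, .inl e.2⟩
  · exact ((h 1 (one_mem L)).elim (fun ⟨y, hy, _⟩ => a ⟨y, hy⟩) fun ⟨y, hy, _⟩ => b ⟨y, hy⟩).elim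

/-- points -/
def Pt (g : V ≃ₗ[F] V) (v w : V) : Prop := ∃ c : F, c ≠ 0 ∧ g v = c • w

theorem gpd_pt : Gpd (Pt (F := F) (V := V)) where
  one _ := ⟨1, one_ne_zero, by simp⟩
  mul := fun ⟨c, h, e⟩ ⟨d, k, f⟩ => ⟨c * d, mul_ne_zero h k, by simp [e, f, mul_smul]⟩
  inv := fun {g x y} ⟨c, h, e⟩ => ⟨c⁻¹, inv_ne_zero h, g.injective (by simp [e, smul_smul, h])⟩

theorem Sc.pt {g : V ≃ₗ[F] V} (h : Sc g) {v : V} (hv : v ≠ 0) : Pt g v v := by
  obtain ⟨c, h⟩ := h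
  exact ⟨c, fun e => hv (by simpa [e] using h v), h v⟩

theorem pt_of {g : V ≃ₗ[F] V} {v w : V} (hv : v ≠ 0) {c : F} (h : g v = c • w) : Pt g v w :=
  ⟨c, fun e => hv (by simpa [e] using h), h⟩

/-- subspaces -/
def Sb (g : V ≃ₗ[F] V) (U W : Submodule F V) : Prop := ∀ v, g v ∈ W ↔ v ∈ U

theorem gpd_sb : Gpd (Sb (F := F) (V := V)) where
  one _ _ := Iff.rfl
  mul h k v := (k _).trans (h v)
  inv := fun {g _ _} h v => by simpa using (h (g⁻¹ v)).symm

theorem Sc.sb {g : V ≃ₗ[F] V} (h : Sc g) (U : Submodule F V) : Sb g U U := fun v => by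
  obtain ⟨c, h⟩ := h
  by_cases e : c = 0
  · obtain rfl : v = 0 := by simpa [e] using h v
    simp
  · rw [h, U.smul_mem_iff e]

theorem sb_of_le [FiniteDimensional F V] {g : V ≃ₗ[F] V} {U W : Submodule F V} (h : ∀ v ∈ U, g v ∈ W)
    (d : finrank F W ≤ finrank F U) : Sb g U W := fun v => by
  have : U.map (g : V →ₗ[F] V) = W := Submodule.eq_of_le_of_finrank_le
    (by rintro _ ⟨x, hx, rfl⟩; exact h x hx) (by rwa [LinearEquiv.finrank_map_eq])
  rw [← this]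
  exact ⟨fun ⟨x, hx, e⟩ => g.injective e ▸ hx, fun k => ⟨v, k, rfl⟩⟩

/-! ### roots of irreducible polynomials in `F[f]` -/

theorem root_irr [Finite F] {μ π : F[X]} (hμ : Irreducible μ) (hπ : Irreducible π)
    (d : μ.natDegree ∣ π.natDegree) : ∃ h : F[X], π ∣ μ.comp h := by
  have := Fact.mk hμ
  have := Fact.mk hπ
  have := fd_adjoinRoot hπ.ne_zero
  have : Finite (AdjoinRoot π) := Module.finite_of_finite F
  obtain ⟨φ⟩ := FiniteField.nonempty_algHom_of_finrank_dvd (F := F) (K := AdjoinRoot μ)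
    (L := AdjoinRoot π) (by rwa [finrank_adjoinRoot, finrank_adjoinRoot])
  obtain ⟨h, e⟩ := AdjoinRoot.mk_surjective (φ (AdjoinRoot.root μ))
  refine ⟨h, AdjoinRoot.mk_eq_zero.1 ?_⟩
  rw [← AdjoinRoot.aeval_eq, aeval_comp, AdjoinRoot.aeval_eq, e, aeval_algHom_apply,
    AdjoinRoot.aeval_eq, AdjoinRoot.mk_self, map_zero]

theorem root_pow [Finite F] {μ : F[X]} (hμ : Irreducible μ) (m : F[X]) (h0 : m ≠ 0)
    (d : ∀ π, Irreducible π → π ∣ m → μ.natDegree ∣ π.natDegree) : ∃ h k, m ∣ μ.comp h ^ k := by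
  induction m using WfDvdMonoid.induction_on_irreducible with
  | zero => exact absurd rfl h0
  | unit u hu => exact ⟨0, 0, hu.dvd⟩
  | mul m π m0 hπ ih =>
    obtain ⟨h, k, e⟩ := ih m0 fun ρ a b => d ρ a (b.mul_left _)
    by_cases c : π ∣ m
    · exact ⟨h, k + k, pow_add (μ.comp h) k k ▸ mul_dvd_mul (c.trans e) e⟩
    obtain ⟨a, b, c⟩ := hπ.coprime_iff_not_dvd.2 c
    obtain ⟨h', e'⟩ := root_irr hμ hπ (d π hπ (dvd_mul_right _ _))
    have s : ∀ x y : F[X], x - y ∣ μ.comp x - μ.comp y := fun x y => by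
      simpa [comp, eval₂_eq_eval_map] using sub_dvd_eval_sub x y (μ.map C)
    refine ⟨h' * (b * m) + h * (a * π), k + 1, pow_succ' (μ.comp _) k ▸ mul_dvd_mul ?_ ?_⟩
    · exact (dvd_sub_left e').1 (Dvd.dvd.trans ⟨(h - h') * a, by linear_combination h' * c⟩ (s _ h'))
    · exact (dvd_sub_left e).1 ((Dvd.dvd.trans ⟨(h' - h) * b, by linear_combination h * c⟩ (s _ h)).trans
        (sub_dvd_pow_sub_pow _ _ k))

theorem root_aeval [Finite F] {A : Type*} [Ring A] [Algebra F A] {μ m : F[X]} (hμ : Irreducible μ) (h0 : m ≠ 0)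
    (d : ∀ π, Irreducible π → π ∣ m → μ.natDegree ∣ π.natDegree) {f : A} (e : aeval f m = 0) :
    ∃ h : F[X], aeval (aeval f h) μ = 0 := by
  have := Fintype.ofFinite F
  obtain ⟨h, k, c, hc⟩ := root_pow hμ m h0 d
  have s : ∀ n, μ.comp (h ^ Fintype.card F ^ n) = μ.comp h ^ Fintype.card F ^ n := fun n => by
    induction n with
    | zero => simp
    | succ n ih =>
      rw [pow_succ, pow_mul, pow_mul, ← ih, ← pow_comp, ← FiniteField.expand_card μ, expand_eq_comp_X_pow,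
        comp_assoc, pow_comp, X_comp]
  obtain ⟨n, hn⟩ := Nat.exists_eq_add_of_le (Nat.lt_pow_self (n := k) (Fintype.one_lt_card (α := F))).le
  refine ⟨h ^ Fintype.card F ^ k, ?_⟩
  rw [← aeval_comp, s, hn, pow_add, hc, map_mul, map_mul, e, zero_mul, zero_mul]

theorem deg_of {χ π : F[X]} (h0 : χ ≠ 0) (hr : ∀ c, ¬ χ.IsRoot c) (hπ : Irreducible π) (d : π ∣ χ) :
    2 ≤ π.natDegree ∧ π.natDegree ≤ χ.natDegree ∧ π.natDegree + 1 ≠ χ.natDegree := by
  have k : ∀ a, a ∣ χ → a.natDegree ≠ 1 := fun a ha e => by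
    obtain ⟨c, hc⟩ := exists_root_of_degree_eq_one ((degree_eq_iff_natDegree_eq_of_pos one_pos).2 e)
    exact hr c (hc.dvd ha)
  have := hπ.natDegree_pos
  have := k π d
  refine ⟨by omega, natDegree_le_of_dvd d h0, fun e => ?_⟩
  obtain ⟨a, rfl⟩ := d
  rw [natDegree_mul hπ.ne_zero (right_ne_zero_of_mul h0)] at e
  exact k a (dvd_mul_left _ _) (by omega)

theorem irr3 {c : F} (h : ∀ t, t ^ 3 - t ≠ c) : Irreducible (X ^ 3 - X - C c : F[X]) ∧
    (X ^ 3 - X - C c : F[X]).natDegree = 3 := by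
  have d : (X ^ 3 - X - C c : F[X]).natDegree = 3 := by compute_degree!
  exact ⟨irreducible_of_degree_le_three_of_not_isRoot (by simp [d]) fun t e =>
    h t (by simpa [sub_eq_zero] using e), d⟩

theorem ex_nv [Finite F] (k : ℕ) (hk : k ≠ 0) : ∃ c : F, ∀ t, t ^ k - t ≠ c := by
  by_contra! h
  exact zero_ne_one ((Finite.injective_iff_surjective.2 h : Function.Injective fun t : F => t ^ k - t)
    (by simp [hk]))

variable [FiniteDimensional F V]

theorem sim_of_irr {μ : F[X]} (hμ : Irreducible μ) {J J' : End F V} (h : aeval J μ = 0)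
    (h' : aeval J' μ = 0) : Sim J J' := by
  refine sim_of_kd fun p => ?_
  by_cases d : μ ∣ p
  · obtain ⟨a, rfl⟩ := d
    rw [kd, kd, map_mul, map_mul, h, h', zero_mul, zero_mul]
  obtain ⟨a, b, c⟩ := hμ.coprime_iff_not_dvd.2 d
  have k : ∀ J : End F V, aeval J μ = 0 → kd J p = 0 := fun J h => by
    have := congrArg (aeval J) c
    rw [map_add, map_mul, map_mul, h, mul_zero, zero_add, map_one] at this
    rw [kd, LinearMap.ker_eq_bot.2 (Function.LeftInverse.injective (LinearMap.congr_fun this)), finrank_bot]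
  rw [k J h, k J' h']

theorem no_root {f : End F V} (h : ∀ v (c : F), f v = c • v → v = 0) (c : F) : ¬ f.charpoly.IsRoot c := fun e => by
  obtain ⟨v, hv⟩ := ((End.hasEigenvalue_iff_isRoot_charpoly f c).2 e).exists_hasEigenvector
  exact hv.2 (h v c hv.apply_eq_smul)

theorem no_eig {μ : F[X]} (hμ : Irreducible μ) (d : 2 ≤ μ.natDegree) {J : End F V} (h : aeval J μ = 0)
    {v : V} {c : F} (e : J v = c • v) : v = 0 := by
  by_contra n
  have := End.aeval_apply_of_hasEigenvector (p := μ) ⟨End.mem_eigenspace_iff.2 e, n⟩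
  rw [h, LinearMap.zero_apply, eq_comm, smul_eq_zero] at this
  have : μ.natDegree = 1 :=
    natDegree_eq_of_degree_eq_some (degree_eq_one_of_irreducible_of_root hμ (this.resolve_right n))
  omega

theorem ex_tv (h2 : 2 ≤ finrank F V) {v : V} (hv : v ≠ 0) :
    ∃ (φ : Dual F V) (w : V), φ v = 1 ∧ φ w = 0 ∧ w ∉ F ∙ v := by
  obtain ⟨φ, h, -⟩ := exists_dual_one (W := (⊥ : Submodule F V)) (by simpa using hv)
  obtain ⟨w, w0, hw⟩ := exists_ne_zero_mem_ker h2 φ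
  refine ⟨φ, w, h, hw, fun e => ?_⟩
  obtain ⟨a, rfl⟩ := Submodule.mem_span_singleton.1 e
  exact w0 (by simp_all)

theorem twoL_sl [Finite F] {μ : F[X]} (hμ : Irreducible μ) (h2 : 2 ≤ μ.natDegree) (h3 : 2 ≤ finrank F V)
    (d : ∀ k, 2 ≤ k → k ≤ finrank F V → k + 1 ≠ finrank F V → μ.natDegree ∣ k) : TwoL (SLG F V) := by
  have : Nontrivial V := Module.nontrivial_of_finrank_pos (R := F) (by omega)
  refine twoL_of (R := Pt) (A := fun v => v ≠ 0) (S := fun g (J J' : End F V) => ∀ v, g (J v) = J' (g v))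
    (B := fun J => aeval J μ = 0) ⟨gpd_pt, fun x hx g _ h => h.pt hx, fun v hv => ?_, fun v w hv hw => ?_⟩
    ⟨⟨fun _ _ => rfl, fun h k v => by simp [h, k], fun {g _ _} h v => g.injective (by simp [h])⟩,
      fun J _ g _ ⟨c, h⟩ v => by simp [h], fun J hJ => ?_, fun J J' h h' => ?_⟩ fun g hg => ?_
  · obtain ⟨φ, w, a, b, c⟩ := ex_tv h3 hv
    refine ⟨tvE b, tvE_mem_SLG b, fun ⟨t, _, e⟩ => c (Submodule.mem_span_singleton.2 ⟨t - 1, ?_⟩)⟩
    rw [sub_smul, ← e, tvE_apply, a]; simp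
  · by_cases e : v ∈ F ∙ (w - v)
    · obtain ⟨a, e⟩ := Submodule.mem_span_singleton.1 e
      have : 1 + a ≠ 0 := fun k => hw (by
        rw [(eq_neg_of_add_eq_zero_right k)] at e; simpa using e)
      refine ⟨1, one_mem _, pt_of hv (c := (1 + a)⁻¹ * a) ?_⟩
      rw [mul_smul, eq_inv_smul_iff₀ this]
      show (1 + a) • v = _
      linear_combination (norm := module) -e
    · obtain ⟨φ, a, b⟩ := exists_dual_one e
      have b := b _ (Submodule.mem_span_singleton_self _)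
      exact ⟨tvE b, tvE_mem_SLG b, 1, one_ne_zero, by simp [tvE_apply, a]⟩
  · obtain ⟨v, hv⟩ := exists_ne (0 : V)
    obtain ⟨φ, w, a, b, c⟩ := ex_tv h3 hv
    refine ⟨tvE b, tvE_mem_SLG b, fun e => c ?_⟩
    have := e v
    rw [tvE_apply, tvE_apply, a, one_smul, map_add, add_right_inj] at this
    rw [no_eig hμ h2 hJ this.symm]; exact zero_mem _
  · obtain ⟨P, hP⟩ := sim_of_irr hμ h h'
    obtain ⟨c, hc, e⟩ := (ss_of_squarefree hμ.squarefree h).detC_eq_top.ge (mem_top (LinearEquiv.det P)⁻¹)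
    refine ⟨P * c, MonoidHom.mem_ker.2 (by rw [map_mul, e, mul_inv_cancel]), fun v => ?_⟩
    simp [mem_CG.1 hc v, hP]
  · by_cases e : ∃ v, v ≠ 0 ∧ Pt g v v
    · exact .inl e
    have k := no_root (f := g.toLinearMap) fun v c h => by_contra fun n => e ⟨v, n, pt_of n h⟩
    obtain ⟨h, hh⟩ := root_aeval hμ g.toLinearMap.charpoly_monic.ne_zero (fun π a b => by
      have := deg_of g.toLinearMap.charpoly_monic.ne_zero k a b
      rw [LinearMap.charpoly_natDegree] at this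
      exact d _ this.1 this.2.1 this.2.2) g.toLinearMap.aeval_self_charpoly
    exact .inr ⟨_, hh, aeval_intertwine g.toLinearMap (fun _ => rfl) h⟩

theorem two_psl [Finite F] {n : ℕ} (h : n = 2 ∨ n = 3 ∨ n = 4) :
    Two (Matrix.ProjectiveSpecialLinearGroup (Fin n) F) := by
  obtain ⟨c, hc⟩ := ex_nv (F := F) 3 (by simp)
  obtain ⟨a, ha⟩ := ex_nv (F := F) 2 (by simp)
  have d : (X ^ 2 - X - C a : F[X]).natDegree = 2 := by compute_degree!
  have i := irreducible_of_degree_le_three_of_not_isRoot (p := X ^ 2 - X - C a) (by simp [d]) fun t e =>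
    ha t (by simpa [sub_eq_zero] using e)
  have k : TwoL (SLG F (Fin n → F)) := by
    rcases h with rfl | rfl | rfl
    · exact twoL_sl i d.ge (by simp) fun k => by simp only [d, finrank_fin_fun]; omega
    · exact twoL_sl (irr3 hc).1 (by simp [(irr3 hc).2]) (by simp) fun k => by
        simp only [(irr3 hc).2, finrank_fin_fun]; omega
    · exact twoL_sl i d.ge (by simp) fun k => by simp only [d, finrank_fin_fun]; omega
  refine k.quot ((glEquiv (Fin n) F).toMonoidHom.comp Matrix.SpecialLinearGroup.toGL) ?_ _ fun z hz => ?_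
  · ext x
    obtain ⟨x, rfl⟩ := (glEquiv (Fin n) F).surjective x
    rw [mem_SLG, det_glEquiv]
    exact ⟨by rintro ⟨g, e⟩; rw [← (glEquiv (Fin n) F).injective e]; exact g.2,
      fun e => ⟨⟨x, e⟩, congrArg (glEquiv (Fin n) F) (Units.ext rfl)⟩⟩
  · obtain ⟨r, -, e⟩ := Matrix.SpecialLinearGroup.mem_center_iff.1 hz
    exact ⟨r, fun v => by simp [← e, Matrix.diagonal_const_mulVec]⟩

end CF.Geom.Cv
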