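/-
Two-coverings: `Sp_{2m}(q)` and `G₂(q)` for even `q`.
-/
import Cfsg.Agent.Geom.Cv1
import Cfsg.Agent.Geom.Oct1
import Cfsg.Agent.Geom.Simple
import Cfsg.Agent.Cls.RepO

set_option autoImplicit false
set_option linter.unusedSectionVars false

namespace CF.Geom.Cv

open Subgroup Module QuadraticMap CF.Cls

variable {F V P : Type*} [Field F] [AddCommGroup V] [Module F V] [AddCommGroup P] [Module F P]

theorem twoL_sp2 [Finite F] [FiniteDimensional F V] [CharP F 2] {B : LinearMap.BilinForm F V}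
    (hB : B.Nondegenerate) (hA : B.IsAlt) (h3 : 3 ≤ finrank F V) : TwoL (SpG B) := by
  have k : ∀ p : Prop, Orb (SpG B) (fun g (Q Q' : QuadraticForm F V) => ∀ v, Q' (g v) = Q v)
      fun Q => polarBilin Q = B ∧ (IsPlus Q ↔ p) := fun p => by
    refine ⟨⟨fun _ _ => rfl, fun h k v => by simp [h, k], fun {g _ _} h v => by simpa using (h (g⁻¹ v)).symm⟩,
      fun Q hQ g hg ⟨c, h⟩ v => ?_, fun Q hQ => ?_, fun Q Q' h h' => ?_⟩
    · obtain ⟨v, v0, -⟩ := exists_singular_of_three_le Q h3
      obtain ⟨w, -, hw⟩ := (isWittPair_alt B hB hA).exists_hyperbolic v0 rfl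
      have := mem_SpG.1 hg v w
      simp only [h, map_smul, LinearMap.smul_apply, hw, smul_eq_mul, mul_one] at this
      rw [h, Q.map_smul, this, one_smul]
    · obtain ⟨v, v0, hv⟩ := exists_singular_of_three_le Q h3
      obtain ⟨w, -, hw⟩ := (isWittPair_alt B hB hA).exists_hyperbolic v0 rfl
      have e : polar Q w v = 1 := by rw [polar_comm, ← hw, ← hQ.1]; rfl
      refine ⟨_, (spTrans hA v 1).2, fun h => ?_⟩
      have := h w
      rw [spTrans_apply, show B w v = 1 from hQ.1 ▸ e, one_mul, one_smul, quad_add, hv, e] at this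
      simp at this
    · obtain ⟨g, hg⟩ := exists_equiv_of_isPlus_iff (h.1 ▸ hB) (h'.1 ▸ hB) (h.2.trans h'.2.symm)
        (even_finrank_of_alt hB hA) rfl
      refine ⟨g, mem_SpG.2 fun u v => ?_, hg⟩
      have : polar Q' (g u) (g v) = polar Q u v := by simp only [polar, ← map_add, hg]
      rw [← h'.1]; exact this.trans (by rw [h'.1, ← h.1]; rfl)
  refine twoL_of (k True) (k False) fun g hg => ?_
  obtain ⟨Q, h1, h2⟩ := exists_quad_fixed hB hA (f := g.toLinearMap) (mem_SpG.1 hg)
  by_cases h : IsPlus Q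
  · exact .inl ⟨Q, ⟨h1, by simpa⟩, h2⟩
  · exact .inr ⟨Q, ⟨h1, by simpa⟩, h2⟩

theorem TwoL.psp {m : ℕ} (hm : 1 ≤ m) (h : TwoL (SpG (sympBilin m F))) : Two (Cfsg.PSp m F) := by
  have : Nonempty (Fin m) := ⟨⟨0, hm⟩⟩
  refine h.quot ((SpG _).subtype.comp (spEquiv m F).toMonoidHom) ?_ _
    (center_sp_scalar (sympBilin_nondegenerate m) (sympBilin_isAlt m) (ρ := (spEquiv m F).toMonoidHom)
      (MonoidHom.range_eq_top.2 (spEquiv m F).surjective))
  rw [MonoidHom.range_comp, (MonoidHom.range_eq_top (f := (spEquiv m F).toMonoidHom)).2 (spEquiv m F).surjective,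
    ← MonoidHom.range_eq_map, range_subtype]

variable {m : V →ₗ[F] V →ₗ[F] V} {e : V} {Q : QuadraticForm F V}

local notation "cj" x => polar Q e x • e - x

/-- a parametrised nondegenerate subalgebra -/
structure Sub (m : V →ₗ[F] V →ₗ[F] V) (e : V) (Q : QuadraticForm F V) (μ : P → P → P) (c : P → P) (o : P)
    (φ : P →ₗ[F] V) : Prop where
  mul : ∀ a b, φ (μ a b) = m (φ a) (φ b)
  con : ∀ a, φ (c a) = polar Q e (φ a) • e - φ a
  one : φ o = e
  nd : ∀ a, (∀ b, polar Q (φ a) (φ b) = 0) → a = 0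

theorem linl (h : IsOct m e Q) (x z y : V) :
    m (cj x) (m z y) + m (cj z) (m x y) = polar Q x z • y := by
  have h1 := h.altl (x + z) y
  have h2 := h.altl x y
  have h3 := h.altl z y
  simp only [polar_add_right, quad_add, map_add, map_sub, map_smul, LinearMap.add_apply,
    LinearMap.sub_apply, LinearMap.smul_apply, add_smul] at *
  linear_combination (norm := module) h1 - h2 - h3

theorem linr (h : IsOct m e Q) (x z y : V) :
    m (m y z) (cj x) + m (m y x) (cj z) = polar Q x z • y := by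
  have h1 := h.altr (x + z) y
  have h2 := h.altr x y
  have h3 := h.altr z y
  simp only [polar_add_right, quad_add, map_add, map_sub, map_smul, LinearMap.add_apply,
    LinearMap.sub_apply, LinearMap.smul_apply, add_smul] at *
  linear_combination (norm := module) h1 - h2 - h3

theorem cj_cj (h : IsOct m e Q) (x : V) : (cj (cj x)) = x := by
  rw [polar_sub_right, polar_smul_right, polar_self, h.one]; module

theorem cj_mul (h : IsOct m e Q) (x y : V) : (cj (m (cj x) (cj y))) = m y x := by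
  have s : ∀ a b, polar Q (cj a) b = polar Q a (cj b) := fun a b => by
    simp only [polar_sub_left, polar_sub_right, polar_smul_left, polar_smul_right, smul_eq_mul,
      polar_comm Q a e]; ring
  refine sub_eq_zero.1 (h.nd.1 _ fun z => ?_)
  rw [polarBilin_apply_apply, polar_sub_left, s, h.left, cj_cj h, polar_comm, h.right, cj_cj h, ← h.left,
    sub_self]

theorem Sub.dbl (h : IsOct m e Q) {μ : P → P → P} {c : P → P} {o : P} {φ : P →ₗ[F] V}
    (s : Sub m e Q μ c o φ) {v : V} (hv : Q v = 1) (p : ∀ a, polar Q (φ a) v = 0) :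
    Sub m e Q (fun x y : P × P => (μ x.1 y.1 - μ (c y.2) x.2, μ y.2 x.1 + μ x.2 (c y.1)))
      (fun x => (c x.1, -x.2)) (o, 0) (φ.coprod (m.flip v ∘ₗ φ)) := by
  have ev : polar Q e v = 0 := s.one ▸ p o
  have l : ∀ a y, m (φ (c a)) (m v y) = m v (m (φ a) y) := fun a y => by
    have := linl h (φ a) v y
    rw [p, ev, ← s.con] at this
    simpa [add_neg_eq_zero] using this
  have r : ∀ a y, m (m y v) (φ (c a)) = m (m y (φ a)) v := fun a y => by
    have := linr h (φ a) v y
    rw [p, ev, ← s.con] at this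
    simpa [add_neg_eq_zero] using this
  have cc : ∀ a, φ (c (c a)) = φ a := fun a => by rw [s.con, s.con, cj_cj h]
  have q : ∀ a b, polar Q (m (φ a) v) (φ b) = 0 := fun a b => by
    rw [h.left, ← s.con, ← s.mul, polar_comm, p]
  have q' : ∀ a, polar Q e (m (φ a) v) = 0 := fun a => by rw [polar_comm, ← s.one, q]
  have sw : ∀ a, m (φ (c a)) v = m v (φ a) := fun a => by simpa [h.mul_one] using l a e
  have e1 : ∀ a b, m (φ a) (m (φ b) v) = m (φ (μ b a)) v := fun a b => by
    rw [← cc a, ← cc b, sw, l, ← s.mul, ← sw, s.con, s.mul, s.con a, s.con b, cj_mul h, s.mul]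
  have e2 : ∀ a b, m (m (φ a) v) (φ b) = m (φ (μ a (c b))) v := fun a b => by
    rw [← cc b, r, s.mul]
  have e3 : ∀ a b, m (m (φ a) v) (m (φ b) v) = -φ (μ (c b) a) := fun a b => by
    have h1 := linl h (m (φ a) v) (φ b) v
    have h2 := h.altr v (φ a)
    rw [ev, hv, zero_smul, zero_sub, map_neg, one_smul, neg_eq_iff_eq_neg] at h2
    rw [q, q', h2, ← s.con, map_neg, ← s.mul] at h1
    simpa [neg_add_eq_zero, neg_eq_iff_eq_neg] using h1
  refine ⟨fun x y => ?_, fun x => ?_, by simp [s.one], fun x hx => ?_⟩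
  · simp only [LinearMap.coprod_apply, LinearMap.comp_apply, LinearMap.flip_apply, map_add, map_sub,
      LinearMap.add_apply, e1, e2, e3, s.mul x.1]
    abel
  · simp only [LinearMap.coprod_apply, LinearMap.comp_apply, LinearMap.flip_apply, polar_add_right, q', s.con,
      map_neg, LinearMap.neg_apply]
    module
  · refine Prod.ext (s.nd _ fun b => ?_) (s.nd _ fun b => ?_)
    · simpa [polar_add_left, q] using hx (b, 0)
    · simpa [polar_add_left, polar_comm Q (φ _) (m _ _), q, h.pol_right, hv] using hx (0, b)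

theorem Sub.inj {μ : P → P → P} {c : P → P} {o : P} {φ : P →ₗ[F] V} (s : Sub m e Q μ c o φ) :
    Function.Injective φ := (injective_iff_map_eq_zero φ).2 fun a h => s.nd a fun b => by simp [h]

theorem Sub.dis {μ : P → P → P} {c : P → P} {o : P} {φ : P →ₗ[F] V} (s : Sub m e Q μ c o φ) :
    Disjoint (LinearMap.range φ) (perp (polarBilin Q) (LinearMap.range φ)) :=
  Submodule.disjoint_def.2 fun _ ⟨a, e⟩ h => by
    rw [← e, s.nd a fun b => (polar_comm Q _ _).trans (e ▸ mem_perp.1 h _ ⟨b, rfl⟩), map_zero]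

variable [Finite F] [FiniteDimensional F V]

theorem Sub.ex (h : IsOct m e Q) {μ : P → P → P} {c : P → P} {o : P} {φ : P →ₗ[F] V}
    (s : Sub m e Q μ c o φ) (d : finrank F P ≤ 4) : ∃ v, Q v = 1 ∧ ∀ a, polar Q (φ a) v = 0 := by
  have W := isWittPair_quad Q h.nd
  have := W.finrank_perp (LinearMap.range φ)
  rw [LinearMap.finrank_range_of_inj s.inj, h.dim] at this
  obtain ⟨v, h1, h2⟩ := exists_quad_eq_mem (W.disjoint_perp_perp s.dis) (by omega) one_ne_zero
  exact ⟨v, h2, fun a => mem_perp.1 h1 _ ⟨a, rfl⟩⟩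

theorem sub_two [CharP F 2] (h : IsOct m e Q) {w : V} (t : polar Q e w = 1) :
    Sub m e Q (fun x y : F × F => (x.1 * y.1 - Q w * x.2 * y.2, x.1 * y.2 + x.2 * y.1 + x.2 * y.2))
      (fun x => (x.1 + x.2, -x.2)) (1, 0) ((LinearMap.toSpanSingleton F V e).coprod (.toSpanSingleton F V w)) := by
  have ee : polar Q e e = 2 := by rw [polar_self, h.one]; simp
  refine ⟨fun x y => ?_, fun x => ?_, by simp, fun x hx => ?_⟩
  · simp [h.one_mul, h.mul_one, h.sq, t]; module
  · simp [ee, t]; module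
  · have h1 := hx (1, 0)
    have h2 := hx (0, 1)
    simp [ee, polar_comm Q w e, t, CharTwo.two_eq_zero, CharTwo.add_self_eq_zero, two_nsmul] at h1 h2
    exact Prod.ext h2 h1

theorem oct_trans [CharP F 2] (h : IsOct m e Q) {w w' : V} (t : polar Q e w = 1) (t' : polar Q e w' = 1)
    (n : Q w = Q w') : ∃ g ∈ AutM m, g w = w' := by
  have s := sub_two h t
  have s' := sub_two h t'
  rw [← n] at s'
  obtain ⟨u, u1, u2⟩ := s.ex h (by simp)
  obtain ⟨u', u1', u2'⟩ := s'.ex h (by simp)
  obtain ⟨v, v1, v2⟩ := (s.dbl h u1 u2).ex h (by simp)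
  obtain ⟨v', v1', v2'⟩ := (s'.dbl h u1' u2').ex h (by simp)
  have k := (s.dbl h u1 u2).dbl h v1 v2
  have k' := (s'.dbl h u1' u2').dbl h v1' v2'
  have d : finrank F (((F × F) × F × F) × (F × F) × F × F) = finrank F V := by simp [h.dim]
  let a := LinearMap.linearEquivOfInjective _ k.inj d
  let a' := LinearMap.linearEquivOfInjective _ k'.inj d
  refine ⟨a.symm.trans a', fun x y => ?_, ?_⟩
  · obtain ⟨x, rfl⟩ := a.surjective x
    obtain ⟨y, rfl⟩ := a.surjective y
    rw [show m (a x) (a y) = a _ from (k.mul x y).symm]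
    simp only [LinearEquiv.trans_apply, LinearEquiv.symm_apply_apply]
    exact k'.mul x y
  · rw [show w = a (((0, 1), 0), 0) by simp [a]]
    simp [a']

theorem twoL_oct [CharP F 2] (h : IsOct m e Q) : TwoL (AutM m) := by
  have ee : polar Q e e = 0 := by rw [polar_self, h.one]; simp [CharTwo.two_eq_zero]
  have W := isWittPair_quad Q h.nd
  have pm : ∀ g ∈ AutM m, ∀ x y, polar Q (g x) (g y) = polar Q x y := fun g hg => OG_polar ⟨g, h.mem_OG hg⟩
  have k : ∀ n : F, Orb (AutM m) (fun g (w w' : V) => g e = e ∧ ∃ c : F, g w = w' + c • e)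
      fun w => polar Q e w = 1 ∧ Q w = n := fun n => by
    refine ⟨⟨fun _ => ⟨rfl, 0, by simp⟩, fun ⟨a, c, h⟩ ⟨b, d, k⟩ => ⟨by simp [a, b], d + c, by
      simp [h, k, b, add_smul, add_assoc]⟩, fun {g _ _} ⟨a, c, h⟩ => ⟨g.injective (by simp [a]), -c,
        g.injective (by simp [a, h])⟩⟩, fun w _ g hg ⟨c, hc⟩ => ⟨h.map_e hg, 0, ?_⟩, fun w hw => ?_,
      fun w w' a b => ?_⟩
    · have := congrArg (polar Q · w) ((hc e).symm.trans (h.map_e hg))
      simp_all
    · have s := sub_two h hw.1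
      have := W.finrank_perp (LinearMap.range ((LinearMap.toSpanSingleton F V e).coprod (.toSpanSingleton F V w)))
      rw [LinearMap.finrank_range_of_inj s.inj, h.dim] at this
      obtain ⟨z, z1, z2, z3⟩ := exists_singular_mem Q (U := perp (polarBilin Q) (LinearMap.range
        ((LinearMap.toSpanSingleton F V e).coprod (.toSpanSingleton F V w)))) (by simp at this; omega)
      have a : polar Q e z = 0 := mem_perp.1 z1 _ ⟨(1, 0), by simp⟩
      have b : polar Q w z = 0 := mem_perp.1 z1 _ ⟨(0, 1), by simp⟩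
      obtain ⟨g, hg, k⟩ := oct_trans h hw.1 (w' := w + z) (by simp [hw.1, a]) (by simp [quad_add, z3, b])
      refine ⟨g, hg, fun ⟨_, c, hc⟩ => z2 ?_⟩
      rw [k, add_right_inj] at hc
      rw [hc, polar_smul_right, polar_comm, hw.1] at b
      simp_all
    · obtain ⟨g, hg, k⟩ := oct_trans h a.1 b.1 (a.2.trans b.2.symm)
      exact ⟨g, hg, h.map_e hg, 0, by simp [k]⟩
  obtain ⟨ζ, hζ⟩ := ex_nv (F := F) 2 (by simp)
  refine twoL_of (k 0) (k ζ) fun g hg => ?_
  have ge := h.map_e hg
  have e0 : e ≠ 0 := fun e0 => by simpa [e0] using h.one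
  obtain ⟨w, hw, -⟩ := W.exists_dual_vec (Z := ⊥) (x := e) (by simpa using e0)
  replace hw : polar Q e w = 1 := hw
  obtain ⟨w, hw, c, hc⟩ : ∃ w, polar Q e w = 1 ∧ ∃ c : F, g w = w + c • e := by
    let U := (perp (polarBilin Q) (F ∙ e)).map (g.toLinearMap - 1) ⊔ F ∙ e
    have : w - g w ∈ U := (W.perp_perp U).le (mem_perp.2 fun z hz => by
      rw [perp_sup] at hz
      have a : polar Q e z = 0 := mem_perp_singleton.1 hz.2
      have b : g.symm z - z ∈ F ∙ e := (W.perp_perp _).le (mem_perp.2 fun x hx => by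
        have := mem_perp.1 hz.1 _ ⟨x, hx, rfl⟩
        have := pm g hg x (g.symm z)
        simp_all [sub_eq_zero])
      obtain ⟨c, hc⟩ := Submodule.mem_span_singleton.1 b
      have h1 := h.map_Q hg (g.symm z)
      have h2 := pm g hg (g.symm z) w
      rw [g.apply_symm_apply, ← sub_add_cancel (g.symm z) z, ← hc] at h1 h2
      simp [quad_add, a, h.one, Q.map_smul] at h1
      simp [h2, h1])
    obtain ⟨_, ⟨x, hx, rfl⟩, y, hy, k⟩ := Submodule.mem_sup.1 this
    obtain ⟨c, rfl⟩ := Submodule.mem_span_singleton.1 hy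
    refine ⟨w + x, by simp [hw, show polar Q e x = 0 from mem_perp_singleton.1 hx], -c, ?_⟩
    simp only [LinearMap.sub_apply, LinearEquiv.coe_coe, End.one_apply] at k
    rw [map_add]; linear_combination (norm := module) k
  have f : ∀ a : F, polar Q e (w + a • e) = 1 ∧ Q (w + a • e) = Q w + (a + a ^ 2) ∧
      g e = e ∧ ∃ c : F, g (w + a • e) = w + a • e + c • e := fun a =>
    ⟨by simp [hw, ee], by simp [quad_add, Q.map_smul, h.one, polar_comm Q w, hw]; ring, ge, c,
      by simp [hc, ge]; abel⟩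
  by_cases r : ∃ t : F, t ^ 2 + t + Q w = 0
  · obtain ⟨t, r⟩ := r
    exact .inl ⟨_, ⟨(f t).1, by rw [(f t).2.1]; linear_combination r⟩, (f t).2.2⟩
  · obtain ⟨t, r⟩ := exists_sub_sq_of_no_root (not_exists.1 r) (ζ' := ζ) fun t k => hζ t (by
      linear_combination (exp := 1) k - (t + ζ) * CharTwo.two_eq_zero (R := F))
    exact .inr ⟨_, ⟨(f t).1, by
      rw [(f t).2.1]
      linear_combination r + (t ^ 2 + 2 * (t - t ^ 2) * Q w) * CharTwo.two_eq_zero (R := F)⟩, (f t).2.2⟩

theorem two_g2 [CharP F 2] : Two (Cfsg.Lie.G2 F) := (twoL_oct isOct_zorn).two _ range_G2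

end CF.Geom.Cv
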