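/-
Two-coverings: Artin–Schreier structures in characteristic three.
-/
import Cfsg.Agent.Geom.Cv2
import Cfsg.Agent.Cls.Adj

set_option autoImplicit false
set_option linter.unusedSectionVars false

namespace CF.Geom.Cv

open Subgroup Module Polynomial CF.Cls

variable {F V : Type*} [Field F] [AddCommGroup V] [Module F V] {σ : F →+* F} {ε : F}
  {B : V →ₛₗ[σ] V →ₗ[F] F} {c : F} {J : End F V} {g : V ≃ₗ[F] V}

/-- a self-adjoint root of `X³ - X - c` -/
structure AS (B : V →ₛₗ[σ] V →ₗ[F] F) (c : F) (J : End F V) : Prop where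
  cub : ∀ v, J (J (J v)) = J v + c • v
  adj : ∀ u v, B (J u) v = B u (J v)

/-- `g J g⁻¹ = J' + a` -/
def Tw (g : V ≃ₗ[F] V) (J J' : End F V) : Prop := ∃ a : F, ∀ v, g (J v) = J' (g v) + a • g v

theorem gpd_tw : Gpd (Tw (F := F) (V := V)) where
  one _ := ⟨0, by simp⟩
  mul := fun ⟨a, h⟩ ⟨b, k⟩ => ⟨b + a, fun v => by simp [h, k, add_smul, add_assoc]⟩
  inv := fun {g _ _} ⟨a, h⟩ => ⟨-a, fun v => g.injective (by simp [h])⟩

theorem Sc.tw (h : Sc g) (J : End F V) : Tw g J J := by
  obtain ⟨c, h⟩ := h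
  exact ⟨0, fun v => by simp [h]⟩

theorem AS.eig (h : AS B c J) (hc : ∀ t, t ^ 3 - t ≠ c) {v : V} {a : F} (e : J v = a • v) : v = 0 := by
  have := h.cub v
  simp only [e, map_smul, smul_smul, ← add_smul] at this
  exact by_contra fun n => hc a (by linear_combination smul_left_injective F n this)

theorem AS.aeval (h : AS B c J) : aeval J (X ^ 3 - X - C c) = 0 :=
  LinearMap.ext fun v => by simp [pow_succ, h.cub]

theorem cub_of (h : aeval J (X ^ 3 - X - C c) = 0) (v : V) : J (J (J v)) = J v + c • v := by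
  simpa [pow_succ, sub_sub, sub_eq_zero] using LinearMap.congr_fun h v

theorem AS.not_tw [FiniteDimensional F V] (h : AS B c J) (hc : ∀ t, t ^ 3 - t ≠ c) (h3 : 3 ≤ finrank F V)
    {φ : V →ₗ[F] F} {v x : V} (v0 : v ≠ 0) (hx : φ x = 1) (hg : ∀ y, g y = y + φ y • v) : ¬ Tw g J J := by
  rintro ⟨a, e⟩
  simp only [hg, map_add, map_smul] at e
  by_cases a0 : a = 0
  · have := e x
    rw [a0, zero_smul, add_zero, add_right_inj, hx, one_smul] at this
    exact v0 (h.eig hc this.symm)
  have : (⊤ : Submodule F V) ≤ Submodule.span F (Set.range ![v, J v]) := fun y _ => by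
    have s := fun i => Submodule.subset_span (R := F) (Set.mem_range_self (f := ![v, J v]) i)
    rw [← Submodule.smul_mem_iff _ a0, show a • y = (φ (J y) - a * φ y) • v - φ y • J v by
      linear_combination (norm := module) -e y]
    exact sub_mem (Submodule.smul_mem _ _ (s 0)) (Submodule.smul_mem _ _ (s 1))
  have := (Submodule.finrank_mono this).trans (finrank_range_le_card _)
  simp at this; omega

variable [Finite F] [FiniteDimensional F V] [CharP F 3]

theorem ex_cbrt (a : F) : ∃ b : F, b ^ 3 = a :=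
  have := Fact.mk Nat.prime_three
  (Finite.injective_iff_surjective.1 (frobenius F 3).injective) a

theorem cube_inj {a b : F} (h : a ^ 3 = b ^ 3) : a = b :=
  have := Fact.mk Nat.prime_three
  (frobenius F 3).injective h

theorem as_aux (hc : σ c = c) {E x x' : End F V} {δ s : F} (e3 : ∀ v, E (E (E v)) = E v)
    (ea : ∀ u v, B (E u) v = B u (E v)) (d : δ * δ = 1) (h1 : ∀ v, E (x v) = x (E v) + δ • x v)
    (h2 : ∀ v, E (x' v) = x' (E v) - δ • x' v) (i1 : ∀ v, x (x' v) = v) (i2 : ∀ v, x' (x v) = v)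
    (hx : ∀ u v, B (x u) (x v) = B u v) (hs : ∀ v, x (x (x v)) + x' (x' (x' v)) = s • v) (s0 : s ≠ 0)
    (s1 : σ s = s) : ∃ a : F, AS B c (E + a • (x + x')) := by
  obtain ⟨a, ha⟩ := ex_cbrt (c / s)
  have sa : σ a = a := cube_inj (by rw [← map_pow, ha, map_div₀, hc, s1])
  refine ⟨a, fun v => ?_, fun u v => ?_⟩
  · have := hs v
    rw [← eq_sub_iff_add_eq] at this
    rw [eq_div_iff s0] at ha
    simp only [LinearMap.add_apply, LinearMap.smul_apply, map_add, map_sub, map_smul, h1, h2, i1, i2, e3, this]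
    match_scalars <;> grobner
  · have k1 := hx u (x' v)
    have k2 := hx (x' u) v
    rw [i1] at k1 k2
    simp [map_smulₛₗ, sa, ea, k1, k2, add_comm]

theorem as_of_grade (h : EH σ ε B) (hc : σ c = c) (hg : ∀ u v, B (g u) (g v) = B u v) {τ : F} (t1 : σ τ = τ)
    (ht : ∀ v, g (g (g v)) + g.symm (g.symm (g.symm v)) = τ • v) {U : Submodule F V}
    (nd : ∀ u ∈ U, (∀ w ∈ U, B u w = 0) → u = 0) (o : ∀ u ∈ U, ∀ w ∈ U, B u (g w) = 0)
    (i : ∀ u ∈ U, g (g (g u)) ∈ U) (d : finrank F V = 3 * finrank F U) : ∃ J, AS B c J ∧ Tw g J J := by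
  let G : End F V := g.toLinearMap
  let φ : U × U × U →ₗ[F] V := U.subtype.coprod ((G ∘ₗ U.subtype).coprod (G ∘ₗ G ∘ₗ U.subtype))
  have p : ∀ x : U × U × U, φ x = x.1 + (g x.2.1 + g (g x.2.2)) := fun _ => rfl
  have o1 : ∀ u w : U, B u (g w) = 0 := fun u w => o _ u.2 _ w.2
  have o2 : ∀ u w : U, B (g u) w = 0 := fun u w => h.refl (o1 w u)
  have o3 : ∀ u w : U, B (g (g u)) w = 0 := fun u w => by rw [← hg]; exact o1 ⟨_, i _ u.2⟩ w
  have o4 : ∀ u w : U, B u (g (g w)) = 0 := fun u w => h.refl (o3 w u)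
  have q : ∀ x y, B (φ x) (φ y) = B x.1 y.1 + B x.2.1 y.2.1 + B x.2.2 y.2.2 := fun x y => by
    simp [p, hg, o1, o2, o3, o4, add_assoc]
  have inj : Function.Injective φ := (injective_iff_map_eq_zero φ).2 fun x e =>
    Prod.ext (Subtype.ext (nd _ x.1.2 fun w hw => by simpa [e] using (q x (⟨w, hw⟩, 0, 0)).symm))
      (Prod.ext (Subtype.ext (nd _ x.2.1.2 fun w hw => by simpa [e] using (q x (0, ⟨w, hw⟩, 0)).symm))
        (Subtype.ext (nd _ x.2.2.2 fun w hw => by simpa [e] using (q x (0, 0, ⟨w, hw⟩)).symm)))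
  let e := LinearMap.linearEquivOfInjective φ inj (by simp [d]; ring)
  let E : End F V := φ ∘ₗ ((0 : U →ₗ[F] U).prodMap ((-LinearMap.id : U →ₗ[F] U).prodMap LinearMap.id)) ∘ₗ
    e.symm.toLinearMap
  have hE : ∀ x, E (φ x) = φ (0, -x.2.1, x.2.2) := fun x =>
    congrArg φ (by show LinearMap.prodMap _ _ (e.symm (e x)) = _; simp)
  have sj : ∀ v, ∃ x, φ x = v := e.surjective
  have e3 : ∀ v, E (E (E v)) = E v := fun v => by obtain ⟨x, rfl⟩ := sj v; simp only [hE, neg_neg]
  have ea : ∀ u v, B (E u) v = B u (E v) := fun u v => by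
    obtain ⟨x, rfl⟩ := sj u
    obtain ⟨y, rfl⟩ := sj v
    simp [hE, q]
  have h1 : ∀ v, E (g v) = g (E v) - g v := fun v => by
    obtain ⟨x, rfl⟩ := sj v
    rw [show g (φ x) = φ (⟨_, i _ x.2.2.2⟩, x.1, x.2.1) by simp [p]; abel, hE, hE]
    simp only [p, map_add, map_neg, Submodule.coe_neg, Submodule.coe_zero, map_zero]
    refine (one_smul F _).symm.trans ?_
    match_scalars <;> grobner
  have h2 : ∀ v, E (g.symm v) = g.symm (E v) + g.symm v := fun v => g.injective (by
    have := h1 (g.symm v)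
    simp only [map_add, g.apply_symm_apply] at this ⊢
    rw [this, sub_add_cancel])
  by_cases t0 : τ = 0
  · obtain ⟨a, k⟩ := as_aux hc (x := G ∘ₗ G) (x' := g.symm.toLinearMap ∘ₗ g.symm.toLinearMap) (δ := 1) (s := 1)
      e3 ea (one_mul _) (fun v => by
        simp only [G, LinearMap.comp_apply, LinearEquiv.coe_coe, h1, map_sub]; match_scalars <;> grobner)
      (fun v => by simp only [LinearMap.comp_apply, LinearEquiv.coe_coe, h2, map_add]; match_scalars <;> grobner)
      (by simp [G]) (by simp [G]) (by simp [G, hg]) (fun v => by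
        have a := ht (g (g (g v)))
        have b := ht (g.symm (g.symm (g.symm v)))
        simp only [t0, zero_smul, g.symm_apply_apply, g.apply_symm_apply, ← eq_neg_iff_add_eq_zero] at a
        simp only [t0, zero_smul, g.symm_apply_apply, g.apply_symm_apply, ← neg_eq_iff_add_eq_zero] at b
        simp only [G, LinearMap.comp_apply, LinearEquiv.coe_coe, a, ← b]
        match_scalars; grobner) one_ne_zero (map_one σ)
    exact ⟨_, k, 1, fun v => by simp [G, h1]; abel⟩
  · obtain ⟨a, k⟩ := as_aux hc (x := G) (x' := g.symm.toLinearMap) (δ := -1) e3 ea (by simp)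
      (fun v => by simp [G, h1, sub_eq_add_neg]) (fun v => by simp [h2]) (by simp [G]) (by simp [G]) hg ht t0 t1
    exact ⟨_, k, 1, fun v => by simp [G, h1]; abel⟩

end CF.Geom.Cv
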