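/-
Two-coverings: `Sp₆(3^a)`.
-/
import Cfsg.Agent.Geom.Cv3

set_option autoImplicit false
set_option linter.unusedSectionVars false

namespace CF.Geom.Cv

open Subgroup Module Polynomial CF.Cls

variable {F V : Type*} [Field F] [AddCommGroup V] [Module F V] {B : LinearMap.BilinForm F V} {c : F}
  {J y S : End F V} {g : V ≃ₗ[F] V} [Finite F] [FiniteDimensional F V] [CharP F 3]

theorem zero_of_lt {μ p : F[X]} (hμ : Irreducible μ) (h : aeval J μ = 0) (p0 : p ≠ 0)
    (d : p.natDegree < μ.natDegree) {v : V} (e : aeval J p v = 0) : v = 0 := by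
  obtain ⟨a, b, k⟩ := hμ.coprime_iff_not_dvd.2 fun k => d.not_ge (natDegree_le_of_dvd k p0)
  simpa [h, e] using (LinearMap.congr_fun (congrArg (aeval J) k) v).symm

theorem sa_zero (hA : B.IsAlt) (h : ∀ u v, B (y u) v = B u (y v)) (v : V) : B v (y v) = 0 := by
  have := hA.neg_eq (y v) v
  rw [h] at this; grobner

theorem sa_pow (h : ∀ u v, B (y u) v = B u (y v)) (n : ℕ) : ∀ u v, B ((y ^ n) u) v = B u ((y ^ n) v) := by
  induction n with
  | zero => simp
  | succ n ih => intro u v; rw [pow_succ, End.mul_apply, ih, h, ← End.mul_apply, ← pow_succ', pow_succ]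

theorem sa_aeval (h : ∀ u v, B (y u) v = B u (y v)) (p : F[X]) (u v : V) :
    B (aeval y p u) v = B u (aeval y p v) := by
  simp [aeval_eq_sum_range, LinearMap.sum_apply, map_sum, sa_pow h]

theorem ex_skew (hB : B.Nondegenerate) (hA : B.IsAlt) (h : ∀ u v, B (S u) v = -B u (S v)) (h0 : S ≠ 0) :
    ∃ v, B v (S v) ≠ 0 := by
  by_contra! k
  refine h0 (LinearMap.ext fun z => hB.2 _ fun x => ?_)
  have h1 := k (x + z)
  have h2 := hA.neg_eq (S x) z
  simp only [map_add, LinearMap.add_apply, k, h] at h1 h2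
  show B x (S z) = 0
  grobner

theorem four (hB : B.Nondegenerate) (hA : B.IsAlt) (d : finrank F V = 6) (x : Fin 4 → V)
    (o : ∀ i j, B (x i) (x j) = 0) : ¬ LinearIndependent F x := fun h => by
  have := (isWittPair_alt B hB hA).two_mul_finrank_le (IsWittPair.span_le_perp_span o)
  rw [finrank_span_eq_card h, d] at this
  simp at this

theorem lagr (hB : B.Nondegenerate) (hA : B.IsAlt) (h : ∀ u v, B (y u) v = B u (y v)) :
    ∃ M : Submodule F V, (∀ v ∈ M, y v ∈ M) ∧ perp B M = M := by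
  obtain ⟨M, ⟨h1, h2⟩, h3⟩ := (wellFounded_gt (α := Submodule F V)).has_min
    {M | (∀ v ∈ M, y v ∈ M) ∧ M ≤ perp B M} ⟨⊥, by simp⟩
  refine ⟨M, h1, le_antisymm (fun v hv => ?_) h2⟩
  let W := LinearMap.range (LinearMap.applyₗ v ∘ₗ (aeval y).toLinearMap)
  have k : ∀ p : F[X], ∀ x ∈ M, aeval y p x ∈ M := fun p x hx => by
    rw [aeval_eq_sum_range, LinearMap.sum_apply]
    exact sum_mem fun i _ => M.smul_mem _ (End.pow_apply_mem_of_forall_mem i h1 x hx)
  refine (eq_of_le_of_not_lt (le_sup_left : M ≤ M ⊔ W) (h3 _ ⟨fun z hz => ?_, fun z hz => mem_perp.2 fun x hx => ?_⟩)).ge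
    (Submodule.mem_sup_right ⟨1, by simp⟩)
  · obtain ⟨a, ha, _, ⟨p, rfl⟩, rfl⟩ := Submodule.mem_sup.1 hz
    exact map_add y _ _ ▸ Submodule.add_mem_sup (h1 a ha) ⟨X * p, by simp⟩
  · obtain ⟨a, ha, _, ⟨p, rfl⟩, rfl⟩ := Submodule.mem_sup.1 hz
    obtain ⟨b, hb, _, ⟨q, rfl⟩, rfl⟩ := Submodule.mem_sup.1 hx
    have e1 : B b (aeval y p v) = 0 := by rw [← sa_aeval h]; exact mem_perp.1 hv _ (k p b hb)
    have e2 : B a (aeval y q v) = 0 := by rw [← sa_aeval h]; exact mem_perp.1 hv _ (k q a ha)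
    have e3 := sa_zero hA (sa_aeval h (q * p)) v
    rw [map_mul, End.mul_apply, ← sa_aeval h] at e3
    simp [mem_perp.1 (h2 ha) b hb, e1, hA.isRefl _ _ e2, e3]

/-- nondegenerate planes -/
def N2 (B : LinearMap.BilinForm F V) (U : Submodule F V) : Prop := finrank F U = 2 ∧ Disjoint U (perp B U)

theorem orb_n2 (hB : B.Nondegenerate) (hA : B.IsAlt) (d : finrank F V = 6) : Orb (SpG B) Sb (N2 B) := by
  have W := isWittPair_alt B hB hA
  refine ⟨gpd_sb, fun U _ g _ h => h.sb U, fun U h => ?_, fun U U' h h' => ?_⟩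
  · have := W.finrank_perp U
    obtain ⟨u, hu, u0⟩ := U.ne_bot_iff.1 fun e => by have := h.1; rw [e, finrank_bot] at this; omega
    obtain ⟨z, hz, z0⟩ := (perp B U).ne_bot_iff.1 fun e => by rw [e, finrank_bot, h.1, d] at this; omega
    obtain ⟨x, hx, k⟩ : ∃ x ∈ U, B x u ≠ 0 := by
      by_contra! k
      exact u0 (Submodule.disjoint_def.1 h.2 u hu (mem_perp.2 k))
    refine ⟨_, (spTrans hA (u + z) 1).2, fun e => z0 (Submodule.disjoint_def.1 h.2 z ?_ hz)⟩
    have := (e x).2 hx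
    rwa [spTrans_apply, map_add, mem_perp.1 hz x hx, one_mul, add_zero, U.add_mem_iff_right hx,
      U.smul_mem_iff k, U.add_mem_iff_right hu] at this
  · obtain ⟨φ, k⟩ := exists_equiv_alt (W.restrict h.2).nondegenerate (fun x => hA x)
      (W.restrict h'.2).nondegenerate (fun x => hA x) (h.1.trans h'.1.symm)
    obtain ⟨g, hg, -, e⟩ := W.exists_isom_map_eq φ k fun _ => rfl
    exact ⟨g, hg, sb_of_le (fun v hv => e ⟨v, hv⟩ ▸ (φ ⟨v, hv⟩).2) (h'.1.trans h.1.symm).le⟩

theorem AS.frame (h : AS B c J) (hc : ∀ t, t ^ 3 - t ≠ c) (hB : B.Nondegenerate) (hA : B.IsAlt)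
    (d : finrank F V = 6) : ∃ v w, HypFrame B (fun _ => (0 : F)) ![v, J v, J (J v)] ![J (J w) - w, J w, w] := by
  have : Nontrivial V := Module.nontrivial_of_finrank_pos (R := F) (by omega)
  obtain ⟨v, v0⟩ := exists_ne (0 : V)
  obtain ⟨w, h1, h2⟩ := (isWittPair_alt B hB hA).exists_dual_vec (x := J (J v))
    (Z := Submodule.span F {v, J v}) fun e => by
      obtain ⟨a, b, e⟩ := Submodule.mem_span_pair.1 e
      have k : (X ^ 2 - C b * X - C a : F[X]).natDegree = 2 := by compute_degree!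
      exact v0 (zero_of_lt (irr3 hc).1 h.aeval (p := X ^ 2 - C b * X - C a) (fun e => by simp [e] at k)
        (by simp [k, (irr3 hc).2]) (by simp [pow_two, ← e]))
  have h3 := h2 v (Submodule.subset_span (by simp))
  have h4 := h2 (J v) (Submodule.subset_span (by simp))
  simp only [h.adj] at h1 h4
  have z0 : ∀ x, B x x = 0 := hA
  have z1 := sa_zero hA h.adj
  have z2 := sa_zero hA (y := J * J) fun u v => by simp [h.adj]
  simp only [End.mul_apply] at z2
  refine ⟨v, w, fun _ => rfl, fun _ => rfl, fun i j => ?_, fun i j => ?_, fun i => ?_, fun i j k => ?_⟩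
  · fin_cases i <;> fin_cases j <;> simp [h.adj, h.cub, z0, z1, z2]
  · fin_cases i <;> fin_cases j <;> simp [h.adj, h.cub, z0, z1, z2]
  · fin_cases i <;> simp [h.adj, h.cub, h1, h3, h4]
  · fin_cases i <;> fin_cases j <;> simp [h.adj, h.cub, h1, h3, h4] at k ⊢

theorem orb_as (hc : ∀ t, t ^ 3 - t ≠ c) (hB : B.Nondegenerate) (hA : B.IsAlt) (d : finrank F V = 6) :
    Orb (SpG B) Tw (AS B c) := by
  have W := isWittPair_alt B hB hA
  refine ⟨gpd_tw, fun J _ g _ h => h.tw J, fun J h => ?_, fun J J' h h' => ?_⟩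
  · have : Nontrivial V := Module.nontrivial_of_finrank_pos (R := F) (by omega)
    obtain ⟨v, v0⟩ := exists_ne (0 : V)
    obtain ⟨w, -, k⟩ := W.exists_hyperbolic v0 rfl
    exact ⟨_, (spTrans hA v 1).2, h.not_tw hc (by omega) (φ := B.flip v) v0 (x := -w)
      (by simp [hA.neg_eq, k]) fun y => by simp [spTrans_apply]⟩
  · obtain ⟨v, w, k⟩ := h.frame hc hB hA d
    obtain ⟨v', w', k'⟩ := h'.frame hc hB hA d
    obtain ⟨g, hg, a, b⟩ := k.exists_isom W k'
    obtain ⟨e, he⟩ := k.exists_basis' W (by simp [d])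
    have a0 : g v = v' := a 0
    have a1 : g (J v) = J' v' := a 1
    have a2 : g (J (J v)) = J' (J' v') := a 2
    have b2 : g w = w' := b 2
    have b1 : g (J w) = J' w' := b 1
    have b0 : g (J (J w)) = J' (J' w') := by simpa [b2] using b 0
    refine ⟨g, hg, 0, fun x => ?_⟩
    rw [zero_smul, add_zero]
    refine LinearMap.congr_fun (e.ext fun i => ?_ : g.toLinearMap ∘ₗ J = J' ∘ₗ g.toLinearMap) x
    rcases i with i | i <;> fin_cases i <;> simp [he, h.cub, h'.cub, a0, a1, a2, b0, b1, b2]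

theorem n2_of (hB : B.Nondegenerate) (hA : B.IsAlt) (d : finrank F V = 6) (hg : ∀ u v, B (g u) (g v) = B u v)
    {U : Submodule F V} (n : Disjoint U (perp B U)) (i : ∀ u ∈ U, g u ∈ U)
    (k : finrank F U = 2 ∨ finrank F U = 4) : ∃ U, N2 B U ∧ Sb g U U := by
  have W := isWittPair_alt B hB hA
  have s := sb_of_le i le_rfl
  rcases k with k | k
  · exact ⟨U, ⟨k, n⟩, s⟩
  · have := W.finrank_perp U
    refine ⟨perp B U, ⟨by omega, W.disjoint_perp_perp n⟩, sb_of_le (fun v hv => mem_perp.2 fun x hx => ?_) le_rfl⟩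
    rw [← g.apply_symm_apply x, hg]
    exact mem_perp.1 hv _ ((s _).1 (by simpa using hx))

theorem n2_pair (hB : B.Nondegenerate) (hA : B.IsAlt) {v w : V} (h : B v w ≠ 0) :
    N2 B (Submodule.span F {v, w}) :=
  ⟨IsWittPair.finrank_span_hyperbolic (hA v) h, (isWittPair_alt B hB hA).disjoint_hyperbolic (hA v) (hA w) h⟩

theorem grade_pair (hB : B.Nondegenerate) (hA : B.IsAlt) (d : finrank F V = 6) (hg : ∀ u v, B (g u) (g v) = B u v)
    {τ : F} (ht : ∀ v, g (g (g v)) + g.symm (g.symm (g.symm v)) = τ • v) {v w : V} (h : B v w ≠ 0)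
    (o1 : B v (g v) = 0) (o2 : B v (g w) = 0) (o3 : B w (g v) = 0) (o4 : B w (g w) = 0)
    (i : ∀ u ∈ Submodule.span F {v, w}, g (g (g u)) ∈ Submodule.span F {v, w}) : ∃ J, AS B c J ∧ Tw g J J := by
  have k := n2_pair hB hA h
  refine as_of_grade (eh_alt hB hA) rfl hg rfl ht (fun u hu e => Submodule.disjoint_def.1 k.2 u hu
    (mem_perp.2 fun x hx => hA.isRefl _ _ (e x hx))) (fun u hu z hz => ?_) i (by rw [k.1, d])
  obtain ⟨a, b, rfl⟩ := Submodule.mem_span_pair.1 hu
  obtain ⟨a', b', rfl⟩ := Submodule.mem_span_pair.1 hz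
  simp [o1, o2, o3, o4]

theorem nil_case (hB : B.Nondegenerate) (hA : B.IsAlt) (d : finrank F V = 6) (hg : ∀ u v, B (g u) (g v) = B u v)
    {t : F} {N : End F V} (hN : ∀ x, N x = g x + g.symm x - t • x) (n3 : ∀ x, N (N (N x)) = 0) :
    (∃ U, N2 B U ∧ Sb g U U) ∨ ∃ J, AS B c J ∧ Tw g J J := by
  obtain ⟨D, hD⟩ : ∃ D : End F V, ∀ x, D x = g x - g.symm x := ⟨g.toLinearMap - g.symm.toLinearMap, fun _ => rfl⟩
  have a1 : ∀ x z, B (g x) z = B x (g.symm z) := fun x z => by rw [← hg x, g.apply_symm_apply]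
  have a2 : ∀ x z, B (g.symm x) z = B x (g z) := fun x z => by rw [← hg, g.apply_symm_apply]
  have aN : ∀ x z, B (N x) z = B x (N z) := fun x z => by simp [hN, a1, a2, add_comm]
  have aD : ∀ x z, B (D x) z = -B x (D z) := fun x z => by simp [hD, a1, a2]
  have nd : ∀ x, N (D x) = D (N x) := fun x => by simp [hN, hD]; module
  have dd : ∀ x, D (D x) = (t ^ 2 - 1) • x - t • N x + N (N x) := fun x => by
    simp only [hN, hD, map_add, map_sub, map_smul, g.apply_symm_apply, g.symm_apply_apply]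
    match_scalars <;> grobner
  have gx : ∀ x, g x = -(t • x + N x + D x) := fun x => by rw [hN, hD]; match_scalars <;> grobner
  have ht : ∀ x, g (g (g x)) + g.symm (g.symm (g.symm x)) = t ^ 3 • x := fun x => by
    have := n3 x
    simp only [hN, map_add, map_sub, map_smul, g.apply_symm_apply, g.symm_apply_apply] at this
    rw [← sub_eq_zero, ← this]
    match_scalars <;> grobner
  have z0 : ∀ x, B x x = 0 := hA
  have z1 := sa_zero hA aN
  have z2 := sa_zero hA (y := N * N) fun u v => by simp [aN]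
  simp only [End.mul_apply] at z2
  have sk : ∀ x z, B x z = -B z x := fun x z => (hA.neg_eq z x).symm
  have ex : ∀ S : End F V, S ≠ 0 → ∃ x z, B x (S z) ≠ 0 := fun S h => by
    by_contra! k
    exact h (LinearMap.ext fun z => hB.2 _ fun x => k x z)
  have inv : ∀ s : Set V, (∀ x ∈ s, N x ∈ Submodule.span F s ∧ D x ∈ Submodule.span F s) →
      ∀ x ∈ Submodule.span F s, g x ∈ Submodule.span F s := fun s h x hx =>
    Submodule.span_le (p := (Submodule.span F s).comap g.toLinearMap).2 (fun x hx => show g x ∈ Submodule.span F s from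
      gx x ▸ neg_mem (add_mem (add_mem (Submodule.smul_mem _ _ (Submodule.subset_span hx)) (h x hx).1) (h x hx).2)) hx
  by_cases h2 : N * N = 0; swap
  · by_cases h3 : D * N * N = 0
    · obtain ⟨x, z, k⟩ := ex _ h2
      replace h3 : ∀ x, D (N (N x)) = 0 := LinearMap.congr_fun h3
      rw [End.mul_apply] at k
      have t1 : t ^ 2 - 1 = 0 := by
        have := congrArg (B x) (dd (N (N z)))
        simpa [h3, n3, k] using this
      have t0 : t ≠ 0 := fun e => by simp [e] at t1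
      have k' := sk z (N (N x))
      rw [aN, aN] at k'
      refine (four hB hA d ![N (N x), N (N z), D (N x), D (N z)] (fun i j => ?_)
        (Fintype.linearIndependent_iff.2 fun a e => ?_)).elim
      · fin_cases i <;> fin_cases j <;> simp [aN, aD, nd, dd, h3, n3, t1]
      · have e1 := congrArg (B x ∘ D) e
        have e2 := congrArg (B z ∘ D) e
        simp [Fin.sum_univ_four, dd, h3, n3, t1, z2, k, k', t0] at e1 e2
        have e3 := congrArg (B x) e
        have e4 := congrArg (B z) e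
        simp [Fin.sum_univ_four, e1, e2, z2, k, k'] at e3 e4
        intro i; fin_cases i <;> assumption
    obtain ⟨x, k⟩ := ex_skew hB hA (S := D * N * N) (fun u v => by simp [aN, aD, nd]) h3
    simp only [End.mul_apply] at k
    obtain ⟨v, b0, b1, b2⟩ : ∃ v, B v (D v) = 0 ∧ B v (D (N v)) = 0 ∧ B v (D (N (N v))) ≠ 0 := by
      obtain ⟨a, ha⟩ : ∃ a, a * B x (D (N (N x))) = B x (D (N x)) := ⟨_, div_mul_cancel₀ _ k⟩
      obtain ⟨b, hb⟩ : ∃ b, b * B x (D (N (N x))) = B x (D x) + 2 * a * B x (D (N x)) + a ^ 2 * B x (D (N (N x))) :=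
        ⟨_, div_mul_cancel₀ _ k⟩
      refine ⟨x + a • N x + b • N (N x), ?_, ?_, ?_⟩ <;> simp [aN, nd, n3, k] <;> grobner
    have c1 : B v (g v) = 0 := by simp [gx, z0, z1, b0]
    have c2 : B v (g (g v)) = 0 := by simp [gx, z0, z1, z2, b0, b1, nd, dd]
    have c3 : B v (g (g (g v))) ≠ 0 := by simp [gx, z0, z1, z2, b0, b1, nd, dd, n3]; grobner
    have e := ht (g v)
    have e' := ht (g (g (g v)))
    simp only [g.symm_apply_apply, ← eq_sub_iff_add_eq] at e e'
    refine .inr (grade_pair hB hA d hg ht c3 c1 ?_ ?_ (by simp only [hg, c1]) fun u hu => ?_)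
    · rw [e, map_sub, map_smul, c1, ← a1, ← a1, sk, c2]; simp
    · rw [hg, sk, c2, neg_zero]
    · obtain ⟨a, b, rfl⟩ := Submodule.mem_span_pair.1 hu
      exact Submodule.mem_span_pair.2 ⟨-b, a + b * t ^ 3, by simp only [map_add, map_smul, e']; module⟩
  replace h2 : ∀ x, N (N x) = 0 := LinearMap.congr_fun h2
  by_cases h1 : N = 0
  · by_cases h0 : D = 0
    · have : Nontrivial V := Module.nontrivial_of_finrank_pos (R := F) (by omega)
      obtain ⟨x, z, k⟩ := ex 1 one_ne_zero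
      exact .inl ⟨_, n2_pair hB hA k, sb_of_le (inv _ (by simp [h0, h1])) le_rfl⟩
    · obtain ⟨x, k⟩ := ex_skew hB hA aD h0
      refine .inl ⟨_, n2_pair hB hA k, sb_of_le (inv _ ?_) le_rfl⟩
      have l1 : x ∈ Submodule.span F {x, D x} := Submodule.subset_span (by simp)
      have l2 : D x ∈ Submodule.span F {x, D x} := Submodule.subset_span (by simp)
      simp [h1, dd, l1, l2, Submodule.smul_mem]
  by_cases h3 : D * N = 0; swap
  · obtain ⟨x, k⟩ := ex_skew hB hA (S := D * N) (fun u v => by simp [aN, aD, nd]) h3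
    simp only [End.mul_apply] at k
    obtain ⟨v, b0, b1⟩ : ∃ v, B v (D v) = 0 ∧ B v (D (N v)) ≠ 0 := by
      obtain ⟨a, ha⟩ : ∃ a, a * B x (D (N x)) = B x (D x) := ⟨_, div_mul_cancel₀ _ k⟩
      refine ⟨x + a • N x, ?_, ?_⟩ <;> simp [aN, nd, h2, k]
      grobner
    have W := isWittPair_alt B hB hA
    have H : HypFrame B (fun _ => (0 : F)) ![v, N v] ![(B v (D (N v)))⁻¹ • D (N v), (B v (D (N v)))⁻¹ • D v] := by
      refine ⟨fun _ => rfl, fun _ => rfl, fun i j => ?_, fun i j => ?_, fun i => ?_, fun i j k => ?_⟩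
      · fin_cases i <;> fin_cases j <;> simp [aN, z0, z1, h2]
      · fin_cases i <;> fin_cases j <;> simp [aN, aD, dd, z0, z1, h2]
      · fin_cases i <;> simp [aN, nd, b1]
      · fin_cases i <;> fin_cases j <;> simp [aN, nd, h2, b0] at k ⊢
    have l0 := left_mem_hypSpan (F := F) ![v, N v] ![(B v (D (N v)))⁻¹ • D (N v), (B v (D (N v)))⁻¹ • D v]
    have r0 := right_mem_hypSpan (F := F) ![v, N v] ![(B v (D (N v)))⁻¹ • D (N v), (B v (D (N v)))⁻¹ • D v]
    have l1 := l0 0; have l2 := l0 1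
    have r1 := (Submodule.smul_mem_iff _ (inv_ne_zero b1)).1 (r0 0)
    have r2 := (Submodule.smul_mem_iff _ (inv_ne_zero b1)).1 (r0 1)
    refine .inl (n2_of hB hA d hg (H.disjoint W) (inv _ ?_) (.inr (H.finrank_span W)))
    simp only [Matrix.cons_val_zero, Matrix.cons_val_one, hypSpan] at l1 l2 r1 r2
    generalize Submodule.span F (Set.range (Sum.elim ![v, N v] _)) = U at l1 l2 r1 r2 ⊢
    rintro _ ⟨i | i, rfl⟩ <;> fin_cases i <;>
      simp [l1, l2, r1, r2, nd, dd, h2, U.smul_mem, U.sub_mem (U.smul_mem _ l1) (U.smul_mem _ l2)]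
  replace h3 : ∀ x, D (N x) = 0 := LinearMap.congr_fun h3
  obtain ⟨x, z, k⟩ := ex _ h1
  have t1 : t ^ 2 - 1 = 0 := by simpa [h3, h2, k] using congrArg (B x) (dd (N z))
  have t0 : t ≠ 0 := fun e => by simp [e] at t1
  have s1 : ∀ x z, B z (N x) = -B x (N z) := fun x z => by rw [sk, aN]
  have s2 : ∀ x z, B z (D x) = B x (D z) := fun x z => by rw [sk, aD, neg_neg]
  obtain ⟨v, k, b0⟩ : ∃ v, B v (N z) ≠ 0 ∧ B v (D v) = 0 := by
    obtain ⟨a, ha⟩ : ∃ a, a * (t * B x (N z)) = -B x (D x) := ⟨_, div_mul_cancel₀ _ (mul_ne_zero t0 k)⟩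
    refine ⟨x + a • D z, ?_, ?_⟩ <;> simp [aD, dd, t1, h2, h3, k, s1 x z]
    grobner
  obtain ⟨w, k, b1⟩ : ∃ w, B v (N w) ≠ 0 ∧ B v (D w) = 0 := by
    obtain ⟨a, ha⟩ : ∃ a, a * (t * B v (N z)) = B v (D z) := ⟨_, div_mul_cancel₀ _ (mul_ne_zero t0 k)⟩
    refine ⟨z + a • D z, ?_, ?_⟩ <;> simp [nd, dd, t1, h2, h3, k]
    grobner
  obtain ⟨w, k, b1, b2⟩ : ∃ w, B v (N w) ≠ 0 ∧ B v (D w) = 0 ∧ B w (D w) = 0 := by
    obtain ⟨a, ha⟩ : ∃ a, a * (t * B v (N w)) = B w (D w) := ⟨_, div_mul_cancel₀ _ (mul_ne_zero t0 k)⟩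
    refine ⟨w + a • D v, ?_, ?_, ?_⟩ <;> simp [aD, nd, dd, t1, h2, h3, k, s1 v w, b1, z1]
    grobner
  obtain ⟨w, k, b1, b2, b3⟩ : ∃ w, B v w ≠ 0 ∧ B v (D w) = 0 ∧ B w (D w) = 0 ∧ t * B v w + B v (N w) = 0 := by
    obtain ⟨a, ha⟩ : ∃ a, a * (t * B v (N w)) = -(t * B v w + B v (N w)) :=
      ⟨_, div_mul_cancel₀ _ (mul_ne_zero t0 k)⟩
    refine ⟨w + a • N w, ?_, ?_, ?_, ?_⟩ <;> simp [aN, nd, h2, h3, b1, b2] <;> grobner
  refine .inr (grade_pair hB hA d hg ht k (by simp [gx, z0, z1, b0]) (by simp [gx, b1]; grobner)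
    (by simp [gx, s2 v w, b1, s1 v w, sk w v]; grobner) (by simp [gx, z0, z1, b2]) fun u hu => ?_)
  rw [show g (g (g u)) = -t ^ 3 • u by
    simp only [gx, map_add, map_neg, map_smul, nd, dd, h2, h3, t1, map_sub, map_zero]; match_scalars <;> grobner]
  exact Submodule.smul_mem _ _ hu

theorem twoL_sp6 (hB : B.Nondegenerate) (hA : B.IsAlt) (d : finrank F V = 6) : TwoL (SpG B) := by
  obtain ⟨c, hc⟩ := ex_nv (F := F) 3 (by simp)
  have W := isWittPair_alt B hB hA
  refine twoL_of (orb_n2 hB hA d) (orb_as hc hB hA d) fun g hg => ?_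
  replace hg := mem_SpG.1 hg
  have a1 : ∀ x z, B (g x) z = B x (g.symm z) := fun x z => by rw [← hg x, g.apply_symm_apply]
  have a2 : ∀ x z, B (g.symm x) z = B x (g z) := fun x z => by rw [← hg, g.apply_symm_apply]
  let y : End F V := g.toLinearMap + g.symm.toLinearMap
  have ay : ∀ x z, B (y x) z = B x (y z) := fun x z => by simp [y, a1, a2, add_comm]
  have cy : ∀ x, g (y x) = y (g x) := fun x => by simp [y]
  by_cases e : ∀ v (t : F), y v = t • v → v = 0
  · obtain ⟨M, h1, h2⟩ := lagr hB hA ay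
    have := W.finrank_perp M
    rw [h2, d] at this
    let p := (y.restrict h1).charpoly
    have pd : p.natDegree = 3 := by rw [LinearMap.charpoly_natDegree]; omega
    have pi : Irreducible p := irreducible_of_degree_le_three_of_not_isRoot (by simp [pd])
      (no_root fun v t h => Subtype.ext (e v t (congrArg Subtype.val h)))
    have p1 : ∀ v ∈ M, aeval y p v = 0 := fun v hv => by
      have := aeval_intertwine (f := y.restrict h1) (g := y) M.subtype (fun _ => rfl) p ⟨v, hv⟩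
      rw [LinearMap.aeval_self_charpoly] at this
      exact this.symm.trans (map_zero _)
    obtain ⟨h, k⟩ := root_aeval (irr3 hc).1 (mul_ne_zero pi.ne_zero pi.ne_zero) (f := y) (fun π a b => by
      rw [(irr3 hc).2, ← pd]
      exact (natDegree_eq_of_degree_eq (degree_eq_degree_of_associated (a.associated_of_dvd pi
        (by simpa using a.prime.dvd_mul.1 b)))).symm.dvd) (LinearMap.ext fun v => by
      rw [map_mul, End.mul_apply]
      exact p1 _ (h2.le (mem_perp.2 fun x hx => by rw [← sa_aeval ay, p1 x hx]; simp)))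
    exact .inr ⟨_, ⟨cub_of k, sa_aeval ay h⟩, 0, fun v => by
      simpa using aeval_intertwine g.toLinearMap cy h v⟩
  push Not at e
  obtain ⟨v, t, e, v0⟩ := e
  let N : End F V := y - algebraMap F _ t
  have hN : ∀ x, N x = g x + g.symm x - t • x := fun _ => rfl
  have aN : ∀ x z, B (N x) z = B x (N z) := fun x z => by simp [hN, a1, a2, add_comm]
  have z := fun n => sa_zero hA (sa_pow aN n)
  have n4 : ∀ x, N (N (N (N x))) = 0 → N (N (N x)) = 0 := fun x h => by_contra fun k =>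
    four hB hA d ![x, N x, N (N x), N (N (N x))] (fun i j => by
      have z0 := z 0 x; have z1 := z 1 x; have z2 := z 2 x; have z3 := z 3 x
      simp only [pow_succ, pow_zero, End.mul_apply, End.one_apply] at z0 z1 z2 z3
      fin_cases i <;> fin_cases j <;> simp [aN, z0, z1, z2, z3, h])
    (Fintype.linearIndependent_iff.2 fun a e => by
      have e3 := congrArg (N ∘ N ∘ N) e
      have e2 := congrArg (N ∘ N) e
      have e1 := congrArg N e
      simp [Fin.sum_univ_four, h, k] at e3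
      simp [Fin.sum_univ_four, h, k, e3] at e2
      simp [Fin.sum_univ_four, h, k, e3, e2] at e1
      simp [Fin.sum_univ_four, h, k, e3, e2, e1] at e
      intro i; fin_cases i <;> assumption)
  let K := LinearMap.ker (N * N * N)
  have pK : perp B K = LinearMap.range (N * N * N) := by
    rw [← W.perp_perp (LinearMap.range _), (eh_alt hB hA).perp_range,
      (eh_alt hB hA).adj_eq (ψ := N * N * N) fun u v => by simp [aN]]
  have dK : Disjoint K (perp B K) := Submodule.disjoint_def.2 fun x h1 h2 => by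
    obtain ⟨x, rfl⟩ := pK.le h2
    exact n4 _ (n4 _ (n4 _ h1))
  by_cases hK : K = ⊤
  · exact nil_case hB hA d hg hN fun x => hK.ge (Submodule.mem_top (x := x))
  have cN : ∀ x, N (g x) = g (N x) := fun x => by simp [hN]
  refine .inl (n2_of hB hA d hg dK (fun u hu => ?_) ?_)
  · show N (N (N (g u))) = 0
    rw [cN, cN, cN, show N (N (N u)) = 0 from hu, map_zero]
  · have h1 := even_finrank_of_alt (W.restrict dK).nondegenerate fun x => hA x
    have h2 := Submodule.finrank_lt hK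
    have h3 : finrank F K ≠ 0 := fun h => v0 ((Submodule.finrank_eq_zero.1 h).le (show N (N (N v)) = 0 by
      rw [show N v = 0 from sub_eq_zero.2 e, map_zero, map_zero]))
    obtain ⟨r, h1⟩ := h1
    omega

end CF.Geom.Cv
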