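/-
Two-coverings: `SU₄(q)` and `SU₃(3^a)`.
-/
import Cfsg.Agent.Geom.Cv4
import Cfsg.Agent.Cls.Fix
import Cfsg.Agent.Cls.GU

set_option autoImplicit false
set_option linter.unusedSectionVars false

namespace CF.Geom.Cv

open Subgroup Module Polynomial CF.Cls

variable {F V : Type*} [Field F] [AddCommGroup V] [Module F V] {σ : F →+* F} {B : V →ₛₗ[σ] V →ₗ[F] F} {c : F}
  {J : End F V} {g : V ≃ₗ[F] V} [Finite F] [FiniteDimensional F V]

theorem odd_deg (hσ : σ ≠ RingHom.id F) (hσ2 : ∀ x, σ (σ x) = x) {π : F[X]} (hπ : Irreducible π)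
    (d : π ∣ (π.map σ).reverse) : Odd π.natDegree := by
  classical
  rw [← Nat.not_even_iff_odd]
  rintro ⟨k, hk⟩
  have := Fact.mk hπ
  have := fd_adjoinRoot hπ.ne_zero
  have : Finite (AdjoinRoot π) := Module.finite_of_finite F
  have := Fintype.ofFinite F
  have p0 := hπ.natDegree_pos
  have r0 : AdjoinRoot.root π ≠ 0 := fun e => by
    have := natDegree_le_of_dvd (AdjoinRoot.mk_eq_zero.1 e) X_ne_zero
    rw [natDegree_X] at this; omega
  let τ : AdjoinRoot π →+* AdjoinRoot π := AdjoinRoot.lift ((algebraMap F _).comp σ) (AdjoinRoot.root π)⁻¹ (by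
    rw [← eval₂_map, ← aeval_def, ← aeval_reverse_mul (mul_inv_cancel₀ r0) (inv_mul_cancel₀ r0),
      AdjoinRoot.aeval_eq, AdjoinRoot.mk_eq_zero.2 d, mul_zero])
  have t1 : ∀ a, τ (algebraMap F _ a) = algebraMap F _ (σ a) := fun a => AdjoinRoot.lift_of _
  have t2 : τ (AdjoinRoot.root π) = (AdjoinRoot.root π)⁻¹ := AdjoinRoot.lift_root _
  have t3 : τ.comp τ = RingHom.id _ := AdjoinRoot.ringHom_ext
    (RingHom.ext fun a => (congrArg τ (t1 a)).trans ((t1 _).trans (by rw [hσ2]; rfl))) (by simp [t2])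
  have h := card_fix_sq hσ hσ2 τ τ.map_add (fun c x => by rw [Algebra.smul_def, Algebra.smul_def, map_mul, t1])
    (RingHom.congr_fun t3)
  rw [Module.natCard_eq_pow_finrank (K := F) (V := AdjoinRoot π), finrank_adjoinRoot, hk, ← two_mul, pow_mul',
    Nat.pow_left_inj two_ne_zero, Nat.card_eq_fintype_card (α := F)] at h
  let E := τ.eqLocusField (RingHom.id _)
  have := Fintype.ofFinite E
  have hE : Fintype.card E = Fintype.card F ^ k := Nat.card_eq_fintype_card.symm.trans h
  have h1 : 1 < Fintype.card E := Fintype.one_lt_card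
  obtain ⟨a, ha⟩ : ∃ a, σ a ≠ a := by by_contra! H; exact hσ (RingHom.ext H)
  have n0 := FiniteField.X_pow_card_sub_X_ne_zero (AdjoinRoot π) h1
  have := card_le_degree_of_subset_roots (p := X ^ Fintype.card E - X)
    (Z := insert (algebraMap F (AdjoinRoot π) a) (Finset.univ.map ⟨E.subtype, E.subtype.injective⟩)) fun x hx => by
      rw [mem_roots n0, IsRoot, eval_sub, eval_pow, eval_X, sub_eq_zero]
      rcases Finset.mem_insert.1 hx with rfl | hx
      · rw [hE, ← map_pow, FiniteField.pow_card_pow]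
      · obtain ⟨x, -, rfl⟩ := Finset.mem_map.1 hx
        exact congrArg Subtype.val (FiniteField.pow_card x)
  rw [Finset.card_insert_of_notMem fun e => by
    obtain ⟨x, -, e⟩ := Finset.mem_map.1 e
    exact ha ((algebraMap F (AdjoinRoot π)).injective ((t1 a).symm.trans (e ▸ x.2))),
    FiniteField.X_pow_card_sub_X_natDegree_eq _ h1] at this
  simp at this

theorem ti_two (h : EH σ 1 B) (hσ : σ ≠ RingHom.id F) {f : End F V} (hf : Pres B f)
    (d : finrank F V = 2 ∨ finrank F V = 4) (e : ∀ v (t : F), f v = t • v → v = 0) :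
    ∃ U : Submodule F V, 2 ≤ finrank F U ∧ U ≤ perp B U ∧ ∀ u ∈ U, f u ∈ U := by
  have : Nontrivial V := Module.nontrivial_of_finrank_pos (R := F) (by omega)
  obtain ⟨a, ha⟩ := Multiset.exists_mem_of_ne_zero (ed_ne_zero f)
  obtain ⟨π, k, p1, p2, k0, rfl⟩ := ed_isPP f a ha
  have p3 : π ∣ f.charpoly := charpoly_eq_ed f ▸ (dvd_pow_self π k0.ne').trans (Multiset.dvd_prod ha)
  have := deg_of f.charpoly_monic.ne_zero (no_root e) p2 p3
  rw [LinearMap.charpoly_natDegree] at this
  obtain ⟨a, b, r⟩ := p2.coprime_iff_not_dvd.2 fun r => by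
    obtain ⟨_, _⟩ := odd_deg hσ h.invol p2 r; omega
  have i : ∀ u ∈ LinearMap.ker (aeval f π), f u ∈ LinearMap.ker (aeval f π) := fun u hu =>
    (aeval_intertwine f (fun _ => rfl) π u).symm.trans (by rw [hu, map_zero])
  refine ⟨LinearMap.ker (aeval f π), by_contra fun n => ?_, fun y hy => mem_perp.2 fun x hx => ?_, i⟩
  · have k : kd f π ≠ 0 := by
      rw [kd_eq_ed]
      refine fun z => ?_
      have := Multiset.single_le_sum (fun _ _ => Nat.zero_le _) _ (Multiset.mem_map_of_mem (fun a => kd (cyc a) π) ha)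
      have t := kd_cyc_pow p2.ne_zero k 1
      rw [pow_one, min_eq_right k0] at t
      omega
    obtain ⟨v, v0, hv⟩ := finrank_eq_one_iff'.1 (show finrank F (LinearMap.ker (aeval f π)) = 1 by
      rw [kd] at k; omega)
    obtain ⟨t, ht⟩ := hv ⟨_, i _ v.2⟩
    exact v0 (Subtype.ext (e v t (congrArg Subtype.val ht).symm))
  · have s := aeval_reverse_mul (h.mul_adj hf) (h.pres_iff.1 hf) (π.map σ)
    have t := LinearMap.congr_fun (congrArg (aeval f) r) y
    simp only [map_add, map_mul, LinearMap.add_apply, End.mul_apply, LinearMap.mem_ker.1 hy, map_zero, zero_add,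
      map_one, End.one_apply] at t
    have u : (h.adj f ^ (π.map σ).natDegree * f ^ (π.map σ).natDegree) = 1 := by
      rw [← (show Commute (h.adj f) f from (h.pres_iff.1 hf).trans (h.mul_adj hf).symm).mul_pow,
        h.pres_iff.1 hf, one_pow]
    have s' : aeval f (π.map σ).reverse = h.adj (aeval f π) * f ^ (π.map σ).natDegree := by
      rw [h.adj_aeval, ← s, mul_assoc, ← aeval_X_pow (R := F) (x := f), ← map_mul, mul_comm _ (X ^ _), map_mul,
        aeval_X_pow, ← mul_assoc, u, one_mul]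
    rw [← t, ← End.mul_apply, ← map_mul, mul_comm, map_mul, s', End.mul_apply, End.mul_apply, h.adj_right,
      LinearMap.mem_ker.1 hx]
    simp

theorem su_of (h : EH σ 1 B) {a g : V ≃ₗ[F] V} (ha : ∀ u v, B (a u) (a v) = B u v) (hg : ∀ u v, B (g u) (g v) = B u v)
    (d : LinearMap.det a.toLinearMap * LinearMap.det g.toLinearMap = 1) : a * g ∈ SUG B :=
  mem_SUG.2 ⟨fun u v => (ha _ _).trans (hg u v), (LinearMap.det_comp _ _).trans d⟩

theorem norm_det (h : EH σ 1 B) (hg : ∀ u v, B (g u) (g v) = B u v) :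
    σ (LinearMap.det g.toLinearMap) * LinearMap.det g.toLinearMap = 1 := by
  rw [← h.det_adj, ← map_mul, (h.pres_iff (g := g.toLinearMap)).1 hg, map_one]

theorem ex_tr (h : EH σ 1 B) (hσ : σ ≠ RingHom.id F) {v : V} (hv : B v v = 0) :
    ∃ s : F, s ≠ 0 ∧ ∃ g ∈ SUG B, ∀ x, g x = x + (s * B v x) • v := by
  obtain ⟨s, s0, hs⟩ := exists_skew_ne_zero hσ h.invol
  have H := h.isHerm hσ
  exact ⟨s, s0, (uTrans H hv hs).1, mem_SUG.2 ⟨UG_map _, det_uTrans H hv hs⟩, uTrans_apply H hv hs⟩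

theorem orb_ni (h : EH σ 1 B) (hσ : σ ≠ RingHom.id F) (h3 : 3 ≤ finrank F V) :
    Orb (SUG B) Pt fun v => B v v ≠ 0 := by
  have H := h.isHerm hσ
  have W := H.wittPair h.nondegenerate
  have nz : ∀ {v}, B v v ≠ 0 → v ≠ 0 := fun h e => h (by simp [e])
  refine ⟨gpd_pt, fun v hv g _ k => k.pt (nz hv), fun v hv => ?_, fun v w hv hw => ?_⟩
  · have := W.finrank_perp (F ∙ v)
    rw [finrank_span_singleton (nz hv)] at this
    obtain ⟨w, h1, h2⟩ := exists_nonisotropic_mem (.inl hσ) (h.isSymm h)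
      (W.disjoint_perp_perp (IsWittPair.disjoint_singleton hv)) fun e => by rw [e, finrank_bot] at this; omega
    obtain ⟨t, ht⟩ := exists_smul_norm_eq hσ h.invol (h.isSymm h) h2 (c := -B v v) (by rw [map_neg, H.eq])
    have h4 : B v (t • w) = 0 := by rw [map_smul, mem_perp_singleton.1 h1, smul_zero]
    obtain ⟨s, s0, g, hg, k⟩ := ex_tr h hσ (v := v + t • w) (by
      simp only [map_add, LinearMap.add_apply, ht, h4, h.refl h4]; ring)
    refine ⟨g, hg, fun ⟨c, _, e⟩ => hv ?_⟩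
    have := congrArg (B (t • w)) e
    simp only [k, map_add, map_smul _ _ (v + _), map_smul _ c, LinearMap.add_apply, ht, h.refl h4] at this
    simpa [s0] using this
  · obtain ⟨t, ht⟩ := exists_smul_norm_eq hσ h.invol (h.isSymm h) hw (c := B v v) (H.eq _ _)
    obtain ⟨g, hg, k⟩ := W.exists_isom_vec (nz hv) (nz (ht ▸ hv)) ht
    have n := norm_det h hg.1
    have d0 := right_ne_zero_of_mul_eq_one n
    have d1 := left_ne_zero_of_mul_eq_one n
    let a := uRank1 H w (((LinearMap.det g.toLinearMap)⁻¹ - 1) / B w w) (by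
      simp only [map_div₀, map_sub, map_inv₀, map_one, H.eq]; field_simp; linear_combination -n)
    refine ⟨a.1 * g, su_of h (UG_map a) hg.1 (by rw [det_uRank1]; field_simp; ring), pt_of (nz hv)
      (c := t + ((LinearMap.det g.toLinearMap)⁻¹ - 1) / B w w * (t * B w w)) ?_⟩
    rw [LinearEquiv.mul_apply, k, uRank1_apply, add_smul, map_smul, smul_eq_mul]

theorem orb_ti (h : EH σ 1 B) (hσ : σ ≠ RingHom.id F) (h4 : finrank F V = 4) :
    Orb (SUG B) Sb fun U => finrank F U = 2 ∧ U ≤ perp B U := by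
  have H := h.isHerm hσ
  have W := H.wittPair h.nondegenerate
  have pe : ∀ {U : Submodule F V}, finrank F U = 2 ∧ U ≤ perp B U → U = perp B U := fun {U} k =>
    Submodule.eq_of_le_of_finrank_eq k.2 (by have := W.finrank_perp U; omega)
  have ex : ∀ {U : Submodule F V}, finrank F U = 2 ∧ U ≤ perp B U →
      ∃ e ∈ U, ∃ f, B e e = 0 ∧ B f f = 0 ∧ B e f = 1 := fun {U} k => by
    obtain ⟨e, he, e0⟩ := U.ne_bot_iff.1 fun e => by have := k.1; rw [e, finrank_bot] at this; omega
    have := mem_perp.1 (k.2 he) e he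
    obtain ⟨f, a, b⟩ := W.exists_hyperbolic e0 (by simpa)
    exact ⟨e, he, f, this, by simpa using a, b⟩
  refine ⟨gpd_sb, fun U _ g _ k => k.sb U, fun U k => ?_, fun U U' k k' => ?_⟩
  · obtain ⟨e, he, f, a, b, c⟩ := ex k
    obtain ⟨s, s0, g, hg, t⟩ := ex_tr h hσ b
    refine ⟨g, hg, fun r => s0 ?_⟩
    have := mem_perp.1 (k.2 ((r e).2 he)) e he
    simpa [t, a, c, H.flip_one c] using this
  · obtain ⟨g, hg, t⟩ := W.exists_isom_totally_singular (fun u hu => by simpa using mem_perp.1 (k.2 hu) u hu)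
      (fun u hu => by simpa using mem_perp.1 (k'.2 hu) u hu) k.2 k'.2 (k.1.trans k'.1.symm)
    obtain ⟨e, he, f, a, b, c⟩ := ex k'
    have n := norm_det h hg.1
    obtain ⟨l, hl⟩ := exists_hilbert90 hσ h.invol (l := σ (LinearMap.det g.toLinearMap)) (by
      rw [h.invol, mul_comm, n])
    refine ⟨(uDil H a b c l).1 * g, su_of h (UG_map _) hg.1 (by rw [det_uDil, hl, n]),
      sb_of_le (fun v hv => ?_) (k'.1.trans k.1.symm).le⟩
    have m : g v ∈ U' := t ▸ ⟨v, hv, rfl⟩
    rw [LinearEquiv.mul_apply, uDil_apply, mem_perp.1 (k'.2 m) e he, mul_zero, zero_smul, add_zero]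
    exact add_mem m (U'.smul_mem _ he)

theorem ti_pair (h : EH σ 1 B) {v w : V} (i : LinearIndependent F ![v, w]) (a : B v v = 0) (b : B v w = 0)
    (c : B w w = 0) {l m n : F} (e : g v = l • v) (e' : g w = m • w + n • v) :
    ∃ U : Submodule F V, (finrank F U = 2 ∧ U ≤ perp B U) ∧ Sb g U U := by
  refine ⟨Submodule.span F (Set.range ![v, w]), ⟨finrank_span_eq_card i, IsWittPair.span_le_perp_span fun i j => ?_⟩,
    sb_of_le (fun x hx => ?_) le_rfl⟩
  · fin_cases i <;> fin_cases j <;> simp [a, b, c, h.refl b]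
  · rw [Matrix.range_cons_cons_empty] at hx ⊢
    obtain ⟨s, t, rfl⟩ := Submodule.mem_span_pair.1 hx
    exact Submodule.mem_span_pair.2 ⟨s * l + t * n, t * m, by simp only [map_add, map_smul, e, e']; module⟩

theorem eig_lift {v w : V} {l m n : F} (e : g v = l • v) (e' : g w = m • w + n • v) (k : m ≠ l) (a : B v v = 0)
    (b : B v w = 0) (b' : B w v = 0) (c : B w w ≠ 0) : ∃ x, B x x ≠ 0 ∧ Pt g x x := by
  have : B (w + (n / (m - l)) • v) (w + (n / (m - l)) • v) ≠ 0 := by simpa [map_smulₛₗ, a, b, b'] using c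
  refine ⟨_, this, pt_of (fun z => this (by rw [z, map_zero])) (c := m) ?_⟩
  have := sub_ne_zero.2 k
  simp only [map_add, map_smul, e, e']
  match_scalars <;> field_simp
  ring

theorem twoL_su4 (h : EH σ 1 B) (hσ : σ ≠ RingHom.id F) (h4 : finrank F V = 4) : TwoL (SUG B) := by
  have H := h.isHerm hσ
  have W := H.wittPair h.nondegenerate
  refine twoL_of (orb_ni h hσ (by omega)) (orb_ti h hσ h4) fun g hg => or_iff_not_imp_left.2 fun n => ?_
  replace hg := (mem_SUG.1 hg).1
  by_cases e : ∀ v (t : F), g v = t • v → v = 0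
  · obtain ⟨U, a, b, c⟩ := ti_two h hσ (f := g.toLinearMap) hg (.inr h4) e
    exact ⟨U, ⟨by have := W.two_mul_finrank_le b; omega, b⟩, sb_of_le c le_rfl⟩
  push Not at e
  obtain ⟨v, l, e, v0⟩ := e
  have vv : B v v = 0 := by_contra fun k => n ⟨v, k, pt_of v0 e⟩
  obtain ⟨f, ff, vf⟩ := W.exists_hyperbolic v0 (by simpa)
  replace ff : B f f = 0 := by simpa using ff
  have fv := H.flip_one vf
  have l0 : σ l ≠ 0 := fun z => by simpa [e, map_smulₛₗ, z, vf] using hg v f
  have gv : ∀ x, B v x = 0 → B v (g x) = 0 := fun x k => by simpa [e, map_smulₛₗ, l0, k] using hg v x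
  let P := perp B (Submodule.span F {v, f})
  have dP := W.disjoint_perp_perp (W.disjoint_hyperbolic vv ff (vf ▸ one_ne_zero))
  have rP : finrank F P = 2 := by
    have := W.finrank_perp (Submodule.span F {v, f})
    rw [IsWittPair.finrank_span_hyperbolic vv (vf ▸ one_ne_zero)] at this
    simp only [P]; omega
  have p1 : ∀ x : P, B v x = 0 := fun x => (mem_perp_pair.1 x.2).1
  let G : End F P := ((g.toLinearMap - (B f ∘ₗ g.toLinearMap).smulRight v) ∘ₗ P.subtype).codRestrict P fun x =>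
    mem_perp_pair.2 (by simp [gv _ (p1 x), vv, fv])
  have hG : ∀ x : P, g x = G x + B f (g x) • v := fun x => by simp [G]
  have h' : EH σ 1 (pull B P.subtype) := h.restrict dP
  have pG : Pres (pull B P.subtype) G := fun x y => by
    have := hg x y
    rw [hG x, hG y] at this
    simpa [map_smulₛₗ, vv, p1, h.refl (p1 _)] using this
  have li : ∀ x : P, x ≠ 0 → LinearIndependent F ![v, x] := fun x x0 =>
    LinearIndependent.pair_iff.2 fun s t k => by
      obtain rfl : s = 0 := by simpa [fv, (mem_perp_pair.1 x.2).2] using congrArg (B f) k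
      simpa [x0] using k
  have key : ∀ (x : P) (m : F), x ≠ 0 → G x = m • x → (B x x ≠ 0 ∧ m = l) ∨
      ∃ U : Submodule F V, (finrank F U = 2 ∧ U ≤ perp B U) ∧ Sb g U U := fun x m x0 k => by
    have e' := hG x
    rw [k, Submodule.coe_smul] at e'
    by_cases xx : B x x = 0
    · exact .inr (ti_pair h (li x x0) vv (p1 x) xx e e')
    · exact .inl ⟨xx, by_contra fun r => n (eig_lift e e' r vv (p1 x) (h.refl (p1 x)) xx)⟩
  obtain ⟨x, m, k, x0⟩ : ∃ (x : P) (m : F), G x = m • x ∧ x ≠ 0 := by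
    by_contra! r
    obtain ⟨U, a, b, -⟩ := ti_two h' hσ pG (.inl rP) r
    have := ((h'.isHerm hσ).wittPair h'.nondegenerate).two_mul_finrank_le b
    omega
  refine (key x m x0 k).elim (fun ⟨xx, ml⟩ => ?_) id
  have W' := (h'.isHerm hσ).wittPair h'.nondegenerate
  have r := W'.finrank_perp (F ∙ x)
  rw [finrank_span_singleton x0, rP] at r
  obtain ⟨y, y0, hy⟩ := finrank_eq_one_iff'.1 (show finrank F (perp (pull B P.subtype) (F ∙ x)) = 1 by omega)
  have xy : B x y = 0 := (mem_perp_singleton (B := pull B P.subtype)).1 y.2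
  obtain ⟨m', k'⟩ := hy ⟨G y, mem_perp_singleton.2 (by simpa [k, ml, map_smulₛₗ, l0, xy] using pG x y)⟩
  replace k' : G y = m' • y.1 := (congrArg Subtype.val k').symm
  have y0 : y.1 ≠ 0 := fun z => y0 (Subtype.ext z)
  refine (key y m' y0 k').elim (fun ⟨yy, ml'⟩ => ?_) id
  obtain ⟨t, ht⟩ := exists_smul_norm_eq hσ h.invol (h.isSymm h) yy (c := -B x x) (by rw [map_neg, H.eq])
  refine (key (x + t • y.1) l (fun z => xx ?_) (by simp [k, k', ml, ml', smul_smul, mul_comm])).resolve_left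
    fun z => z.1 ?_
  · simpa [xy] using congrArg (fun a : P => B x a) z
  · have a : B x (t • y.1.1) = 0 := by rw [map_smul, xy, smul_zero]
    simp only [Submodule.coe_add, Submodule.coe_smul, map_add, LinearMap.add_apply, ht, a, h.refl a]; ring

theorem TwoL.psu {n q : ℕ} (hn : 2 ≤ n) (hσ : ∀ x, σ x = x ^ q) (h1 : σ ≠ RingHom.id F) (h2 : ∀ x, σ (σ x) = x)
    (h : TwoL (SUG (hermSesq (Fin n) σ))) : Two (Cfsg.PSU n F q) := by
  refine h.quot ((SUG _).subtype.comp (suEquiv n hσ).toMonoidHom) ?_ _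
    (center_su_scalar (isHerm_hermSesq h1 h2) (hermSesq_nondegenerate σ) (by simpa)
      (ρ := (inclusion fun _ k => mem_UG.2 (mem_SUG.1 k).1).comp (suEquiv n hσ).toMonoidHom) fun g hg => ?_)
  · rw [MonoidHom.range_comp, (MonoidHom.range_eq_top (f := (suEquiv n hσ).toMonoidHom)).2 (suEquiv n hσ).surjective,
      ← MonoidHom.range_eq_map, range_subtype]
  · obtain ⟨x, e⟩ := (suEquiv n hσ).surjective ⟨g.1, mem_SUG.2 ⟨UG_map g, mem_suSub.1 hg⟩⟩
    exact ⟨x, Subtype.ext (congrArg Subtype.val e :)⟩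

variable [CharP F 3]

theorem orb_as3 (h : EH σ 1 B) (hσ : σ ≠ RingHom.id F) (h3 : finrank F V = 3) (hc : ∀ t, t ^ 3 - t ≠ c) :
    Orb (SUG B) Tw (AS B c) := by
  refine ⟨gpd_tw, fun J _ g _ k => k.tw J, fun J k => ?_, fun J J' k k' => ?_⟩
  · obtain ⟨v, v0, vv⟩ := exists_isotropic_of_two_le hσ h.invol (h.isSymm h) (by omega)
    obtain ⟨s, s0, g, hg, t⟩ := ex_tr h hσ vv
    obtain ⟨f, -, vf⟩ := ((h.isHerm hσ).wittPair h.nondegenerate).exists_hyperbolic v0 (by simpa)
    exact ⟨g, hg, k.not_tw hc h3.ge (φ := s • B v) v0 (x := s⁻¹ • f) (by simp [vf, s0]) t⟩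
  obtain ⟨X, hX⟩ := sim_of_irr (irr3 hc).1 k.aeval k'.aeval
  obtain ⟨a, ha⟩ : ∃ c, σ c ≠ c := by by_contra! H; exact hσ (RingHom.ext H)
  obtain ⟨Y, h1, h2⟩ := h.exists_sqrt (h.pull_equiv X) (θ := algebraMap F _ a)
    (by rw [h.adj_algebraMap, ← map_sub]; exact (IsUnit.mk0 _ (sub_ne_zero.2 ha.symm)).map _)
    (by rw [h.adj_algebraMap, ← map_mul, ← map_mul, mul_comm])
    (fun u v => by simp [h.adj_algebraMap, map_smulₛₗ])
  have h4 := h2 J (Algebra.commutes _ _) (by rw [h.adj_algebraMap]; exact Algebra.commutes _ _)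
    (fun u v => by simp [h.adj_eq k.adj, hX, k'.adj])
  have h5 : ∀ u v, B ((X * Y⁻¹) u) ((X * Y⁻¹) v) = B u v := fun u v => by
    simpa using (h1 (Y.symm u) (Y.symm v)).symm
  have n := norm_det h h5
  obtain ⟨b, hb⟩ := ex_cbrt (σ (LinearMap.det (X * Y⁻¹).toLinearMap))
  have b1 : σ b * b = 1 := cube_inj (by rw [mul_pow, ← map_pow, hb, h.invol, mul_comm, n, one_pow])
  let z := LinearEquiv.smulOfUnit (M := V) (Units.mk0 b (right_ne_zero_of_mul_eq_one b1))
  have hz : ∀ v, z v = b • v := fun _ => rfl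
  refine ⟨z * (X * Y⁻¹), su_of h (fun u v => by
    simp [hz, map_smulₛₗ]; linear_combination B u v * b1) h5 (by
    rw [show z.toLinearMap = b • LinearMap.id from rfl, LinearMap.det_smul, h3, hb, LinearMap.det_id, mul_one, n]),
    0, fun v => ?_⟩
  obtain ⟨v, rfl⟩ := Y.surjective v
  simp [hz, ← h4, hX]

theorem twoL_su3 (h : EH σ 1 B) (hσ : σ ≠ RingHom.id F) (h3 : finrank F V = 3) : TwoL (SUG B) := by
  have H := h.isHerm hσ
  have W := H.wittPair h.nondegenerate
  obtain ⟨c, sc, hc⟩ : ∃ c : F, σ c = c ∧ ∀ t, t ^ 3 - t ≠ c := by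
    by_contra! k
    have : Function.Surjective fun t : {x // σ x = x} => (⟨t ^ 3 - t, by simp [t.2]⟩ : {x // σ x = x}) := fun c => by
      obtain ⟨t, e⟩ := k c c.2
      have e' := congrArg σ e
      rw [map_sub, map_pow, c.2] at e'
      exact ⟨⟨-(t + σ t), by simp [h.invol, add_comm]⟩, Subtype.ext (by simp only; grobner)⟩
    simpa using Finite.injective_iff_surjective.2 this (a₁ := ⟨0, map_zero σ⟩) (a₂ := ⟨1, map_one σ⟩) (by simp)
  refine twoL_of (orb_ni h hσ h3.ge) (orb_as3 h hσ h3 hc) fun g hg => or_iff_not_imp_left.2 fun n => ?_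
  obtain ⟨hg, dg⟩ := mem_SUG.1 hg
  by_cases e : ∀ v (t : F), g v = t • v → v = 0
  · obtain ⟨p, k⟩ := root_aeval (irr3 hc).1 g.toLinearMap.charpoly_monic.ne_zero (fun π a b => by
      have := deg_of g.toLinearMap.charpoly_monic.ne_zero (no_root e) a b
      rw [LinearMap.charpoly_natDegree] at this
      rw [(irr3 hc).2]; omega) g.toLinearMap.aeval_self_charpoly
    set J := aeval g.toLinearMap p
    have c1 : ∀ A : End F V, (∀ v, A (g v) = g (A v)) → ∀ v, A (J v) = J (A v) := fun A k =>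
      aeval_intertwine A k p
    have c0 : ∀ v, g (J v) = J (g v) := c1 g.toLinearMap fun _ => rfl
    have c2 : ∀ v, h.adj J (g v) = g (h.adj J v) := fun v => h.ext_left fun w => by
      obtain ⟨w, rfl⟩ := g.surjective w
      rw [h.adj_left, hg, h.adj_left, ← c0, hg]
    have k1 := cub_of k
    have k2 : ∀ v, h.adj J (h.adj J (h.adj J v)) = h.adj J v + c • v := fun v => h.ext_left fun w => by
      simp [h.adj_left, k1, map_smulₛₗ, sc]
    refine ⟨-(J + h.adj J), ⟨fun v => ?_, fun u v => by simp [h.adj_left, h.adj_right, add_comm]⟩, 0, fun v => by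
      simp [c2, c0]⟩
    simp only [LinearMap.neg_apply, LinearMap.add_apply, map_neg, map_add, c1 _ c2, k1, k2, map_smul]
    match_scalars <;> grobner
  push Not at e
  obtain ⟨v, l, e, v0⟩ := e
  have vv : B v v = 0 := by_contra fun k => n ⟨v, k, pt_of v0 e⟩
  obtain ⟨f, ff, vf⟩ := W.exists_hyperbolic v0 (by simpa)
  replace ff : B f f = 0 := by simpa using ff
  have fv := H.flip_one vf
  have dP := W.disjoint_perp_perp (W.disjoint_hyperbolic vv ff (vf ▸ one_ne_zero))
  have rP := W.finrank_perp (Submodule.span F {v, f})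
  rw [IsWittPair.finrank_span_hyperbolic vv (vf ▸ one_ne_zero)] at rP
  obtain ⟨⟨w, wp⟩, w0, hw⟩ := finrank_eq_one_iff'.1 (show finrank F (perp B (Submodule.span F {v, f})) = 1 by omega)
  obtain ⟨vw, fw⟩ := mem_perp_pair.1 wp
  have wv := h.refl vw
  have wf := h.refl fw
  have dc : ∀ x, ∃ m : F, x = B f x • v + B v x • f + m • w := fun x => by
    obtain ⟨z, a, b, c⟩ := H.hyp_decomp vv ff vf x
    obtain ⟨m, k⟩ := hw ⟨z, mem_perp_pair.2 ⟨b, c⟩⟩
    exact ⟨m, a.trans (by rw [← show m • w = z from congrArg Subtype.val k])⟩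
  have ww : B w w ≠ 0 := fun z => w0 (Subtype.ext (h.nondeg _ fun x => by
    obtain ⟨m, k⟩ := dc x
    rw [k]; simp [z, wv, wf]))
  have gv : ∀ x, σ l * B v (g x) = B v x := fun x => by simpa [e, map_smulₛₗ] using hg v x
  have l0 : σ l ≠ 0 := fun z => by simpa [z, vf] using gv f
  obtain ⟨m, e1⟩ := dc (g w)
  rw [show B v (g w) = 0 by simpa [l0, vw] using gv w, zero_smul, add_zero, add_comm] at e1
  generalize B f (g w) = a at e1
  obtain rfl : m = l := by_contra fun r => n (eig_lift e e1 r vv vw wv ww)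
  have a0 : a ≠ 0 := fun z => n ⟨w, ww, pt_of (fun z => w0 (Subtype.ext z)) (c := m) (by simpa [z] using e1)⟩
  have m1 : σ m * m = 1 := by
    have := hg w w
    simp [e1, map_smulₛₗ, vv, vw, wv] at this
    exact mul_right_cancel₀ ww (by linear_combination this)
  obtain ⟨b, e2⟩ := dc (g f)
  rw [show B v (g f) = m from mul_left_cancel₀ l0 (by rw [gv, vf, m1])] at e2
  generalize B f (g f) = d at e2
  have u3 : ∀ x, (g.toLinearMap - algebraMap F _ m) ((g.toLinearMap - algebraMap F _ m)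
      ((g.toLinearMap - algebraMap F (End F V) m) x)) = 0 := fun x => by
    obtain ⟨t, k⟩ := dc x
    rw [k]; simp only [LinearMap.sub_apply, LinearEquiv.coe_coe, map_add, map_sub, map_smul, e, e1, e2,
      Module.algebraMap_end_apply]
    module
  have := det_of_nilpotent_sub (g := g.toLinearMap) (right_ne_zero_of_mul_eq_one m1) ⟨3, LinearMap.ext u3⟩
  obtain rfl : m = 1 := cube_inj (by rw [← h3, ← this, dg, one_pow])
  have g3 : ∀ x, g (g (g x)) = x := fun x => by
    have := u3 x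
    simp only [LinearMap.sub_apply, LinearEquiv.coe_coe, map_sub, map_one, End.one_apply] at this
    rw [← sub_eq_zero, ← this]
    refine (one_smul F _).symm.trans ?_
    match_scalars <;> grobner
  have sw := H.eq w w
  have r1 : b * B w w + σ a = 0 := by simpa [e1, e2, map_smulₛₗ, vv, vw, wv, wf, vf, add_comm] using hg w f
  have r2 : d + σ d + σ b * b * B w w = 0 := by
    have := hg f f
    simp [e2, map_smulₛₗ, vv, vw, wv, wf, vf, fv, ff, fw] at this
    linear_combination this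
  obtain ⟨α, hα⟩ : ∃ α, α * a = σ d - d := ⟨_, div_mul_cancel₀ _ a0⟩
  have hα' := congrArg σ hα
  rw [map_mul, map_sub, h.invol] at hα'
  have b0 : b ≠ 0 := fun z => a0 (by simpa [z] using r1)
  have b1 : σ b * b * B w w ≠ 0 := by simp [b0, ww]
  let x := f + α • w + (σ α * α * B w w - d - σ d) • v
  have x1 : B x x ≠ 0 := by
    simp [x, map_smulₛₗ, vv, vw, wv, wf, vf, fv, ff, fw, h.invol, sw]; grobner
  have x2 : B x (g x) = 0 := by
    simp [x, e, e1, e2, map_smulₛₗ, vv, vw, wv, wf, vf, fv, ff, fw, h.invol, sw]; grobner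
  refine as_of_grade h sc hg (τ := 2) (map_ofNat σ 2) (fun y => ?_) (U := F ∙ x) (fun u hu k => ?_)
    (fun u hu z hz => ?_) (fun u hu => by rwa [g3]) (by rw [finrank_span_singleton fun z => x1 (by rw [z, map_zero]), h3])
  · rw [g3, two_smul, add_right_inj]; simp only [g.symm_apply_eq, g3]
  · obtain ⟨t, rfl⟩ := Submodule.mem_span_singleton.1 hu
    rw [show t = 0 by simpa [map_smulₛₗ, x1] using k x (Submodule.mem_span_singleton_self x), zero_smul]
  · obtain ⟨t, rfl⟩ := Submodule.mem_span_singleton.1 hu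
    obtain ⟨s, rfl⟩ := Submodule.mem_span_singleton.1 hz
    simp [map_smulₛₗ, x2]

end CF.Geom.Cv
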