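import Cfsg.Agent.Geom.Fi28

/-! # Fischer's theorem: perfect groups and groups with solvable local subgroup -/

set_option autoImplicit false
set_option linter.unusedSectionVars false

namespace CF.Geom.Fi

open Cfsg Subgroup Module QuadraticMap CF.Fisch CF.Geom

section Grp

variable {A B : Type*} [Group A] [Group B]

theorem perf_congr (e : A ≃* B) (h : commutator A = ⊤) : commutator B = ⊤ := by
  rw [commutator_def, ← map_top_of_surjective e.toMonoidHom e.surjective, ← map_commutator, ← commutator_def, h]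

theorem perm_not_perf {n : ℕ} (h : 2 ≤ n) : commutator (Equiv.Perm (Fin n)) ≠ ⊤ := fun e => by
  have := (e.ge.trans (Abelianization.commutator_subset_ker Equiv.Perm.sign))
    (mem_top (Equiv.swap ⟨0, by omega⟩ ⟨1, by omega⟩))
  rw [MonoidHom.mem_ker, Equiv.Perm.sign_swap (by simp)] at this
  exact absurd this (by decide)

theorem o2_not_perf {ι : Type} [Fintype ι] [DecidableEq ι] {Q : QuadraticForm (ZMod 2) (ι → ZMod 2)}
    (hQ : (polarBilin Q).Nondegenerate) (h5 : 5 ≤ Fintype.card ι) :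
    commutator (isometryGroup (ZMod 2) Q) ≠ ⊤ := fun e => by
  have : Nonempty ι := Fintype.card_pos_iff.1 (by omega)
  have k := index_Omega Q
  rw [index_commutator_even hQ rfl (reflSub_eq_top hQ (.inr (by simp; omega))), Omega, e, index_top] at k
  exact absurd k (by decide)

theorem le_of_perf_quot {K : Subgroup A} (e : commutator (A ⧸ center A) = ⊤) (h1 : commutator A ≤ K)
    (h2 : center A ≤ K) (x : A) : x ∈ K := by
  have : (⊤ : Subgroup A) ≤ K := by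
    rw [← comap_top (QuotientGroup.mk' (center A)), ← e, commutator_def,
      ← map_top_of_surjective _ (QuotientGroup.mk'_surjective _), ← map_commutator, comap_map_eq,
      QuotientGroup.ker_mk']
    exact sup_le h1 h2
  exact this trivial

theorem o3_not_perf {ι : Type} [Fintype ι] [DecidableEq ι] {Q : QuadraticForm (ZMod 3) (ι → ZMod 3)}
    (hQ : (polarBilin Q).Nondegenerate) (h5 : 5 ≤ Fintype.card ι) (he : Even (Fintype.card ι)) {c : ZMod 3}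
    (hc : c ≠ 0) : commutator (reflectionSubgroup Q c ⧸ center (reflectionSubgroup Q c)) ≠ ⊤ := fun e => by
  have h3 : 3 ≤ finrank (ZMod 3) (ι → ZMod 3) := by simp; omega
  obtain ⟨ρ, r⟩ : ∃ ρ : reflectionSubgroup Q c →* OG Q, ∀ x, ρ x = oEquiv Q x :=
    ⟨(oEquiv Q).toMonoidHom.comp (Subgroup.subtype _), fun _ => rfl⟩
  have hρ : eichlerSub Q ≤ ρ.range := fun x hx => by
    obtain ⟨x, rfl⟩ := (oEquiv Q).surjective x
    exact ⟨⟨x, omega_le_refl hQ h5 hc ((mem_Omega_iff Q x).2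
      (eichlerSub_le_commutator hQ (.inl ⟨2, by decide⟩) hx))⟩, r _⟩
  obtain ⟨u, hu⟩ := exists_quad_eq hQ (by omega) hc
  have := le_of_perf_quot (K := (SOG Q).comap ρ) e (by
    rw [← map_le_iff_le_comap, commutator_def, map_commutator]
    exact (commutator_mono le_top le_top).trans commutator_le_SOG) (fun g hg => by
    obtain ⟨t, ht⟩ := center_omega_scalar hQ h3 hρ g hg
    have e1 : ((ρ g).1 : (ι → ZMod 3) →ₗ[ZMod 3] ι → ZMod 3) = t • LinearMap.id := LinearMap.ext ht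
    have t0 : t ≠ 0 := by
      rintro rfl
      refine hc (hu.symm.trans ?_)
      rw [(ρ g).1.map_eq_zero_iff.1 ((ht u).trans (zero_smul _ _)), map_zero]
    obtain ⟨k, hk⟩ := he
    rw [mem_comap, mem_SOG, e1, LinearMap.det_smul, LinearMap.det_id, finrank_fintype_fun_eq_card, hk, pow_add,
      ← mul_pow, z3_sq t t0, one_pow, one_mul]) ⟨_, subset_closure (symm_mem_refls hu)⟩
  rw [mem_comap, mem_SOG, r, MulEquiv.apply_symm_apply, det_oRefl (hu ▸ hc)] at this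
  exact absurd this (by decide)

end Grp

variable {X : Type*} [Fs X] {S T : Set X}

/-- a string of four points (Coxeter diagram `A₄`) -/
def Str (T : Set X) : Prop :=
  ∃ a ∈ T, ∃ b ∈ T, ∃ c ∈ T, ∃ e ∈ T, (¬ a ⋈ b ∧ ¬ b ⋈ c ∧ ¬ c ⋈ e) ∧ a ⋈ c ∧ a ⋈ e ∧ b ⋈ e

theorem str_map (T T' : Set X) (g : Equiv.Perm X) (hg : Au g) (k : ∀ x, g x ∈ T' ↔ x ∈ T) (h : Str T) :
    Str T' := by
  obtain ⟨a, ha, b, hb, c, hc, e, he, h⟩ := h
  exact ⟨_, (k a).2 ha, _, (k b).2 hb, _, (k c).2 hc, _, (k e).2 he, by simpa only [hg.cm] using h⟩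

theorem Rp.not_solv {G : Type*} [Group G] {D : Set G} {τ : X → G} (r : Rp T D τ) (h : Str T) :
    ¬ Group.IsSolvable (closure D) := fun hs => by
  obtain ⟨ρ, r, -⟩ := r.subtype (H := closure D) subset_closure
  obtain ⟨a, ha, b, hb, c, hc, e, he, ⟨ab, bc, ce⟩, ac, ae, be⟩ := h
  have br : ∀ {x y}, x ∈ T → y ∈ T → ¬ x ⋈ y → ρ x * ρ y * ρ x = ρ y * ρ x * ρ y := fun hx hy n => by
    rw [← r.op _ hx _ hy, ← r.op _ hy _ hx, braid n]
  obtain ⟨φ, hφ⟩ := sym_exists_hom 4 ![ρ a, ρ b, ρ c, ρ e]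
    (fun i => by fin_cases i <;> exact r.sq _ ‹_›)
    (fun i j n => by
      fin_cases i <;> fin_cases j <;> first | exact absurd n (by decide) | exact (r.cm ‹_› ‹_›).2 ‹_›)
    (fun i j n => by
      fin_cases i <;> fin_cases j <;> first | exact absurd n (by decide) | exact br ‹_› ‹_› ‹_›)
  refine Equiv.Perm.not_isSolvable_fin_5 (Group.isSolvable_of_isSolvable_injective (f := φ) ?_)
  refine sym_ker le_rfl (by decide) (by decide) ((hφ 0).trans_ne (Ne.trans_eq ?_ (hφ 1).symm))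
  exact fun k => nc_ne ab ((r.inj ha hb).1 k)

theorem SymM.str {n : ℕ} {φ : Equiv.Perm (Fin n) →* Equiv.Perm X} (h : SymM S φ) (h7 : 7 ≤ n) :
    ∃ d ∈ S, Str (Yd S d) := by
  obtain ⟨n, rfl⟩ := Nat.exists_eq_add_of_le' h7
  have k : ∀ i j : Fin 7, i ≠ j → (i.castLE (by omega) : Fin (n + 7)) ≠ j.castLE (by omega) :=
    fun i j => (Fin.castLE_injective _).ne
  obtain ⟨d, hd, e⟩ := h.mem _ _ (k 5 6 (by decide))
  have m : ∀ i j : Fin 7, i ≠ j → i < 5 → j < 5 →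
      ∃ a ∈ Yd S d, φ (.swap (i.castLE (by omega)) (j.castLE (by omega))) = σ a := fun i j n hi hj => by
    obtain ⟨a, ha, t⟩ := h.mem _ _ (k i j n)
    exact ⟨a, ⟨ha, h.ne4 t e (k _ _ n) (k _ _ (by omega)) (k _ _ (by omega)),
      h.cm4 e t (k _ _ (by omega)) (k _ _ (by omega)) (k _ _ (by omega)) (k _ _ (by omega))⟩, t⟩
  obtain ⟨a, ha, e1⟩ := m 0 1 (by decide) (by decide) (by decide)
  obtain ⟨b, hb, e2⟩ := m 1 2 (by decide) (by decide) (by decide)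
  obtain ⟨c, hc, e3⟩ := m 2 3 (by decide) (by decide) (by decide)
  obtain ⟨p, hp, e4⟩ := m 3 4 (by decide) (by decide) (by decide)
  refine ⟨d, hd, a, ha, b, hb, c, hc, p, hp, ⟨(h.nc3 e1 e2 ?_ ?_ ?_).1, (h.nc3 e2 e3 ?_ ?_ ?_).1,
    (h.nc3 e3 e4 ?_ ?_ ?_).1⟩, h.cm4 e1 e3 ?_ ?_ ?_ ?_, h.cm4 e1 e4 ?_ ?_ ?_ ?_, h.cm4 e2 e4 ?_ ?_ ?_ ?_⟩ <;>
  exact k _ _ (by decide)

theorem str_of_frame {F V : Type*} [Field F] [AddCommGroup V] [Module F V] {s : F →+* F} {B : V →ₛₗ[s] V →ₗ[F] F}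
    {Q : V → F} (hW : IsWittPair s B Q) {φ : X → V} (cm : ∀ a ∈ S, ∀ b ∈ S, (B (φ a) (φ b) = 0 ↔ a ⋈ b))
    (sj : ∀ v, v ≠ 0 → B v v = 0 → ∃ a ∈ S, ∀ w, B (φ a) w = 0 ↔ B v w = 0) {e f : Fin 3 → V}
    (h : HypFrame B Q e f) : ∃ d ∈ S, Str (Yd S d) := by
  have rf : ∀ u v, B u v = 0 ↔ B v u = 0 := fun _ _ => ⟨hW.refl, hW.refl⟩
  have k : ∀ {a b u v}, a ∈ S → b ∈ S → (∀ w, B (φ a) w = 0 ↔ B u w = 0) → (∀ w, B (φ b) w = 0 ↔ B v w = 0) →
      (a ⋈ b ↔ B u v = 0) := fun ha hb h1 h2 => by rw [← cm _ ha _ hb, h1, rf, h2, rf]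
  have nz : ∀ {u v}, B u v ≠ 0 → u ≠ 0 := fun n t => n (by rw [t, map_zero, LinearMap.zero_apply])
  have e01 := h.ef_ne 0 1 (by decide)
  have e02 := h.ef_ne 0 2 (by decide)
  have e12 := h.ef_ne 1 2 (by decide)
  have e21 := h.ef_ne 2 1 (by decide)
  have t1 : B (e 1 + e 2) (f 1) ≠ 0 := by simp [h.ef_self, e21]
  have t2 : B (e 1 + e 2) (f 2) ≠ 0 := by simp [h.ef_self, e12]
  obtain ⟨d, hd, k0⟩ := sj (e 0) (nz (v := f 0) (by simp [h.ef_self])) (h.ee _ _)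
  have m : ∀ u v, B u v ≠ 0 → B u u = 0 → B (e 0) u = 0 → B (e 0) v = 0 →
      ∃ a ∈ Yd S d, ∀ w, B (φ a) w = 0 ↔ B u w = 0 := fun u v n h1 h2 h3 => by
    obtain ⟨a, ha, t⟩ := sj u (nz n) h1
    exact ⟨a, ⟨ha, fun q => n ((t v).1 (q ▸ (k0 v).2 h3)), (k hd ha k0 t).2 h2⟩, t⟩
  obtain ⟨a, ha, k1⟩ := m (e 1) (f 1) (by simp [h.ef_self]) (h.ee _ _) (h.ee _ _) e01
  obtain ⟨b, hb, k2⟩ := m (f 1) (e 1) (h.fe_self hW 1) (h.ff _ _) e01 (h.ee _ _)
  obtain ⟨c, hc, k3⟩ := m (e 1 + e 2) (f 1) t1 (by simp [h.ee]) (by simp [h.ee]) e01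
  obtain ⟨p, hp, k4⟩ := m (f 2) (e 2) (h.fe_self hW 2) (h.ff _ _) e02 (h.ee _ _)
  refine ⟨d, hd, a, ha, b, hb, c, hc, p, hp, ?_⟩
  rw [k ha.1 hb.1 k1 k2, k hb.1 hc.1 k2 k3, k hc.1 hp.1 k3 k4, k ha.1 hc.1 k1 k3, k ha.1 hp.1 k1 k4,
    k hb.1 hp.1 k2 k4, rf (f 1)]
  exact ⟨⟨by simp [h.ef_self], t1, t2⟩, by simp [h.ee], e12, h.ff _ _⟩

theorem UM.str {V : Type*} [AddCommGroup V] [Module K4 V] [FiniteDimensional K4 V] {B : V →ₛₗ[cj] V →ₗ[K4] K4}
    {φ : X → V} (h : UM S B φ) (hS : Sb S) (h6 : 6 ≤ finrank K4 V) : ∃ d ∈ S, Str (Yd S d) := by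
  obtain ⟨m, e, f, k, -, h1, -⟩ := exists_witt_decomp_herm h.isHerm h.nondeg
  refine str_of_frame (h.isHerm.wittPair h.nondeg) (fun a ha b hb => h.cm hS ha hb) (fun v h0 h1 => ?_)
    (k.comp (Fin.castLE_injective (show 3 ≤ m by omega)))
  obtain ⟨a, ha, t⟩ := h.surj v h0 h1
  exact ⟨a, ha, fun w => t.symm.B_eq_zero (.rfl' w)⟩

variable [Finite X]

theorem Prim.str_sp (h : Prim S) (hA : NoAf S) (hp : SpT S) (hc : HasClaw S) : ∃ d ∈ S, Str (Yd S d) := by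
  obtain ⟨n, B, φ, m⟩ := h.exists_AM hA
  obtain ⟨c, hc, a, ha, b, hb, e, he, k⟩ := hc
  have hW := isWittPair_alt B m.nondeg m.alt
  have ne : ∀ {x y}, x ∈ S → y ∈ S → x ≠ y → φ x + φ y ≠ 0 := fun hx hy n t =>
    n (m.inj hx hy (by rw [← add_left_inj (φ _), t, z2_add_self]))
  obtain ⟨f, hf⟩ := hW.exists_hypFrame ![φ a, φ b, φ e] (by
    rw [Fintype.linearIndependent_iff]
    intro g t
    have t' := congrArg (B (φ c)) t
    simp only [Fin.sum_univ_three, Matrix.cons_val_zero, Matrix.cons_val_one, Matrix.cons_val, map_add, map_smul,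
      m.one hc ha k.ca, m.one hc hb k.cb, m.one hc he k.ce, map_zero] at t t'
    have := ne ha hb k.nab
    have := ne ha he k.nae
    have := ne hb he k.nbe
    rw [Fin.forall_fin_succ, Fin.forall_fin_two]
    change g 0 = 0 ∧ g 1 = 0 ∧ g 2 = 0
    rcases z2_cases (g 0) with h0 | h0 <;> rcases z2_cases (g 1) with h1 | h1 <;>
      rcases z2_cases (g 2) with h2 | h2 <;> rw [h0, h1, h2] at t t' ⊢ <;>
      first | exact absurd t' (by decide) | simp_all) (fun _ => rfl) (fun i j => by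
    have := k.ab.symm; have := k.ae.symm; have := k.be.symm; have := k.ab; have := k.ae; have := k.be
    fin_cases i <;> fin_cases j <;> first | exact m.alt _ | exact (m.cm _ ‹_› _ ‹_›).2 ‹_›)
  refine str_of_frame hW m.cm (fun v h0 _ => ?_) hf
  obtain ⟨a, ha, rfl⟩ := (m.sp_surj h hA hp v).resolve_left h0
  exact ⟨a, ha, fun _ => Iff.rfl⟩

theorem Rp.prim_not_solv {G : Type*} [Group G] [Finite G] {D : Set G} {τ : X → G} (r : Rp T D τ) (h : Prim T) :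
    ¬ Group.IsSolvable (closure D) := fun hs => by
  obtain ⟨ρ, r', k, -⟩ := r.clo h.nb
  obtain ⟨L, hL⟩ := (r'.primTT h k.2.2).exists_comp
  exact CF.Sig.qs_not_isSolvable hL.2 inferInstance

/-- the spaces with solvable local group -/
theorem Prim.solv_list (h : Prim S) {d : X} (hd : d ∈ S) (h1 : ¬ Str (Yd S d)) (h2 : ¬ Prim (Yd S d)) :
    (∃ (n : ℕ) (φ : Equiv.Perm (Fin n) →* Equiv.Perm X), (n = 5 ∨ n = 6) ∧ SymM S φ) ∨
      ∃ (n : ℕ) (B : (Fin n → K4) →ₛₗ[cj] (Fin n → K4) →ₗ[K4] K4) (φ : X → Fin n → K4),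
        (n = 4 ∨ n = 5) ∧ UM S B φ := by
  have k : ¬ ∃ d ∈ S, Str (Yd S d) := fun ⟨a, ha, e⟩ => h1 (h.all_Y str_map ha e d hd)
  by_cases hw : WTr (Yd S d)
  swap
  · obtain ⟨φ, m⟩ := h.of_w2 (h.w2_of_W hd hw)
    exact .inl ⟨5, φ, .inl rfl, m⟩
  have hv : ¬ VT (Yd S d) := fun e => h2 (h.prim_Y hd e hw)
  by_cases hA : NoAf S
  · obtain ⟨n, φ, h4, m⟩ := h.exists_SymM hA fun e => k (h.str_sp hA (h.spT hA hd hv) e)
    have := m.five h.vt h4
    have := mt m.str k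
    exact .inl ⟨n, φ, by omega, m⟩
  · obtain ⟨n, B, φ, m⟩ := (h.uty (not_noAf.1 hA) hd hv).exists_UM
    have := m.four_le h.sb h.wide
    have := mt (m.str h.sb) k
    exact .inr ⟨n, B, φ, by simp only [finrank_fin_fun] at *; omega, m⟩

end CF.Geom.Fi
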