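/-
Overgroups of the group `Ω(U)` of a non-degenerate subspace `U` of dimension at least three.
-/
import Cfsg.Agent.Geom.MaxC2O

set_option autoImplicit false
set_option linter.unusedSectionVars false

namespace CF.Geom

open Module QuadraticMap

variable {F V : Type*} [Field F] [AddCommGroup V] [Module F V] [Finite F] [FiniteDimensional F V]
  {Q : QuadraticForm F V} {M : Subgroup (V ≃ₗ[F] V)} {U : Submodule F V}

/-- An overgroup `M` of the elements of `Ω` supported on `U`. -/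
structure UC (Q : QuadraticForm F V) (U : Submodule F V) (M : Subgroup (V ≃ₗ[F] V)) : Prop where
  five : 5 ≤ finrank F V
  nd : (polarBilin Q).Nondegenerate
  hU : Disjoint U (perp (polarBilin Q) U)
  three : 3 ≤ finrank F U
  mem : ∀ g ∈ OmG Q, g ∈ Supp (polarBilin Q) Q U → g ∈ M
  le' : M ≤ OG Q
  fin : ∀ A, U < A → Good (polarBilin Q) Q M A → OmG Q ≤ M

namespace UC

theorem witt (h : UC Q U M) : IsWittPair (RingHom.id F) (polarBilin Q) Q := isWittPair_quad Q h.nd

theorem big (h : UC Q U M) : Big (polarBilin Q) Q U := big_quad h.nd _ h.hU h.three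

theorem good (h : UC Q U M) : Good (polarBilin Q) Q M U := fun s _ q p _ hg =>
  h.mem _ ((polarG_omega' h.nd h.five).rad_le' (by rintro rfl; exact p (zero_mem _)) q _ hg)
    (h.witt.Rad_le_Supp s U hg)

theorem Rad_le (h : UC Q U M) {y : V} (hy : y ∈ U) (h0 : y ≠ 0) (q : Q y = 0) :
    Rad (polarBilin Q) Q y U ≤ M :=
  h.good y hy (by simpa using q) fun e => h0 (Submodule.disjoint_def.1 h.hU y hy e)

theorem em_smul (h : UC Q U M) {y z : V} (hy : y ∈ U) (h0 : y ≠ 0)
    (e : EM Q M y z) (hz : z ∈ perp (polarBilin Q) U) (c : F) : EM Q M y (c • z) := by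
  have key : ∀ μ : F, EM Q M y (μ ^ 2 • z) := fun μ => by
    by_cases hμ : μ = 0
    · simpa [hμ] using EM.zero e.sing
    obtain ⟨g, h1, h2, h3⟩ := exists_scale h.nd h.hU hy h0 e.sing hμ
    have := e.map h2.1 (h.mem _ h1 h2)
    rw [h3, h2.2 z hz] at this
    exact this.smul_right (pow_ne_zero 2 hμ)
  obtain ⟨a, b, rfl⟩ := exists_binary_eq (F := F) one_ne_zero one_ne_zero c
  rw [one_mul, one_mul, add_smul]
  exact (key a).add (key b)

/-- An Eichler transformation with singular vector in a block and leaving the block. -/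
theorem K1 (h : UC Q U M) {y z : V} (hy : y ∈ U) (h0 : y ≠ 0)
    (e : EM Q M y z) (hz : z ∉ U) : OmG Q ≤ M := by
  obtain ⟨a, ha, hr⟩ := h.witt.exists_comp h.hU z
  have q := e.sing
  have e1 := e.sub (EM.of_Rad (h.Rad_le hy h0 q) q hy ha (by rw [← polar_comp hr hy, e.perp]))
  have h1 : Rad (polarBilin Q) Q y (Submodule.span F {y, z - a}) ≤ M := by
    refine (Rad_le_iff_eichler h.nd h0 q (Submodule.subset_span (by simp))).2 fun w hw hw' => ?_
    obtain ⟨α, β, rfl⟩ := Submodule.mem_span_pair.1 hw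
    exact ((EM.self q α).add (h.em_smul hy h0 e1 hr β)).2.2
  refine h.fin _ (lt_of_le_of_ne le_sup_left fun e' => hz ?_)
    (h.witt.good_sup_singleton h.good h.big hy (by simpa using q)
      (fun e => h0 (Submodule.disjoint_def.1 h.hU _ hy e))
      (Submodule.subset_span (by simp)) (Submodule.subset_span (by simp)) e1.perp h1)
  have : z - a ∈ U := e' ▸ Submodule.mem_sup_right (Submodule.mem_span_singleton_self _)
  simpa using add_mem this ha

theorem R0 (h : UC Q U M) {v : V} (hv : Q v ≠ 0) (hvi : v ∉ U)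
    (hmv : Mv Q U v)
    (hR : ∀ g ∈ OmG Q, g ∈ Supp (polarBilin Q) Q U → RR Q M (g v) v) : OmG Q ≤ M := by
  obtain ⟨g, h1, h2, h3, h4⟩ := hmv
  have h5 : polar Q (g v - v) v = 0 := by
    have := quad_add Q (g v - v) v
    rw [sub_add_cancel, mem_OG.1 h2.1, h4] at this
    linear_combination -this
  have := EM.of_refl (M := M) h4 h5 hv (by rw [add_sub_cancel]; exact hR g h1 h2)
  exact h.K1 (U.smul_mem _ (h.witt.Supp_disp h2 v))
    (smul_ne_zero (neg_ne_zero.2 (inv_ne_zero hv)) h3) this hvi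

theorem RR_map (h : UC Q U M) {v b : V} (hb : b ∈ U) (qb : Q b ≠ 0)
    (hR : RR Q M v b) {g : V ≃ₗ[F] V} (hg : g ∈ OmG Q) (hg' : g ∈ Supp (polarBilin Q) Q U) :
    RR Q M (g v) v :=
  ((hR.map (OmG_le hg) (h.mem _ hg hg')).trans (RR.symm (h.mem _ (oRefl_mul_mem_OmG h.nd qb
    (mem_OG.1 (OmG_le hg) b)) (mul_mem (oRefl_mem_Supp hb) (oRefl_mem_Supp
      (subStab_apply (h.witt.Supp_le_subStab (Or.inl le_rfl) hg') hb)))))).trans hR.symm

/-- The dichotomy for a component in odd characteristic. -/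
theorem mv_or (h : UC Q U M) (h2 : (2 : F) ≠ 0) (h3 : finrank F U = 3 → 3 < Nat.card F)
    {v : V} (hv : v ∉ perp (polarBilin Q) U) : Mv Q U v ∨ (3 < Nat.card F ∧
      ∃ a ∈ U, v - a ∈ perp (polarBilin Q) U ∧ Q a ≠ 0 ∧ ∃ P ≤ U,
      Disjoint P (perp (polarBilin Q) P) ∧ 2 ≤ finrank F P ∧
      (∀ w, w ∈ P ↔ w ∈ U ∧ polar Q a w = 0) ∧ ∀ u ∈ P, Q u = 0 → u = 0) := by
  obtain ⟨a, ha, hr⟩ := h.witt.exists_comp h.hU v
  have ha0 : a ≠ 0 := by rintro rfl; exact hv (by simpa using hr)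
  by_cases q : Q a = 0
  · left
    by_cases h4 : 3 < Nat.card F
    · obtain ⟨μ, h5, h6⟩ := exists_sq_ne_one' h4
      obtain ⟨g, e1, e2, e3⟩ := exists_scale h.nd h.hU ha ha0 q h5
      exact mv_of_scale hr q ha0 e1 e2 h6 e3
    · obtain ⟨f, -, -, -, W, w1, w2, w3, w4⟩ := exists_hyp_compl h.nd h.hU ha ha0 q
      have hk := h.three
      obtain ⟨g, e1, e2, e3, -⟩ := h.witt.exists_Supp_vec_mem h.hU ha
        (neg_mem ha) ha0 (neg_ne_zero.2 ha0) (by simp) (adj_omega h.nd h.five w2 (by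
          by_contra; exact h4 (h3 (by omega))))
        (mem_perp.2 fun w hw => by simpa [polar_comm Q w a] using ((w4 w).1 hw).2.1) le_rfl w1
      exact mv_of_scale hr q ha0 e1 e2 (c := -1) (fun e => h2 (by linear_combination -e))
        (by simpa using e3)
  · obtain ⟨P, p1, p2, p3, p4⟩ := exists_vec_compl h.nd h.hU ha
      (by rw [polar_self']; exact mul_ne_zero h2 q)
    have hk := h.three
    by_cases hc : ∀ u ∈ P, Q u = 0 → u = 0
    · refine Or.inr ⟨h3 ?_, a, ha, hr, q, P, p1, p2, by omega, p4, hc⟩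
      by_contra
      obtain ⟨u, hu, u0, qu⟩ := exists_singular_mem Q (U := P) (by omega)
      exact u0 (hc u hu qu)
    · push Not at hc
      obtain ⟨u, hu, qu, u0⟩ := hc
      refine Or.inl (mv_of_sing h.nd h.five h.hU ha hr (p1 hu) qu
        (by rw [polar_comm]; exact ((p4 u).1 hu).2) (fun e => q ?_) u0)
      obtain ⟨c, rfl⟩ := Submodule.mem_span_singleton.1 e
      simp [quad_smul, qu]

theorem R1 (h : UC Q U M) (h2 : (2 : F) ≠ 0) (h3 : finrank F U = 3 → 3 < Nat.card F)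
    {v b : V} (hv : Q v ≠ 0) (hvi : v ∉ U) (hvi' : v ∉ perp (polarBilin Q) U)
    (hb : b ∈ U) (qb : Q b ≠ 0) (hR : RR Q M v b) : OmG Q ≤ M := by
  rcases h.mv_or h2 h3 hvi' with hm | ⟨hq, a, ha, hr, qa, P, p1, p2, p3, p4, p5⟩
  · exact h.R0 hv hvi hm fun g hg hg' => h.RR_map hb qb hR hg hg'
  obtain ⟨u, hu, u0, qu⟩ := exists_singular_mem Q (U := U) h.three
  have hua : polar Q a u ≠ 0 := fun e => u0 (p5 u ((p4 u).2 ⟨hu, e⟩) qu)
  obtain ⟨f, -, -, -, W, w1, w2, w3, w4⟩ := exists_hyp_compl h.nd h.hU hu u0 qu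
  have hk := h.three
  obtain ⟨z, hz, qz, hz'⟩ : ∃ z ∈ W, Q z ≠ 0 ∧ Q z + Q (v - a) ≠ 0 := by
    obtain ⟨z, hz, qz⟩ := exists_nonsingular_mem w2 (fun e => by rw [e, finrank_bot] at w3; omega)
    by_cases e : Q z + Q (v - a) = 0
    · obtain ⟨μ, h5, h6⟩ := exists_sq_ne_one' hq
      refine ⟨μ • z, W.smul_mem _ hz, by simp [quad_smul, h5, qz], fun e' => h6 ?_⟩
      rw [quad_smul] at e'
      exact mul_right_cancel₀ qz (by linear_combination e' - e)
    · exact ⟨z, hz, qz, e⟩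
  have huz := ((w4 z).1 hz).2.1
  set p := z + ((Q v - 2 * Q a - polar Q a z) / polar Q a u) • u with hp
  have hpD : p ∈ U := add_mem (w1 hz) (U.smul_mem _ hu)
  have qp : Q p = Q z := by simp [hp, quad_add, quad_smul, qu, polar_comm Q z u, huz]
  have hup : polar Q u p = 0 := by simp [hp, huz, polar_self', qu]
  have e1 : polar Q v (a + p) = Q v := by
    rw [polar_comm, polar_comp hr (add_mem ha hpD), polar_add_left, polar_self', polar_comm, hp,
      polar_add_right, polar_smul_right, smul_eq_mul, div_mul_cancel₀ _ hua]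
    ring
  have e2 : (oRefl Q v).1 (a + p) = p - (v - a) := by
    rw [oRefl_apply, e1, inv_mul_cancel₀ hv, one_smul]; abel
  have e3 : Q (a + p) ≠ 0 := by
    rw [← mem_OG.1 (oRefl Q v).2, e2, quad_sub, qp, show polar Q p (v - a) = 0 from
      mem_perp.1 hr p hpD, sub_zero]
    exact hz'
  obtain ⟨b', hb', qb'⟩ := exists_quad_eq_mem p2 p3 e3
  have e4 := h.RR_map hb qb hR (oRefl_mul_mem_OmG h.nd e3 qb')
    (mul_mem (oRefl_mem_Supp (add_mem ha hpD)) (oRefl_mem_Supp (p1 hb')))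
  rw [LinearEquiv.mul_apply, oRefl_of_polar_eq_zero (x := v) (by
    rw [polar_comp hr (p1 hb'), polar_comm]; exact ((p4 b').1 hb').2)] at e4
  have e5 := e4.refl_comm
  have e6 : Q (p - (v - a)) ≠ 0 := by rwa [← e2, mem_OG.1 (oRefl Q v).2]
  rw [e2] at e5
  refine h.R0 e6 (fun e => hvi ?_) (mv_of_sing h.nd h.five h.hU hpD
    (by simpa using neg_mem hr) hu qu hup (fun e => qz ?_) u0)
    fun g hg hg' => h.RR_map (add_mem ha hpD) e3 e5 hg hg'
  · simpa using add_mem (sub_mem hpD e) ha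
  · obtain ⟨c, hc⟩ := Submodule.mem_span_singleton.1 e
    rw [← qp, ← hc]; simp [quad_smul, qu]

theorem R3 (h : UC Q U M) (h2 : (2 : F) ≠ 0) (h3 : finrank F U = 3 → 3 < Nat.card F)
    {v : V} (hv : Q v ≠ 0) (hvi : v ∉ U) (hvi' : v ∉ perp (polarBilin Q) U)
    (hR : ∀ g ∈ OmG Q, g ∈ Supp (polarBilin Q) Q U → RR Q M (g v) v) : OmG Q ≤ M := by
  rcases h.mv_or h2 h3 hvi' with hm | ⟨-, a, ha, hr, qa, P, p1, p2, p3, p4, -⟩
  · exact h.R0 hv hvi hm hR
  obtain ⟨p, hp, qp⟩ : ∃ p ∈ P, Q p = 4 * Q v - (2 * Q v / Q a) ^ 2 * Q a := by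
    by_cases e : 4 * Q v - (2 * Q v / Q a) ^ 2 * Q a = 0
    · exact ⟨0, zero_mem _, by rw [e, map_zero]⟩
    · exact exists_quad_eq_mem p2 p3 e
  have hap := ((p4 p).1 hp).2
  set a' := p - (2 * Q v / Q a) • a with ha'
  have hD : a' ∈ U := sub_mem (p1 hp) (U.smul_mem _ ha)
  have q1 : Q a' = 4 * Q v := by
    rw [ha', quad_sub, quad_smul, qp, polar_smul_right, polar_comm, hap]; simp
  have q2 : polar Q a' v = -(4 * Q v) := by
    rw [polar_comp hr hD, ha', polar_sub_left, polar_smul_left, polar_self', polar_comm, hap,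
      smul_eq_mul]
    field_simp; ring
  have h4 : (4 : F) ≠ 0 := by rw [show (4 : F) = 2 * 2 by norm_num]; exact mul_ne_zero h2 h2
  have q3 : Q a' ≠ 0 := by rw [q1]; exact mul_ne_zero h4 hv
  obtain ⟨b', hb', qb'⟩ := exists_quad_eq_mem p2 p3 q3
  have e4 := hR _ (oRefl_mul_mem_OmG h.nd q3 qb')
    (mul_mem (oRefl_mem_Supp hD) (oRefl_mem_Supp (p1 hb')))
  rw [LinearEquiv.mul_apply, oRefl_of_polar_eq_zero (x := v) (by
    rw [polar_comp hr (p1 hb'), polar_comm]; exact ((p4 b').1 hb').2), RR, oRefl_oRefl_mul] at e4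
  set s := (2 * Q v)⁻¹ • ((2 : F) • v + a') with hs
  have s1 : Q s = 0 := by
    rw [hs, quad_smul, quad_add, quad_smul, polar_smul_left, polar_comm, q1, q2, smul_eq_mul]; ring
  have s2 : polar Q s v = 0 := by
    rw [hs, polar_smul_left, polar_add_left, polar_smul_left, polar_self', q2]; simp; right; ring
  have s3 : eichler s1 s2 = oRefl Q a' * oRefl Q v := by
    rw [eichler_eq_oRefl_mul s1 s2 hv, ← oRefl_smul (c := -2⁻¹) (by simpa using h2) a']
    congr 2
    rw [hs]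
    match_scalars <;> field_simp <;> ring
  have s4 : EM Q M s (v + v) := ⟨s1, _, by rw [eichler_add s1 s2 s2, s3]; exact e4⟩
  obtain ⟨n, hn⟩ := exists_nat_half h2
  obtain ⟨_, _, s5⟩ : EM Q M s v := by
    have := s4.nsmul n
    rwa [← two_smul F v, smul_smul, hn, one_smul] at this
  rw [s3] at s5
  exact h.R1 h2 h3 hv hvi hvi' hD q3 (RR.symm s5)

theorem G1 (h : UC Q U M) {x w : V} {hx : Q x = 0} (hxi : x ∉ U)
    {P : Submodule F V} (hP : P ≤ U) (hxP : x ∈ perp (polarBilin Q) P)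
    (hb : Big (polarBilin Q) Q P) (hw : w ∈ Ysub M hx) (hw' : w ∉ perp (polarBilin Q) P) :
    OmG Q ≤ M := by
  have h1 : P ≤ Ysub M hx := (h.witt.irr_of_big hb fun s hs q p g hg =>
    mem_subStab_iff_le.2 fun y hy => Ysub.map hy hg.1
      (h.Rad_le (hP hs) (by rintro rfl; exact p (zero_mem _)) (by simpa using q)
        (Rad_mono s hP hg)) (h.witt.Rad_fix hg hxP)).resolve_right fun e => hw' (e hw)
  obtain ⟨u, hu, v, -, q, -, huv⟩ := hb.pair
  exact h.K1 (hP hu) (by rintro rfl; simp at huv)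
    ((Ysub.em (h1 hu)).swap (by simpa using q)) hxi

theorem G2 (h : UC Q U M) (h2 : (2 : F) ≠ 0) {x w u a : V}
    {hx : Q x = 0} (hxi : x ∉ U) (hu : u ∈ U) (u0 : u ≠ 0) (qu : Q u = 0)
    (hxu : x - u ∈ perp (polarBilin Q) U) (hw : w ∈ Ysub M hx) (ha : a ∈ U)
    (hwa : w - a ∈ perp (polarBilin Q) U) (hau : a ∉ F ∙ u) : OmG Q ≤ M := by
  have key : ∀ z ∈ U, ∀ hz : polar Q u z = 0, polar Q u w • z - polar Q z w • u -
      (Q z * polar Q u w) • u ∈ Ysub M hx := fun z hzD hz => by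
    have := sub_mem (Ysub.map hw (eichler qu hz).2
      (h.Rad_le hu u0 qu (eichler_mem_Rad qu hz hu hzD)) (by
        rw [eichler_apply_of_perp qu hz (by rw [polar_comp hxu hu, polar_self', qu, mul_zero]),
          polar_comp hxu hzD, polar_comm, hz]; simp)) hw
    rw [eichler_apply] at this
    convert this using 1; abel
  suffices ∃ c : F, c ≠ 0 ∧ c • u ∈ Ysub M hx by
    obtain ⟨c, c0, hc⟩ := this
    exact h.K1 hu u0 ((Ysub.em ((Submodule.smul_mem_iff _ c0).1 hc)).swap qu) hxi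
  by_cases e : polar Q u w = 0
  · obtain ⟨z, hz, h3, h4⟩ := exists_perp_not_perp h.nd h.hU hu ha hau
    exact ⟨polar Q z w, by rwa [polar_comp hwa hz], by simpa [e] using key z hz h3⟩
  · obtain ⟨f, -, -, -, W, w1, w2, w3, w4⟩ := exists_hyp_compl h.nd h.hU hu u0 qu
    have hk := h.three
    obtain ⟨z, hz, qz⟩ := exists_nonsingular_mem w2 (fun e => by rw [e, finrank_bot] at w3; omega)
    have h3 := ((w4 z).1 hz).2.1
    refine ⟨-(2 * Q z * polar Q u w), neg_ne_zero.2 (mul_ne_zero (mul_ne_zero h2 qz) e), ?_⟩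
    convert add_mem (key z (w1 hz) h3) (key (-z) (neg_mem (w1 hz)) (by simp [h3])) using 1
    simp only [polar_neg_left, QuadraticMap.map_neg]
    module

theorem G3 (h : UC Q U M) (h2 : (2 : F) ≠ 0) (h3 : finrank F U = 3 → 3 < Nat.card F)
    {x w u a : V} {hx : Q x = 0} (hxi : x ∉ U) (hu : u ∈ U) (qu : Q u ≠ 0)
    (hxu : x - u ∈ perp (polarBilin Q) U) (hw : w ∈ Ysub M hx) (ha : a ∈ U)
    (hwa : w - a ∈ perp (polarBilin Q) U) (hau : a ∉ F ∙ u) : OmG Q ≤ M := by
  have huu : polar Q u u ≠ 0 := by rw [polar_self']; exact mul_ne_zero h2 qu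
  obtain ⟨P, p1, p2, p3, p4⟩ := exists_vec_compl h.nd h.hU hu huu
  have hk := h.three
  have hxP : ∀ z ∈ P, polar Q z x = 0 := fun z hz => by
    rw [polar_comp hxu (p1 hz), polar_comm]; exact ((p4 z).1 hz).2
  set a' := a - (polar Q u a / polar Q u u) • u with ha'
  have a1 : a' ∈ P := (p4 _).2 ⟨sub_mem ha (U.smul_mem _ hu), by
    rw [ha', polar_sub_right, polar_smul_right, smul_eq_mul, div_mul_cancel₀ _ huu, sub_self]⟩
  have a0 : a' ≠ 0 := fun e => hau (by
    rw [sub_eq_zero.1 e]; exact Submodule.smul_mem _ _ (Submodule.mem_span_singleton_self u))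
  have a2 : ∀ z ∈ P, polar Q z w = polar Q z a' := fun z hz => by
    rw [polar_comp hwa (p1 hz), ha', polar_sub_right, polar_smul_right, polar_comm Q z u,
      ((p4 z).1 hz).2]; simp
  by_cases h4 : finrank F U = 3
  swap
  · refine h.G1 hxi p1 (mem_perp.2 hxP) (big_quad h.nd P p2 (by omega)) hw fun e => a0 ?_
    exact Submodule.disjoint_def.1 p2 a' a1 (mem_perp.2 fun z hz => by
      have : polar Q z w = 0 := mem_perp.1 e z hz
      rwa [a2 z hz] at this)
  obtain ⟨b, hb, qb, b1, -⟩ := exists_move_plane p2 (by omega) (Or.inl (h3 h4)) a1 a0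
  obtain ⟨d, hd, qd, d1, d2⟩ := exists_move_plane p2 (by omega) (Or.inl (h3 h4)) hb
    (by rintro rfl; simp at qb)
  have b2 : (oRefl Q d).1 b ∈ P := subStab_apply (oRefl_mem_subStab (Or.inl hd)) hb
  set b' := (oRefl Q d).1 b with hb'
  have qb' : Q b' = Q b := mem_OG.1 (oRefl Q d).2 b
  have g1 := oRefl_mul_mem_OmG h.nd qb qb'
  have g2 : (oRefl Q b).1 * (oRefl Q b').1 ∈ Supp (polarBilin Q) Q P :=
    mul_mem (oRefl_mem_Supp hb) (oRefl_mem_Supp b2)
  have y1 := sub_mem (Ysub.map hw g2.1 (h.mem _ g1 (Supp_mono p1 g2)) (g2.2 x (mem_perp.2 hxP))) hw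
  have y2 := h.witt.Supp_disp g2 w
  set y := ((oRefl Q b).1 * (oRefl Q b').1) w - w with hy
  have y0 : y ≠ 0 := fun e => by
    have e1 : (oRefl Q b').1 w = (oRefl Q b).1 w := by
      have := congrArg (oRefl Q b).1 (sub_eq_zero.1 e)
      rwa [← LinearEquiv.mul_apply, ← mul_assoc, oRefl_sq, one_mul] at this
    rw [oRefl_apply, oRefl_apply, sub_right_inj, hb', oRefl_apply] at e1
    set c := (Q (b - ((Q d)⁻¹ * polar Q d b) • d))⁻¹ * polar Q (b - ((Q d)⁻¹ * polar Q d b) • d) w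
    have c0 : c ≠ 0 := by
      intro e; rw [e, zero_smul, eq_comm, smul_eq_zero] at e1
      rcases e1 with e1 | e1
      · exact mul_ne_zero (inv_ne_zero qb) (by rwa [a2 b hb]) e1
      · exact qb (by simp [e1])
    refine d2 ((Submodule.smul_mem_iff _ (mul_ne_zero c0 (mul_ne_zero (inv_ne_zero qd) d1))).1 ?_)
    have : (c * ((Q d)⁻¹ * polar Q d b)) • d = (c - (Q b)⁻¹ * polar Q b w) • b := by
      rw [sub_smul, ← e1]; module
    rw [this]
    exact Submodule.smul_mem _ _ (Submodule.mem_span_singleton_self b)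
  by_cases qy : Q y = 0
  · exact h.K1 (p1 y2) y0 ((Ysub.em y1).swap qy) hxi
  have e := Ysub.em y1
  refine h.R1 h2 h3 (v := y - Q y • x) (by
    simpa [quad_sub, quad_smul, hx, polar_comm Q y x, e.perp] using qy)
    (fun e' => hxi ?_) (fun e' => ?_) (p1 y2) qy (e.refl qy)
  · have := sub_mem (p1 y2) e'
    rwa [sub_sub_cancel, Submodule.smul_mem_iff _ qy] at this
  · have : polar Q u (y - Q y • x) = 0 := mem_perp.1 e' u hu
    rw [polar_sub_right, ((p4 y).1 y2).2, polar_smul_right, polar_comp hxu hu] at this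
    rw [zero_sub, neg_eq_zero, smul_eq_mul] at this
    exact mul_ne_zero qy huu this

theorem le_odd (h : UC Q U M) (h2 : (2 : F) ≠ 0) (h3 : finrank F U = 3 → 3 < Nat.card F)
    {x w : V} {hx : Q x = 0} (hmx : x ∉ U) (hi : x ∉ perp (polarBilin Q) U) (hw : w ∈ Ysub M hx)
    (qw₀ : Q w ≠ 0) : OmG Q ≤ M := by
  obtain ⟨u, hu, hxu⟩ := h.witt.exists_comp h.hU x
  obtain ⟨a, ha, hwa⟩ := h.witt.exists_comp h.hU w
  have u0 : u ≠ 0 := by rintro rfl; exact hi (by simpa using hxu)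
  by_cases hau : a ∈ F ∙ u
  swap
  · by_cases qu : Q u = 0
    · exact h.G2 h2 hmx hu u0 qu hxu hw ha hwa hau
    · exact h.G3 h2 h3 hmx hu qu hxu hw ha hwa hau
  obtain ⟨c, rfl⟩ := Submodule.mem_span_singleton.1 hau
  have hxw := (Ysub.em hw).perp
  set w' := w - c • x with hw'
  have v1 : w' ∈ perp (polarBilin Q) U := by
    convert sub_mem hwa (Submodule.smul_mem _ c hxu) using 1
    rw [hw']; module
  have v2 : w' ∈ Ysub M hx := sub_mem hw fun d => by rw [smul_smul]; exact EM.self hx _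
  have v3 : Q w' ≠ 0 := by simpa [hw', quad_sub, quad_smul, hx, polar_comm Q w x, hxw] using qw₀
  have key : ∀ t : F, t ≠ 0 → t • w' - Q (t • w') • x ∉ U → OmG Q ≤ M := fun t t0 ht => by
    have q1 : Q (t • w') ≠ 0 := by simp [quad_smul, t0, v3]
    have e := v2 t
    refine h.R3 h2 h3 (by
      simpa [quad_sub, quad_smul, hx, polar_comm Q w' x, (Ysub.em v2).perp, t0] using v3) ht
      (fun e' => hi ?_) fun g hg hg' => ?_
    · have := sub_mem (Submodule.smul_mem _ t v1) e'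
      rwa [sub_sub_cancel, Submodule.smul_mem_iff _ q1] at this
    · have := RR.map (e.refl q1) hg'.1 (h.mem _ hg hg')
      rw [hg'.2 _ (Submodule.smul_mem _ t v1)] at this
      exact this.trans (RR.symm (e.refl q1))
  by_cases e : (1 : F) • w' - Q ((1 : F) • w') • x ∈ U
  · refine key (-1) (by simp) fun e' => hmx ?_
    have := add_mem e e'
    rw [show (1 : F) • w' - Q ((1 : F) • w') • x + ((-1 : F) • w' - Q ((-1 : F) • w') • x) =
      (-(2 * Q w')) • x by simp only [quad_smul]; module] at this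
    exact (Submodule.smul_mem_iff _ (neg_ne_zero.2 (mul_ne_zero h2 v3))).1 this
  · exact key 1 one_ne_zero e

end UC

end CF.Geom
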