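/-
Stabilisers of non-degenerate subspaces and of decompositions into `4`-spaces in orthogonal groups
of small dimension.
-/
import Cfsg.Agent.Geom.UC

set_option autoImplicit false
set_option linter.unusedSectionVars false

namespace CF.Geom

open Module QuadraticMap

variable {F V : Type*} [Field F] [AddCommGroup V] [Module F V] [FiniteDimensional F V]

namespace IsWittPair

variable {σ : F →+* F} {B : V →ₛₗ[σ] V →ₗ[F] F} {Q : V → F} {A : Submodule F V}

/-- The orthogonal projection onto a non-degenerate subspace. -/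
noncomputable def pj (h : IsWittPair σ B Q) (hA : Disjoint A (perp B A)) : V →ₗ[F] V :=
  A.projection _ (h.isCompl_perp hA)

theorem pj_mem (h : IsWittPair σ B Q) (hA : Disjoint A (perp B A)) (x : V) : h.pj hA x ∈ A :=
  Submodule.projection_apply_mem _ x

theorem pj_of_mem (h : IsWittPair σ B Q) (hA : Disjoint A (perp B A)) {x : V} (hx : x ∈ A) :
    h.pj hA x = x := Submodule.projection_apply_left _ ⟨x, hx⟩

theorem pj_eq_zero (h : IsWittPair σ B Q) (hA : Disjoint A (perp B A)) {x : V} :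
    h.pj hA x = 0 ↔ x ∈ perp B A := Submodule.projection_apply_eq_zero_iff _

theorem sub_pj_mem (h : IsWittPair σ B Q) (hA : Disjoint A (perp B A)) (x : V) :
    x - h.pj hA x ∈ perp B A := (h.pj_eq_zero hA).1 (by
  rw [map_sub, h.pj_of_mem hA (h.pj_mem hA x), sub_self])

theorem B_pj (h : IsWittPair σ B Q) (hA : Disjoint A (perp B A)) {z : V} (hz : z ∈ A) (x : V) :
    B z (h.pj hA x) = B z x := by
  have := mem_perp.1 (h.sub_pj_mem hA x) z hz
  rwa [map_sub, sub_eq_zero, eq_comm] at this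

end IsWittPair

variable [Finite F] {Q : QuadraticForm F V} {M : Subgroup (V ≃ₗ[F] V)} {U : Submodule F V}

theorem le_of_nonsing (hQ : (polarBilin Q).Nondegenerate)
    (hU : Disjoint U (perp (polarBilin Q) U)) (h3 : 3 ≤ finrank F U) {X : Submodule F V}
    (hX : ∀ a ∈ U, Q a ≠ 0 → a ∈ X) : U ≤ X := fun s hs => by
  by_cases q : Q s = 0
  swap
  · exact hX s hs q
  by_cases s0 : s = 0
  · simp [s0]
  obtain ⟨f, -, -, -, W, w1, w2, w3, w4⟩ := exists_hyp_compl hQ hU hs s0 q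
  obtain ⟨w, hw, qw⟩ := exists_nonsingular_mem w2 (fun e => by rw [e, finrank_bot] at w3; omega)
  simpa using sub_mem (hX (s + w) (add_mem hs (w1 hw))
    (by simpa [quad_add, q, ((w4 w).1 hw).2.1] using qw)) (hX w (w1 hw) qw)

theorem omega_irr (hQ : (polarBilin Q).Nondegenerate) (h5 : 5 ≤ finrank F V) {W : Submodule F V}
    (hW : Disjoint W (perp (polarBilin Q) W)) (hdim : 2 ≤ finrank F (perp (polarBilin Q) W))
    (hc : finrank F W = 2 → 3 < Nat.card F ∨ ∀ w ∈ W, Q w = 0 → w = 0) (X : Submodule F V)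
    (hX : perp (polarBilin Q) W < X)
    (hX' : ∀ g ∈ OmG Q, g ∈ subStab (perp (polarBilin Q) W) → g ∈ subStab X) : X = ⊤ := by
  have h := polarG_omega' hQ h5
  have hn := h.witt.disjoint_perp_perp hW
  have hf := h.witt.finrank_perp W
  by_cases h1 : finrank F W ≤ 1
  · exact eq_top_of_lt_of_finrank hX (by omega)
  by_cases h3 : finrank F W = 2
  swap
  · exact h.irr_quot hn (by rw [h.witt.perp_perp]; exact big_quad hQ W hW (by omega)) X hX hX'
  have hcp := h.witt.isCompl_perp hW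
  obtain ⟨z, hz, hzU⟩ := SetLike.exists_of_lt hX
  obtain ⟨x, hx, u, hu, rfl⟩ := Submodule.mem_sup.1
    (hcp.sup_eq_top ▸ Submodule.mem_top : z ∈ W ⊔ perp (polarBilin Q) W)
  have hxX : x ∈ X := by simpa using sub_mem hz (hX.le hu)
  have hx0 : x ≠ 0 := by rintro rfl; exact hzU (by simpa using hu)
  obtain ⟨a, ha, qa, hax, hax'⟩ := exists_move_plane hW h3 (hc h3) hx hx0
  obtain ⟨b, hb, qb⟩ := exists_quad_eq_mem hn hdim qa
  have hg := hX' _ (oRefl_mul_mem_OmG hQ qa qb) (mul_mem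
    (oRefl_mem_subStab (Or.inr fun y hy => mem_perp.1 hy a ha)) (oRefl_mem_subStab (Or.inl hb)))
  have h4 := subStab_apply hg hxX
  rw [LinearEquiv.mul_apply, oRefl_of_polar_eq_zero (h.witt.refl (mem_perp.1 hb x hx)),
    oRefl_apply] at h4
  have h5 : a ∈ X := by
    have := sub_mem hxX h4
    rw [sub_sub_cancel] at this
    exact (X.smul_mem_iff (mul_ne_zero (inv_ne_zero qa) hax)).1 this
  have hW2 : (F ∙ x) ⊔ (F ∙ a) = W := Submodule.eq_of_le_of_finrank_eq
    (sup_le ((Submodule.span_singleton_le_iff_mem _ _).2 hx)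
      ((Submodule.span_singleton_le_iff_mem _ _).2 ha))
    (by rw [Submodule.finrank_sup_span_singleton hax', finrank_span_singleton hx0, h3])
  rw [eq_top_iff, ← hcp.sup_eq_top]
  refine sup_le ?_ hX.le
  rw [← hW2]
  exact sup_le ((Submodule.span_singleton_le_iff_mem _ _).2 hxX)
    ((Submodule.span_singleton_le_iff_mem _ _).2 h5)

theorem uc_of_subStab (hQ : (polarBilin Q).Nondegenerate) (h5 : 5 ≤ finrank F V)
    (hU : Disjoint U (perp (polarBilin Q) U)) (h3 : 3 ≤ finrank F U)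
    (hc : finrank F (perp (polarBilin Q) U) = 2 →
      3 < Nat.card F ∨ ∀ w ∈ perp (polarBilin Q) U, Q w = 0 → w = 0)
    (hM : OmG Q ⊓ subStab U ≤ M) (hM' : M ≤ OG Q) : UC Q U M := by
  have h := polarG_omega' hQ h5
  refine ⟨h5, hQ, hU, h3, fun g hg hg' => hM ⟨hg, h.witt.Supp_le_subStab (Or.inl le_rfl) hg'⟩, hM',
    fun A h1 h2 => h.le_of_good_lt (h.good_of_fix fun g hg hgU _ => hM ⟨hg, hgU⟩)
      (big_quad hQ U hU h3).pair h1 h2 hM' fun X hX hX' => ?_⟩
  refine omega_irr hQ h5 (h.witt.disjoint_perp_perp hU) ?_ hc X ?_ ?_ <;> rw [h.witt.perp_perp]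
  exacts [by omega, hX, fun g hg hgU => hX' g (hM ⟨hg, hgU⟩) hgU]

/-- Non-degenerate subspaces in odd characteristic. -/
theorem omega_maxIn_nondeg_odd (hQ : (polarBilin Q).Nondegenerate) (h2 : (2 : F) ≠ 0)
    (h5 : 5 ≤ finrank F V) (hU : Disjoint U (perp (polarBilin Q) U)) (h1 : U ≠ ⊤)
    (h3 : 3 ≤ finrank F U) (h3' : finrank F U = 3 → 3 < Nat.card F)
    (hne : ∀ g ∈ OG Q, ¬ U.map (g : V →ₗ[F] V) ≤ perp (polarBilin Q) U)
    (hc : finrank F (perp (polarBilin Q) U) = 2 →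
      3 < Nat.card F ∨ ∀ w ∈ perp (polarBilin Q) U, Q w = 0 → w = 0) :
    MaxIn (OmG Q) (subStab U) := by
  have hG := polarG_omega' hQ h5
  refine ⟨hG.not_le_subStab (big_quad hQ ⊤ hG.witt.disjoint_top (by rw [finrank_top]; omega))
    (fun e => by rw [e, finrank_bot] at h3; omega) h1, fun M hM hM' m hm hmU => ?_⟩
  have h := uc_of_subStab hQ h5 hU h3 hc hM (hM'.trans OmG_le)
  have hm' := h.le' hm
  obtain ⟨x, hx, q, e1, e2⟩ : ∃ x ∈ U, Q x = 0 ∧ m x ∉ U ∧ m x ∉ perp (polarBilin Q) U := by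
    by_contra! hc
    obtain ⟨u, hu, v, hv, q1, q2, huv⟩ := h.big.pair
    have key : ∀ {X : Submodule F V}, m u ∈ X → (∀ s ∈ U, Q s = 0 → m s ∉ X → polar Q (m u) (m s) = 0)
        → U ≤ X.comap (m : V →ₗ[F] V) := fun {X} h1 h4 => by
      have : ∀ s ∈ U, Q s = Q 0 → polarBilin Q u s ≠ 0 → s ∈ X.comap (m : V →ₗ[F] V) :=
        fun s hs q e => by_contra fun e' => e ((hm'.1 u s).symm.trans (h4 s hs (by simpa using q) e'))
      exact h.witt.le_of_sing_mem hu hv q1 huv h1 (this v hv q2 huv) this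
    by_cases e : m u ∈ U
    · exact hmU (mem_subStab_iff_le.2 (key e fun s hs q e' => mem_perp.1 (hc s hs q e') _ e))
    · refine hne m hm' (Submodule.map_le_iff_le_comap.2 (key (hc u hu (by simpa using q1) e)
        fun s hs q e' => h.witt.refl (mem_perp.1 (hc u hu (by simpa using q1) e) _ ?_)))
      exact by_contra fun e'' => e' (hc s hs q e'')
  have x0 : x ≠ 0 := by rintro rfl; exact e1 (by simp)
  obtain ⟨f, -, -, -, W, w1, w2, w3, w4⟩ := exists_hyp_compl hQ hU hx x0 q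
  obtain ⟨w, hw, qw⟩ := exists_nonsingular_mem w2 (fun e => by rw [e, finrank_bot] at w3; omega)
  refine h.le_odd h2 h3' (hx := by rw [mem_OG.1 hm', q]) e1 e2 (w := m w) (fun c => ?_)
    (by rwa [mem_OG.1 hm'])
  simpa using (EM.of_Rad (h.Rad_le hx x0 q) q hx (U.smul_mem c (w1 hw))
    (by simp [((w4 w).1 hw).2.1])).map hm' hm

/-- Non-degenerate subspaces in odd characteristic, dimension at least `7`. -/
theorem omega_maxIn_nondeg_odd' (hQ : (polarBilin Q).Nondegenerate) (h2 : (2 : F) ≠ 0)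
    (hn : 7 ≤ finrank F V) {W : Submodule F V} (h0 : W ≠ ⊥) (h1 : W ≠ ⊤)
    (hW : Disjoint W (perp (polarBilin Q) W))
    (hne : ∀ g ∈ OG Q, W.map (g : V →ₗ[F] V) ≠ perp (polarBilin Q) W)
    (hc : ∀ U, U = W ∨ U = perp (polarBilin Q) W → finrank F U = 2 →
      3 < Nat.card F ∨ ∀ w ∈ U, Q w = 0 → w = 0) : MaxIn (OmG Q) (subStab W) := by
  have h := isWittPair_quad Q hQ
  have hf := h.finrank_perp W
  by_cases hd : finrank F (perp (polarBilin Q) W) ≤ finrank F W
  · exact omega_maxIn_nondeg_odd hQ h2 (by omega) hW h1 (by omega) (by omega) (fun g hg e =>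
      hne g hg (Submodule.eq_of_le_of_finrank_le e (by rwa [finrank_map_equiv])))
      (hc _ (Or.inr rfl))
  · refine (omega_maxIn_nondeg_odd hQ h2 (by omega) (h.disjoint_perp_perp hW) (h.perp_ne_top h0)
      (by omega) (by omega) (fun g _ e => ?_) ?_).congr fun g hg => h.subStab_perp_iff (OmG_le hg)
    · have := Submodule.finrank_mono e
      rw [h.perp_perp, finrank_map_equiv] at this
      omega
    · rw [h.perp_perp]; exact hc _ (Or.inl rfl)

/-! ### Characteristic two -/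

/-- No totally singular plane. -/
def NoTS2 (Q : QuadraticForm F V) (U : Submodule F V) : Prop :=
  ∀ x ∈ U, ∀ y ∈ U, Q x = 0 → Q y = 0 → polar Q x y = 0 → x ≠ 0 → y ∈ F ∙ x

/-- Orthogonal decompositions into subspaces of dimension at least four in characteristic two. -/
structure GD {τ : Type*} (Q : QuadraticForm F V) (D : τ → Submodule F V)
    (M : Subgroup (V ≃ₗ[F] V)) : Prop where
  two : (2 : F) = 0
  uc : ∀ i, UC Q (D i) M
  four : ∀ i, 4 ≤ finrank F (D i)
  orth : ∀ i j, i ≠ j → D j ≤ perp (polarBilin Q) (D i)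
  top : iSup D = ⊤
  comp : ∀ v, Q v ≠ 0 → ∃ i, ∃ a ∈ D i, v - a ∈ perp (polarBilin Q) (D i) ∧ Q a ≠ 0
  rr : ∀ i j, ∀ a ∈ D i, ∀ b ∈ D j, Q a ≠ 0 → Q b ≠ 0 → RR Q M a b

namespace GD

variable {τ : Type*} {D : τ → Submodule F V}

theorem R (h : GD Q D M) {v b : V} {l : τ} (hv : Q v ≠ 0) (hn : ∀ i, v ∉ D i) (hb : b ∈ D l)
    (qb : Q b ≠ 0) (hR : RR Q M v b) : OmG Q ≤ M := by
  obtain ⟨i, a, ha, hr, qa⟩ := h.comp v hv
  have hu := h.uc i
  have h1 := hu.witt.finrank_inf_perp_ge (D i) (F ∙ a)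
  rw [finrank_span_singleton (by rintro rfl; simp at qa)] at h1
  obtain ⟨s, hs, s0, qs⟩ := exists_singular_mem Q (U := D i ⊓ perp (polarBilin Q) (F ∙ a))
    (by have := h.four i; omega)
  refine hu.R0 hv (hn i) (mv_of_sing hu.nd hu.five hu.hU ha hr hs.1 qs
    (hu.witt.refl (mem_perp_singleton.1 hs.2)) (fun e => qa ?_) s0)
    fun g hg hg' => hu.RR_map ha qa (hR.trans (h.rr _ _ _ hb _ ha qb qa)) hg hg'
  obtain ⟨c, rfl⟩ := Submodule.mem_span_singleton.1 e
  simp [quad_smul, qs]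

theorem le (h : GD Q D M) {m : V ≃ₗ[F] V} (hm : m ∈ M) {j : τ} {a₀ : V} (ha₀ : a₀ ∈ D j)
    (q₀ : Q a₀ ≠ 0) (hn : ∀ i, m a₀ ∉ D i) : OmG Q ≤ M := by
  have hu := h.uc j
  have hW := hu.witt
  have hm' := hu.le' hm
  have pp : ∀ x, polar Q x x = 0 := fun x => by rw [polar_self', h.two, zero_mul]
  have sp : ∀ φ : V →ₗ[F] F, (∀ i, ∀ a ∈ D i, Q a ≠ 0 → φ a = 0) → ∀ x, φ x = 0 := fun φ e x =>
    (h.top ▸ iSup_le fun i => le_of_nonsing hu.nd (h.uc i).hU (h.uc i).three (e i) :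
      ⊤ ≤ LinearMap.ker φ) trivial
  obtain ⟨l, x, hx, qx, l', x', hx', qx', e⟩ : ∃ l, ∃ x ∈ D l, Q x ≠ 0 ∧ ∃ l', ∃ x' ∈ D l',
      Q x' ≠ 0 ∧ polar Q (hW.pj hu.hU (m x)) (hW.pj hu.hU (m x')) ≠ 0 := by
    by_contra! hc
    obtain ⟨u, hu', v, hv, -, -, huv⟩ := hu.big.pair
    have := sp ((polarBilin Q).flip (hW.pj hu.hU (m (m⁻¹ v))) ∘ₗ hW.pj hu.hU ∘ₗ (m : V →ₗ[F] V))
      (fun i a ha qa => sp (polarBilin Q (hW.pj hu.hU (m a)) ∘ₗ hW.pj hu.hU ∘ₗ (m : V →ₗ[F] V))
        (hc i a ha qa) (m⁻¹ v)) (m⁻¹ u)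
    simp only [LinearMap.comp_apply, LinearEquiv.coe_coe, apply_inv_apply, hW.pj_of_mem _ hu',
      hW.pj_of_mem _ hv] at this
    exact huv this
  have r1 := (h.rr _ _ _ hx _ hx' qx qx').map hm' hm
  have r2 := (h.rr _ _ _ ha₀ _ hx' q₀ qx').map hm' hm
  rw [← mem_OG.1 hm'] at qx' q₀
  have b1 := fun z hz => hW.B_pj hu.hU (z := z) hz (m x)
  have b2 := fun z hz => hW.B_pj hu.hU (z := z) hz (m x')
  have b3 := hW.pj_mem hu.hU (m x)
  have b4 := hW.pj_mem hu.hU (m x')
  have b5 := hW.sub_pj_mem hu.hU (m x')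
  simp only [polarBilin_apply_apply] at b1 b2
  generalize hW.pj hu.hU (m x) = β at *
  generalize hW.pj hu.hU (m x') = β' at *
  generalize m x = b at *
  generalize m x' = b' at *
  have hP := hW.disjoint_hyperbolic (pp β) (pp β') e
  have h1 := hW.finrank_inf_perp_ge (D j) (Submodule.span F {β, β'})
  have h2 := IsWittPair.finrank_span_pair_le (F := F) β β'
  obtain ⟨a', ha', qa'⟩ := exists_nonsingular_mem (hW.disjoint_inf_perp hu.hU hP
    (Submodule.span_le.2 (by rintro _ (rfl | rfl); exacts [b3, b4])))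
    (by intro e; rw [e, finrank_bot] at h1; have := h.four j; omega)
  have c1 : polar Q a' β = 0 := hW.refl (mem_perp_pair.1 ha'.2).1
  have c2 : polar Q a' β' = 0 := hW.refl (mem_perp_pair.1 ha'.2).2
  obtain ⟨a, ha, qa, c3, c4⟩ : ∃ a ∈ D j, Q a ≠ 0 ∧ polar Q a β = 0 ∧ polar Q a β' ≠ 0 := by
    by_cases q : Q β = 0
    · exact ⟨a' + β, add_mem ha'.1 b3, by simpa [quad_add, q, c1] using qa', by simp [c1, pp],
        by simpa [c2] using e⟩
    · exact ⟨β, b3, q, pp β, e⟩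
  have g1 := h.rr _ _ _ ha _ ha'.1 qa qa'
  have r3 := r1.map (hu.le' g1) g1
  rw [LinearEquiv.mul_apply, LinearEquiv.mul_apply,
    oRefl_of_polar_eq_zero ((b1 _ ha'.1).symm.trans c1),
    oRefl_of_polar_eq_zero ((b2 _ ha'.1).symm.trans c2),
    oRefl_of_polar_eq_zero ((b1 _ ha).symm.trans c3)] at r3
  have r4 := (r3.symm.trans r1).refl_comm
  by_cases hv : ∀ i, (oRefl Q b').1 a ∉ D i
  · exact h.R (by rwa [mem_OG.1 (oRefl Q b').2]) hv ha qa r4
  push Not at hv
  obtain ⟨i, hi⟩ := hv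
  have c0 : (Q b')⁻¹ * polar Q b' a ≠ 0 :=
    mul_ne_zero (inv_ne_zero qx') (by rwa [polar_comm, ← b2 _ ha])
  rw [oRefl_apply] at hi
  by_cases ij : j = i
  · subst ij
    have := sub_mem ha hi
    rw [sub_sub_cancel, Submodule.smul_mem_iff _ c0] at this
    exact h.R q₀ hn this qx' r2
  · have e1 := add_mem (h.orth j i ij hi) (Submodule.smul_mem _ ((Q b')⁻¹ * polar Q b' a) b5)
    rw [smul_sub, sub_add_sub_cancel] at e1
    have e2 := sub_eq_zero.1 (Submodule.disjoint_def.1 hu.hU _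
      (sub_mem ha (Submodule.smul_mem _ _ b4)) e1)
    exact absurd (by rw [e2]; simp [pp]) c4

theorem conn (h : GD Q D M) {m : V ≃ₗ[F] V} (hm : m ∈ OG Q) {j : τ}
    (hc : Nat.card F = 2 → NoTS2 Q (D j)) (hn : ∀ a ∈ D j, Q a ≠ 0 → ∃ i, m a ∈ D i) :
    ∃ i, ∀ x ∈ D j, m x ∈ D i := by
  have hu := h.uc j
  have pp : ∀ x, polar Q x x = 0 := fun x => by rw [polar_self', h.two, zero_mul]
  have eq : ∀ {i l : τ} {x y : V}, m x ∈ D i → m y ∈ D l → polar Q x y ≠ 0 → i = l :=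
    fun {i l x y} hx hy e => by_contra fun il =>
      e ((hm.1 x y).symm.trans (mem_perp.1 (h.orth i l il hy) _ hx))
  have ex : ∀ {i : τ} {a : V}, a ∈ D j → Q a ≠ 0 → m a ∈ D i →
      ∃ b ∈ D j, Q b ≠ 0 ∧ polar Q a b ≠ 0 ∧ m b ∈ D i := fun {i a} ha qa hi => by
    obtain ⟨b, hb, qb, e⟩ : ∃ b ∈ D j, Q b ≠ 0 ∧ polar Q a b ≠ 0 := by
      by_contra! hc
      exact qa (by rw [Submodule.disjoint_def.1 hu.hU a ha (mem_perp.2 fun x hx => hu.witt.refl
        (le_of_nonsing hu.nd hu.hU hu.three (X := LinearMap.ker (polarBilin Q a)) hc hx))]; simp)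
    obtain ⟨l, hl⟩ := hn b hb qb
    exact ⟨b, hb, qb, e, eq hi hl e ▸ hl⟩
  obtain ⟨a, ha, qa⟩ := exists_nonsingular_mem hu.hU
    (fun e => by have := hu.three; rw [e, finrank_bot] at this; omega)
  obtain ⟨i, hi⟩ := hn a ha qa
  refine ⟨i, le_of_nonsing hu.nd hu.hU hu.three (X := (D i).comap (m : V →ₗ[F] V))
    fun a' ha' qa' => ?_⟩
  obtain ⟨l, hl⟩ := hn a' ha' qa'
  by_contra hil
  have il : i ≠ l := by rintro rfl; exact hil hl
  obtain ⟨b, hb, qb, e, hb'⟩ := ex ha qa hi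
  obtain ⟨b', hc1, qb', e', hc2⟩ := ex ha' qa' hl
  have z : ∀ {x y : V}, m x ∈ D i → m y ∈ D l → polar Q x y = 0 := fun hx hy =>
    by_contra fun e => il (eq hx hy e)
  have z1 := z hi hl
  have z2 := z hi hc2
  have z3 := z hb' hl
  have z4 := z hb' hc2
  obtain ⟨c, c0, hc⟩ : ∃ c : F, c ≠ 0 ∧ Q a + c ^ 2 * Q a' ≠ 0 := by
    by_contra! hc'
    by_cases h2 : Nat.card F = 2
    · have one : ∀ x : F, x ≠ 0 → x = 1 := fun x hx => by
        have := Fintype.ofFinite F
        simpa [← Nat.card_eq_fintype_card, h2] using FiniteField.pow_card_sub_one_eq_one x hx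
      obtain ⟨t, ht⟩ := Submodule.mem_span_singleton.1 (hc h2 (a + a') (add_mem ha ha') (b + b')
        (add_mem hb hc1) (by simpa [quad_add, z1] using hc' 1 one_ne_zero)
        (by rw [quad_add, z4, one _ qb, one _ qb']; linear_combination h.two)
        (by simp only [polar_add_left, polar_add_right, z2, polar_comm Q a' b, z3, one _ e, one _ e']
            linear_combination h.two)
        fun e0 => e (by rw [eq_neg_of_add_eq_zero_left e0]; simp [polar_comm Q a' b, z3]))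
      have := congrArg (polar Q a) ht
      simp [z1, z2, pp] at this
      exact e this.symm
    · obtain ⟨t, t0, t1⟩ := exists_ne_zero_ne_one_of_card h2
      refine t1 (sub_eq_zero.1 (pow_eq_zero_iff (n := 2) (by simp) |>.1 (mul_right_cancel₀ qa' ?_)))
      linear_combination hc' t t0 - hc' 1 one_ne_zero + (1 - t) * Q a' * h.two
  obtain ⟨r, hr⟩ := hn (a + c • a') (add_mem ha (Submodule.smul_mem _ _ ha'))
    (by simpa [quad_add, quad_smul, z1] using hc)
  exact il ((eq hb' hr (by simpa [z3, polar_comm Q b a] using e)).trans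
    (eq hr hc2 (by simp [z2, c0, e'])))

end GD

/-- Decompositions into `4`-spaces in characteristic two. -/
theorem omega_maxIn_dec_two {τ : Type*} [Finite τ] [Nontrivial τ] {k : ℕ} {D : τ → Submodule F V}
    (h5 : 5 ≤ finrank F V) (h : ODec (polarBilin Q) Q k D) (hk : 4 ≤ k) (h2 : (2 : F) = 0)
    (hc : Nat.card F = 2 → ∀ i, NoTS2 Q (D i)) : MaxIn (OmG Q) (decStab D) := by
  obtain ⟨i⟩ : Nonempty τ := inferInstance
  have hQ := h.witt.nondegenerate
  have hG := polarG_omega' hQ h5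
  obtain ⟨u, hu, u0, qu⟩ := exists_singular_mem Q (U := D i) (by rw [h.dim]; omega)
  refine ⟨h.not_le hG hu u0 (by simpa using qu), fun M hM hM' m hm hmD => ?_⟩
  have o : OCtx Q k D M := ⟨h5, h, hM, hM'.trans OmG_le⟩
  have g : GD Q D M := ⟨h2, fun i => ⟨h5, hQ, h.nondeg i, by rw [h.dim]; omega, fun g => o.mem,
    o.le', fun A h1 h3 => h.le_of_good_lt hG (o.big (by omega)) (o.adj (by omega)) hM o.le' h1 h3⟩,
    fun i => by rw [h.dim]; exact hk, h.orth, h.top, fun v => h.exists_nonsing_comp,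
    fun i j a ha b hb qa qb => h.RR hM ha hb qa qb (isSquare_of_two_eq_zero h2 _)⟩
  by_contra hn
  refine hmD (h.mem_decStab fun j => g.conn (o.le' hm) (fun e => hc e j) fun a ha qa => ?_)
  by_contra! hc
  exact hn (g.le hm ha qa hc)

/-- Non-degenerate subspaces with large complement in characteristic two. -/
theorem omega_maxIn_nondeg_two (hQ : (polarBilin Q).Nondegenerate) (h2 : (2 : F) = 0)
    (hU : Disjoint U (perp (polarBilin Q) U)) (h4 : 4 ≤ finrank F U)
    (h4' : 4 ≤ finrank F (perp (polarBilin Q) U))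
    (hne : ∀ g ∈ OG Q, ¬ U.map (g : V →ₗ[F] V) ≤ perp (polarBilin Q) U)
    (hc : Nat.card F = 2 → NoTS2 Q U) : MaxIn (OmG Q) (subStab U) := by
  have hW := isWittPair_quad Q hQ
  have hf := hW.finrank_perp U
  have hG := polarG_omega' hQ (by omega)
  refine ⟨hG.not_le_subStab (big_quad hQ ⊤ hW.disjoint_top (by rw [finrank_top]; omega))
    (fun e => by rw [e, finrank_bot] at h4; omega)
    (fun e => by subst e; rw [finrank_top] at hf; omega), fun M hM hM' m hm hmU => ?_⟩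
  have st : ∀ (i : Bool) (a : V), a ∈ (bif i then U else perp (polarBilin Q) U) →
      (oRefl Q a).1 ∈ subStab U := by
    rintro (_ | _) a ha
    exacts [oRefl_mem_subStab (Or.inr fun y hy => hW.refl (mem_perp.1 ha y hy)),
      oRefl_mem_subStab (Or.inl ha)]
  have g : GD Q (fun i : Bool => bif i then U else perp (polarBilin Q) U) M := by
    refine ⟨h2, ?_, ?_, ?_, ?_, fun v hv => ?_, fun i j a ha b hb qa qb => hM ⟨mem_OmG.2
      (oRefl_mul_mem_commutator hQ qa qb (isSquare_of_two_eq_zero h2 _)),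
      mul_mem (st i a ha) (st j b hb)⟩⟩
    · rintro (_ | _)
      · exact uc_of_subStab hQ (by omega) (hW.disjoint_perp_perp hU) (by simp only [cond]; omega)
          (fun e => by rw [cond_false, hW.perp_perp] at e; omega) (fun g hg => hM ⟨hg.1,
            (hW.subStab_perp_iff (OmG_le hg.1)).1 hg.2⟩) (hM'.trans OmG_le)
      · exact uc_of_subStab hQ (by omega) hU (by simp only [cond]; omega)
          (fun e => by simp only [cond] at e; omega) hM (hM'.trans OmG_le)
    · rintro (_ | _); exacts [h4', h4]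
    · rintro (_ | _) (_ | _) e
      exacts [absurd rfl e, hW.le_perp_perp U, le_rfl, absurd rfl e]
    · rw [iSup_bool_eq]; exact (hW.isCompl_perp hU).sup_eq_top
    · obtain ⟨a, ha, hr⟩ := hW.exists_comp hU v
      by_cases q : Q a = 0
      · refine ⟨false, v - a, hr, hW.le_perp_perp U (by simpa using ha), fun e => hv ?_⟩
        have := quad_add Q a (v - a)
        rwa [add_sub_cancel, q, e, show polar Q a (v - a) = 0 from mem_perp.1 hr a ha, add_zero,
          add_zero] at this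
      · exact ⟨true, a, ha, hr, q⟩
  by_contra hn
  obtain ⟨_ | _, hi⟩ := g.conn (OmG_le (hM' hm)) (j := true) hc fun a ha qa => by
    by_contra! hc
    exact hn (g.le hm ha qa hc)
  · exact hne m (OmG_le (hM' hm)) (by rintro _ ⟨x, hx, rfl⟩; exact hi x hx)
  · exact hmU (mem_subStab_iff_le.2 hi)

theorem noTS2_of_not_plus {ι : Type} [Fintype ι] {Q : QuadraticForm F (ι → F)}
    {U : Submodule F (ι → F)} (h4 : finrank F U = 4) (h : ¬ Cfsg.Geo.IsPlusTypeOn Q U) :
    NoTS2 Q U := fun x hx y hy qx qy e x0 => by_contra fun hn => h ⟨Submodule.span F {x, y},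
  Submodule.span_le.2 (by rintro _ (rfl | rfl); exacts [hx, hy]), fun z hz => by
    obtain ⟨α, β, rfl⟩ := Submodule.mem_span_pair.1 hz
    simp [quad_add, quad_smul, qx, qy, e],
  by rw [finrank_span_pair (linearIndependent_pair_of_notMem x0 hn), h4]⟩

end CF.Geom
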