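/-
Non-degenerate quadratic planes over finite fields.
-/
import Cfsg.Agent.Geom.UC2
import Cfsg.Agent.Geom.FrO1

set_option autoImplicit false
set_option linter.unusedSectionVars false

namespace CF.Geom

open Module QuadraticMap

variable {F V : Type*} [Field F] [AddCommGroup V] [Module F V]

theorem quad_roots {α β γ : F} (h : α ≠ 0 ∨ β ≠ 0 ∨ γ ≠ 0) :
    ∃ r s, ∀ c, α * c ^ 2 + β * c + γ = 0 → c = r ∨ c = s := by
  by_contra! hc
  obtain ⟨r, h1, -⟩ := hc 0 0
  obtain ⟨s, h2, h3, -⟩ := hc r r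
  obtain ⟨t, h4, h5, h6⟩ := hc r s
  have e1 : α * (s + r) + β = 0 := mul_left_cancel₀ (sub_ne_zero.2 h3) (by linear_combination h2 - h1)
  have e2 : α * (t + r) + β = 0 := mul_left_cancel₀ (sub_ne_zero.2 h5) (by linear_combination h4 - h1)
  have e3 : α = 0 := mul_left_cancel₀ (sub_ne_zero.2 h6) (by linear_combination e2 - e1)
  have e4 : β = 0 := by simpa [e3] using e1
  simp [e3, e4, show γ = 0 by simpa [e3, e4] using h1] at h

variable [Finite F]

theorem exists_notMem_list' (l : List F) (h : l.length < Nat.card F) : ∃ j, j ∉ l := by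
  have := Fintype.ofFinite F
  exact exists_notMem_list l (by rwa [← Nat.card_eq_fintype_card])

theorem subring_card_sq_le (K : Subring F) (h : K ≠ ⊤) : Nat.card K ^ 2 ≤ Nat.card F := by
  have := Fintype.ofFinite F
  obtain ⟨b, hb⟩ : ∃ b, b ∉ K := by by_contra! hc; exact h (eq_top_iff.2 fun x _ => hc x)
  rw [pow_two, ← Nat.card_prod]
  refine Nat.card_le_card_of_injective (fun p => (p.1 : F) + p.2 * b) ?_
  rintro ⟨i, j⟩ ⟨i', j'⟩ e
  have e1 : j = j' := by_contra fun hj => hb (by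
    have h0 : (j : F) - j' ≠ 0 := sub_ne_zero.2 fun e => hj (Subtype.ext e)
    have h1 := FiniteField.pow_card_sub_one_eq_one _ h0
    obtain ⟨n, hn⟩ : ∃ n, Fintype.card F - 1 = n + 1 :=
      ⟨Fintype.card F - 2, by have := Fintype.one_lt_card (α := F); omega⟩
    rw [hn] at h1
    have : b = ((j : F) - j') ^ n * (i' - i) := by
      simp only at e; linear_combination ((j : F) - j') ^ n * e - b * h1
    rw [this]
    exact mul_mem (pow_mem (sub_mem j.2 j'.2) n) (sub_mem i'.2 i.2))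
  subst e1
  simpa using e

theorem card_le_two_mul {β : Type*} [DecidableEq β] (G : Finset F) (T : Finset β) (φ : F → β)
    (h : ∀ c ∈ G, φ c ∈ T) (h2 : ∀ b ∈ T, ∃ r s, ∀ c ∈ G, φ c = b → c = r ∨ c = s) :
    G.card ≤ 2 * T.card := by
  classical
  refine Finset.card_le_mul_card_image_of_maps_to h 2 fun b hb => ?_
  obtain ⟨r, s, e⟩ := h2 b hb
  exact (Finset.card_le_card (t := {r, s}) fun c hc => by
    simpa using e c (Finset.mem_filter.1 hc).1 (Finset.mem_filter.1 hc).2).trans Finset.card_le_two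

theorem exists_quad_add_quad {α β γ α' β' γ' : F} (h : α ≠ 0) (h' : α' ≠ 0)
    (e : ∀ c, α * c ^ 2 + β * c + γ ≠ 0) (e' : ∀ c, α' * c ^ 2 + β' * c + γ' ≠ 0) :
    ∃ a b, (α * a ^ 2 + β * a + γ) + (α' * b ^ 2 + β' * b + γ') = 0 := by
  classical
  have := Fintype.ofFinite F
  have key : ∀ {α β γ : F}, α ≠ 0 → Fintype.card F ≤
      2 * (Finset.univ.image fun c => α * c ^ 2 + β * c + γ).card := fun {α β γ} h =>
    card_le_two_mul Finset.univ _ _ (fun c hc => Finset.mem_image_of_mem _ hc) fun b _ =>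
      (quad_roots (β := β) (γ := γ - b) (Or.inl h)).imp fun r => Exists.imp fun s e c _ e' =>
        e c (by linear_combination e')
  by_contra! hc
  have h1 := key (β := β) (γ := γ) h
  have h2 := key (β := -β') (γ := -γ') (neg_ne_zero.2 h')
  have h3 := Finset.card_le_card (t := Finset.univ.erase 0)
    (s := (Finset.univ.image fun c => α * c ^ 2 + β * c + γ) ∪
      Finset.univ.image fun c => -α' * c ^ 2 + -β' * c + -γ') fun x hx => by
    simp only [Finset.mem_union, Finset.mem_image, Finset.mem_univ, true_and] at hx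
    rcases hx with ⟨c, rfl⟩ | ⟨c, rfl⟩
    · simpa using e c
    · simpa using fun h0 => e' c (by linear_combination -h0)
  rw [Finset.card_union_of_disjoint (Finset.disjoint_left.2 fun x h1 h2 => by
    obtain ⟨a, -, rfl⟩ := Finset.mem_image.1 h1
    obtain ⟨b, -, e⟩ := Finset.mem_image.1 h2
    exact hc a b (by linear_combination -e)), Finset.card_erase_of_mem (Finset.mem_univ _),
    Finset.card_univ] at h3
  have := Fintype.one_lt_card (α := F)
  omega

theorem five_le_card (h2 : (2 : F) ≠ 0) (h3 : Nat.card F ≠ 3) : 5 ≤ Nat.card F := by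
  have := Fintype.ofFinite F
  have h := FiniteField.odd_card_of_char_ne_two (ringChar_ne_two_of_two_ne_zero h2)
  have := Fintype.one_lt_card (α := F)
  rw [Nat.card_eq_fintype_card] at h3 ⊢
  omega

variable [FiniteDimensional F V] {Q : QuadraticForm F V} {P : Submodule F V}

/-- A non-degenerate plane with enough non-singular points. -/
structure Pl (Q : QuadraticForm F V) (P : Submodule F V) : Prop where
  nd : Disjoint P (perp (polarBilin Q) P)
  dim : finrank F P = 2
  pc : ((∀ u ∈ P, Q u = 0 → u = 0) ∧ Nat.card F ≠ 3) ∨ 7 ≤ Nat.card F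

namespace Pl

theorem span (h : Pl Q P) {x y : V} (hx : x ∈ P) (hy : y ∈ P) (x0 : x ≠ 0) (hxy : y ∉ F ∙ x) :
    Submodule.span F {x, y} = P := Submodule.eq_of_le_of_finrank_eq
  (Submodule.span_le.2 (by rintro _ (rfl | rfl); exacts [hx, hy]))
  (by rw [finrank_span_pair (linearIndependent_pair_of_notMem x0 hxy), h.dim])

theorem eq_zero (h : Pl Q P) {x y z : V} (hx : x ∈ P) (hy : y ∈ P) (x0 : x ≠ 0) (hxy : y ∉ F ∙ x)
    (hz : z ∈ P) (h1 : polar Q x z = 0) (h2 : polar Q y z = 0) : z = 0 :=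
  Submodule.disjoint_def.1 h.nd z hz (h.span hx hy x0 hxy ▸ mem_perp_pair.2 ⟨h1, h2⟩)

theorem exists_partner (h : Pl Q P) {x : V} (hx : x ∈ P) (x0 : x ≠ 0) :
    ∃ y ∈ P, y ∉ F ∙ x ∧ polar Q x y ≠ 0 := by
  obtain ⟨y, hy, hxy⟩ : ∃ y ∈ P, y ∉ F ∙ x := by
    by_contra! hc
    have := Submodule.finrank_mono (show P ≤ F ∙ x from hc)
    rw [finrank_span_singleton x0, h.dim] at this; omega
  by_cases e : polar Q x y = 0
  · refine ⟨y + x, add_mem hy hx, fun e' => hxy (by
      simpa using sub_mem e' (Submodule.mem_span_singleton_self x)), fun e' => x0 ?_⟩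
    exact h.eq_zero hx hy x0 hxy hx (by simpa [e] using e') (polar_comm Q x y ▸ e)
  · exact ⟨y, hy, hxy, e⟩

theorem disc (h : Pl Q P) {x y : V} (hx : x ∈ P) (hy : y ∈ P) (x0 : x ≠ 0) (hxy : y ∉ F ∙ x)
    (e : polar Q x y ≠ 0) : polar Q x y ^ 2 - 4 * Q x * Q y ≠ 0 := fun e' => by
  have := h.eq_zero hx hy x0 hxy (z := polar Q x y • x - (2 * Q x) • y)
    (sub_mem (P.smul_mem _ hx) (P.smul_mem _ hy)) (by simp [polar_self']; ring)
    (by simp [polar_self', polar_comm Q y x]; linear_combination e')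
  rw [sub_eq_add_neg, ← neg_smul] at this
  exact e (LinearIndependent.pair_iff.1 (linearIndependent_pair_of_notMem x0 hxy) _ _ this).1

theorem add_notMem {x y : V} (hxy : y ∉ F ∙ x) (c : F) : y + c • x ∉ F ∙ x := fun e =>
  hxy (by simpa using sub_mem e (Submodule.smul_mem _ c (Submodule.mem_span_singleton_self x)))

theorem exists_good (h : Pl Q P) {x y : V} (hx : x ∈ P) (hy : y ∈ P) (hxy : y ∉ F ∙ x)
    (e : polar Q x y ≠ 0) (L : List F) (hL : L.length ≤ 1 ∨ ((2 : F) ≠ 0 ∧ L.length ≤ 3)) :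
    ∃ c, c ∉ L ∧ Q (y + c • x) ≠ 0 ∧ polar Q x (y + c • x) ≠ 0 := by
  have e1 : ∀ c, polar Q x (y + c • x) = 0 → c = -polar Q x y / (2 * Q x) ∧ (2 : F) ≠ 0 :=
    fun c h0 => by
      simp only [polar_add_right, polar_smul_right, polar_self', smul_eq_mul] at h0
      have : 2 * Q x ≠ 0 := fun e' => e (by simpa [e'] using h0)
      exact ⟨by rw [eq_div_iff this]; linear_combination h0, left_ne_zero_of_mul this⟩
  rcases h.pc with ⟨h1, h3⟩ | h7
  · have e2 : ∀ c, Q (y + c • x) ≠ 0 := fun c h0 =>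
      add_notMem hxy c (by rw [h1 _ (add_mem hy (P.smul_mem c hx)) h0]; exact zero_mem _)
    by_cases h2 : (2 : F) = 0
    · obtain ⟨c, hc⟩ := exists_notMem_list' L (by
        have := Finite.one_lt_card (α := F); have := hL.resolve_right fun h => h.1 h2; omega)
      exact ⟨c, hc, e2 c, fun h0 => (e1 c h0).2 h2⟩
    · obtain ⟨c, hc⟩ := exists_notMem_list' (-polar Q x y / (2 * Q x) :: L) (by
        have := five_le_card h2 h3; simp only [List.length_cons]; omega)
      exact ⟨c, fun e => hc (by simp [e]), e2 c, fun h0 => hc (by simp [(e1 c h0).1])⟩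
  · obtain ⟨r, s, hr⟩ := quad_roots (α := Q x) (γ := Q y) (Or.inr (Or.inl e))
    obtain ⟨c, hc⟩ := exists_notMem_list' (r :: s :: -polar Q x y / (2 * Q x) :: L) (by
      simp only [List.length_cons]; omega)
    simp only [List.mem_cons, not_or] at hc
    refine ⟨c, hc.2.2.2, fun h0 => (hr c ?_).elim hc.1 hc.2.1, fun h0 => hc.2.2.1 (e1 c h0).1⟩
    rw [quad_add, quad_smul, polar_smul_right, polar_comm, smul_eq_mul] at h0
    linear_combination h0

theorem le_of (h : Pl Q P) {w : V} (hw : w ∈ P) (w0 : w ≠ 0) {X : Submodule F V}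
    (hX : ∀ a ∈ P, Q a ≠ 0 → polar Q w a ≠ 0 → a ∈ X) : P ≤ X := by
  obtain ⟨y, hy, h1, h2⟩ := h.exists_partner hw w0
  obtain ⟨c, -, c1, c2⟩ := h.exists_good hw hy h1 h2 [] (by simp)
  obtain ⟨d, d0, d1, d2⟩ := h.exists_good hw hy h1 h2 [c] (by simp)
  have m1 := hX _ (add_mem hy (P.smul_mem c hw)) c1 c2
  have m2 := sub_mem (hX _ (add_mem hy (P.smul_mem d hw)) d1 d2) m1
  rw [add_sub_add_left_eq_sub, ← sub_smul,
    X.smul_mem_iff (sub_ne_zero.2 (by simpa using d0))] at m2
  rw [← h.span hw hy w0 h1]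
  exact Submodule.span_le.2 (by
    rintro _ (rfl | rfl); exacts [m2, by simpa using sub_mem m1 (X.smul_mem c m2)])

theorem exists_refl (h : Pl Q P) {x : V} (hx : x ∈ P) (qx : Q x ≠ 0) :
    ∃ a ∈ P, Q a ≠ 0 ∧ (oRefl Q a).1 x ∉ F ∙ x ∧ polar Q x ((oRefl Q a).1 x) ≠ 0 := by
  have x0 : x ≠ 0 := by rintro rfl; simp at qx
  obtain ⟨y, hy, h1, h2⟩ := h.exists_partner hx x0
  obtain ⟨L, hL, h3⟩ : ∃ L : List F, (L.length ≤ 1 ∨ ((2 : F) ≠ 0 ∧ L.length ≤ 3)) ∧ ∀ c, c ∉ L →
      polar Q x (y + c • x) ≠ 0 → 2 * Q x * Q (y + c • x) ≠ polar Q x (y + c • x) ^ 2 := by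
    by_cases t : (2 : F) = 0
    · exact ⟨[], by simp, fun c _ e => by
        rw [t, zero_mul, zero_mul]; exact (pow_ne_zero 2 e).symm⟩
    obtain ⟨r, s, hr⟩ := quad_roots (α := 2 * Q x ^ 2) (β := 2 * Q x * polar Q x y)
      (γ := polar Q x y ^ 2 - 2 * Q x * Q y) (Or.inl (by simp [t, qx]))
    refine ⟨[r, s], Or.inr ⟨t, by simp⟩, fun c hc _ e => hc ?_⟩
    simp only [quad_add, quad_smul, polar_add_right, polar_smul_right, polar_self', smul_eq_mul,
      polar_comm Q y x] at e
    simpa using hr c (by linear_combination -e)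
  obtain ⟨c, c0, c1, c2⟩ := h.exists_good hx hy h1 h2 L hL
  refine ⟨_, add_mem hy (P.smul_mem c hx), c1, fun e => add_notMem h1 c ?_, fun e => h3 c c0 c2 ?_⟩
  · exact mem_span_of_refl c1 (polar_comm Q x _ ▸ c2) e
  · rw [oRefl_apply, polar_sub_right, polar_smul_right, polar_self', polar_comm Q _ x,
      smul_eq_mul] at e
    field_simp at e
    linear_combination e

/-- The orthogonal group of the plane acts irreducibly over the prime field. -/
theorem irr (h : Pl Q P) {Z : AddSubgroup V} (hZ : ∀ a ∈ P, Q a ≠ 0 → ∀ z ∈ Z, (oRefl Q a).1 z ∈ Z)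
    {w : V} (hw : w ∈ Z) (w0 : w ∉ perp (polarBilin Q) P) : ∀ x ∈ P, x ∈ Z := by
  classical
  have := Fintype.ofFinite F
  have r : ∀ a ∈ P, Q a ≠ 0 → ∀ z ∈ Z, ((Q a)⁻¹ * polar Q a z) • a ∈ Z := fun a ha qa z hz => by
    simpa [oRefl_apply] using sub_mem hz (hZ a ha qa z hz)
  have key : ∀ a ∈ P, Q a ≠ 0 → polar Q a w ≠ 0 → ∀ c : F, c • a ∈ Z := fun a ha qa e c => by
    have a0 : a ≠ 0 := by rintro rfl; simp at qa
    let K : Subring F :=
      { carrier := {κ | ∀ c : F, c • a ∈ Z → (κ * c) • a ∈ Z}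
        mul_mem' := fun h1 h2 c hc => by rw [mul_assoc]; exact h1 _ (h2 c hc)
        one_mem' := fun c hc => by rwa [one_mul]
        add_mem' := fun h1 h2 c hc => by rw [add_mul, add_smul]; exact add_mem (h1 c hc) (h2 c hc)
        zero_mem' := fun c _ => by simp
        neg_mem' := fun h1 c hc => by rw [neg_mul, neg_smul]; exact neg_mem (h1 c hc) }
    have hK : K = ⊤ := by
      by_contra hK
      have h1 := subring_card_sq_le K hK
      obtain ⟨y, hy, y1, y2⟩ := h.exists_partner ha a0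
      have d := h.disc ha hy a0 y1 y2
      have h2 := card_le_two_mul (Finset.univ.filter fun c : F => Q (y + c • a) ≠ 0)
        ((Finset.univ.filter (· ∈ K)).erase 4)
        (fun c : F => polar Q a (y + c • a) ^ 2 / (Q a * Q (y + c • a))) (fun c hc => by
          have q := (Finset.mem_filter.1 hc).2
          refine Finset.mem_erase.2 ⟨fun e => d ?_, Finset.mem_filter.2 ⟨Finset.mem_univ _,
            fun t ht => ?_⟩⟩
          · rw [div_eq_iff (mul_ne_zero qa q)] at e
            simp only [quad_add, quad_smul, polar_add_right, polar_smul_right, polar_self',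
              smul_eq_mul, polar_comm Q y a] at e
            linear_combination e
          · convert r a ha qa _ (r _ (add_mem hy (P.smul_mem c ha)) q _ ht) using 2
            simp only [polar_smul_right, smul_eq_mul, polar_comm Q (y + c • a) a]
            field_simp) fun κ hκ => by
          obtain ⟨r, s, e⟩ := quad_roots (α := (4 - κ) * Q a ^ 2) (β := (4 - κ) * Q a * polar Q a y)
            (γ := polar Q a y ^ 2 - κ * Q a * Q y) (Or.inl (mul_ne_zero (sub_ne_zero.2
              (Finset.mem_erase.1 hκ).1.symm) (pow_ne_zero _ qa)))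
          refine ⟨r, s, fun c hc e' => e c ?_⟩
          rw [div_eq_iff (mul_ne_zero qa (Finset.mem_filter.1 hc).2)] at e'
          simp only [quad_add, quad_smul, polar_add_right, polar_smul_right, polar_self',
            smul_eq_mul, polar_comm Q y a] at e'
          linear_combination e'
      rw [Finset.card_erase_of_mem (Finset.mem_filter.2 ⟨Finset.mem_univ _, by
        exact_mod_cast natCast_mem K 4⟩), ← Fintype.card_subtype, ← Fintype.card_subtype,
        ← Nat.card_eq_fintype_card (α := {x // x ∈ K})] at h2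
      have h3 : 0 < Nat.card K := Nat.card_pos
      change _ ≤ 2 * (Nat.card K - 1) at h2
      obtain ⟨n, hn⟩ : ∃ n, Nat.card K = n + 1 := ⟨Nat.card K - 1, by omega⟩
      rw [hn, Nat.add_sub_cancel, Fintype.card_subtype] at h2
      rw [hn] at h1
      rcases h.pc with ⟨h4, -⟩ | h7
      · rw [Finset.filter_true_of_mem (p := fun c : F => Q (y + c • a) ≠ 0) fun c _ h0 => add_notMem y1 c (by
          rw [h4 _ (add_mem hy (P.smul_mem c ha)) h0]; exact zero_mem _), Finset.card_univ,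
          ← Nat.card_eq_fintype_card] at h2
        nlinarith
      · obtain ⟨r, s, e⟩ := quad_roots (α := Q a) (β := polar Q a y) (γ := Q y) (Or.inl qa)
        have h5 := Finset.card_le_card (s := Finset.univ)
          (t := (Finset.univ.filter fun c : F => Q (y + c • a) ≠ 0) ∪ {r, s}) fun c _ => by
          by_cases q : Q (y + c • a) = 0
          · rw [quad_add, quad_smul, polar_smul_right, polar_comm, smul_eq_mul] at q
            exact Finset.mem_union_right _ (by simpa using e c (by linear_combination q))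
          · simp [q]
        have h6 := Finset.card_union_le (Finset.univ.filter fun c : F => Q (y + c • a) ≠ 0) {r, s}
        have h8 := Finset.card_le_two (a := r) (b := s)
        rw [Finset.card_univ, ← Nat.card_eq_fintype_card] at h5
        nlinarith
    have := (hK.ge (Subring.mem_top (c / ((Q a)⁻¹ * polar Q a w)))) _ (r a ha qa w hw)
    rwa [div_mul_cancel₀ _ (mul_ne_zero (inv_ne_zero qa) e)] at this
  let Y : Submodule F V :=
    { carrier := {x | ∀ c : F, c • x ∈ Z}
      add_mem' := fun h1 h2 c => by rw [smul_add]; exact add_mem (h1 c) (h2 c)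
      zero_mem' := fun c => by simp
      smul_mem' := fun d _ h1 c => by rw [smul_smul]; exact h1 _ }
  obtain ⟨a, ha, e⟩ : ∃ a ∈ P, w - a ∈ perp (polarBilin Q) P := by
    obtain ⟨x, y, hx, hy, x0, hxy, e⟩ : ∃ x y, x ∈ P ∧ y ∈ P ∧ x ≠ 0 ∧ y ∉ F ∙ x ∧
        polar Q x y ≠ 0 := by
      obtain ⟨x, hx, x0⟩ := P.exists_mem_ne_zero_of_ne_bot (by
        rintro rfl; have := h.dim; simp at this)
      obtain ⟨y, hy, e⟩ := h.exists_partner hx x0
      exact ⟨x, y, hx, hy, x0, e⟩
    have d := h.disc hx hy x0 hxy e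
    refine ⟨((polar Q x y * polar Q y w - 2 * Q y * polar Q x w) /
      (polar Q x y ^ 2 - 4 * Q x * Q y)) • x + ((polar Q x y * polar Q x w - 2 * Q x * polar Q y w) /
      (polar Q x y ^ 2 - 4 * Q x * Q y)) • y, add_mem (P.smul_mem _ hx) (P.smul_mem _ hy), ?_⟩
    rw [← h.span hx hy x0 hxy, mem_perp_pair]
    obtain ⟨δ, hδ⟩ : ∃ δ, δ = polar Q x y ^ 2 - 4 * Q x * Q y := ⟨_, rfl⟩
    rw [← hδ] at d ⊢
    constructor <;> simp [polar_self', polar_comm Q y x] <;> field_simp <;> rw [hδ] <;> ring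
  have a0 : a ≠ 0 := by rintro rfl; exact w0 (by simpa using e)
  exact fun x hx => by simpa using h.le_of ha a0 (X := Y) (fun b hb qb e' => key b hb qb (by
    rwa [polar_comp e hb, polar_comm])) hx 1

theorem exists_perp (h : Pl Q P) {x : V} (hx : x ∈ P) (qx : Q x ≠ 0) :
    ∃ p ∈ P, Q p ≠ 0 ∧ polar Q p x = 0 ∧ ∃ y ∈ P, polar Q y x = 1 := by
  have x0 : x ≠ 0 := by rintro rfl; simp at qx
  obtain ⟨y, hy, h1, h2⟩ := h.exists_partner hx x0
  refine ⟨polar Q x y • x - (2 * Q x) • y, sub_mem (P.smul_mem _ hx) (P.smul_mem _ hy), fun e =>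
    mul_ne_zero qx (h.disc hx hy x0 h1 h2) ?_, by simp [polar_self', polar_comm Q y x]; ring,
    (polar Q x y)⁻¹ • y, P.smul_mem _ hy, by simp [polar_comm Q y x, h2]⟩
  simp only [quad_sub, quad_smul, polar_smul_left, polar_smul_right, smul_eq_mul] at e
  linear_combination -e

theorem polar_ne (h : Pl Q P) {e x : V} (he : e ∈ P) (e0 : e ≠ 0) (qe : Q e = 0) (hx : x ∈ P)
    (qx : Q x ≠ 0) : polar Q e x ≠ 0 := fun e' => e0 (h.eq_zero he hx e0 (fun m => qx (by
  obtain ⟨c, rfl⟩ := Submodule.mem_span_singleton.1 m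
  simp [quad_smul, qe])) he (by simp [polar_self', qe]) (polar_comm Q e x ▸ e'))

theorem exists_opp {P' : Submodule F V} (h : Pl Q P) (h' : Pl Q P')
    (hi : (∀ u ∈ P, Q u = 0 → u = 0) ↔ ∀ u ∈ P', Q u = 0 → u = 0) {x x' : V} (hx : x ∈ P)
    (hx' : x' ∈ P') (qx : Q x ≠ 0) (qx' : Q x' ≠ 0) :
    ∃ a ∈ P, ∃ b ∈ P', Q a ≠ 0 ∧ Q a + Q b = 0 ∧ polar Q a x = 1 ∧ polar Q b x' = 1 := by
  obtain ⟨p, hp, qp, p1, y, hy, y1⟩ := h.exists_perp hx qx
  obtain ⟨p', hp', qp', p1', y', hy', y1'⟩ := h'.exists_perp hx' qx'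
  have ev : ∀ (y p : V) (c : F), Q (y + c • p) = Q p * c ^ 2 + polar Q y p * c + Q y :=
    fun y p c => by rw [quad_add, quad_smul, polar_smul_right, smul_eq_mul]; ring
  by_cases ha : ∀ u ∈ P, Q u = 0 → u = 0
  · have k1 : ∀ c : F, Q (y + c • p) ≠ 0 := fun c e => by
      simpa [y1, p1] using congrArg (polar Q · x) (ha _ (add_mem hy (P.smul_mem c hp)) e)
    obtain ⟨a, b, e⟩ := exists_quad_add_quad qp qp' (fun c => ev y p c ▸ k1 c) fun c e => by
      simpa [y1', p1'] using congrArg (polar Q · x')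
        (hi.1 ha _ (add_mem hy' (P'.smul_mem c hp')) (ev y' p' c ▸ e))
    exact ⟨_, add_mem hy (P.smul_mem a hp), _, add_mem hy' (P'.smul_mem b hp'), k1 a,
      by rwa [ev, ev], by simp [y1, p1], by simp [y1', p1']⟩
  have h7 := h.pc.resolve_left fun e => ha e.1
  have ha' := hi.not.1 ha
  push Not at ha ha'
  obtain ⟨e, he, qe, e0⟩ := ha
  obtain ⟨e', he', qe', e0'⟩ := ha'
  have b1 := h.polar_ne he e0 qe hx qx
  have b1' := h'.polar_ne he' e0' qe' hx' qx'
  obtain ⟨β, hβ⟩ : ∃ β, β = (polar Q e x)⁻¹ * polar Q e p := ⟨_, rfl⟩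
  obtain ⟨β', hβ'⟩ : ∃ β, β = (polar Q e' x')⁻¹ * polar Q e' p' := ⟨_, rfl⟩
  have β0 : β ≠ 0 := hβ ▸ mul_ne_zero (inv_ne_zero b1) (h.polar_ne he e0 qe hp qp)
  have β0' : β' ≠ 0 := hβ' ▸ mul_ne_zero (inv_ne_zero b1') (h'.polar_ne he' e0' qe' hp' qp')
  obtain ⟨r, s, hr⟩ := quad_roots (α := Q p') (β := 0) (γ := Q p) (Or.inl qp')
  obtain ⟨l, hl⟩ := exists_notMem_list' [r, s, 0, -β / β', β' * Q p / (β * Q p')] (by simp; omega)
  simp only [List.mem_cons, List.not_mem_nil, or_false, not_or] at hl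
  have l1 : Q p + l ^ 2 * Q p' ≠ 0 := fun e => (hr l (by linear_combination e)).elim hl.1 hl.2.1
  have l2 : β + l * β' ≠ 0 := fun e => hl.2.2.2.1 (by field_simp; linear_combination e)
  have l3 : l * β * Q p' - β' * Q p ≠ 0 := fun e => hl.2.2.2.2 (by
    field_simp; linear_combination e)
  refine ⟨(polar Q e x)⁻¹ • e + (-(β + l * β') / (Q p + l ^ 2 * Q p')) • p,
    add_mem (P.smul_mem _ he) (P.smul_mem _ hp), (polar Q e' x')⁻¹ • e' +
    (l * (-(β + l * β') / (Q p + l ^ 2 * Q p'))) • p', add_mem (P'.smul_mem _ he')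
    (P'.smul_mem _ hp'), ?_, ?_, by simp [p1, b1], by simp [p1', b1']⟩ <;>
    simp only [ev, quad_smul, qe, qe', polar_smul_left, smul_eq_mul, ← hβ, ← hβ', mul_zero,
      add_zero]
  · intro e
    refine mul_ne_zero l2 (mul_ne_zero hl.2.2.1 l3) ?_
    field_simp at e
    linear_combination -e
  · field_simp; ring

end Pl

end CF.Geom
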