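/-
Groups containing the monomial subgroup of a unitary group and a further homology group.
-/
import Cfsg.Agent.Geom.K2A
import Cfsg.Agent.Geom.FrO5

set_option autoImplicit false
set_option linter.unusedSectionVars false

namespace CF.Geom

open Module

variable {F : Type*} [Field F] [Fintype F] {σ : F →+* F} {q : ℕ}

/-- The field with `q ^ 2` elements and its involution. -/
structure UF (σ : F →+* F) (q : ℕ) : Prop where
  card : Fintype.card F = q ^ 2
  pow : ∀ x, σ x = x ^ q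
  ne : σ ≠ RingHom.id F
  inv : ∀ x, σ (σ x) = x

theorem card_inter_pos {α : Type*} [DecidableEq α] {A B S : Finset α} (hA : A ⊆ S) (hB : B ⊆ S)
    {n : ℕ} (h : S.card + n < A.card + B.card) : n < (A ∩ B).card := by
  have := Finset.card_union_add_card_inter A B
  have := Finset.card_le_card (Finset.union_subset hA hB)
  omega

namespace UF

theorem card_one [DecidableEq F] (h : UF σ q) :
    (Finset.univ.filter fun x : F => σ x * x = 1).card = q + 1 := by
  rw [← card_norm_eq h.card one_ne_zero (one_pow q), Nat.card_eq_fintype_card,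
    Fintype.card_subtype]
  simp only [h.pow, pow_succ]

theorem card_fix [DecidableEq F] (h : UF σ q) :
    (Finset.univ.filter fun x : F => σ x = x).card = q := by
  refine Eq.trans ?_ (card_fixed_eq h.card)
  rw [Nat.card_eq_fintype_card, Fintype.card_subtype]
  simp only [h.pow]

theorem two_le (h : UF σ q) : 2 ≤ q := two_le_of_card_eq_sq h.card

theorem exists_one (h : UF σ q) (L : List F) (hL : L.length ≤ q) :
    ∃ ζ : Fˣ, σ ζ * ζ = 1 ∧ (ζ : F) ∉ L := by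
  classical
  obtain ⟨x, hx, e⟩ := Finset.exists_mem_notMem_of_card_lt_card (s := L.toFinset)
    ((Nat.lt_succ_of_le ((List.toFinset_card_le L).trans hL)).trans_eq h.card_one.symm)
  have hx := (Finset.mem_filter.1 hx).2
  exact ⟨Units.mk0 x (right_ne_zero_of_mul_eq_one hx), hx, by simpa using e⟩

theorem exists_ord (h : UF σ q) :
    ∃ ζ : Fˣ, σ ζ * ζ = 1 ∧ (ζ : F) ^ 2 ≠ 1 ∧ (q ≠ 2 → (ζ : F) ^ 3 ≠ 1) := by
  have h2 := h.two_le
  have e : ∀ {x : F}, x ≠ 1 → x ≠ -1 → x ^ 2 ≠ 1 := fun h1 h2 e =>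
    (sq_eq_one_iff_of_ne_zero' e).elim h1 h2
  by_cases h4 : q < 4
  · obtain ⟨ζ, h1, h3⟩ := h.exists_one [1, -1] h2
    simp only [List.mem_cons, List.not_mem_nil, or_false, not_or] at h3
    refine ⟨ζ, h1, e h3.1 h3.2, fun q2 e' => h3.1 ?_⟩
    rwa [h.pow, show q = 3 by omega, e', one_mul] at h1
  · obtain ⟨r, s, hr⟩ := quad_roots (α := (1 : F)) (β := 1) (γ := 1) (by simp)
    obtain ⟨ζ, h1, h3⟩ := h.exists_one [1, -1, r, s] (by simp; omega)
    simp only [List.mem_cons, List.not_mem_nil, or_false, not_or] at h3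
    exact ⟨ζ, h1, e h3.1 h3.2.1, fun _ e' => (hr ζ (mul_left_cancel₀ (sub_ne_zero.2 h3.1)
      (by linear_combination e'))).elim h3.2.2.1 h3.2.2.2⟩

theorem span_one (h : UF σ q) {A : AddSubgroup F} (hA : ∀ ζ : Fˣ, σ ζ * ζ = 1 → ∀ a ∈ A, ζ * a ∈ A)
    {a : F} (ha : a ∈ A) (a0 : a ≠ 0) (c : F) : c ∈ A := by
  classical
  let K : Subring F :=
    { carrier := {κ | ∀ c ∈ A, κ * c ∈ A}
      mul_mem' := fun h1 h2 c hc => by rw [mul_assoc]; exact h1 _ (h2 c hc)
      one_mem' := fun c hc => by rwa [one_mul]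
      add_mem' := fun h1 h2 c hc => by rw [add_mul]; exact add_mem (h1 c hc) (h2 c hc)
      zero_mem' := fun c _ => by simp
      neg_mem' := fun h1 c hc => by rw [neg_mul]; exact neg_mem (h1 c hc) }
  have hK : K = ⊤ := by
    by_contra hK
    have h1 := subring_card_sq_le K hK
    have h2 := Finset.card_le_card (t := Finset.univ.filter (· ∈ K))
      (s := Finset.univ.filter fun x : F => σ x * x = 1) fun x hx => by
      have hx := (Finset.mem_filter.1 hx).2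
      exact Finset.mem_filter.2 ⟨Finset.mem_univ _,
        hA (Units.mk0 x (right_ne_zero_of_mul_eq_one hx)) hx⟩
    rw [h.card_one, ← Fintype.card_subtype, ← Nat.card_eq_fintype_card] at h2
    rw [Nat.card_eq_fintype_card (α := F), h.card] at h1
    nlinarith
  simpa [a0] using (hK.ge (Subring.mem_top (c / a))) a ha

theorem exists_four (h : UF σ q) {n₁ n₂ n₃ n₄ : F} (h1 : σ n₁ = n₁) (h2 : σ n₂ = n₂)
    (h3 : σ n₃ = n₃) (h4 : σ n₄ = n₄) (z1 : n₁ ≠ 0) (z2 : n₂ ≠ 0) (z3 : n₃ ≠ 0) (z4 : n₄ ≠ 0) :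
    ∃ a b c d : Fˣ, σ a * a = 1 ∧ σ b * b = 1 ∧ σ c * c = 1 ∧ σ d * d = 1 ∧
      ((a : F) ≠ 1 ∨ (b : F) ≠ 1) ∧
      n₁ * (a - 1) + n₂ * (b - 1) + n₃ * (c - 1) + n₄ * (d - 1) = 0 := by
  classical
  obtain ⟨U, hU⟩ : ∃ U, U = Finset.univ.filter fun x : F => σ x * x = 1 := ⟨_, rfl⟩
  have mU : ∀ x, x ∈ U ↔ σ x * x = 1 := by simp [hU]
  have cU : U.card = q + 1 := hU ▸ h.card_one
  have key : ∀ {m n : F}, σ m = m → σ n = n → m ≠ 0 → n ≠ 0 → (q + 1) * q ≤
      2 * ((U ×ˢ U).image fun p => m * (p.1 - 1) + n * (p.2 - 1)).card := fun {m n} hm hn m0 n0 => by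
    have e1 : ∑ _b ∈ U, q ≤ ((U ×ˢ U).filter fun p => m * p.1 + n * p.2 ≠ 0).card := by
      rw [Finset.card_filter, Finset.sum_product_right]
      refine Finset.sum_le_sum fun b _ => ?_
      rw [← Finset.card_filter]
      have := Finset.card_le_card (s := U.erase (-(n * b) / m))
        (t := U.filter fun a => m * a + n * b ≠ 0) fun a ha => by
        rw [Finset.mem_erase] at ha
        exact Finset.mem_filter.2 ⟨ha.2, fun e => ha.1 (by field_simp; linear_combination e)⟩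
      exact ((by rw [cU]; rfl : q ≤ U.card - 1).trans Finset.pred_card_le_card_erase).trans this
    rw [Finset.sum_const, cU, smul_eq_mul] at e1
    refine e1.trans (Finset.card_le_mul_card_image_of_maps_to
      (f := fun p : F × F => m * (p.1 - 1) + n * (p.2 - 1)) (fun p hp => ?_) 2 fun w _ => ?_)
    · exact Finset.mem_image_of_mem _ (Finset.mem_filter.1 hp).1
    by_cases w0 : w + m + n = 0
    · rw [Finset.filter_false_of_mem]
      · simp
      exact fun p hp e => (Finset.mem_filter.1 hp).2 (by linear_combination e + w0)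
    obtain ⟨r, s, hr⟩ := quad_roots (α := m * σ (w + m + n))
      (β := n ^ 2 - m ^ 2 - σ (w + m + n) * (w + m + n)) (γ := m * (w + m + n))
      (Or.inl (mul_ne_zero m0 ((map_ne_zero σ).2 w0)))
    refine (Finset.card_le_card_of_injOn (t := {r, s}) Prod.fst (fun p hp => ?_)
      fun p hp p' hp' e => ?_).trans Finset.card_le_two
    · simp only [Finset.coe_filter, Finset.mem_filter, Finset.mem_product, mU,
        Set.mem_ofPred_eq] at hp
      obtain ⟨⟨⟨a1, a2⟩, -⟩, rfl⟩ := hp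
      simp only [map_add, map_mul, map_sub, map_one, hm, hn] at hr
      simpa using hr p.1 (by
        linear_combination (-m * n * p.2) * a1 - n ^ 2 * p.1 * a2)
    · have e1 := (Finset.mem_filter.1 hp).2
      have e2 := (Finset.mem_filter.1 hp').2
      exact Prod.ext e (mul_left_cancel₀ n0 (by linear_combination e1 - e2 - m * e))
  have k1 := key h1 h2 z1 z2
  have k2 := key (m := -n₃) (n := -n₄) (by simp [h3]) (by simp [h4]) (by simpa) (by simpa)
  have h5 := h.two_le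
  obtain ⟨w, hw, w0⟩ := Finset.exists_mem_ne (card_inter_pos
    (A := (U ×ˢ U).image fun p => n₁ * (p.1 - 1) + n₂ * (p.2 - 1))
    (B := (U ×ˢ U).image fun p => -n₃ * (p.1 - 1) + -n₄ * (p.2 - 1)) (Finset.subset_univ _)
    (Finset.subset_univ _) (n := 1) (by
      rw [Finset.card_univ, h.card]; nlinarith)) 0
  simp only [Finset.mem_inter, Finset.mem_image, Finset.mem_product, mU] at hw
  obtain ⟨⟨⟨a, b⟩, ⟨ha, hb⟩, e1⟩, ⟨c, d⟩, ⟨hc, hd⟩, e2⟩ := hw
  refine ⟨Units.mk0 a (right_ne_zero_of_mul_eq_one ha), Units.mk0 b (right_ne_zero_of_mul_eq_one hb),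
    Units.mk0 c (right_ne_zero_of_mul_eq_one hc), Units.mk0 d (right_ne_zero_of_mul_eq_one hd),
    ha, hb, hc, hd, ?_, by simp only [Units.val_mk0]; linear_combination e1 - e2⟩
  by_contra! e
  simp only [Units.val_mk0] at e
  simp [e.1, e.2, w0.symm] at e1

theorem exists_three (h : UF σ q) {n₁ n₂ n₃ : F} (h1 : σ n₁ = n₁) (h2 : σ n₂ = n₂)
    (h3 : σ n₃ = n₃) (z1 : n₁ ≠ 0) (z3 : n₃ ≠ 0) :
    ∃ a b c : Fˣ, σ a * a = 1 ∧ σ b * b = 1 ∧ σ c * c = 1 ∧ (a : F) ≠ 1 ∧ (b : F) ≠ 1 ∧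
      n₁ * (2 - a - σ a) + n₂ * (2 - b - σ b) + n₃ * (2 - c - σ c) = 1 := by
  classical
  obtain ⟨U, hU⟩ : ∃ U, U = Finset.univ.filter fun x : F => σ x * x = 1 := ⟨_, rfl⟩
  have mU : ∀ x, x ∈ U ↔ σ x * x = 1 := by simp [hU]
  have cU : (U.erase 1).card = q := by
    rw [Finset.card_erase_of_mem (by simp [mU]), hU, h.card_one]; rfl
  have key : ∀ {m : F} (w : F), m ≠ 0 →
      q ≤ 2 * ((U.erase 1).image fun a => w + m * (2 - a - σ a)).card := fun {m} w m0 =>
    cU ▸ card_le_two_mul _ _ _ (fun a ha => Finset.mem_image_of_mem _ ha) fun x _ =>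
      (quad_roots (α := m) (β := x - w - 2 * m) (γ := m) (Or.inl m0)).imp fun r =>
        Exists.imp fun s e a ha e' => e a (by
          linear_combination -a * e' - m * (mU a).1 (Finset.mem_erase.1 ha).2)
  obtain ⟨b, hb, b1⟩ := h.exists_one [1] (by have := h.two_le; simp; omega)
  obtain ⟨w, hw⟩ : ∃ w, w = 1 - n₂ * (2 - b - σ b) := ⟨_, rfl⟩
  have k1 := key 0 z1
  have k2 := key w (neg_ne_zero.2 z3)
  have k3 : w ∉ (U.erase 1).image fun a => w + -n₃ * (2 - a - σ a) := fun e => by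
    obtain ⟨a, ha, e⟩ := Finset.mem_image.1 e
    rw [Finset.mem_erase, mU] at ha
    exact pow_ne_zero 2 (sub_ne_zero.2 ha.1) (mul_left_cancel₀ z3 (by
      linear_combination a * e - n₃ * ha.2))
  have s2 : σ 2 = 2 := map_ofNat σ 2
  obtain ⟨x, hx⟩ := Finset.card_pos.1 (card_inter_pos (S := Finset.univ.filter fun x : F => σ x = x)
    (A := (U.erase 1).image fun a => 0 + n₁ * (2 - a - σ a))
    (B := insert w ((U.erase 1).image fun a => w + -n₃ * (2 - a - σ a))) (n := 0)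
    (fun x hx => by
      obtain ⟨a, -, rfl⟩ := Finset.mem_image.1 hx
      simp [h1, s2, h.inv]; left; ring)
    (fun x hx => by
      have : σ w = w := by simp [hw, h2, s2, h.inv]; left; ring
      rcases Finset.mem_insert.1 hx with rfl | hx
      · simpa using this
      · obtain ⟨a, -, rfl⟩ := Finset.mem_image.1 hx
        simp [this, h3, s2, h.inv]; left; ring)
    (by rw [Finset.card_insert_of_notMem k3, h.card_fix]; omega))
  simp only [Finset.mem_inter, Finset.mem_insert, Finset.mem_image, Finset.mem_erase, mU] at hx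
  obtain ⟨⟨a, ⟨a1, ha⟩, e1⟩, e2⟩ := hx
  obtain ⟨c, hc, e3⟩ : ∃ c, σ c * c = 1 ∧ w + -n₃ * (2 - c - σ c) = x := by
    rcases e2 with rfl | ⟨c, hc, e⟩
    exacts [⟨1, by simp, by rw [map_one]; ring⟩, ⟨c, hc.2, e⟩]
  exact ⟨Units.mk0 a (right_ne_zero_of_mul_eq_one ha), b,
    Units.mk0 c (right_ne_zero_of_mul_eq_one hc), ha, hb, hc, a1, by simpa using b1, by
      simp only [Units.val_mk0]; linear_combination e1 - e3 + hw⟩

end UF

/-! ### Unitary Eichler transformations -/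

section EU

variable {V : Type*} [AddCommGroup V] [Module F V] {B : V →ₛₗ[σ] V →ₗ[F] F}
  {X : Subgroup (V ≃ₗ[F] V)} {s w w' u : V} {c c' : F}

/-- The Eichler map with parameters `s, w, c` lies in `X`. -/
def EUc (B : V →ₛₗ[σ] V →ₗ[F] F) (X : Subgroup (V ≃ₗ[F] V)) (s w : V) (c : F) : Prop :=
  B s w = 0 ∧ c + σ c = B w w ∧ ∃ g ∈ X, ∀ x, g x = uEichMap B s w c x

theorem EUc.mul (hH : IsHerm B) (hs : B s s = 0) (h : EUc B X s w c) (h' : EUc B X s w' c') :
    EUc B X s (w + w') (c + c' + B w w') := by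
  obtain ⟨h1, h2, g, hg, e⟩ := h
  obtain ⟨h1', h2', g', hg', e'⟩ := h'
  exact ⟨by simp [h1, h1'], uEich_add_cond hH h2 h2', g * g', mul_mem hg hg', fun x => by
    rw [LinearEquiv.mul_apply, e', e, uEichMap_comp hH hs h1 h1']⟩

theorem EUc.inv (hH : IsHerm B) (hs : B s s = 0) (h : EUc B X s w c) : EUc B X s (-w) (σ c) := by
  obtain ⟨h1, h2, g, hg, e⟩ := h
  refine ⟨by simp [h1], by simp [hH.invol, ← h2, add_comm], g⁻¹, inv_mem hg, fun x =>
    g.injective ?_⟩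
  rw [apply_inv_apply, e, uEichMap_comp hH hs h1 (by simp [h1]), h2]
  simp [uEichMap_apply]

theorem EUc.map (h : EUc B X s w c) {g : V ≃ₗ[F] V} (hg : g ∈ X) (hg' : g ∈ UG B) (e : g s = s) :
    EUc B X s (g w) c := by
  obtain ⟨h1, h2, k, hk, e'⟩ := h
  refine ⟨by rwa [← e, hg'.1], by rwa [hg'.1], g * k * g⁻¹, mul_mem (mul_mem hg hk) (inv_mem hg),
    fun x => ?_⟩
  obtain ⟨y, rfl⟩ := g.surjective x
  have := hg'.1 s y
  rw [e] at this
  simp [inv_apply_apply, e', uEichMap_apply, this, hg'.1, e]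

theorem EUc.sub (hH : IsHerm B) (hs : B s s = 0) (h : EUc B X s w c) (h' : EUc B X s w c') :
    EUc B X s 0 (c - c') := by
  convert h.mul hH hs (h'.inv hH hs) using 1
  · simp
  · simp [← h'.2.1]; ring

/-- The vectors which occur in an Eichler map in `X`. -/
def EUZ (hH : IsHerm B) (X : Subgroup (V ≃ₗ[F] V)) (hs : B s s = 0) : AddSubgroup V where
  carrier := {w | ∃ c, EUc B X s w c}
  zero_mem' := ⟨0, by simp, by simp, 1, one_mem _, fun x => by simp [uEichMap_apply]⟩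
  add_mem' := fun ⟨_, h⟩ ⟨_, h'⟩ => ⟨_, h.mul hH hs h'⟩
  neg_mem' := fun ⟨_, h⟩ => ⟨_, h.inv hH hs⟩

theorem Rad_le_of_EUZ [FiniteDimensional F V] (hH : IsHerm B) (hB : B.Nondegenerate)
    (hs : B s s = 0) (s0 : s ≠ 0) {e : V} (he : B e e = 1) (h : ∀ c : F, c • e ∈ EUZ hH X hs)
    {A : Submodule F V} (hA : ∀ w ∈ A, B s w = 0 → ∃ α β : F, w = α • s + β • e) :
    Rad B (fun x => B x x) s A ≤ X := by
  have cen : ∀ d, d + σ d = 0 → EUc B X s 0 d := fun d hd => by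
    obtain ⟨θ, hθ⟩ := exists_trace_eq σ (Or.inl hH.ne_id) hH.invol 1 (map_one σ)
    obtain ⟨c, h1⟩ := h (-(θ * d))
    obtain ⟨c', h2⟩ := h 1
    have h3 := h2.mul hH hs h1
    rw [add_comm ((1 : F) • e)] at h3
    convert (h1.mul hH hs h2).sub hH hs h3 using 1
    simp [he, eq_neg_of_add_eq_zero_right hd]
    linear_combination -d * hθ
  intro g hg
  obtain ⟨w, c, hw, hc, hwA, rfl⟩ := exists_eq_uEich hH hB s0 hs hg
  obtain ⟨α, β, e⟩ := hA w hwA hw
  obtain ⟨c', h1⟩ : w ∈ EUZ hH X hs := by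
    obtain ⟨-, -, k, hk, e'⟩ := cen (σ α - α) (by simp [hH.invol])
    exact e ▸ add_mem ⟨0, by simp [hs], by simp [hs], k, hk, fun x => by
      simp [e', uEichMap_apply]; module⟩ (h β)
  obtain ⟨-, -, k, hk, e'⟩ := h1.mul hH hs (cen (c - c') (by
    rw [map_sub]; linear_combination hc - h1.2.1))
  convert hk using 1
  exact LinearEquiv.ext fun x => by simp [e', uEich_apply, uEichMap_apply]

/-- All homologies with centre `u` lie in `X`. -/
def Hm (B : V →ₛₗ[σ] V →ₗ[F] F) (X : Subgroup (V ≃ₗ[F] V)) (u : V) : Prop :=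
  B u u = 1 ∧ ∀ ζ : Fˣ, σ ζ * ζ = 1 → ∃ g ∈ X, ∀ x, g x = x + ((ζ - 1) * B u x) • u

theorem Hm.map (h : Hm B X u) {g : V ≃ₗ[F] V} (hg : g ∈ X) (hg' : g ∈ UG B) : Hm B X (g u) :=
  ⟨by rw [hg'.1, h.1], fun ζ hζ => by
    obtain ⟨k, hk, e⟩ := h.2 ζ hζ
    refine ⟨g * k * g⁻¹, mul_mem (mul_mem hg hk) (inv_mem hg), fun x => ?_⟩
    obtain ⟨y, rfl⟩ := g.surjective x
    simp [inv_apply_apply, e, hg'.1]⟩

theorem Hm.euc (hH : IsHerm B) (h : Hm B X u) (h' : Hm B X (u + s)) (hs : B s u = 0) {ζ : Fˣ}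
    (hζ : σ ζ * ζ = 1) : EUc B X s (((ζ : F) - 1) • u) (1 - ζ) := by
  have e0 : σ ζ = (ζ⁻¹ : Fˣ) := by simpa using eq_inv_of_mul_eq_one_left hζ
  obtain ⟨g, hg, e⟩ := h.2 ζ⁻¹ (by rw [← e0, hH.invol, mul_comm, hζ])
  obtain ⟨g', hg', e'⟩ := h'.2 ζ hζ
  refine ⟨by simp [hs], by simp [h.1]; linear_combination -hζ, g' * g, mul_mem hg' hg, fun x => ?_⟩
  simp only [LinearEquiv.mul_apply, e, e', uEichMap_apply, ← e0, map_add, map_smul, map_smulₛₗ,
    LinearMap.add_apply, LinearMap.smul_apply, h.1, hs, smul_eq_mul, map_sub, map_one]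
  linear_combination (norm := module) (B u x * hζ) • (u + s)

end EU

/-! ### The standard Hermitian form -/

variable {ι : Type} [Fintype ι] [DecidableEq ι] {X : Subgroup ((ι → F) ≃ₗ[F] (ι → F))}

@[simp] theorem herm_ee_left (i : ι) (x : ι → F) : hermSesq ι σ (ee F i) x = x i := by
  rw [hermSesq_apply, Finset.sum_eq_single i (fun j _ hj => by simp [ee_ne i hj]) (by simp)]; simp

@[simp] theorem herm_ee_right (i : ι) (x : ι → F) : hermSesq ι σ x (ee F i) = σ (x i) := by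
  rw [hermSesq_apply, Finset.sum_eq_single i (fun j _ hj => by simp [ee_ne i hj]) (by simp)]; simp

theorem hm_mem_UG (i : ι) {ζ : Fˣ} (hζ : σ ζ * ζ = 1) : hm i ζ ∈ UG (hermSesq ι σ) :=
  mem_UG.2 fun u v => by
    simp [hm_apply]; linear_combination σ (u i) * v i * hζ

theorem swp_mem_UG {a b : ι} (ab : a ≠ b) {α β : Fˣ} (hα : σ α * α = 1) (hβ : σ β * β = 1) :
    swp ab α β ∈ UG (hermSesq ι σ) := mem_UG.2 fun u v => by
  simp [swp_apply, ee_ne a ab.symm, ee_ne b ab, eq_inv_of_mul_eq_one_left hα,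
    eq_inv_of_mul_eq_one_left hβ]
  field_simp; ring

theorem swp_one_apply {a b : ι} (ab : a ≠ b) (x : ι → F) :
    swp ab (1 : Fˣ) 1 x = x + (x a - x b) • (ee F b - ee F a) := by simp [swp_apply]

/-- A subgroup of `GU` containing the monomial subgroup. -/
structure UX (σ : F →+* F) (q : ℕ) (X : Subgroup ((ι → F) ≃ₗ[F] (ι → F))) : Prop
    extends UF σ q where
  le : X ≤ UG (hermSesq ι σ)
  mon : UG (hermSesq ι σ) ⊓ MonG ι F ≤ X
  five : 5 ≤ Fintype.card ι

namespace UX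

variable {u s : ι → F} {i j k : ι}

theorem herm (h : UX σ q X) : IsHerm (hermSesq ι σ) := isHerm_hermSesq h.ne h.inv

theorem hm_mem (h : UX σ q X) (i : ι) {ζ : Fˣ} (hζ : σ ζ * ζ = 1) : hm i ζ ∈ X :=
  h.mon ⟨hm_mem_UG i hζ, hm_mem_MonG i ζ⟩

theorem swp_mem (h : UX σ q X) (ij : i ≠ j) : swp ij (1 : Fˣ) 1 ∈ X :=
  h.mon ⟨swp_mem_UG ij (by simp) (by simp), swp_mem_MonG ij 1 1⟩

theorem hm_ee (h : UX σ q X) (i : ι) : Hm (hermSesq ι σ) X (ee F i) :=
  ⟨by simp, fun ζ hζ => ⟨_, h.hm_mem i hζ, fun x => by simp [hm_apply]⟩⟩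

theorem good (h : UX σ q X) (h1 : Hm (hermSesq ι σ) X u) (h2 : Hm (hermSesq ι σ) X (u + s))
    (s0 : s ≠ 0) (hs : hermSesq ι σ s s = 0) (su : hermSesq ι σ s u = 0) (sk : s k = 0)
    (uk : u k ≠ 0) : Good (hermSesq ι σ) (fun x => hermSesq ι σ x x) X ⊤ := by
  have hH := h.herm
  have hW := isWittPair_hermSesq (ι := ι) h.ne h.inv
  obtain ⟨ζ, hζ, ζ1⟩ := h.exists_one [1] (by have := h.two_le; simp; omega)
  have ζ1 : (ζ : F) - 1 ≠ 0 := sub_ne_zero.2 (by simpa using ζ1)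
  have inv : ∀ ζ : Fˣ, σ ζ * ζ = 1 → ∀ w ∈ EUZ hH X hs, hm k ζ w ∈ EUZ hH X hs :=
    fun ζ hζ w ⟨c, hc⟩ => ⟨c, hc.map (h.hm_mem k hζ) (hm_mem_UG k hζ) (hm_of_eq_zero k ζ sk)⟩
  have m0 : (((ζ : F) - 1) • u) ∈ EUZ hH X hs := ⟨_, h1.euc hH h2 su hζ⟩
  have m1 : ∀ c : F, c • ee F k ∈ EUZ hH X hs := h.span_one
    (A := (EUZ hH X hs).comap (LinearMap.toSpanSingleton F _ (ee F k)).toAddMonoidHom)
    (fun ζ hζ a ha => by simpa [Geom.hm_ee, smul_smul, mul_comm] using inv ζ hζ _ ha)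
    (a := ((ζ : F) - 1) * ((ζ - 1) * u k))
    (by simpa [hm_apply, smul_smul] using sub_mem (inv ζ hζ _ m0) m0) (by simp [ζ1, uk])
  obtain ⟨i, si⟩ : ∃ i, s i ≠ 0 := Function.ne_iff.1 s0
  have ik : i ≠ k := by rintro rfl; exact si sk
  obtain ⟨j, ji, sj⟩ : ∃ j, j ≠ i ∧ s j ≠ 0 := by
    by_contra! hc
    rw [eq_smul_ee hc] at hs
    simp [si] at hs
  have jk : j ≠ k := by rintro rfl; exact sj sk
  obtain ⟨A, hA⟩ : ∃ A, A = Submodule.span F {s, ee F i, ee F k} := ⟨_, rfl⟩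
  have a1 : s ∈ A := hA ▸ Submodule.subset_span (by simp)
  have a2 : ee F i ∈ A := hA ▸ Submodule.subset_span (by simp)
  have a3 : ee F k ∈ A := hA ▸ Submodule.subset_span (by simp)
  have r1 : Rad (hermSesq ι σ) (fun x => hermSesq ι σ x x) s A ≤ X :=
    Rad_le_of_EUZ hH (hermSesq_nondegenerate σ) hs s0 (by simp) m1 fun w hw e => by
      simp only [hA, Submodule.mem_span_insert, Submodule.mem_span_singleton] at hw
      obtain ⟨α, _, ⟨β, _, ⟨γ, rfl⟩, rfl⟩, rfl⟩ := hw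
      obtain rfl : β = 0 := by simpa [hs, sk, si] using e
      exact ⟨α, γ, by simp⟩
  have st : hm i ζ ∈ subStab A := mem_subStab_iff_le.2 fun w hw =>
    add_mem hw (A.smul_mem _ a2)
  have r2 := Rad_conj_le (hm_mem_UG i hζ) (h.hm_mem i hζ) r1
  rw [mem_subStab.1 st] at r2
  have hG := hW.good_of_pair a1 (subStab_apply st a1) (by simpa using hs)
    (by simpa [(hm_mem_UG i hζ).1] using hs) (by simp [hm_apply, hs, ζ1, si]) r1 r2
  obtain ⟨t, ht⟩ := exists_norm_eq h.ne h.inv (c := -1) (by simp)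
  have t0 : t ≠ 0 := by rintro rfl; simp at ht
  have q1 : ∀ c : F, σ c * c = -1 → hermSesq ι σ (ee F i + c • ee F k) (ee F i + c • ee F k) =
      hermSesq ι σ 0 0 := fun c hc => by
    simp [ee_ne i ik.symm, ee_ne k ik]; linear_combination hc
  have q2 : σ (ζ * t) * (ζ * t) = -1 := by rw [map_mul]; linear_combination σ t * t * hζ + ht
  have q3 : hermSesq ι σ (ee F i + t • ee F k) (ee F i + (ζ * t) • ee F k) ≠ 0 := by
    simp only [map_add, map_smul, LinearMap.add_apply, herm_ee_right, Pi.add_apply, Pi.smul_apply,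
      ee_ne i ik.symm, ee_ne k ik, ee_self, smul_eq_mul]
    intro e; exact ζ1 (by simp at e; linear_combination ζ * ht - e)
  obtain ⟨Y, y1, hY, y2⟩ := hW.exists_max_good hG (add_mem a2 (A.smul_mem t a3))
    (add_mem a2 (A.smul_mem (ζ * t) a3)) (q1 t ht) (q1 _ q2) q3
  have key : ∀ g ∈ X, g (ee F i) = ee F i → g (ee F k) = ee F k → ∀ y ∈ Y, g y ∈ Y :=
    fun g hg e1 e2 y hy => by
      have m : ∀ c : F, ee F i + c • ee F k ∈ Y := fun c => y1 (add_mem a2 (A.smul_mem c a3))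
      exact y2 _ (hY.map (h.le hg) hg) ⟨_, m t, _, m (ζ * t), ⟨_, m t, by simp [e1, e2]⟩,
        ⟨_, m (ζ * t), by simp [e1, e2]⟩, q1 t ht, q1 _ q2, q3⟩ ⟨y, hy, rfl⟩
  have mj : ee F j ∈ Y := by
    have := sub_mem (key _ (h.hm_mem j hζ) (hm_of_eq_zero _ _ (ee_ne i ji))
      (hm_of_eq_zero _ _ (ee_ne k jk)) s (y1 a1)) (y1 a1)
    rwa [hm_apply, add_sub_cancel_left, Y.smul_mem_iff (mul_ne_zero ζ1 sj)] at this
  have : Y = ⊤ := eq_top_iff.2 fun v _ => by
    rw [pi_eq_sum_univ' v]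
    refine sum_mem fun l _ => Y.smul_mem _ ?_
    by_cases li : l = i
    · exact li ▸ y1 a2
    by_cases lk : l = k
    · exact lk ▸ y1 a3
    by_cases jl : j = l
    · exact jl ▸ mj
    simpa [swp_one_apply, ee_ne j (Ne.symm jl)] using key _ (h.swp_mem jl)
      (by simp [swp_one_apply, ee_ne i ji, ee_ne i li])
      (by simp [swp_one_apply, ee_ne k jk, ee_ne k lk]) _ mj
  exact this ▸ hY

theorem grow (h : UX σ q X) (hn : ¬ Good (hermSesq ι σ) (fun x => hermSesq ι σ x x) X ⊤)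
    (h1 : Hm (hermSesq ι σ) X u) (ij : i ≠ j) (ui : u i ≠ 0) (uj : u j ≠ 0) (l : ι) :
    ∃ w, Hm (hermSesq ι σ) X w ∧ (∀ m, u m ≠ 0 → w m ≠ 0) ∧ w l ≠ 0 := by
  by_cases ul : u l = 0
  swap
  · exact ⟨u, h1, fun _ e => e, ul⟩
  have il : i ≠ l := by rintro rfl; exact ui ul
  have n1 : 1 - σ (u i) * u i ≠ 0 := fun e => by
    have e : σ (u i) * u i = 1 := (sub_eq_zero.1 e).symm
    have h2 := (h.hm_ee i).map (h.hm_mem i (ζ := Units.mk0 _ ui) e) (hm_mem_UG i e)
    rw [Geom.hm_ee, Units.val_mk0] at h2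
    refine hn (h.good (s := u - u i • ee F i) (k := i) h2 (by simpa using h1) (fun e' => uj ?_) ?_
      (by simp) (by simp) (by simpa using ui))
    · simpa [ee_ne i ij.symm] using congrFun e' j
    · simp [h1.1]; linear_combination -e
  obtain ⟨ζ, hζ, ζ1⟩ := h.exists_one [1, 1 - (1 - σ (u i) * u i)⁻¹] h.two_le
  simp only [List.mem_cons, List.not_mem_nil, or_false, not_or] at ζ1
  obtain ⟨g, hg, e⟩ := (h1.map (h.swp_mem il) (h.le (h.swp_mem il))).2 ζ hζ
  have e1 : hermSesq ι σ (swp il 1 1 u) u = 1 - σ (u i) * u i := by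
    simp [swp_one_apply, ul, h1.1]; ring
  refine ⟨g u, h1.map hg (h.le hg), fun m um => ?_, ?_⟩
  · by_cases mi : m = i
    · simpa [e, mi, swp_one_apply, ee_ne l il, ul] using ui
    have ml : m ≠ l := by rintro rfl; exact um ul
    rw [e, e1, Pi.add_apply, Pi.smul_apply, swp_ne il _ _ _ mi ml, smul_eq_mul, ← one_add_mul]
    exact mul_ne_zero (fun e => ζ1.2 (by field_simp; linear_combination e)) um
  · rw [e, e1]
    simp [swp_one_apply, ul, ee_ne i il.symm, n1, ui, sub_ne_zero.2 ζ1.1]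

/-- A homology group whose centre is not a basis vector generates everything. -/
theorem main (h : UX σ q X) (h1 : Hm (hermSesq ι σ) X u) (ij : i ≠ j) (ui : u i ≠ 0)
    (uj : u j ≠ 0) : Good (hermSesq ι σ) (fun x => hermSesq ι σ x x) X ⊤ := by
  by_contra hn
  have h5 := h.five
  obtain ⟨k, hk⟩ := exists_notMem_list [i, j] (by simp; omega)
  obtain ⟨l, hl⟩ := exists_notMem_list [i, j, k] (by simp; omega)
  obtain ⟨m, hm'⟩ := exists_notMem_list [i, j, k, l] (by simp; omega)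
  simp only [List.mem_cons, List.not_mem_nil, or_false, not_or] at hk hl hm'
  obtain ⟨u, h1, a, uk⟩ := h.grow hn h1 ij ui uj k
  obtain ⟨u, h1, b, ul⟩ := h.grow hn h1 ij (a i ui) (a j uj) l
  obtain ⟨u, h1, c, um⟩ := h.grow hn h1 ij (b i (a i ui)) (b j (a j uj)) m
  have n : ∀ i, σ (σ (u i) * u i) = σ (u i) * u i := fun i => by simp [h.inv, mul_comm]
  have ui := c i (b i (a i ui))
  have uj := c j (b j (a j uj))
  obtain ⟨α, β, γ, δ, e1, e2, e3, e4, e5, e6⟩ := h.exists_four (n i) (n j) (n k) (n l)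
    (by simpa using ui) (by simpa using uj) (by simpa using c k (b k uk)) (by simpa using c l ul)
  have hg := mul_mem (mul_mem (mul_mem (h.hm_mem i e1) (h.hm_mem j e2)) (h.hm_mem k e3))
    (h.hm_mem l e4)
  obtain ⟨s, hs⟩ : ∃ s, s = ((α - 1) * u i) • ee F i + ((β - 1) * u j) • ee F j +
    ((γ - 1) * u k) • ee F k + ((δ - 1) * u l) • ee F l := ⟨_, rfl⟩
  have e7 : (hm i α * hm j β * hm k γ * hm l δ) u = u + s := by
    simp [hs, hm_apply, ee_ne j ij, ee_ne k (Ne.symm hk.1), ee_ne k (Ne.symm hk.2),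
      ee_ne l (Ne.symm hl.1), ee_ne l (Ne.symm hl.2.1), ee_ne l (Ne.symm hl.2.2)]
    module
  have h2 := e7 ▸ h1.map hg (h.le hg)
  have e8 : hermSesq ι σ u s = 0 := by simp [hs]; linear_combination e6
  have e9 := h.herm.refl e8
  refine hn (h.good h1 h2 (fun e => ?_) (by simpa [h1.1, e8, e9] using h2.1) e9 (k := m)
    (by simp [hs, ee_ne i hm'.1, ee_ne j hm'.2.1, ee_ne k hm'.2.2.1, ee_ne l hm'.2.2.2]) um)
  have f1 := congrFun (hs.symm.trans e) i
  have f2 := congrFun (hs.symm.trans e) j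
  simp [ee_ne j ij, ee_ne i ij.symm, ee_ne k (Ne.symm hk.1), ee_ne k (Ne.symm hk.2),
    ee_ne l (Ne.symm hl.1), ee_ne l (Ne.symm hl.2.1), ui, uj, sub_eq_zero] at f1 f2
  simp [f1, f2] at e5

end UX

end CF.Geom
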