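/-
Overgroups of the monomial subgroup of `SU_n(q)`: columns with two zeros.
-/
import Cfsg.Agent.Geom.FrU1

set_option autoImplicit false
set_option linter.unusedSectionVars false

namespace CF.Geom

open Module

/-- The product of `C` with the core of `M` under `C`. -/
def extC {Γ : Type*} [Group Γ] (M C : Subgroup Γ) : Subgroup Γ where
  carrier := {x | ∃ c ∈ C, ∀ d ∈ C, d * (x * c⁻¹) * d⁻¹ ∈ M}
  one_mem' := ⟨1, one_mem _, fun d _ => by simp⟩
  mul_mem' := by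
    rintro x y ⟨c, hc, e⟩ ⟨c', hc', e'⟩
    refine ⟨c * c', mul_mem hc hc', fun d hd => ?_⟩
    convert mul_mem (e d hd) (e' _ (mul_mem hd hc)) using 1; group
  inv_mem' := by
    rintro x ⟨c, hc, e⟩
    refine ⟨c⁻¹, inv_mem hc, fun d hd => ?_⟩
    convert inv_mem (e _ (mul_mem hd (inv_mem hc))) using 1; group

variable {F : Type*} [Field F] [Fintype F] {σ : F →+* F} {q : ℕ} {ι : Type} [Fintype ι]
  [DecidableEq ι] {M : Subgroup ((ι → F) ≃ₗ[F] (ι → F))} {g : (ι → F) ≃ₗ[F] (ι → F)}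

theorem norm_inv_unit {ζ : Fˣ} (hζ : σ ζ * ζ = 1) : σ (ζ⁻¹ : Fˣ) * (ζ⁻¹ : Fˣ) = 1 := by
  rw [Units.val_inv_eq_inv_val, map_inv₀, ← mul_inv, hζ, inv_one]

theorem conj_hm (hg : g ∈ UG (hermSesq ι σ)) (i : ι) (ζ : Fˣ) (x : ι → F) :
    (g * hm i ζ * g⁻¹) x = x + ((ζ - 1) * hermSesq ι σ (g (ee F i)) x) • g (ee F i) := by
  obtain ⟨y, rfl⟩ := g.surjective x
  simp [inv_apply_apply, hm_apply, hg.1]

theorem norm_of_mon (hg : g ∈ UG (hermSesq ι σ)) {i j : ι} {ν : F} (e : g (ee F i) = ν • ee F j) :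
    σ ν * ν = 1 := by simpa [e, mul_comm] using hg.1 (ee F i) (ee F i)

theorem conj_hm_mon (hg : g ∈ UG (hermSesq ι σ)) {i j : ι} {ν : F} (e : g (ee F i) = ν • ee F j)
    (ζ : Fˣ) : g * hm i ζ * g⁻¹ = hm j ζ := LinearEquiv.ext fun x => by
  rw [conj_hm hg, hm_apply, e]
  simp only [map_smulₛₗ, LinearMap.smul_apply, herm_ee_left, smul_eq_mul]
  linear_combination (norm := module) (((ζ : F) - 1) * x j * norm_of_mon hg e) • ee F j

theorem ledet_hm (i : ι) (ζ : Fˣ) : LinearEquiv.det (hm i ζ) = ζ :=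
  Units.ext (by rw [LinearEquiv.coe_det, det_hm])

theorem hm_memU (i : ι) {ζ : Fˣ} (hζ : σ ζ * ζ = 1) : hm i ζ ∈ UG (hermSesq ι σ) ⊓ MonG ι F :=
  ⟨hm_mem_UG i hζ, hm_mem_MonG i ζ⟩

theorem dd_memU (i j : ι) {ζ : Fˣ} (hζ : σ ζ * ζ = 1) :
    dd i j ζ ∈ SUG (hermSesq ι σ) ⊓ MonG ι F :=
  ⟨⟨mul_mem (hm_mem_UG i hζ) (hm_mem_UG j (norm_inv_unit hζ)), by
    simp [dd, ledet_hm]⟩, mul_mem (hm_mem_MonG i ζ) (hm_mem_MonG j _)⟩

theorem dd_app {i j : ι} (ij : i ≠ j) (ζ : Fˣ) (x : ι → F) : dd i j ζ x =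
    x + (((ζ : F) - 1) * x i) • ee F i + (((ζ : F)⁻¹ - 1) * x j) • ee F j := by
  simp [dd, hm_apply, ee_ne j ij]; module

theorem conj_dd (hg : g ∈ UG (hermSesq ι σ)) {i j : ι} (ij : i ≠ j) (ζ : Fˣ) (x : ι → F) :
    (g * dd i j ζ * g⁻¹) x = x + ((ζ - 1) * hermSesq ι σ (g (ee F i)) x) • g (ee F i) +
      (((ζ : F)⁻¹ - 1) * hermSesq ι σ (g (ee F j)) x) • g (ee F j) := by
  obtain ⟨y, rfl⟩ := g.surjective x
  simp [inv_apply_apply, dd_app ij, hg.1]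

theorem card_le_of_supp (g : (ι → F) ≃ₗ[F] (ι → F)) (S T : Finset ι)
    (h : ∀ l ∈ S, ∀ m, m ∉ T → g (ee F l) m = 0) : S.card ≤ T.card := by
  have := LinearMap.finrank_le_finrank_of_injective (f := LinearMap.funLeft F F
    (Subtype.val : T → ι) ∘ₗ Fintype.linearCombination F fun l : S => g (ee F l))
    ((injective_iff_map_eq_zero _).2 fun c hc => by
      have e : g (∑ l : S, c l • ee F l.1) = 0 := funext fun m => by
        by_cases hm : m ∈ T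
        · simpa [Fintype.linearCombination_apply] using congrFun hc ⟨m, hm⟩
        · simp [fun l : S => h l l.2 m hm]
      funext l
      have := congrFun ((map_eq_zero_iff _ g.injective).1 e) l
      rwa [Finset.sum_apply, Finset.sum_eq_single l (fun b _ hb => by
        simp [ee_ne b.1 (Subtype.coe_ne_coe.2 hb).symm]) (by simp), Pi.smul_apply, ee_self,
        smul_eq_mul, mul_one] at this)
  simpa using this

/-- A proper overgroup of the monomial subgroup of `SU_n(q)`. -/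
structure FU (σ : F →+* F) (q : ℕ) (M : Subgroup ((ι → F) ≃ₗ[F] (ι → F))) : Prop
    extends UF σ q where
  six : 6 ≤ Fintype.card ι
  sev : q = 2 → 7 ≤ Fintype.card ι
  lo : SUG (hermSesq ι σ) ⊓ MonG ι F ≤ M
  hi : M ≤ SUG (hermSesq ι σ)
  no : ¬ SUG (hermSesq ι σ) ≤ M

namespace FU

variable {a i j k : ι}

theorem ug (h : FU σ q M) (hg : g ∈ M) : g ∈ UG (hermSesq ι σ) := (h.hi hg).1

theorem memM (h : FU σ q M) (hg : g ∈ UG (hermSesq ι σ) ⊓ MonG ι F) (e : LinearEquiv.det g = 1) :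
    g ∈ M := h.lo ⟨⟨hg.1, e⟩, hg.2⟩

theorem fresh (h : FU σ q M) (a b c d e : ι) : ∃ l, l ≠ a ∧ l ≠ b ∧ l ≠ c ∧ l ≠ d ∧ l ≠ e := by
  simpa using exists_notMem_list [a, b, c, d, e] (lt_of_lt_of_le (by simp) h.six)

theorem A (h : FU σ q M) (hg : g ∈ M) (e : ∀ l, l ≠ j → g (ee F i) l = 0) : g ∈ MonG ι F := by
  have e1 := fun ζ => conj_hm_mon (h.ug hg) (eq_smul_ee e) ζ
  have hX : UX σ q (extC M (UG (hermSesq ι σ) ⊓ MonG ι F)) :=
    ⟨h.toUF, fun x ⟨c, hc, e⟩ => (Subgroup.mul_mem_cancel_right _ (inv_mem hc.1)).1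
      (h.ug (by simpa using e 1 (one_mem _))), fun x hx => ⟨x, hx, fun d _ => by simp⟩,
      by have := h.six; omega⟩
  refine mem_MonG_of fun k => ?_
  by_contra! hc
  obtain ⟨a, -, a1⟩ := hc k
  obtain ⟨b, ba, b1⟩ := hc a
  refine h.no fun y hy => ?_
  have key : ∀ ζ : Fˣ, σ ζ * ζ = 1 → ∀ d ∈ UG (hermSesq ι σ) ⊓ MonG ι F,
      d * (g * hm k ζ * g⁻¹ * (hm j ζ)⁻¹) * d⁻¹ ∈ M := fun ζ hζ d hd => by
    have hη : σ (LinearEquiv.det d : Fˣ) * (LinearEquiv.det d : Fˣ) = 1 := by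
      have := mem_normOne.1 (udet (hermSesq_nondegenerate σ) ⟨d, hd.1⟩).2
      rwa [udet_coe, ← LinearEquiv.coe_det] at this
    generalize hη' : LinearEquiv.det d = η at hη
    have m1 : d * (hm j η)⁻¹ ∈ M :=
      h.memM (mul_mem hd (inv_mem (hm_memU j hη))) (by simp [hη', ledet_hm])
    have m2 : hm i η * (hm k ζ * (hm i ζ)⁻¹) * (hm i η)⁻¹ ∈ M := h.memM (mul_mem (mul_mem
      (hm_memU i hη) (mul_mem (hm_memU k hζ) (inv_mem (hm_memU i hζ)))) (inv_mem (hm_memU i hη)))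
      (by simp [ledet_hm])
    convert mul_mem (mul_mem m1 (mul_mem (mul_mem hg m2) (inv_mem hg))) (inv_mem m1) using 1
    rw [← e1, ← e1]; group
  obtain ⟨c, hc, e2⟩ := (polarG_su' hX.herm (hermSesq_nondegenerate σ)
    (by simp; have := h.six; omega)).le_of_good_top (hX.main (u := g (ee F k))
    ⟨by simp [(h.ug hg).1], fun ζ hζ => ⟨_, ⟨hm j ζ, hm_memU j hζ,
      key ζ hζ⟩, conj_hm (h.ug hg) k ζ⟩⟩ ba b1 a1) hy
  have e3 : y * c⁻¹ ∈ M := by simpa using e2 1 (one_mem _)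
  have e4 : c⁻¹ ∈ SUG (hermSesq ι σ) := (Subgroup.mul_mem_cancel_left _ hy).1 (h.hi e3)
  simpa using mul_mem e3 (h.lo ⟨(Subgroup.inv_mem_iff _).1 e4, hc.2⟩)

theorem step (h : FU σ q M) (hg : g ∈ M) (hn : g ∉ MonG ι F) (jk : j ≠ k)
    (hj : g (ee F a) j = 0) (hk : g (ee F a) k = 0) :
    (∀ m, g⁻¹ (ee F j) m = 0 → g⁻¹ (ee F k) m = 0) ∧ ∃ T : Finset ι,
      T.card ≤ 3 ∧ (q ≠ 2 → T.card ≤ 2) ∧ ∀ m, m ∉ T → g⁻¹ (ee F j) m = 0 := by
  obtain ⟨ζ, hζ, z2, z3⟩ := h.exists_ord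
  have z1 : (ζ : F) - 1 ≠ 0 := sub_ne_zero.2 fun e => z2 (by simp [e])
  have z1' : (ζ : F)⁻¹ - 1 ≠ 0 := sub_ne_zero.2 fun e => z1 (by simp [inv_eq_one.1 e])
  have hx := mul_mem (mul_mem (inv_mem hg) (h.lo (dd_memU j k hζ))) hg
  have e1 : ∀ z, (g⁻¹ * dd j k ζ * g) z = z + (((ζ : F) - 1) * g z j) • g⁻¹ (ee F j) +
      (((ζ : F)⁻¹ - 1) * g z k) • g⁻¹ (ee F k) := fun z => by simp [dd_app jk, inv_apply_apply]
  obtain ⟨π, ν, n0, n1, n2⟩ := exists_of_mem_MonG (h.A hx (i := a) (j := a) fun l hl => by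
    simp [e1, hj, hk, ee_ne a hl])
  have f1 : ∀ i, ζ * g⁻¹ (ee F j) (π i) = ν i * g⁻¹ (ee F j) i := fun i => by
    rw [← n2, e1]; simp [apply_inv_apply, ee_ne j jk.symm]; ring
  have f2 : ∀ i, g⁻¹ (ee F k) (π i) = ζ * ν i * g⁻¹ (ee F k) i := fun i => by
    rw [mul_assoc, ← n2, e1]; simp [apply_inv_apply, ee_ne k jk]; field_simp; ring
  obtain ⟨b, hb⟩ : ∃ b, g⁻¹ (ee F j) b ≠ 0 :=
    Function.ne_iff.1 ((map_ne_zero_iff _ (g⁻¹).injective).2 (ee_ne_zero j))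
  have bc : π b ≠ b := fun e => hn (h.A hg (i := b) (j := j) fun l hl => by
    have e2 : ν b = ζ := mul_right_cancel₀ hb (by rw [← f1, e])
    have e3 := congrFun (congrArg g (n1 b)) l
    rw [e, e2, LinearEquiv.mul_apply, LinearEquiv.mul_apply, apply_inv_apply, dd_app jk] at e3
    by_cases lk : l = k
    · subst lk
      simp [ee_ne j hl] at e3
      exact mul_left_cancel₀ (sub_ne_zero.2 z2) (by field_simp at e3; linear_combination -e3)
    · simp [ee_ne j hl, ee_ne k lk] at e3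
      exact mul_left_cancel₀ z1 (by linear_combination -e3))
  have cd : π (π b) ≠ π b := π.injective.ne bc
  have p1 := fun m => congrFun ((e1 (ee F b)).symm.trans (n1 b)) m
  have p2 := fun m => congrFun ((e1 (ee F (π b))).symm.trans (n1 (π b))) m
  simp only [Pi.add_apply, Pi.smul_apply, smul_eq_mul] at p1 p2
  have Δ : ((ζ : F) - 1) * g (ee F b) j * (((ζ : F)⁻¹ - 1) * g (ee F (π b)) k) -
      ((ζ : F) - 1) * g (ee F (π b)) j * (((ζ : F)⁻¹ - 1) * g (ee F b) k) ≠ 0 := fun e => by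
    have r1 := p1 b
    have r2 := p1 (π b)
    have r3 := p2 b
    have r4 := p2 (π b)
    simp only [ee_self, ee_ne _ bc, ee_ne _ bc.symm, ee_ne _ cd.symm] at r1 r2 r3 r4
    have k1 : ν b * (ν (π b) * ee F (π (π b)) b) = 1 := by
      generalize ((ζ : F) - 1) * g (ee F b) j = α at *
      generalize ((ζ : F)⁻¹ - 1) * g (ee F b) k = β at *
      generalize ((ζ : F) - 1) * g (ee F (π b)) j = α' at *
      generalize ((ζ : F)⁻¹ - 1) * g (ee F (π b)) k = β' at *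
      linear_combination (g⁻¹ (ee F j) (π b) * g⁻¹ (ee F k) b -
        g⁻¹ (ee F j) b * g⁻¹ (ee F k) (π b)) * e + (α' * g⁻¹ (ee F j) (π b) +
        β' * g⁻¹ (ee F k) (π b)) * r1 - r4 - ν b * r3 -
        (α' * g⁻¹ (ee F j) b + β' * g⁻¹ (ee F k) b) * r2
    have k2 : π (π b) = b := by_contra fun e => by simp [ee_ne _ (Ne.symm e)] at k1
    rw [k2, ee_self, mul_one] at k1
    have k3 := f1 (π b)
    rw [k2] at k3
    exact z2 (mul_right_cancel₀ hb (by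
      linear_combination ζ * k3 + ν (π b) * f1 b + g⁻¹ (ee F j) b * k1))
  have out : ∀ m, m ≠ b → m ≠ π b → m ≠ π (π b) → g⁻¹ (ee F j) m = 0 ∧ g⁻¹ (ee F k) m = 0 :=
    fun m h1 h2 h3 => by
      have r1 := p1 m
      have r2 := p2 m
      simp only [ee_ne _ h1, ee_ne _ h2, ee_ne _ h3] at r1 r2
      exact ⟨mul_left_cancel₀ Δ (by
        linear_combination ((ζ : F)⁻¹ - 1) * g (ee F (π b)) k * r1 -
          ((ζ : F)⁻¹ - 1) * g (ee F b) k * r2), mul_left_cancel₀ Δ (by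
        linear_combination ((ζ : F) - 1) * g (ee F b) j * r2 -
          ((ζ : F) - 1) * g (ee F (π b)) j * r1)⟩
  have nz : ∀ i, g⁻¹ (ee F j) i ≠ 0 → g⁻¹ (ee F j) (π i) ≠ 0 := fun i e e' =>
    mul_ne_zero (n0 i) e (by rw [← f1, e', mul_zero])
  refine ⟨fun m e => by_contra fun e' => ?_, {b, π b, π (π b)}, Finset.card_le_three,
    fun q2 => ?_, fun m hm => ?_⟩
  · by_cases h1 : m = b
    · exact hb (h1 ▸ e)
    by_cases h2 : m = π b
    · exact nz b hb (h2 ▸ e)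
    by_cases h3 : m = π (π b)
    exacts [nz _ (nz b hb) (h3 ▸ e), e' (out m h1 h2 h3).2]
  · by_cases e : π (π b) = b
    · rw [e, Finset.insert_comm, Finset.pair_eq_singleton]; exact Finset.card_le_two
    refine absurd ?_ (z3 q2)
    have r1 := p1 b
    have r2 := p1 (π b)
    have r3 := p1 (π (π b))
    simp only [ee_self, ee_ne _ bc, ee_ne _ bc.symm, ee_ne _ cd, ee_ne _ e] at r1 r2 r3
    have a1 := f1 b
    have a2 := f1 (π b)
    rw [f2, f2] at r3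
    rw [f2] at r2
    refine mul_left_cancel₀ (mul_ne_zero (n0 b) (n0 (π b))) ?_
    generalize ((ζ : F) - 1) * g (ee F b) j = α at *
    generalize ((ζ : F)⁻¹ - 1) * g (ee F b) k = β at *
    linear_combination (ζ - 1) * ((ζ * r3 - α * a2) - ν (π b) * ((ζ ^ 2 + 1) * r2 - ζ * α * a1) +
      ζ * ν b * ν (π b) * r1)
  · simp only [Finset.mem_insert, Finset.mem_singleton, not_or] at hm
    exact (out m hm.1 hm.2.1 hm.2.2).1

theorem Z2 (h : FU σ q M) (hg : g ∈ M) (jk : j ≠ k) (hj : g (ee F a) j = 0)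
    (hk : g (ee F a) k = 0) : g ∈ MonG ι F := by
  by_contra hn
  obtain ⟨-, T, t1, t2, t3⟩ := h.step hg hn jk hj hk
  have h6 := h.six
  have h7 := h.sev
  have hi := fun e => hn (inv_mem_iff.1 e)
  have c := Finset.card_compl T
  obtain ⟨l, hl, l', hl', ll⟩ := Finset.one_lt_card.1 (show 1 < Tᶜ.card by omega)
  rw [Finset.mem_compl] at hl hl'
  obtain ⟨-, T', s1, s2, s3⟩ := h.step (inv_mem hg) hi ll (t3 l hl) (t3 l' hl')
  have := card_le_of_supp g Tᶜ T' fun r hr m hm => by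
    by_cases e : l = r
    · exact e ▸ s3 m hm
    · exact (h.step (inv_mem hg) hi e (t3 l hl) (t3 r (Finset.mem_compl.1 hr))).1 m (s3 m hm)
  omega

/-! ### Odd characteristic -/

theorem dd_neg_inj (h2 : (2 : F) ≠ 0) {a b c d : ι} (ab : a ≠ b) (cd : c ≠ d) :
    dd a b (-1 : Fˣ) = dd c d (-1) ↔ (a = c ∧ b = d) ∨ (a = d ∧ b = c) := by
  have cm : ∀ {a b : ι}, a ≠ b → dd a b (-1 : Fˣ) = dd b a (-1) := fun ab =>
    LinearEquiv.ext fun x => by simp [dd_app ab, dd_app ab.symm, add_right_comm]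
  refine ⟨fun e => ?_, by rintro (⟨rfl, rfl⟩ | ⟨rfl, rfl⟩); exacts [rfl, cm ab]⟩
  have key : ∀ {a b : ι}, a ≠ b → dd a b (-1 : Fˣ) = dd c d (-1) → a = c ∨ a = d :=
    fun {a b} ab e => by
    by_contra! hc
    have := congrFun (congrArg (· (ee F a)) e) a
    simp [dd_app ab, dd_app cd, ee_ne a ab.symm, ee_ne a hc.1.symm, ee_ne a hc.2.symm] at this
    exact h2 (by linear_combination -this)
  have := key ab e
  have := key ab.symm ((cm ab).symm.trans e)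
  grind

theorem conj_dd_mon (h : FU σ q M) (hg : g ∈ M) {π : Equiv.Perm ι} {ν : ι → F}
    (e : ∀ i, g (ee F i) = ν i • ee F (π i)) (i j : ι) (ζ : Fˣ) :
    g * dd i j ζ * g⁻¹ = dd (π i) (π j) ζ := by
  rw [dd, dd, ← conj_hm_mon (h.ug hg) (e i), ← conj_hm_mon (h.ug hg) (e j)]; group

theorem dih_odd (h : FU σ q M) (h2 : (2 : F) ≠ 0) :
    Dih M (MonG ι F) {t | ∃ i j, i ≠ j ∧ t = dd i j (-1)} := by
  have n : σ ((-1 : Fˣ) : F) * (-1 : Fˣ) = 1 := by simp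
  have h6 := h.six
  have sq : ∀ {i j : ι}, i ≠ j → dd i j (-1 : Fˣ) * dd i j (-1) = 1 := fun {i j} ij =>
    LinearEquiv.ext fun x => by
      simp [dd_app ij, ee_ne i ij.symm, ee_ne j ij]; module
  refine ⟨?_, ?_, ?_, ?_, ?_, ?_⟩
  · rintro _ ⟨i, j, -, rfl⟩; exact h.lo (dd_memU i j n)
  · rintro _ ⟨i, j, -, rfl⟩; exact (dd_memU i j n).2
  · rintro _ ⟨i, j, ij, rfl⟩; exact sq ij
  · rintro g hg hg' _ ⟨i, j, ij, rfl⟩
    obtain ⟨π, ν, -, h1, -⟩ := exists_of_mem_MonG hg'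
    exact ⟨_, _, π.injective.ne ij, h.conj_dd_mon hg h1 i j _⟩
  · rintro g hg _ ⟨i, j, ij, rfl⟩ e
    have key : ∀ L : List ι, L.length ≤ 1 → ∃ l, l ∉ L ∧ g (ee F i) l = 0 := fun L hL => by
      obtain ⟨l, l1, l2⟩ := mon_rank_two' e (p := g (ee F i)) (q := g (ee F j)) (fun x =>
        ⟨_, _, by rw [conj_dd (h.ug hg) ij, add_assoc, add_sub_cancel_left]⟩) L (by omega)
      have := congrArg (hermSesq ι σ (g (ee F i))) l2
      rw [conj_dd (h.ug hg) ij] at this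
      simp [(h.ug hg).1, ee_ne j ij, ee_ne i ij.symm] at this
      exact ⟨l, l1, this.resolve_left fun e => h2 (by linear_combination -e)⟩
    obtain ⟨l, -, l1⟩ := key [] (by simp)
    obtain ⟨m, ml, m1⟩ := key [l] (by simp)
    exact h.Z2 hg (by simpa using ml) m1 l1
  · rintro g hg _ ⟨a, b, ab, rfl⟩ _ ⟨c, d, cd, rfl⟩ _ ⟨a', b', ab', rfl⟩ _ ⟨c', d', cd', rfl⟩ h1 - e
    obtain ⟨i, hi⟩ : ∃ i, (dd a b (-1 : Fˣ) * dd c d (-1) : (ι → F) ≃ₗ[F] (ι → F)) (ee F i) =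
        -ee F i := by
      by_cases e1 : a ≠ c ∧ a ≠ d
      · exact ⟨a, by simp [dd_app, ab, cd, ee_ne a e1.1.symm, ee_ne a e1.2.symm,
          ee_ne a ab.symm]; module⟩
      by_cases e2 : b ≠ c ∧ b ≠ d
      · exact ⟨b, by simp [dd_app, ab, cd, ee_ne b e2.1.symm, ee_ne b e2.2.symm, ee_ne b ab]
                     module⟩
      exact absurd (by rw [(dd_neg_inj h2 ab cd).2 (by grind), sq cd]) h1
    have key : ∀ l, l ≠ a' → l ≠ b' → l ≠ c' → l ≠ d' → g (ee F i) l = 0 := fun l l1 l2 l3 l4 => by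
      have := congrFun (congrArg (· (g (ee F i))) e) l
      simp only [LinearEquiv.mul_apply (g * _), inv_apply_apply, LinearEquiv.mul_apply g, hi] at this
      simp [dd_app, ab', cd', ee_ne _ l1, ee_ne _ l2, ee_ne _ l3, ee_ne _ l4] at this
      exact mul_left_cancel₀ h2 (by linear_combination -this)
    obtain ⟨l, l1, l2, l3, l4, -⟩ := h.fresh a' b' c' d' d'
    obtain ⟨m, m1, m2, m3, m4, ml⟩ := h.fresh a' b' c' d' l
    exact h.Z2 hg ml (key m m1 m2 m3 m4) (key l l1 l2 l3 l4)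

theorem le_odd (h : FU σ q M) (h2 : (2 : F) ≠ 0) : M ≤ MonG ι F := fun g hg => by
  classical
  by_contra hn
  have h6 := h.six
  have : Finite ((ι → F) ≃ₗ[F] (ι → F)) := Finite.of_injective _ DFunLike.coe_injective
  obtain ⟨a, b, ab⟩ := Fintype.exists_pair_of_one_lt_card (α := ι) (by omega)
  obtain ⟨S, h1, s2, h3⟩ := (h.dih_odd h2).exists_regular hg hn ⟨a, b, ab, rfl⟩
  choose π ν n0 n1 n2 using fun s : S => exists_of_mem_MonG (s2 s s.2).2.1
  obtain ⟨⟨o, ho⟩, ⟨y, hy⟩, -⟩ := pairs_count π (x := ⟨1, h1⟩) (fun i k i' k' ik ik' => by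
    obtain ⟨s, ⟨s1, s4⟩, s3⟩ := h3 _ ⟨i, k, ik, rfl⟩ _ ⟨i', k', ik', rfl⟩
    have key : ∀ y : S, y.1 * dd i k (-1) * y.1⁻¹ = dd i' k' (-1) ↔ _ := fun y => by
      rw [h.conj_dd_mon (s2 y y.2).1 (n1 y), dd_neg_inj h2 ((π y).injective.ne ik) ik']
    exact ⟨⟨s, s1⟩, (key _).1 s4, fun y hy => Subtype.ext (s3 y ⟨y.2, (key y).2 hy⟩)⟩)
    (Equiv.ext fun i => by_contra fun e => by
      simpa [ee_ne (π ⟨1, h1⟩ i) (j := i) (Ne.symm e)] using congrFun (n1 ⟨1, h1⟩ i) i) (by omega)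
  obtain ⟨-, -, -, _, _, ⟨g₁, hg₁, _, ⟨i₁, j₁, ij₁, rfl⟩, rfl⟩, ⟨g₂, hg₂, _, ⟨i₂, j₂, ij₂, rfl⟩, rfl⟩,
    e⟩ := s2 y y.2
  let W := Submodule.span F
    (({g₁ (ee F i₁), g₁ (ee F j₁), g₂ (ee F i₂), g₂ (ee F j₂)} : Finset (ι → F)) : Set (ι → F))
  have w1 : finrank F W ≤ 4 := (finrank_span_finset_le_card _).trans Finset.card_le_four
  have w2 := finrank_le_fix_add y.1 W fun x => by
    have m : ∀ v ∈ ({g₁ (ee F i₁), g₁ (ee F j₁), g₂ (ee F i₂), g₂ (ee F j₂)} : Finset (ι → F)),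
      ∀ c : F, c • v ∈ W := fun v hv c => W.smul_mem c (Submodule.subset_span hv)
    rw [e, LinearEquiv.mul_apply, conj_dd (h.ug hg₁) ij₁, add_sub_right_comm, add_sub_right_comm]
    refine add_mem (add_mem ?_ (m _ (by simp) _)) (m _ (by simp) _)
    rw [conj_dd (h.ug hg₂) ij₂, add_assoc, add_sub_cancel_left]
    exact add_mem (m _ (by simp) _) (m _ (by simp) _)
  have w3 := three_mul_finrank_fix_le (fun i => LinearMap.ker (pr F i)) (k := 1) (fun i => by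
    have := (pr F i).finrank_range_add_finrank_ker
    have := (Submodule.finrank_le (LinearMap.range (pr F i))).trans_eq (finrank_self F)
    omega) (fun x hx => funext hx) (π y) hy (LinearMap.ker ((y.1 : (ι → F) →ₗ[F] (ι → F)) - 1))
    fun x hx i hi => by
      have e1 : y.1 x = x := sub_eq_zero.1 hx
      have e2 := n2 y x i
      rw [e1, show x i = 0 from hi, mul_zero] at e2
      exact e2
  rw [finrank_fintype_fun_eq_card] at w2
  omega

end FU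

end CF.Geom
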