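/-
Maximality of the stabiliser of an orthonormal frame in `SU_n(q)`.
-/
import Cfsg.Agent.Geom.FrU2

set_option autoImplicit false
set_option linter.unusedSectionVars false

namespace CF.Geom

open Module

variable {F : Type*} [Field F] [Fintype F] {σ : F →+* F} {q : ℕ} {ι : Type} [Fintype ι]
  [DecidableEq ι] {M : Subgroup ((ι → F) ≃ₗ[F] (ι → F))} {g t t' : (ι → F) ≃ₗ[F] (ι → F)}
  {s s' : ι → F} {j k l m : ι}

theorem mem_lineStab {c : F} (e : g s = c • s) : g ∈ subStab (F ∙ s) :=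
  mem_subStab_iff_le.2 fun w hw => by
    obtain ⟨a, rfl⟩ := Submodule.mem_span_singleton.1 hw
    rw [map_smul, e, smul_smul]
    exact Submodule.smul_mem _ _ (Submodule.mem_span_singleton_self s)

theorem lineStab_apply (hg : g ∈ subStab (F ∙ s)) : ∃ c : F, c • s = g s :=
  Submodule.mem_span_singleton.1 (subStab_apply hg (Submodule.mem_span_singleton_self s))

theorem lineStab_perp (hu : g ∈ UG (hermSesq ι σ)) (hg : g ∈ subStab (F ∙ (ee F j + ee F k)))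
    {x : ι → F} (hx : x j + x k = 0) : g x j + g x k = 0 := by
  obtain ⟨c, hc⟩ := lineStab_apply (inv_mem hg)
  have := hu.1 (g⁻¹ (ee F j + ee F k)) x
  rw [apply_inv_apply, ← hc] at this
  simpa [← mul_add, hx] using this

/-- Vectors with two non-zero coordinates, both of norm one. -/
def Sv (σ : F →+* F) (s : ι → F) : Prop := ∃ j k, j ≠ k ∧ ∃ α β : Fˣ, σ α * α = 1 ∧ σ β * β = 1 ∧
  s = (α : F) • ee F j + (β : F) • ee F k

/-- `t` is the unitary transvection with centre `s`. -/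
def Tv (σ : F →+* F) (t : (ι → F) ≃ₗ[F] (ι → F)) (s : ι → F) : Prop :=
  ∀ x, t x = x + hermSesq ι σ s x • s

theorem Tv.conj (h : Tv σ t s) (hg : g ∈ UG (hermSesq ι σ)) : Tv σ (g * t * g⁻¹) (g s) :=
  fun x => by
    obtain ⟨y, rfl⟩ := g.surjective x
    simp [inv_apply_apply, h y, hg.1]

theorem Tv.eq (h : Tv σ t s) (h' : Tv σ t' s) : t = t' :=
  LinearEquiv.ext fun x => (h x).trans (h' x).symm

theorem Sv.one (jk : j ≠ k) : Sv σ (ee F j + ee F k) := ⟨j, k, jk, 1, 1, by simp, by simp, by simp⟩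

theorem Sv.iso (h2 : (2 : F) = 0) (h : Sv σ s) : hermSesq ι σ s s = 0 := by
  obtain ⟨j, k, jk, α, β, hα, hβ, rfl⟩ := h
  simp [ee_ne j jk.symm, ee_ne k jk]
  linear_combination hα + hβ + h2

theorem Sv.norm (h : Sv σ s) : (∃ l, σ (s l) * s l = 1) ∧ ∀ l, s l = 0 ∨ σ (s l) * s l = 1 := by
  obtain ⟨j, k, jk, α, β, hα, hβ, rfl⟩ := h
  refine ⟨⟨j, by simp [ee_ne k jk, hα]⟩, fun l => ?_⟩
  by_cases lj : l = j
  · simp [lj, ee_ne k jk, hα]
  by_cases lk : l = k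
  · simp [lk, ee_ne j jk.symm, hβ]
  simp [ee_ne _ lj, ee_ne _ lk]

theorem tv_swp (h2 : (2 : F) = 0) (jk : j ≠ k) {α β : Fˣ} (hα : σ α * α = 1) (hβ : σ β * β = 1) :
    Tv σ (swp jk α β) ((α : F) • ee F j + (β : F) • ee F k) := fun x => by
  simp only [swp_apply, eq_inv_of_mul_eq_one_left hα, eq_inv_of_mul_eq_one_left hβ, map_add,
    map_smulₛₗ, LinearMap.add_apply, LinearMap.smul_apply, herm_ee_left, smul_eq_mul]
  linear_combination (norm := module) (-((α : F)⁻¹ * x j * α) * h2) • ee F j +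
    (-((β : F)⁻¹ * x k * β) * h2) • ee F k

theorem swp_memU (h2 : (2 : F) = 0) (jk : j ≠ k) {α β : Fˣ} (hα : σ α * α = 1) (hβ : σ β * β = 1) :
    swp jk α β ∈ SUG (hermSesq ι σ) ⊓ MonG ι F :=
  ⟨mem_SUG.2 ⟨(swp_mem_UG jk hα hβ).1, by rw [det_swp]; linear_combination -h2⟩,
    swp_mem_MonG jk α β⟩

theorem Sv.mem (h2 : (2 : F) = 0) (h : Sv σ s) (ht : Tv σ t s) :
    t ∈ SUG (hermSesq ι σ) ⊓ MonG ι F := by
  obtain ⟨j, k, jk, α, β, hα, hβ, rfl⟩ := h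
  exact ht.eq (tv_swp h2 jk hα hβ) ▸ swp_memU h2 jk hα hβ

theorem Sv.of_mon (hσ : ∀ x, σ (σ x) = x) (h2 : (2 : F) = 0) (s0 : s ≠ 0)
    (hs : hermSesq ι σ s s = 0) (ht : Tv σ t s) (hu : t ∈ UG (hermSesq ι σ)) (hm : t ∈ MonG ι F) :
    Sv σ s := by
  obtain ⟨π, ν, n0, n1, -⟩ := exists_of_mem_MonG hm
  obtain ⟨a, ha⟩ : ∃ a, s a ≠ 0 := Function.ne_iff.1 s0
  have ha' := (map_ne_zero σ).2 ha
  have e1 := (ht _).symm.trans (n1 a)
  have e2 := fun l => congrFun e1 l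
  simp only [herm_ee_right, Pi.add_apply, Pi.smul_apply, smul_eq_mul] at e2
  have ab : π a ≠ a := fun e => by
    rw [eq_smul_ee (x := s) (j := a) fun l hl => by simpa [e, ee_ne a hl, ha] using e2 l] at hs
    simp [ha] at hs
  have e3 : σ (s a) * s a = 1 := by
    have := e2 a
    rw [ee_self, ee_ne _ ab.symm] at this
    linear_combination this - h2
  have e4 : σ (s a) * s (π a) = ν a := by simpa [ee_ne _ ab] using e2 (π a)
  have e5 := norm_of_mon hu (n1 a)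
  rw [← e4, map_mul, hσ] at e5
  have e6 : σ (s (π a)) * s (π a) = 1 := by
    linear_combination e5 - σ (s (π a)) * s (π a) * e3
  refine ⟨a, π a, ab.symm, Units.mk0 _ ha, Units.mk0 _ (right_ne_zero_of_mul_eq_one e6), e3, e6,
    funext fun l => ?_⟩
  by_cases h1 : l = a
  · simp [h1, ee_ne _ ab.symm]
  by_cases h3 : l = π a
  · simp [h3, ee_ne _ ab]
  simpa [ee_ne _ h1, ee_ne _ h3, ha] using e2 l

theorem Sv.move (h2 : (2 : F) = 0) (h5 : 5 ≤ Fintype.card ι) (h : Sv σ s) (jk : j ≠ k) :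
    ∃ g ∈ SUG (hermSesq ι σ) ⊓ MonG ι F, g s = ee F j + ee F k := by
  obtain ⟨a, b, ab, α, β, hα, hβ, rfl⟩ := h
  obtain ⟨o, ho⟩ := exists_notMem_list [a, b, j, k] (by simp; omega)
  simp only [List.mem_cons, List.not_mem_nil, or_false, not_or] at ho
  have key : ∀ {a b c : ι}, a ≠ b → c ≠ b → ∃ g ∈ SUG (hermSesq ι σ) ⊓ MonG ι F,
      g (ee F a + ee F b) = ee F b + ee F c := fun {a b c} ab cb => by
    by_cases e : a = c
    · exact ⟨1, one_mem _, by simp [e, add_comm]⟩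
    · exact ⟨swp e 1 1, swp_memU h2 e (by simp) (by simp), by
        simp [swp_one_apply, ee_ne b ab, ee_ne b cb, ee_ne a (Ne.symm e)]; abel⟩
  obtain ⟨g₁, h1, e1⟩ := key ab ho.2.1
  obtain ⟨g₂, h3, e2⟩ := key (Ne.symm ho.2.1) (Ne.symm ho.2.2.1)
  obtain ⟨g₃, h4, e3⟩ := key ho.2.2.1 jk.symm
  refine ⟨g₃ * g₂ * g₁ * (dd a o α⁻¹ * dd b o β⁻¹), mul_mem (mul_mem (mul_mem h4 h3) h1)
    (mul_mem (dd_memU a o (norm_inv_unit hα)) (dd_memU b o (norm_inv_unit hβ))), ?_⟩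
  have : (dd a o α⁻¹ * dd b o β⁻¹ : (ι → F) ≃ₗ[F] (ι → F)) ((α : F) • ee F a + (β : F) • ee F b) =
      ee F a + ee F b := by
    simp [dd_app (Ne.symm ho.1), dd_app (Ne.symm ho.2.1), ee_ne a ab.symm, ee_ne b ab,
      ee_ne a ho.1, ee_ne b ho.2.1, ee_ne o (Ne.symm ho.1), sub_mul]
    module
  simp only [LinearEquiv.mul_apply (g₃ * g₂ * g₁), this, LinearEquiv.mul_apply (g₃ * g₂),
    LinearEquiv.mul_apply g₃, e1, e2, e3]

namespace FU

theorem hs (h : FU σ q M) (h2 : (2 : F) = 0) (jk : j ≠ k)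
    (hg : g ∈ M ⊓ subStab (F ∙ (ee F j + ee F k))) (mj : m ≠ j) (mk : m ≠ k) {ζ : Fˣ}
    (hζ : σ ζ * ζ = 1) : ∃ c ∈ M ⊓ subStab (F ∙ (ee F j + ee F k)), ∀ x, x j + x k = 0 →
      ∀ l, l ≠ j → l ≠ k → c x l = x l +
        (ζ - 1) * hermSesq ι σ (g (ee F m)) x * g (ee F m) l := by
  obtain ⟨η, hη⟩ := FiniteField.isSquare_of_char_two
    (CharP.ringChar_of_prime_eq_zero Nat.prime_two h2) (ζ : F)
  lift η to Fˣ using isUnit_of_mul_isUnit_left (hη ▸ ζ.isUnit)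
  have n : σ η * η = 1 := sub_eq_zero.1 (pow_eq_zero_iff two_ne_zero |>.1 (by
    rw [hη, map_mul] at hζ
    linear_combination hζ + (1 - σ η * η) * h2))
  have e : ∀ y : ι → F, y j + y k = 0 → (dd m j η * dd m k η : (ι → F) ≃ₗ[F] (ι → F)) y =
      y + ((ζ - 1) * y m) • ee F m + (((η : F)⁻¹ - 1) * y j) • (ee F j + ee F k) := fun y hy => by
    simp [dd_app mj, dd_app mk, ee_ne m mj.symm, ee_ne k jk, ee_ne k mk, hη,
      show y k = y j by linear_combination hy - y j * h2]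
    module
  obtain ⟨c, hc⟩ := lineStab_apply hg.2
  refine ⟨g * (dd m j η * dd m k η) * g⁻¹, mul_mem (mul_mem hg ⟨h.lo (mul_mem (dd_memU m j n)
    (dd_memU m k n)), mem_lineStab (c := (η : F)⁻¹) ?_⟩) (inv_mem hg), fun x hx l lj lk => ?_⟩
  · rw [e _ (by simp [ee_ne j jk.symm, ee_ne k jk]; linear_combination h2)]
    simp [ee_ne j mj, ee_ne k mk, ee_ne k jk]; module
  · have := lineStab_perp (inv_mem (h.ug hg.1)) (inv_mem hg).2 hx
    obtain ⟨y, rfl⟩ := g.surjective x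
    rw [inv_apply_apply] at this
    rw [LinearEquiv.mul_apply, LinearEquiv.mul_apply, inv_apply_apply, e y this, (h.ug hg.1).1]
    simp only [map_add _ (y + _), map_add _ y, map_smul, ← hc]
    simp [ee_ne j lj, ee_ne k lk]

theorem Z1 (h : FU σ q M) (h2 : (2 : F) = 0) (jk : j ≠ k)
    (hg : g ∈ M ⊓ subStab (F ∙ (ee F j + ee F k))) (mj : m ≠ j) (mk : m ≠ k) (lj : l ≠ j)
    (lk : l ≠ k) (e : g (ee F m) l = 0) : g ∈ MonG ι F := by
  by_contra hn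
  obtain ⟨ζ, hζ, ζ1⟩ := h.exists_one [1] (by have := h.two_le; simp; omega)
  have ζ1 : (ζ : F) - 1 ≠ 0 := sub_ne_zero.2 (by simpa using ζ1)
  obtain ⟨c, hc, e1⟩ := h.hs h2 jk hg mj mk hζ
  obtain ⟨a, aj, ak, al, -⟩ := h.fresh j k l l l
  obtain ⟨b, bj, bk, bl, ba, -⟩ := h.fresh j k l a a
  obtain ⟨d, dj, dk, dl, da, db⟩ := h.fresh j k l a b
  have e2 : ∀ {r}, r ≠ j → r ≠ k → ∀ {i}, i ≠ j → i ≠ k → i ≠ r → c (ee F r) i =
      (ζ - 1) * σ (g (ee F m) r) * g (ee F m) i := fun {r} rj rk i ij ik ir => by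
    rw [e1 _ (by simp [ee_ne r rj.symm, ee_ne r rk.symm]) i ij ik]; simp [ee_ne r ir]
  obtain ⟨π, ν, -, n1, -⟩ := exists_of_mem_MonG (h.Z2 hc.1 ba (a := l)
    (by simp [e2 lj lk bj bk bl, e]) (by simp [e2 lj lk aj ak al, e]))
  have key : ∀ {i}, i ≠ j → i ≠ k → i ≠ l → i ≠ a → i = π a := fun {i} ij ik il ia =>
    by_contra fun e' => by
      have := e2 aj ak ij ik ia
      simp only [n1, Pi.smul_apply, ee_ne _ e', smul_zero] at this
      exact mul_ne_zero (mul_ne_zero ζ1 ((map_ne_zero σ).2 fun e' => hn (h.Z2 hg.1 al e' e)))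
        (fun e' => hn (h.Z2 hg.1 il e' e)) this.symm
  exact db ((key dj dk dl da).trans (key bj bk bl ba).symm)

theorem As (h : FU σ q M) (h2 : (2 : F) = 0) (jk : j ≠ k)
    (hg : g ∈ M ⊓ subStab (F ∙ (ee F j + ee F k))) : g ∈ MonG ι F := by
  by_contra hn
  obtain ⟨a, aj, ak, -⟩ := h.fresh j k k k k
  obtain ⟨b, bj, bk, ba, -⟩ := h.fresh j k a a a
  obtain ⟨d, dj, dk, da, db, -⟩ := h.fresh j k a b b
  obtain ⟨l, lj, lk, la, lb, ld⟩ := h.fresh j k a b d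
  obtain ⟨u, hu⟩ : ∃ u, g (ee F a) = u := ⟨_, rfl⟩
  have nz : ∀ {i}, i ≠ j → i ≠ k → u i ≠ 0 := fun ij ik e => hn (h.Z1 h2 jk hg aj ak ij ik (hu ▸ e))
  have fx : ∀ x, σ (σ x * x) = σ x * x := fun x => by rw [map_mul, h.inv, mul_comm]
  have nn : ∀ {i}, i ≠ j → i ≠ k → σ (u i) * u i ≠ 0 := fun ij ik =>
    mul_ne_zero ((map_ne_zero σ).2 (nz ij ik)) (nz ij ik)
  obtain ⟨x, y, z, hx, hy, hz, x1, y1, e⟩ := h.exists_three (fx (u a)) (fx (u b)) (fx (u d))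
    (nn aj ak) (nn dj dk)
  obtain ⟨c₁, h1, e1⟩ := h.hs h2 jk (one_mem _) aj ak hx
  obtain ⟨c₂, h3, e2⟩ := h.hs h2 jk (one_mem _) bj bk hy
  obtain ⟨c₃, h4, e3⟩ := h.hs h2 jk (one_mem _) dj dk hz
  have p0 : u j + u k = 0 := hu ▸ lineStab_perp (h.ug hg.1) hg.2 (by
    simp [ee_ne a aj.symm, ee_ne a ak.symm])
  have p3 := lineStab_perp (h.ug h4.1) h4.2 p0
  have p2 := lineStab_perp (h.ug h3.1) h3.2 p3
  have p1 := lineStab_perp (h.ug h1.1) h1.2 p2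
  have hg' := mul_mem (mul_mem (mul_mem h1 h3) h4) hg
  obtain ⟨w, hw⟩ : ∃ w, c₁ (c₂ (c₃ u)) = w := ⟨_, rfl⟩
  have hw' : (c₁ * c₂ * c₃ * g) (ee F a) = w := by simp [hu, hw]
  have e4 : ∀ i, i ≠ j → i ≠ k → w i = (u + ((x - 1) * u a) • ee F a + ((y - 1) * u b) • ee F b +
      ((z - 1) * u d) • ee F d) i := fun i ij ik => by
    simp [← hw, e1 _ p2 i ij ik, e2 _ p3 i ij ik, e3 _ p0 i ij ik, e2 _ p3 a aj ak,
      e3 _ p0 a aj ak, e3 _ p0 b bj bk, ee_ne b ba.symm, ee_ne d da.symm, ee_ne d db.symm]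
    ring
  rw [hw] at p1
  have e5 : w = u + ((x - 1) * u a) • ee F a + ((y - 1) * u b) • ee F b +
      ((z - 1) * u d) • ee F d + (w j - u j) • (ee F j + ee F k) := funext fun i => by
    by_cases ij : i = j
    · simp [ij, ee_ne a aj.symm, ee_ne b bj.symm, ee_ne d dj.symm, ee_ne k jk]
    by_cases ik : i = k
    · simp [ik, ee_ne a ak.symm, ee_ne b bk.symm, ee_ne d dk.symm, ee_ne j jk.symm]
      linear_combination p1 - p0 + (u j - w j) * h2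
    simp [e4 i ij ik, ee_ne j ij, ee_ne k ik]
  have uu : hermSesq ι σ u u = 1 := by simp [← hu, (h.ug hg.1).1]
  obtain ⟨β, hβ⟩ : ∃ β, hermSesq ι σ w u = β := ⟨_, rfl⟩
  have tr : β + σ β = 1 := by
    rw [← hβ, e5]
    simp [uu, ← mul_add, p0, h.inv]
    linear_combination -e
  have β0 : β ≠ 0 := by rintro rfl; simp at tr
  have β1 := (map_ne_zero σ).2 β0
  have nζ : σ (1 - β⁻¹) * (1 - β⁻¹) = 1 := by
    simp only [map_sub, map_one, map_inv₀]; field_simp; linear_combination -tr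
  obtain ⟨c, hc, e6⟩ := h.hs h2 jk hg' aj ak (ζ := Units.mk0 _ (right_ne_zero_of_mul_eq_one nζ)) nζ
  have e7 : ∀ i, i ≠ j → i ≠ k → (c * g) (ee F a) i = u i - w i := fun i ij ik => by
    rw [LinearEquiv.mul_apply, hu, e6 u p0 i ij ik, hw', hβ]; simp [β0]; ring
  obtain ⟨π, ν, -, n1, -⟩ := exists_of_mem_MonG (h.Z1 h2 jk (mul_mem hc hg) aj ak lj lk (by
    simp [e7 l lj lk, e4 l lj lk, ee_ne a la, ee_ne b lb, ee_ne d ld]))
  have key : ∀ {i}, i ≠ j → i ≠ k → u i ≠ w i → i = π a := fun {i} ij ik e =>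
    by_contra fun e' => e (sub_eq_zero.1 (by simp [← e7 i ij ik, n1, ee_ne _ e']))
  exact ba ((key bj bk (by
    simp [e4 b bj bk, ee_ne a ba, ee_ne d db.symm, sub_eq_zero, y1, nz bj bk])).trans (key aj ak (by
    simp [e4 a aj ak, ee_ne b ba.symm, ee_ne d da.symm, sub_eq_zero, x1, nz aj ak])).symm)

theorem dih_a (h : FU σ q M) (h2 : (2 : F) = 0) (hg : g ∈ M) (hs : Sv σ s) (ht : Tv σ t s)
    (e : g * t * g⁻¹ ∈ MonG ι F) : g ∈ MonG ι F := by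
  have h5 : 5 ≤ Fintype.card ι := by have := h.six; omega
  obtain ⟨j, k, jk⟩ := Fintype.exists_pair_of_one_lt_card (α := ι) (by omega)
  obtain ⟨a, ha, e1⟩ := hs.move h2 h5 jk
  obtain ⟨b, hb, e2⟩ := (Sv.of_mon h.inv h2 ((map_ne_zero_iff _ g.injective).2 (by
    rintro rfl; simpa using hs.norm.1)) (by rw [(h.ug hg).1, hs.iso h2]) (ht.conj (h.ug hg))
    (mul_mem (mul_mem (h.ug hg) (hs.mem h2 ht).1.1) (inv_mem (h.ug hg))) e).move h2 h5 jk
  have := h.As h2 jk (g := b * g * a⁻¹) ⟨M.mul_mem (M.mul_mem (h.lo hb) hg) (M.inv_mem (h.lo ha)),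
    mem_lineStab (c := 1) (by
      rw [one_smul, LinearEquiv.mul_apply, LinearEquiv.mul_apply]
      nth_rw 1 [← e1]; rw [inv_apply_apply, e2])⟩
  rwa [Subgroup.mul_mem_cancel_right _ (inv_mem ha).2, Subgroup.mul_mem_cancel_left _ hb.2] at this

theorem dih_even (h : FU σ q M) (h2 : (2 : F) = 0) :
    Dih M (MonG ι F) {t | ∃ s, Sv σ s ∧ Tv σ t s} := by
  have sq : ∀ {t : (ι → F) ≃ₗ[F] (ι → F)} {s}, Sv σ s → Tv σ t s → t * t = 1 := fun {t s} hs ht =>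
    LinearEquiv.ext fun x => by
      simp [ht _, hs.iso h2]
      linear_combination (norm := module) (hermSesq ι σ s x * h2) • s
  refine ⟨?_, ?_, ?_, ?_, ?_, ?_⟩
  · rintro _ ⟨s, hs, ht⟩; exact h.lo (hs.mem h2 ht)
  · rintro _ ⟨s, hs, ht⟩; exact (hs.mem h2 ht).2
  · rintro _ ⟨s, hs, ht⟩; exact sq hs ht
  · rintro g hg hg' t ⟨s, hs, ht⟩
    have := hs.mem h2 ht
    exact ⟨_, Sv.of_mon h.inv h2 ((map_ne_zero_iff _ g.injective).2 (by
      rintro rfl; simpa using hs.norm.1)) (by rw [(h.ug hg).1, hs.iso h2]) (ht.conj (h.ug hg))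
      (mul_mem (mul_mem (h.ug hg) this.1.1) (inv_mem (h.ug hg)))
      (mul_mem (mul_mem hg' this.2) (inv_mem hg')), ht.conj (h.ug hg)⟩
  · rintro g hg t ⟨s, hs, ht⟩ e; exact h.dih_a h2 hg hs ht e
  rintro g hg t₁ ⟨s₁, s1, h1⟩ t₂ ⟨s₂, s2, h3⟩ t₃ ⟨_, ⟨a, b, -, _, _, -, -, rfl⟩, h4⟩
    t₄ ⟨_, ⟨c, d, -, _, _, -, -, rfl⟩, h5⟩ n1 - e
  obtain ⟨m, ma, mb, mc, md, -⟩ := h.fresh a b c d d
  obtain ⟨y, hy⟩ := g.surjective (ee F m)
  have e1 : t₁ (t₂ y) = y := g.injective (by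
    have := congrArg (· (g y)) e
    simp only [LinearEquiv.mul_apply, inv_apply_apply] at this
    rw [this, hy, h5, h4]
    simp [ee_ne a ma, ee_ne b mb, ee_ne c mc, ee_ne d md])
  have e2 : t₁ y = t₂ y := by
    nth_rw 1 [← e1]; rw [← LinearEquiv.mul_apply, sq s1 h1]; rfl
  refine h.dih_a h2 hg s1 h1 (h.A (mul_mem (mul_mem hg (h.lo (s1.mem h2 h1))) (inv_mem hg))
    (i := m) (j := m) fun l hl => ?_)
  by_cases e3 : hermSesq ι σ s₁ y = 0
  · simp [← hy, inv_apply_apply, h1 y, e3]; simp [hy, ee_ne m hl]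
  rw [h1, h3, add_right_inj] at e2
  obtain ⟨c, rfl⟩ : ∃ c : F, s₁ = c • s₂ :=
    ⟨(hermSesq ι σ s₁ y)⁻¹ * hermSesq ι σ s₂ y, by rw [mul_smul, ← e2, inv_smul_smul₀ e3]⟩
  obtain ⟨i, hi⟩ := s1.norm.1
  have hc : σ c * c = 1 := by
    rcases s2.norm.2 i with e | e
    · simp [e] at hi
    · simp at hi; linear_combination hi - σ c * c * e
  refine absurd ?_ n1
  rw [h3.eq (t' := t₁) fun x => ?_, sq s1 h1]
  simp [h1 x, smul_smul]
  linear_combination (norm := module) (hermSesq ι σ s₂ x * hc) • s₂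

theorem le_even (h : FU σ q M) (h2 : (2 : F) = 0) : M ≤ MonG ι F := fun g hg => by
  by_contra hn
  have h6 := h.six
  have : Finite ((ι → F) ≃ₗ[F] (ι → F)) := Finite.of_injective _ DFunLike.coe_injective
  have tv : ∀ {a b : ι} (ab : a ≠ b), Tv σ (swp ab (1 : Fˣ) 1) (ee F a + ee F b) := fun ab => by
    simpa using tv_swp (σ := σ) h2 ab (α := 1) (β := 1) (by simp) (by simp)
  obtain ⟨a, b, ab⟩ := Fintype.exists_pair_of_one_lt_card (α := ι) (by omega)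
  obtain ⟨c, ca, cb, -⟩ := h.fresh a b b b b
  obtain ⟨S, h1, s2, h3⟩ := (h.dih_even h2).exists_regular hg hn ⟨_, .one ab, tv ab⟩
  obtain ⟨y, ⟨hy, e1⟩, -⟩ := h3 _ ⟨_, .one ab, tv ab⟩ _ ⟨_, .one ca, tv ca⟩
  obtain ⟨yM, ym, -, _, _, ⟨g₁, hg₁, t₁, ⟨s₁, -, t1⟩, rfl⟩, ⟨g₂, hg₂, t₂, ⟨s₂, -, t2⟩, rfl⟩, e⟩ :=
    s2 y hy
  have key := mon_rank_two' ym (p := g₁ s₁) (q := g₂ s₂) fun z => ⟨_, _, by
    rw [e, LinearEquiv.mul_apply, t1.conj (h.ug hg₁), add_sub_right_comm, t2.conj (h.ug hg₂),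
      add_sub_cancel_left, add_comm]⟩
  obtain ⟨j, -, j1⟩ := key [] (by simp; omega)
  obtain ⟨k, kj, k1⟩ := key [j] (by simp; omega)
  have kj : k ≠ j := by simpa using kj
  obtain ⟨_, -, e2⟩ := h3 _ ⟨_, .one kj, tv kj⟩ _ ⟨_, .one kj, tv kj⟩
  rw [(e2 y ⟨hy, ((tv kj).conj (h.ug yM)).eq (by simpa [j1, k1] using tv kj)⟩).trans
    (e2 1 ⟨h1, by simp⟩).symm] at e1
  simpa [swp_one_apply, ee_ne c ca.symm, ee_ne c cb.symm, ee_ne a ca] using
    congrFun (congrArg (· (ee F c)) e1) c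

end FU

/-- The monomial subgroup of `SU_n(q)` is maximal for `n ≥ 6`, `(n, q) ≠ (6, 2)`. -/
theorem su_maxIn_MonG (h : UF σ q) (h6 : 6 ≤ Fintype.card ι) (h7 : q = 2 → 7 ≤ Fintype.card ι) :
    MaxIn (SUG (hermSesq ι σ)) (MonG ι F) := by
  refine ⟨fun hle => ?_, fun M h1 h3 m hm hm' => by_contra fun hn => hm' ?_⟩
  swap
  · have hM : FU σ q M := ⟨h, h6, h7, h1, h3, hn⟩
    by_cases h2 : (2 : F) = 0
    exacts [hM.le_even h2 hm, hM.le_odd h2 hm]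
  obtain ⟨a, b, ab⟩ := Fintype.exists_pair_of_one_lt_card (α := ι) (by omega)
  obtain ⟨c, ca⟩ := exists_notMem_list [a, b] (by simp; omega)
  obtain ⟨o, oa⟩ := exists_notMem_list [a, b, c] (by simp; omega)
  simp only [List.mem_cons, List.not_mem_nil, or_false, not_or] at ca oa
  obtain ⟨τ, hτ⟩ := exists_norm_eq h.ne h.inv (c := -1) (by simp)
  have τ0 : τ ≠ 0 := by rintro rfl; simp at hτ
  obtain ⟨ζ, hζ, ζ1⟩ := h.exists_one [1] (by have := h.two_le; simp; omega)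
  have ζ1 : (ζ : F) - 1 ≠ 0 := sub_ne_zero.2 (by simpa using ζ1)
  obtain ⟨u, hu⟩ : ∃ u, u = ee F a + ee F b + τ • ee F c := ⟨_, rfl⟩
  have ua : u a = 1 := by simp [hu, ee_ne b ab, ee_ne c (Ne.symm ca.1)]
  have ub : u b = 1 := by simp [hu, ee_ne a ab.symm, ee_ne c (Ne.symm ca.2)]
  have uc : u c = τ := by simp [hu, ee_ne a ca.1, ee_ne b ca.2]
  have uu : hermSesq ι σ u u = 1 := by
    nth_rw 1 [hu]; simp [ua, ub, uc]; linear_combination hτ
  have e : 1 + (((ζ : F) - 1) • hermSesq ι σ u) u = ζ := by simp [uu]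
  obtain ⟨π, ν, -, n1, -⟩ := exists_of_mem_MonG (hle (x := dl _ u (e ▸ ζ.ne_zero) * (hm o ζ)⁻¹)
    ⟨(UG _).mul_mem (mem_UG.2 fun x y => by
      simp [dl_apply, uu, (isHerm_hermSesq h.ne h.inv).eq u x]
      linear_combination hermSesq ι σ x u * hermSesq ι σ u y * hζ) ((UG _).inv_mem (hm_mem_UG o hζ)),
      Units.ext (by simp [ledet_hm, LinearEquiv.coe_det, det_dl, uu])⟩)
  have key : ∀ l, l ≠ a → u l ≠ 0 → l = π a := fun l la ul => by_contra fun e' => by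
    have := congrFun (n1 a) l
    rw [LinearEquiv.mul_apply, ← hm_of_eq_zero o ζ (ee_ne a oa.1), inv_apply_apply] at this
    simp [dl_apply, ee_ne _ e', ee_ne a la, ua, ul, ζ1] at this
  exact ca.2 ((key c ca.1 (uc ▸ τ0)).trans (key b ab.symm (ub ▸ one_ne_zero)).symm)

/-- Stabilisers of orthogonal frames are maximal in `SU_n(q)` for `n ≥ 6`, `(n, q) ≠ (6, 2)`. -/
theorem su_maxIn_frame {V : Type*} [AddCommGroup V] [Module F V] [FiniteDimensional F V]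
    {B : V →ₛₗ[σ] V →ₗ[F] F} {D : ι → Submodule F V} (hU : UF σ q)
    (h : ODec B (fun x => B x x) 1 D) (h6 : 6 ≤ finrank F V) (h7 : q = 2 → 7 ≤ finrank F V) :
    MaxIn (SUG B) (decStab D) := by
  rcases isEmpty_or_nonempty ι with hι | ⟨⟨o⟩⟩
  · have := h.top
    rw [iSup_of_empty] at this
    rw [← finrank_top, ← this] at h6; simp at h6
  obtain ⟨e, δ, hδ, h1, h3⟩ := h.exists_frame o
  rw [← e.finrank_eq, finrank_fintype_fun_eq_card] at h6 h7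
  refine (su_maxIn_MonG hU h6 h7).of_equiv (autCongr e) (fun g => and_congr ?_
    (autCongr_mem_SLG e g)) (autCongr_mem_decStab e h1)
  refine mem_UG.trans (Iff.trans ?_ mem_UG.symm)
  refine e.surjective.forall.trans (forall_congr' fun u =>
    e.surjective.forall.trans (forall_congr' fun v => ?_))
  simp [autCongr_apply, h3, hδ, hermSesq_apply]

end CF.Geom
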