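/-
Maximality of stabilisers of non-degenerate decompositions in `SU_n(q)`, all block sizes.
-/
import Cfsg.Agent.Geom.FrU3
import Cfsg.Agent.Geom.UMat
import Cfsg.Agent.Geom.MaxC2O

set_option autoImplicit false

namespace CF.Geom

open Cfsg Cfsg.Geo

/-- Stabilisers of non-degenerate decompositions are maximal in `SU_n(q)` for `n ≥ 6`, unless
`q = 2` and either the blocks are planes or `n = 6` and the blocks are lines. -/
theorem su_isMaximalIn_dec {F : Type*} [Field F] [Fintype F] {n q t k : ℕ}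
    (hF : Fintype.card F = q ^ 2) (hn : 6 ≤ n) {D : Fin t → Submodule F (Fin n → F)}
    (hD : IsNondegenerateMDecomposition (hermForm n F q) k D) (h2 : ¬ (k = 2 ∧ q = 2))
    (h1 : k = 1 → q = 2 → 7 ≤ n) : IsMaximalIn (GU n F q ⊓ specialLinear (Fin n) F)
      (decompositionStabilizer D ⊓ (GU n F q ⊓ specialLinear (Fin n) F)) := by
  obtain ⟨σ, hσ, s1, s2⟩ := exists_conj hF
  have hd := odec_su hσ s1 s2 hD
  have := nontrivial_fin hD.decomp
  have e := finrank_eq_of_isMDec hD.decomp
  refine MaxIn.isMaximalIn (glEquiv _ F) ?_ (mem_SU_iff hσ) (mem_decompositionStabilizer_iff D)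
  obtain rfl | rfl | hk : k = 0 ∨ k = 1 ∨ 2 ≤ k := by omega
  · simp at e; omega
  · exact su_maxIn_frame ⟨hF, hσ, s1, s2⟩ hd (by simpa) (by simpa using h1 rfl)
  refine su_maxIn_dec (isHerm_hermSesq s1 s2) (hermSesq_nondegenerate σ) hd hk (by simp; omega) ?_
  by_cases h3 : 3 ≤ k
  · exact Or.inl h3
  · simpa only [hσ] using Or.inr (exists_fixed_ne_zero_ne_one hF fun q2 => h2 ⟨by omega, q2⟩)

end CF.Geom
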