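/-
Groups containing the reflections of an orthogonal decomposition into planes.
-/
import Cfsg.Agent.Geom.K2A

set_option autoImplicit false
set_option linter.unusedSectionVars false

namespace CF.Geom

open Module QuadraticMap

variable {F V : Type*} [Field F] [AddCommGroup V] [Module F V] [Finite F] [FiniteDimensional F V]
  {Q : QuadraticForm F V} {P : Submodule F V}

theorem polar_oRefl_self {a s : V} (qs : Q s = 0) (qa : Q a ≠ 0) (e : polar Q a s ≠ 0) :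
    polar Q s ((oRefl Q a).1 s) ≠ 0 := by
  simp [oRefl_apply, polar_self', qs, qa, e, polar_comm Q s a]

theorem oRefl_mem_of {a x : V} (ha : a ∈ P) (hx : x ∈ P) : (oRefl Q a).1 x ∈ P := by
  rw [oRefl_apply]; exact sub_mem hx (P.smul_mem _ ha)

namespace Pl

theorem exists_nonsing (h : Pl Q P) {x : V} (hx : x ∈ P) (x0 : x ≠ 0) :
    ∃ a ∈ P, Q a ≠ 0 ∧ polar Q x a ≠ 0 := by
  obtain ⟨y, hy, h1, h2⟩ := h.exists_partner hx x0
  obtain ⟨c, -, c1, c2⟩ := h.exists_good hx hy h1 h2 [] (by simp)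
  exact ⟨_, add_mem hy (P.smul_mem c hx), c1, c2⟩

theorem exists_nonsing' (h : Pl Q P) : ∃ a ∈ P, Q a ≠ 0 := by
  obtain ⟨x, hx, x0⟩ := P.exists_mem_ne_zero_of_ne_bot (by rintro rfl; have := h.dim; simp at this)
  obtain ⟨a, ha, qa, -⟩ := h.exists_nonsing hx x0
  exact ⟨a, ha, qa⟩

theorem exists_refl' (h : Pl Q P) {x : V} (hx : x ∈ P) (x0 : x ≠ 0) :
    ∃ a ∈ P, Q a ≠ 0 ∧ (oRefl Q a).1 x ∉ F ∙ x ∧ polar Q x ((oRefl Q a).1 x) ≠ 0 := by
  by_cases qx : Q x = 0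
  · obtain ⟨a, ha, qa, e⟩ := h.exists_nonsing hx x0
    have := polar_oRefl_self qx qa (polar_comm Q x a ▸ e)
    refine ⟨a, ha, qa, fun m => this ?_, this⟩
    obtain ⟨c, hc⟩ := Submodule.mem_span_singleton.1 m
    simp [← hc, polar_self', qx]
  · exact h.exists_refl hx qx

theorem map (h : Pl Q P) {g : V ≃ₗ[F] V} (hg : g ∈ OG Q) : Pl Q (P.map (g : V →ₗ[F] V)) := by
  refine ⟨?_, by rw [LinearEquiv.finrank_map_eq, h.dim], h.pc.imp_left fun e => ⟨?_, e.2⟩⟩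
  · rw [← map_perp hg.1]
    exact Submodule.disjoint_map g.injective h.nd
  · rintro _ ⟨u, hu, rfl⟩ q
    rw [e.1 u hu ((mem_OG.1 hg u).symm.trans q)]; simp

/-- A plane has at most two singular points. -/
theorem sing3 (h : Pl Q P) {e f x : V} (he : e ∈ P) (hf : f ∈ P) (hx : x ∈ P) (e0 : e ≠ 0)
    (qe : Q e = 0) (qf : Q f = 0) (qx : Q x = 0) (ef : f ∉ F ∙ e) (ex : x ∉ F ∙ e) : x ∈ F ∙ f := by
  have b : polar Q e f ≠ 0 := fun b => e0 (h.eq_zero he hf e0 ef he (by simp [polar_self', qe])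
    (polar_comm Q e f ▸ b))
  rw [← h.span he hf e0 ef, Submodule.mem_span_pair] at hx
  obtain ⟨α, β, rfl⟩ := hx
  have β0 : β ≠ 0 := by rintro rfl; exact ex (by simp [Submodule.mem_span_singleton])
  have : α = 0 := by simpa [quad_add, quad_smul, qe, qf, b, β0] using qx
  simp [this, Submodule.mem_span_singleton]

theorem fix_refl (h : Pl Q P) {u w z : V} (hu : u ∈ P) (hw : w ∈ P) (qu : Q u ≠ 0) (qw : Q w ≠ 0)
    (uw : u ∉ F ∙ w) (hz : z ∈ P) (e : (oRefl Q u).1 ((oRefl Q w).1 z) = z) : z = 0 := by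
  have w0 : w ≠ 0 := by rintro rfl; simp at qw
  have e1 : (oRefl Q w).1 z = (oRefl Q u).1 z := by
    nth_rw 2 [← e]; rw [← LinearEquiv.mul_apply (oRefl Q u).1, oRefl_sq]; rfl
  rw [oRefl_apply, oRefl_apply, sub_right_inj, ← sub_eq_zero, sub_eq_add_neg, ← neg_smul] at e1
  have := LinearIndependent.pair_iff.1 (linearIndependent_pair_of_notMem w0 uw) _ _ e1
  exact h.eq_zero hw hu w0 uw hz (by simpa [qw] using this.1) (by simpa [qu] using this.2)

/-- A rotation in `Ω` whose square has no fixed vector. -/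
theorem exists_rot (hQ : (polarBilin Q).Nondegenerate) (h : Pl Q P) :
    ∃ ρ ∈ OmG Q, ρ ∈ Supp (polarBilin Q) Q P ∧ ∀ z ∈ P, ρ (ρ z) = z → z = 0 := by
  obtain ⟨x, hx, qx⟩ := h.exists_nonsing'
  obtain ⟨a, ha, -, h1, h2⟩ := h.exists_refl hx qx
  have m := oRefl_mem_of (Q := Q) ha hx
  have q := mem_OG.1 (oRefl Q a).2 x
  generalize (oRefl Q a).1 x = y at *
  have x0 : x ≠ 0 := by rintro rfl; simp at qx
  refine ⟨_, oRefl_mul_mem_OmG hQ qx q, mul_mem (oRefl_mem_Supp hx) (oRefl_mem_Supp m),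
    fun z hz e => h.fix_refl (oRefl_mem_of (a := x) hx m) m (by rwa [mem_OG.1 (oRefl Q x).2, q])
      (q ▸ qx) (fun e' => h1 ?_) hz ?_⟩
  · obtain ⟨c, rfl⟩ := Submodule.mem_span_singleton.1 (mem_span_of_refl qx h2 e')
    exact Submodule.mem_span_singleton.2 ⟨c⁻¹, by
      rw [smul_smul, inv_mul_cancel₀ (by rintro rfl; simp at x0), one_smul]⟩
  · rwa [← LinearEquiv.mul_apply, oRefl_oRefl_mul]

end Pl

variable {τ : Type*} [Finite τ] {D : τ → Submodule F V} {I : τ → Prop}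
  {X : Subgroup (V ≃ₗ[F] V)}

/-- An orthogonal decomposition into planes with enough points. -/
structure PD (Q : QuadraticForm F V) (D : τ → Submodule F V) : Prop where
  dec : ODec (polarBilin Q) Q 2 D
  pc : ((∀ i, ∀ u ∈ D i, Q u = 0 → u = 0) ∧ Nat.card F ≠ 3) ∨ 7 ≤ Nat.card F

namespace PD

theorem pl (h : PD Q D) (i : τ) : Pl Q (D i) :=
  ⟨h.dec.nondeg i, h.dec.dim i, h.pc.imp_left fun e => ⟨e.1 i, e.2⟩⟩

theorem nd (h : PD Q D) : (polarBilin Q).Nondegenerate := h.dec.witt.nondegenerate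

theorem pol (h : PD Q D) {i j : τ} (ij : i ≠ j) {x y : V} (hx : x ∈ D i) (hy : y ∈ D j) :
    polar Q x y = 0 := h.dec.B_eq_zero ij hx hy

theorem exists_opp (h : PD Q D) {i j : τ} {x y : V} (hx : x ∈ D i) (hy : y ∈ D j) (qx : Q x ≠ 0)
    (qy : Q y ≠ 0) :
    ∃ a ∈ D i, ∃ b ∈ D j, Q a ≠ 0 ∧ Q a + Q b = 0 ∧ polar Q a x = 1 ∧ polar Q b y = 1 := by
  have key : ∀ i j, (∀ u ∈ D i, Q u = 0 → u = 0) → ∀ u ∈ D j, Q u = 0 → u = 0 :=
    fun i j e u hu q => by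
    obtain ⟨φ, -, hφ⟩ := h.dec.iso j i
    simpa using e _ (φ ⟨u, hu⟩).2 ((hφ _).trans q)
  exact (h.pl i).exists_opp (h.pl j) ⟨key i j, key j i⟩ hx hy qx qy

theorem exists_pair (h : PD Q D) {k r : τ} (kr : k ≠ r) : ∃ u ∈ D k ⊔ D r, ∃ f ∈ D k ⊔ D r,
    Q u = Q 0 ∧ Q f = Q 0 ∧ polarBilin Q u f ≠ 0 := by
  obtain ⟨y, hy, qy⟩ := (h.pl k).exists_nonsing'
  obtain ⟨y', hy', qy'⟩ := (h.pl r).exists_nonsing'
  obtain ⟨b, hb, c, hc, -, bc, b1, -⟩ := h.exists_opp hy hy' qy qy'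
  have hu : b + c ∈ D k ⊔ D r := Submodule.add_mem_sup hb hc
  have qu : Q (b + c) = Q 0 := by simp [quad_add, bc, h.pol kr hb hc]
  obtain ⟨f, hf, qf, uf⟩ := h.dec.witt.exists_partner_mem hu qu fun e => by
    simpa [h.pol kr hy hc, polar_comm Q y b, b1] using mem_perp.1 e y (Submodule.mem_sup_left hy)
  exact ⟨_, hu, f, hf, qu, qf, uf ▸ one_ne_zero⟩

theorem exists_comp (h : PD Q D) {i : τ} {v : V} (hv : v ∉ perp (polarBilin Q) (D i)) :
    ∃ a ∈ D i, a ≠ 0 ∧ v - a ∈ perp (polarBilin Q) (D i) := by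
  obtain ⟨a, ha, e⟩ := h.dec.witt.exists_comp (h.dec.nondeg i) v
  exact ⟨a, ha, by rintro rfl; exact hv (by simpa using e), e⟩

end PD

/-- A group containing the reflections and swaps of the planes `D i` with `I i`. -/
structure RB (Q : QuadraticForm F V) (D : τ → Submodule F V) (I : τ → Prop)
    (X : Subgroup (V ≃ₗ[F] V)) : Prop extends PD Q D where
  le : X ≤ OG Q
  out : ∀ g ∈ X, ∀ i, ¬ I i → ∀ x ∈ D i, g x = x
  refl : ∀ i, I i → ∀ a ∈ D i, Q a ≠ 0 → (oRefl Q a).1 ∈ X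
  swap : ∀ j l, I j → I l → j ≠ l → ∃ g ∈ X, (D j).map (g : V →ₗ[F] V) = D l ∧
    ∀ x ∈ perp (polarBilin Q) (D j), x ∈ perp (polarBilin Q) (D l) → g x = x
  fresh : ∀ a b c, ∃ i, I i ∧ i ≠ a ∧ i ≠ b ∧ i ≠ c

namespace RB

variable {v : V} {i j k : τ}

theorem mem_I (h : RB Q D I X) (hv : (oRefl Q v).1 ∈ X) (qv : Q v ≠ 0)
    (e : v ∉ perp (polarBilin Q) (D i)) : I i := by_contra fun hi => e (mem_perp.2 fun x hx => by
  have := h.out _ hv i hi x hx
  rw [oRefl_apply, sub_eq_self, smul_eq_zero, mul_eq_zero] at this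
  rcases this with (e | e) | rfl
  exacts [absurd e (inv_ne_zero qv), (polar_comm Q x v).trans e, by simp])

theorem refl_map (h : RB Q D I X) (hv : (oRefl Q v).1 ∈ X) {g : V ≃ₗ[F] V} (hg : g ∈ X) :
    (oRefl Q (g v)).1 ∈ X :=
  conj_oRefl' (h.le hg) v ▸ mul_mem (mul_mem hg hv) (inv_mem hg)

theorem three (h : RB Q D I X) (hv : (oRefl Q v).1 ∈ X) (qv : Q v ≠ 0) (hn : ∀ i, v ∉ D i) :
    ∃ v, (oRefl Q v).1 ∈ X ∧ Q v ≠ 0 ∧ ∃ i j k, i ≠ j ∧ i ≠ k ∧ j ≠ k ∧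
      v ∉ perp (polarBilin Q) (D i) ∧ v ∉ perp (polarBilin Q) (D j) ∧
      v ∉ perp (polarBilin Q) (D k) := by
  obtain ⟨l, a, ha, e, -⟩ := h.dec.exists_nonsing_comp qv
  have : Nonempty τ := ⟨l⟩
  obtain ⟨i, j, ij, hi, hj⟩ := h.dec.exists_two hn
  by_cases h3 : ∃ k, i ≠ k ∧ j ≠ k ∧ v ∉ perp (polarBilin Q) (D k)
  · obtain ⟨k, h1, h2, h3⟩ := h3
    exact ⟨v, hv, qv, i, j, k, ij, h1, h2, hi, hj, h3⟩
  push Not at h3
  clear e ha a l
  obtain ⟨a, ha, a0, e⟩ := h.exists_comp hj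
  have hx : v - a ∈ D i := h.dec.mem_of_perp fun l hl => by
    by_cases lj : j = l
    exacts [lj ▸ e, sub_mem (h3 l hl.symm lj) (h.dec.orth l j (Ne.symm lj) ha)]
  obtain ⟨x, rfl⟩ : ∃ x, v = x + a := ⟨v - a, by simp⟩
  rw [add_sub_cancel_right] at hx e
  have x0 : x ≠ 0 := by rintro rfl; exact hn j (by simpa using ha)
  obtain ⟨k, hk, ki, kj, -⟩ := h.fresh i j j
  obtain ⟨g, hg, g1, g2⟩ := h.swap j k (h.mem_I hv qv hj) hk kj.symm
  have g3 : g a ∈ D k := g1 ▸ Submodule.mem_map_of_mem ha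
  have g4 : g (x + a) = x + g a := by rw [map_add, g2 x e (h.dec.orth k i ki hx)]
  obtain ⟨b, hb, qb, b1, b2⟩ := (h.pl i).exists_refl' hx x0
  have b3 := oRefl_mem_of (Q := Q) hb hx
  have r1 := h.refl_map hv hg
  have r2 := h.refl_map (h.refl_map hv (h.refl i (h.mem_I hv qv hi) b hb qb)) r1
  have q1 := mem_OG.1 (h.le hg) (x + a)
  refine ⟨_, r2, by rwa [mem_OG.1 (oRefl Q _).2, mem_OG.1 (oRefl Q _).2], i, j, k, ij, ki.symm,
    kj.symm, ?_⟩
  rw [map_add (oRefl Q b).1, oRefl_of_polar_eq_zero (h.pol ij hb ha), oRefl_apply, q1, g4]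
  generalize (oRefl Q b).1 x = y at *
  obtain ⟨c, hc⟩ : ∃ c, c = (Q (x + a))⁻¹ * polar Q (x + g a) (y + a) := ⟨_, rfl⟩
  have c0 : c ≠ 0 := by simp [hc, qv, h.pol ij hx ha, h.pol ki g3 b3, h.pol kj g3 ha, b2]
  rw [← hc]
  have key : ∀ {l : τ} {u w : V}, u ∈ D l → w ∈ perp (polarBilin Q) (D l) →
      u + w ∈ perp (polarBilin Q) (D l) → u = 0 := fun hu hw e =>
    Submodule.disjoint_def.1 (h.dec.nondeg _) _ hu (by simpa using sub_mem e hw)
  have o := h.dec.orth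
  refine ⟨fun e => b1 ?_, fun e => a0 ?_, fun e => a0 ?_⟩
  · rw [sub_eq_zero.1 (key (w := a - c • g a) (sub_mem b3 (Submodule.smul_mem _ c hx))
      (sub_mem (o i j ij ha) (Submodule.smul_mem _ c (o i k ki.symm g3))) (by
        convert e using 1; module))]
    exact Submodule.smul_mem _ c (Submodule.mem_span_singleton_self x)
  · exact key (w := y - c • (x + g a)) ha (sub_mem (o j i ij.symm b3) (Submodule.smul_mem _ c
      (add_mem (o j i ij.symm hx) (o j k kj.symm g3)))) (by convert e using 1; module)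
  · simpa [c0] using key (w := y + a - c • x) (Submodule.smul_mem _ (-c) g3)
      (sub_mem (add_mem (o k i ki b3) (o k j kj ha)) (Submodule.smul_mem _ c (o k i ki hx)))
      (by convert e using 1; module)

theorem sing₀ (h : RB Q D I X) (hi : I i) {e : V} (he : e ∈ D i) (e0 : e ≠ 0) (qe : Q e = 0)
    (hv : v - e ∈ perp (polarBilin Q) (D i)) :
    ∃ y ∈ D i, y ≠ 0 ∧ Q y = 0 ∧ ∃ g ∈ X, g v = v + y := by
  have h7 := h.pc.resolve_left fun e' => e0 (e'.1 i e he qe)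
  obtain ⟨μ, hμ⟩ := exists_notMem_list' (F := F) [0, 1] (by simp; omega)
  simp only [List.mem_cons, List.not_mem_nil, or_false, not_or] at hμ
  obtain ⟨f, hf, qf, ef⟩ := h.dec.witt.exists_partner_mem he (by simpa using qe)
    fun m => e0 (Submodule.disjoint_def.1 (h.dec.nondeg i) e he m)
  have qf' : Q f = 0 := by simpa using qf
  have m : ∀ c : F, e - c • f ∈ D i := fun c => sub_mem he (Submodule.smul_mem _ c hf)
  have q : ∀ c : F, c ≠ 0 → Q (e - c • f) ≠ 0 := fun c hc => by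
    simpa [quad_sub, quad_smul, qe, qf', show polar Q e f = 1 from ef] using hc
  refine ⟨(μ - 1) • e, Submodule.smul_mem _ _ he, smul_ne_zero (sub_ne_zero.2 hμ.2) e0,
    by simp [quad_smul, qe], _, mul_mem (h.refl i hi _ (m 1) (q 1 one_ne_zero))
    (h.refl i hi _ (m μ) (q μ hμ.1)), ?_⟩
  rw [← sub_eq_iff_eq_add', Supp_comp hv (mul_mem (oRefl_mem_Supp (m 1)) (oRefl_mem_Supp (m μ))),
    LinearEquiv.mul_apply, (oRefl_hyp_apply qe qf' ef hμ.1).1, map_smul,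
    (oRefl_hyp_apply qe qf' ef one_ne_zero).2]
  module

theorem sing (h : RB Q D I X) (hv : (oRefl Q v).1 ∈ X) (qv : Q v ≠ 0) (ij : i ≠ j)
    (hi : v ∉ perp (polarBilin Q) (D i)) (hj : v ∉ perp (polarBilin Q) (D j)) :
    ∃ s ∈ D i ⊔ D j, s ≠ 0 ∧ EM Q X s v := by
  suffices ∃ y ∈ D i ⊔ D j, y ≠ 0 ∧ Q y = 0 ∧ ∃ g ∈ X, g v = v + y by
    obtain ⟨y, hy, y0, qy, g, hg, e⟩ := this
    refine ⟨_, Submodule.smul_mem _ _ hy, smul_ne_zero (by simpa using qv) y0, EM.of_refl qy ?_ qv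
      (mul_mem (e ▸ h.refl_map hv hg) hv)⟩
    have := mem_OG.1 (h.le hg) v
    rwa [e, quad_add, qy, add_zero, add_eq_left, polar_comm] at this
  have I1 := h.mem_I hv qv hi
  have I2 := h.mem_I hv qv hj
  obtain ⟨x, hx, x0, e⟩ := h.exists_comp hi
  obtain ⟨x', hx', x0', e'⟩ := h.exists_comp hj
  by_cases qx : Q x = 0
  · exact (h.sing₀ I1 hx x0 qx e).imp fun y hy => ⟨Submodule.mem_sup_left hy.1, hy.2⟩
  by_cases qx' : Q x' = 0
  · exact (h.sing₀ I2 hx' x0' qx' e').imp fun y hy => ⟨Submodule.mem_sup_right hy.1, hy.2⟩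
  obtain ⟨a, ha, b, hb, qa, ab, a1, b1⟩ := h.exists_opp hx hx' qx qx'
  have qb : Q b = -Q a := eq_neg_of_add_eq_zero_right ab
  refine ⟨(Q a)⁻¹ • (b - a), Submodule.smul_mem _ _ (sub_mem (Submodule.mem_sup_right hb)
    (Submodule.mem_sup_left ha)), smul_ne_zero (inv_ne_zero qa) (sub_ne_zero.2 ?_), ?_, _,
    mul_mem (h.refl i I1 a ha qa) (h.refl j I2 b hb (by simpa [qb] using qa)), ?_⟩
  · rintro rfl
    exact ij (h.dec.eq_of_mem ha hb (by rintro rfl; simp at qa))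
  · simp [quad_smul, quad_sub, qb, h.pol ij.symm hb ha]
  · simp only [LinearEquiv.mul_apply, oRefl_apply, polar_sub_right, polar_smul_right,
      polar_comp e ha, polar_comp e' hb, a1, b1, h.pol ij ha hb, qb, inv_neg]
    module

theorem good (h : RB Q D I X) {s s' : V} {A : Submodule F V} (e : polar Q s s' ≠ 0)
    (qs : Q s = 0) (qs' : Q s' = 0) (hs : ∀ w ∈ A, EM Q X s w) (hs' : ∀ w ∈ A, EM Q X s' w) :
    Good (polarBilin Q) Q X ((F ∙ s) ⊔ (F ∙ s') ⊔ A) := by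
  have key : ∀ {s s' : V}, polar Q s s' ≠ 0 → Q s = 0 → (∀ w ∈ A, EM Q X s w) →
      Rad (polarBilin Q) Q s ((F ∙ s) ⊔ (F ∙ s') ⊔ A) ≤ X := fun {s s'} e qs hs =>
    (Rad_le_iff_eichler h.nd (by rintro rfl; simp at e) qs (Submodule.mem_sup_left
      (Submodule.mem_sup_left (Submodule.mem_span_singleton_self s)))).2 fun w hw e' => by
      obtain ⟨_, h1, d, hd, rfl⟩ := Submodule.mem_sup.1 hw
      obtain ⟨_, h2, _, h3, rfl⟩ := Submodule.mem_sup.1 h1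
      obtain ⟨α, rfl⟩ := Submodule.mem_span_singleton.1 h2
      obtain ⟨β, rfl⟩ := Submodule.mem_span_singleton.1 h3
      obtain rfl : β = 0 := by simpa [polar_self', qs, (hs d hd).perp, e] using e'
      have := ((EM.self qs α).add (EM.zero qs)).add (hs d hd)
      rw [← zero_smul F s'] at this
      exact this.2.2
  exact h.dec.witt.good_of_pair (Submodule.mem_sup_left (Submodule.mem_sup_left
    (Submodule.mem_span_singleton_self s))) (Submodule.mem_sup_left (Submodule.mem_sup_right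
    (Submodule.mem_span_singleton_self s'))) (by simpa using qs) (by simpa using qs') e
    (key e qs hs) (sup_comm (F ∙ s') _ ▸ key (polar_comm Q s s' ▸ e) qs' hs')

/-- A reflection in a vector outside all the planes generates everything. -/
theorem main (h : RB Q D I X) (hv : (oRefl Q v).1 ∈ X) (qv : Q v ≠ 0) (hn : ∀ i, v ∉ D i) :
    ∃ Y, Good (polarBilin Q) Q X Y ∧ ∀ i, I i → D i ≤ Y := by
  obtain ⟨v, hv, qv, i, j, k, ij, ik, jk, hi, hj, hk⟩ := h.three hv qv hn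
  obtain ⟨s, hs, s0, e⟩ := h.sing hv qv ij hi hj
  obtain ⟨r, Ir, ri, rj, rk⟩ := h.fresh i j k
  have Ik := h.mem_I hv qv hk
  have o := h.dec.orth
  have sp : ∀ l, l ≠ i → l ≠ j → s ∈ perp (polarBilin Q) (D l) := fun l h1 h2 =>
    sup_le (o l i h1) (o l j h2) hs
  have e1 : ∀ w ∈ D k, EM Q X s w := (h.pl k).irr
    (Z := ⟨⟨⟨{w | EM Q X s w}, EM.add⟩, EM.zero e.sing⟩, EM.neg⟩) (fun a ha qa z hz => by
      have := EM.map hz (oRefl Q a).2 (h.refl k Ik a ha qa)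
      rwa [oRefl_of_polar_eq_zero (mem_perp.1 (sp k ik.symm jk.symm) a ha)] at this) e hk
  have e2 : ∀ w ∈ D k ⊔ D r, EM Q X s w := fun w hw => by
    obtain ⟨x, hx, y, hy, rfl⟩ := Submodule.mem_sup.1 hw
    obtain ⟨g, hg, g1, g2⟩ := h.swap k r Ik Ir rk.symm
    obtain ⟨z, hz, rfl⟩ := g1.ge hy
    have := (e1 z hz).map (h.le hg) hg
    rw [g2 s (sp k ik.symm jk.symm) (sp r ri rj)] at this
    exact (e1 x hx).add this
  obtain ⟨m, Im, mk, mr, hm⟩ : ∃ m, I m ∧ m ≠ k ∧ m ≠ r ∧ s ∉ perp (polarBilin Q) (D m) := by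
    by_contra! hc
    refine s0 (h.dec.eq_zero fun l => ?_)
    by_cases li : l = i
    · exact li ▸ hc i (h.mem_I hv qv hi) ik ri.symm
    by_cases lj : l = j
    exacts [lj ▸ hc j (h.mem_I hv qv hj) jk rj.symm, sp l li lj]
  have pm : D k ⊔ D r ≤ perp (polarBilin Q) (D m) := sup_le (o m k mk) (o m r mr)
  obtain ⟨x, hx, x0, ex⟩ := h.exists_comp hm
  obtain ⟨a, ha, qa, xa⟩ := (h.pl m).exists_nonsing hx x0
  have hG := h.good (polar_oRefl_self e.sing qa (by rwa [polar_comp ex ha, polar_comm])) e.sing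
    ((mem_OG.1 (oRefl Q a).2 s).trans e.sing) e2 fun w hw => by
      have := (e2 w hw).map (oRefl Q a).2 (h.refl m Im a ha qa)
      rwa [oRefl_of_polar_eq_zero (x := w) (mem_perp.1 (pm hw) a ha)] at this
  obtain ⟨u, hu, f, hf, qu, qf, uf'⟩ := h.exists_pair rk.symm
  obtain ⟨Y, h1, hY⟩ := h.dec.witt.exists_max_good hG (Submodule.mem_sup_right hu)
    (Submodule.mem_sup_right hf) qu qf uf'
  have h2 : D k ⊔ D r ≤ Y := le_sup_right.trans h1
  have h3 : D m ≤ Y := (h.pl m).le_of hx x0 fun a ha qa xa => MaxGood.mem_of_refl hY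
    (h.refl m Im a ha qa) qa (h2 hu) (h2 hf) (by simpa using qu) (by simpa using qf) uf'
    (mem_perp.1 (pm hu) a ha) (mem_perp.1 (pm hf) a ha) (h1 (Submodule.mem_sup_left
    (Submodule.mem_sup_left (Submodule.mem_span_singleton_self s))))
    (by rwa [polar_comp ex ha, polar_comm])
  refine ⟨Y, hY.1, fun l Il => ?_⟩
  by_cases lk : l = k
  · exact lk ▸ le_sup_left.trans h2
  by_cases lr : l = r
  · exact lr ▸ le_sup_right.trans h2
  by_cases lm : m = l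
  · exact lm ▸ h3
  obtain ⟨g, hg, g1, g2⟩ := h.swap m l Im Il lm
  have g3 : ∀ w ∈ D k ⊔ D r, w ∈ Y.map (g : V →ₗ[F] V) := fun w hw =>
    ⟨w, h2 hw, g2 w (pm hw) (sup_le (o l k lk) (o l r lr) hw)⟩
  exact g1 ▸ (Submodule.map_mono h3).trans (hY.2 _ (hY.1.map (h.le hg) hg)
    ⟨_, h2 hu, f, h2 hf, g3 _ hu, g3 _ hf, qu, qf, uf'⟩)

end RB

end CF.Geom
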