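/-
Overgroups of the stabiliser in `Ω` of an orthogonal decomposition into planes.
-/
import Cfsg.Agent.Geom.K2B
import Cfsg.Agent.Geom.FrG

set_option autoImplicit false
set_option linter.unusedSectionVars false

namespace CF.Geom

open Module QuadraticMap

variable {F V : Type*} [Field F] [AddCommGroup V] [Module F V] [FiniteDimensional F V]
  {τ : Type*} [Fintype τ] {D : τ → Submodule F V}

namespace ODec

variable {σ : F →+* F} {B : V →ₛₗ[σ] V →ₗ[F] F} {Q : V → F} {k : ℕ}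

theorem finrank_eq' (h : ODec B Q k D) : finrank F V = Fintype.card τ * k := by
  classical
  have h1 := (DirectSum.isInternal_submodule_iff_iSupIndep_and_iSup_eq_top D).2
    ⟨fun i => (h.nondeg i).mono_right (iSup₂_le fun j hj => h.orth i j (Ne.symm hj)), h.top⟩
  have e := (LinearEquiv.ofBijective (DirectSum.coeLinearMap D) h1).finrank_eq
  rw [finrank_directSum] at e
  simp [← e, h.dim]

theorem perp_le [Finite F] (h : ODec B Q k D) {o : τ} {Y : Submodule F V} (hY : ∀ i, i ≠ o → D i ≤ Y) :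
    perp B (D o) ≤ Y := fun v hv => by
  obtain ⟨μ, h1, h2, h3⟩ := h.exists_sum v
  refine h3 ▸ sum_mem fun i _ => ?_
  by_cases e : i = o
  · rw [Submodule.disjoint_def.1 (h.nondeg i) _ (h1 i)
      (sub_sub_cancel v (μ i) ▸ sub_mem (e ▸ hv) (h2 i))]
    exact zero_mem _
  · exact hY i e (h1 i)

theorem exists_perm {g : V ≃ₗ[F] V} (hg : g ∈ decStab D) :
    ∃ π : Equiv.Perm τ, (∀ i, (D i).map (g : V →ₗ[F] V) = D (π i)) ∧
      ∀ i, ∀ x ∈ D i, g x ∈ D (π i) :=
  (Geom.mem_decStab.1 hg).imp fun _ e => ⟨e, fun i _ hx => e i ▸ Submodule.mem_map_of_mem hx⟩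

theorem disp_inj (h : ODec B Q k D) {g : V ≃ₗ[F] V} {i j : τ} (ij : i ≠ j)
    (e : ∀ x ∈ D i, g x ∈ D j) {x : V} (hx : x ∈ D i) (h0 : g x - x ∈ perp B (D i)) : x = 0 :=
  Submodule.disjoint_def.1 (h.nondeg i) x hx (by
    simpa using sub_mem (h.orth i j ij (e x hx)) h0)

theorem finrank_disp (h : ODec B Q k D) {g : V ≃ₗ[F] V} {i j : τ} (ij : i ≠ j)
    (e : ∀ x ∈ D i, g x ∈ D j) : finrank F ((D i).map ((g : V →ₗ[F] V) - 1)) = k := by
  rw [← h.dim i, ← LinearMap.range_domRestrict]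
  exact LinearMap.finrank_range_of_inj ((injective_iff_map_eq_zero _).2 fun x hx =>
    Subtype.ext (h.disp_inj ij e x.2 (by rw [show g x - x = 0 from hx]; exact zero_mem _)))

/-- A map permuting the blocks and of small rank fixes a block pointwise. -/
theorem exists_fix (h : ODec B Q k D) (hk : 2 ≤ k) {g : V ≃ₗ[F] V} (hg : g ∈ decStab D)
    {W : Submodule F V} (hW : ∀ x, g x - x ∈ W) (hd : finrank F W < Fintype.card τ) :
    ∃ i, ∀ x ∈ D i, g x = x := by
  classical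
  by_contra! hc
  obtain ⟨π, -, hπ⟩ := exists_perm hg
  have key : ∀ n, ∃ (S : Finset τ) (U : Submodule F V), U ≤ W ∧ (∀ i, i ∉ S → U ≤ perp B (D i)) ∧
      S.card ≤ finrank F U ∧ n ≤ finrank F U := fun n => by
    induction n with
    | zero => exact ⟨∅, ⊥, bot_le, fun _ _ => bot_le, by simp, by simp⟩
    | succ n ih =>
      obtain ⟨S, U, h1, h2, h3, h4⟩ := ih
      have h5 := Submodule.finrank_mono h1
      obtain ⟨i, -, hi⟩ := Finset.exists_mem_notMem_of_card_lt_card (s := S) (t := Finset.univ)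
        (by rw [Finset.card_univ]; omega)
      have h6 : Disjoint U ((D i).map ((g : V →ₗ[F] V) - 1)) := by
        refine Disjoint.mono_left (h2 i hi) (Submodule.disjoint_def.2 ?_)
        rintro _ e ⟨x, hx, rfl⟩
        by_cases e' : i = π i
        · exact Submodule.disjoint_def.1 (h.nondeg i) _ (sub_mem ((congrArg D e').ge (hπ i x hx)) hx) e
        · simp [h.disp_inj e' (hπ i) hx e]
      have h7 : ({i, π i} : Finset τ).card ≤ finrank F ((D i).map ((g : V →ₗ[F] V) - 1)) := by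
        by_cases e' : i = π i
        · obtain ⟨x, hx, e⟩ := hc i
          rw [← e', Finset.pair_eq_singleton, Finset.card_singleton, Nat.one_le_iff_ne_zero, Ne,
            Submodule.finrank_eq_zero, Submodule.eq_bot_iff]
          exact fun e' => e (sub_eq_zero.1 (e' _ ⟨x, hx, rfl⟩))
        · exact Finset.card_le_two.trans (hk.trans (h.finrank_disp e' (hπ i)).ge)
      have h8 := Submodule.finrank_sup_add_finrank_inf_eq U ((D i).map ((g : V →ₗ[F] V) - 1))
      rw [h6.eq_bot, finrank_bot] at h8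
      have h9 := Finset.card_union_le S {i, π i}
      have := Finset.card_pos.2 (Finset.insert_nonempty i {π i})
      refine ⟨S ∪ {i, π i}, U ⊔ (D i).map ((g : V →ₗ[F] V) - 1), sup_le h1 ?_,
        fun j hj => sup_le (h2 j fun e => hj (by simp [e])) ?_, by omega, by omega⟩
      · rintro _ ⟨x, -, rfl⟩; exact hW x
      · rintro _ ⟨x, hx, rfl⟩
        simp only [Finset.mem_union, Finset.mem_insert, Finset.mem_singleton, not_or] at hj
        exact sub_mem (h.orth j _ hj.2.2 (hπ i x hx)) (h.orth j i hj.2.1 hx)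
  obtain ⟨-, U, h1, -, -, h2⟩ := key (Fintype.card τ)
  have := Submodule.finrank_mono h1
  omega

end ODec

variable [Finite F] {Q : QuadraticForm F V} {M : Subgroup (V ≃ₗ[F] V)} {P : Submodule F V}

theorem oRefl_notMem_OmG (hQ : (polarBilin Q).Nondegenerate) (h5 : 5 ≤ finrank F V) {c : V}
    (hc : Q c ≠ 0) : (oRefl Q c).1 ∉ OmG Q := fun e => by
  have := (prod_oRefl_mem_commutator_iff hQ (reflSub_eq_top hQ (Or.inr (by omega))) [c]
    (by simpa using hc)).1 (by simpa using mem_OmG.1 e)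
  simp at this

namespace PD

theorem conn (h : PD Q D) {g : V ≃ₗ[F] V} (hg : g ∈ OG Q)
    (e : ∀ i, ∀ a ∈ D i, Q a ≠ 0 → ∃ j, g a ∈ D j) : g ∈ decStab D := h.dec.mem_decStab fun i => by
  obtain ⟨w, hw, qw⟩ := (h.pl i).exists_nonsing'
  obtain ⟨j, hj⟩ := e i w hw qw
  refine ⟨j, (h.pl i).le_of hw (by rintro rfl; simp at qw) (X := (D j).comap (g : V →ₗ[F] V))
    fun a ha qa e' => ?_⟩
  obtain ⟨l, hl⟩ := e i a ha qa
  rwa [← h.dec.eq_of_B_ne hj hl (by rwa [hg.1])] at hl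

/-- A rotation permuting the planes is supported on one of them. -/
theorem exists_le (h : PD Q D) (hP : Pl Q P) {ρ : V ≃ₗ[F] V} (h1 : ρ ∈ decStab D)
    (h2 : ρ ∈ Supp (polarBilin Q) Q P) (h3 : ∀ z ∈ P, ρ (ρ z) = z → z = 0) : ∃ j, P ≤ D j := by
  have hW := h.dec.witt
  have f1 : ∀ z, ρ (ρ z) = z → z ∈ perp (polarBilin Q) P := fun z e => by
    obtain ⟨a, ha, e'⟩ := hW.exists_comp hP.nd z
    have := Supp_comp e' (mul_mem h2 h2)
    rw [LinearEquiv.mul_apply, e, sub_self, eq_comm, sub_eq_zero] at this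
    simpa [h3 a ha this] using e'
  obtain ⟨j, x, hx, x0⟩ : ∃ j, ∃ x ∈ D j, x ∉ perp (polarBilin Q) P := by
    by_contra! hc
    obtain ⟨a, ha, qa⟩ := hP.exists_nonsing'
    rw [Submodule.disjoint_def.1 hP.nd a ha ((h.dec.top.ge.trans (iSup_le hc)) trivial)] at qa
    simp at qa
  obtain ⟨π, -, hπ⟩ := ODec.exists_perm h1
  by_cases e : j = π j
  · have m : ∀ z ∈ D j, ρ z - z ∈ D j := fun z hz => sub_mem ((congrArg D e).ge (hπ j z hz)) hz
    have y0 : ρ x - x ≠ 0 := fun e => x0 (f1 x (by rw [sub_eq_zero.1 e, sub_eq_zero.1 e]))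
    have y1 := m x hx
    have y2 := hW.Supp_disp h2 x
    generalize ρ x - x = y at *
    by_contra! hc
    have key : ∀ z ∈ D j, ∃ c : F, ρ z = z + c • y := fun z hz => by
      by_contra! e'
      refine hc j (hP.span y2 (hW.Supp_disp h2 z) y0 (fun m => ?_) ▸ Submodule.span_le.2 (by
        rintro _ (rfl | rfl); exacts [y1, m z hz]))
      obtain ⟨c, hc⟩ := Submodule.mem_span_singleton.1 m
      exact e' c (by rw [hc]; abel)
    obtain ⟨c, hc⟩ := key y y1
    refine y0 (h3 y y2 ?_)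
    by_cases q : Q y = 0
    · obtain ⟨z, hz, -, yz⟩ := (h.pl j).exists_partner y1 y0
      obtain ⟨d, hd⟩ := key z hz
      have := h2.1.1 y z
      rw [hc, hd] at this
      obtain rfl : c = 0 := by simpa [polar_self', q, yz] using this
      simp [hc]
    · have := h2.1.2 y
      rw [hc, show y + c • y = (1 + c) • y by module, quad_smul, mul_left_eq_self₀] at this
      rw [hc, map_add, map_smul, hc]
      linear_combination (norm := module) (this.resolve_right q) • y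
  · have e1 : (D j).map ((ρ : V →ₗ[F] V) - 1) = P := Submodule.eq_of_le_of_finrank_eq
      (by rintro _ ⟨z, -, rfl⟩; exact hW.Supp_disp h2 z)
      ((h.dec.finrank_disp e (hπ j)).trans hP.dim.symm)
    obtain ⟨y, hy, e2⟩ := e1.ge (hW.Supp_disp (mul_mem h2 h2) x)
    have e3 : ρ y = ρ (ρ x) - x + y := eq_add_of_sub_eq e2
    have e4 : ρ y = 0 := Submodule.disjoint_def.1 (h.dec.nondeg _) _ (hπ j y hy) (e3 ▸ add_mem
      (sub_mem (h.dec.orth _ _ (π.injective.ne e) (hπ _ _ (hπ j x hx)))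
      (h.dec.orth _ j (Ne.symm e) hx)) (h.dec.orth _ j (Ne.symm e) hy))
    rw [e4, (map_eq_zero_iff _ ρ.injective).1 e4, add_zero, eq_comm, sub_eq_zero] at e3
    exact absurd (f1 x e3) x0

end PD

/-- A proper overgroup of the stabiliser of a decomposition into planes. -/
structure PC (Q : QuadraticForm F V) (D : τ → Submodule F V) (M : Subgroup (V ≃ₗ[F] V)) : Prop
    extends PD Q D where
  five : 5 ≤ Fintype.card τ
  lo : OmG Q ⊓ decStab D ≤ M
  hi : M ≤ OmG Q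
  no : ¬ OmG Q ≤ M

namespace PC

variable {g : V ≃ₗ[F] V} {i j : τ}

theorem h5 (h : PC Q D M) : 5 ≤ finrank F V := by have := h.five; rw [h.dec.finrank_eq']; omega

theorem le (h : PC Q D M) : M ≤ OG Q := h.hi.trans OmG_le

theorem pG (h : PC Q D M) : PolarG (polarBilin Q) Q (OmG Q) := polarG_omega' h.nd h.h5

theorem fresh (h : PC Q D M) (a b c d : τ) : ∃ l, l ≠ a ∧ l ≠ b ∧ l ≠ c ∧ l ≠ d := by
  simpa using exists_notMem_list [a, b, c, d] (lt_of_lt_of_le (by simp) h.five)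

theorem adj (h : PC Q D M) (i : τ) : Adj (polarBilin Q) Q (OmG Q) (D i) :=
  adj_omega h.nd h.h5 (h.dec.nondeg i) (h.dec.dim i).ge

theorem swap (h : PC Q D M) (ij : i ≠ j) : ∃ g ∈ M, g ∈ decStab D ∧
    (D i).map (g : V →ₗ[F] V) = D j ∧
    ∀ x ∈ perp (polarBilin Q) (D i), x ∈ perp (polarBilin Q) (D j) → g x = x := by
  obtain ⟨g, hg, g1, g2, g3⟩ := h.dec.exists_swap₀ ij
  obtain ⟨k, hk, e⟩ := h.adj j g hg
  have k1 := mul_mem (blkStab_le D (h.dec.Supp_le j hk)) g1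
  exact ⟨_, h.lo ⟨e, k1⟩, k1, by rw [map_mul_equiv, g2]; exact mem_blkStab.1 (h.dec.Supp_le j hk) j,
    fun x h1 h2 => by rw [LinearEquiv.mul_apply, g3 x h1 h2, hk.2 x h2]⟩

theorem good (h : PC Q D M) {X : Subgroup (V ≃ₗ[F] V)} (hX : OmG Q ⊓ X ≤ M) {Y : Submodule F V}
    (hY : Good (polarBilin Q) Q X Y) : Good (polarBilin Q) Q M Y := fun s hs q e _ hg =>
  hX ⟨h.pG.rad_le' (by rintro rfl; exact e (zero_mem _)) q Y hg, hY s hs q e hg⟩

/-- The elements of `M` stabilising a plane, restricted to its complement. -/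
def XO (h : PC Q D M) (o : τ) : Subgroup (V ≃ₗ[F] V) where
  carrier := {x | x ∈ Supp (polarBilin Q) Q (perp (polarBilin Q) (D o)) ∧
    ∃ m ∈ M, ∀ v ∈ perp (polarBilin Q) (D o), m v = x v}
  one_mem' := ⟨one_mem _, 1, one_mem _, fun _ _ => rfl⟩
  mul_mem' := by
    rintro x x' ⟨h1, m, hm, e⟩ ⟨h2, m', hm', e'⟩
    exact ⟨mul_mem h1 h2, m * m', mul_mem hm hm', fun v hv => by
      rw [LinearEquiv.mul_apply, e' v hv, e _ (subStab_apply
        (h.dec.witt.Supp_le_subStab (Or.inl le_rfl) h2) hv), LinearEquiv.mul_apply]⟩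
  inv_mem' := by
    rintro x ⟨h1, m, hm, e⟩
    exact ⟨inv_mem h1, m⁻¹, inv_mem hm, fun v hv => m.injective (by
      rw [apply_inv_apply, e _ (subStab_apply (h.dec.witt.Supp_le_subStab (Or.inl le_rfl)
        (inv_mem h1)) hv), apply_inv_apply])⟩

theorem rb (h : PC Q D M) (o : τ) : RB Q D (· ≠ o) (h.XO o) := by
  have hW := h.dec.witt
  refine ⟨h.toPD, fun x hx => hx.1.1, fun x hx i hi y hy => hx.1.2 y (hW.le_perp_perp _
    (not_not.1 hi ▸ hy)), fun i hi a ha qa => ?_, fun j l hj hl jl => ?_, fun a b c => ?_⟩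
  · obtain ⟨k, hk, e⟩ := h.adj o _ (oRefl Q a).2
    have m := h.dec.orth o i hi.symm ha
    exact ⟨oRefl_mem_Supp m, _, h.lo ⟨e, mul_mem (h.dec.Supp_le' le_rfl hk)
      (h.dec.Supp_le' le_rfl (oRefl_mem_Supp ha))⟩, fun v hv => hk.2 _ (oRefl_mem_of m hv)⟩
  · obtain ⟨g, hg, -, g1, g2⟩ := h.swap jl
    exact ⟨g, ⟨⟨h.le hg, fun x hx => by
      rw [hW.perp_perp] at hx
      exact g2 x (h.dec.orth j o hj hx) (h.dec.orth l o hl hx)⟩, g, hg, fun _ _ => rfl⟩, g1, g2⟩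
  · obtain ⟨l, h1⟩ := h.fresh o a b c
    exact ⟨l, h1⟩

theorem not_good (h : PC Q D M) (o : τ) :
    ¬ Good (polarBilin Q) Q M (perp (polarBilin Q) (D o)) := fun hG => by
  obtain ⟨l, lo, -⟩ := h.fresh o o o o
  obtain ⟨k, ko, kl, -⟩ := h.fresh o l o o
  obtain ⟨r, ro, rl, rk, -⟩ := h.fresh o l k o
  obtain ⟨g, hg, -, g1, -⟩ := h.swap lo.symm
  have h1 := hG.map (h.le hg) hg
  rw [map_perp (h.le hg).1, g1] at h1
  obtain ⟨u, hu, f, hf, qu, qf, uf⟩ := h.exists_pair rk.symm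
  have p1 := sup_le (h.dec.orth o k ko.symm) (h.dec.orth o r ro.symm)
  have p2 := sup_le (h.dec.orth l k kl.symm) (h.dec.orth l r rl.symm)
  have := h.dec.witt.good_sup hG h1 (p1 hu) (p2 hu) (p1 hf) (p2 hf) qu qf uf
  rw [eq_top_iff.2 (h.dec.top.ge.trans (iSup_le fun i => by
    by_cases e : o = i
    exacts [e ▸ (h.dec.orth l o lo).trans le_sup_right, (h.dec.orth o i e).trans le_sup_left]) :
    ⊤ ≤ perp (polarBilin Q) (D o) ⊔ perp (polarBilin Q) (D l))] at this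
  exact h.no (h.pG.le_of_good_top this)

theorem A₀ (h : PC Q D M) (hg : g ∈ M) (e : g ∈ subStab (D i)) : g ∈ decStab D := by
  have hW := h.dec.witt
  have e' := subStab_perp (h.le hg) e
  obtain ⟨x, hx, x1, x2⟩ := hW.exists_isom_glue (hW.disjoint_perp_perp (h.dec.nondeg i))
    (hW.le_perp_perp _) ((g : V →ₗ[F] V) ∘ₗ (perp (polarBilin Q) (D i)).subtype)
    (fun _ _ => (h.le hg).1 _ _) (fun _ => (h.le hg).2 _)
    fun x c hc => hW.refl (mem_perp.1 (subStab_apply e' x.2) c hc)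
  have hX : x ∈ h.XO i := ⟨⟨hx, fun y hy => x2 y (hW.perp_perp (D i) ▸ hy)⟩, g, hg,
    fun v hv => (x1 ⟨v, hv⟩).symm⟩
  refine h.conn (h.le hg) fun j a ha qa => ?_
  by_cases ij : i = j
  · exact ⟨i, subStab_apply e (ij ▸ ha)⟩
  by_contra! hc
  have := (h.rb i).refl_map ((h.rb i).refl j (Ne.symm ij) a ha qa) hX
  rw [show x a = g a from x1 ⟨a, h.dec.orth i j ij ha⟩] at this
  obtain ⟨Y, hY, h1⟩ := (h.rb i).main this (by rwa [mem_OG.1 (h.le hg)]) hc
  refine h.not_good i (h.good (fun E hE => ?_) (hY.anti (h.dec.perp_le h1)))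
  obtain ⟨h2, m, hm, h3⟩ := hE.2
  have := h.dec.mem_of_Supp h.lo (i := i) (mul_mem (inv_mem hE.1) (h.hi hm))
    ⟨mul_mem (inv_mem h2.1) (h.le hm), fun v hv => by
      rw [LinearEquiv.mul_apply, h3 v hv, inv_apply_apply]⟩
  simpa using mul_mem hm (inv_mem this)

theorem A (h : PC Q D M) (hg : g ∈ M) (e : ∀ x ∈ D i, g x ∈ D j) : g ∈ decStab D := by
  by_cases ij : j = i
  · exact h.A₀ hg (mem_subStab_iff_le.2 (ij ▸ e))
  obtain ⟨s, hs, s1, s2, -⟩ := h.swap ij
  exact (Subgroup.mul_mem_cancel_left _ s1).1 (h.A₀ (mul_mem hs hg) (i := i)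
    (mem_subStab_iff_le.2 fun x hx => s2 ▸ Submodule.mem_map_of_mem (e x hx)))

theorem rot (h : PC Q D M) (hg : g ∈ M) {ρ : V ≃ₗ[F] V} (h1 : ρ ∈ Supp (polarBilin Q) Q (D i))
    (h2 : ∀ z ∈ D i, ρ (ρ z) = z → z = 0) (e : g * ρ * g⁻¹ ∈ decStab D) : g ∈ decStab D := by
  obtain ⟨j, hj⟩ := h.exists_le ((h.pl i).map (h.le hg)) e (conj_mem_Supp (h.le hg) h1) (by
    rintro _ ⟨z, hz, rfl⟩ e
    simp only [LinearEquiv.mul_apply, LinearEquiv.coe_coe, inv_apply_apply,
      EmbeddingLike.apply_eq_iff_eq] at e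
    simp [h2 z hz e])
  exact h.A hg fun x hx => hj (Submodule.mem_map_of_mem hx)

theorem exists_rot (h : PC Q D M) (i : τ) :
    ∃ ρ ∈ M, ρ ∈ Supp (polarBilin Q) Q (D i) ∧ ∀ z ∈ D i, ρ (ρ z) = z → z = 0 := by
  obtain ⟨ρ, h1, h2, h3⟩ := (h.pl i).exists_rot h.nd
  exact ⟨ρ, h.dec.mem_of_Supp h.lo h1 h2, h2, h3⟩

theorem np (h : PC Q D M) (hg : g ∈ M) (e : ∀ x ∈ D i, g x ∈ perp (polarBilin Q) (D j)) :
    g ∈ decStab D := by
  obtain ⟨ρ, h1, h2, h3⟩ := h.exists_rot j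
  refine inv_mem_iff.1 (h.rot (inv_mem hg) h2 h3 (h.A (mul_mem (mul_mem (inv_mem hg) h1)
    (inv_mem (inv_mem hg))) (i := i) (j := i) fun x hx => ?_))
  rwa [inv_inv, LinearEquiv.mul_apply, LinearEquiv.mul_apply, h2.2 _ (e x hx), inv_apply_apply]

end PC

end CF.Geom
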