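/-
Maximality of the stabiliser in `Ω` of an orthogonal decomposition into planes.
-/
import Cfsg.Agent.Geom.K2C

set_option autoImplicit false
set_option linter.unusedSectionVars false

namespace CF.Geom

open Module QuadraticMap

variable {F V : Type*} [Field F] [AddCommGroup V] [Module F V] [FiniteDimensional F V]
  {τ : Type*} [Fintype τ] {D : τ → Submodule F V} [Finite F] {Q : QuadraticForm F V}
  {M : Subgroup (V ≃ₗ[F] V)} {P : Submodule F V}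

/-- The extension of `M ∩ M ^ r` by an involution `r`. -/
def extR {Γ : Type*} [Group Γ] (M : Subgroup Γ) {r : Γ} (hr : r * r = 1) : Subgroup Γ where
  carrier := {x | (x ∈ M ∧ r * x * r ∈ M) ∨ (x * r ∈ M ∧ r * x ∈ M)}
  one_mem' := Or.inl ⟨one_mem _, by rw [mul_one, hr]; exact one_mem _⟩
  mul_mem' := by
    have e : ∀ x, r * (r * x) = x := fun x => by rw [← mul_assoc, hr, one_mul]
    rintro x y (⟨h1, h2⟩ | ⟨h1, h2⟩) (⟨k1, k2⟩ | ⟨k1, k2⟩)
    · exact Or.inl ⟨mul_mem h1 k1, by simpa [mul_assoc, e] using mul_mem h2 k2⟩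
    · exact Or.inr ⟨by simpa [mul_assoc] using mul_mem h1 k1,
        by simpa [mul_assoc, e] using mul_mem h2 k2⟩
    · exact Or.inr ⟨by simpa [mul_assoc, e] using mul_mem h1 k2,
        by simpa [mul_assoc] using mul_mem h2 k1⟩
    · exact Or.inl ⟨by simpa [mul_assoc, e] using mul_mem h1 k2,
        by simpa [mul_assoc] using mul_mem h2 k1⟩
  inv_mem' := by
    have e : r⁻¹ = r := inv_eq_of_mul_eq_one_right hr
    rintro x (⟨h1, h2⟩ | ⟨h1, h2⟩)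
    · exact Or.inl ⟨inv_mem h1, by simpa [mul_assoc, e] using inv_mem h2⟩
    · exact Or.inr ⟨by simpa [e] using inv_mem h2, by simpa [e] using inv_mem h1⟩

theorem Pl.exists_three (h : Pl Q P) (h7 : 7 ≤ Nat.card F) {Q₁ Q₂ : QuadraticForm F V}
    (h1 : ∃ x ∈ P, Q₁ x ≠ 0) (h2 : ∃ x ∈ P, Q₂ x ≠ 0) : ∃ a ∈ P, Q a ≠ 0 ∧ Q₁ a ≠ 0 ∧ Q₂ a ≠ 0 := by
  obtain ⟨x, hx, qx⟩ := h.exists_nonsing'
  have x0 : x ≠ 0 := by rintro rfl; simp at qx
  obtain ⟨y, hy, xy, -⟩ := h.exists_partner hx x0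
  have key : ∀ Q' : QuadraticForm F V, (∃ x ∈ P, Q' x ≠ 0) →
      ∃ r s : F, ∀ c, Q' (y + c • x) = 0 → c = r ∨ c = s := fun Q' ⟨z, hz, e⟩ => by
    obtain ⟨r, s, hr⟩ := quad_roots (α := Q' x) (β := polar Q' y x) (γ := Q' y) (by
      by_contra! hc
      rw [← h.span hx hy x0 xy, Submodule.mem_span_pair] at hz
      obtain ⟨α, β, rfl⟩ := hz
      exact e (by simp [quad_add, quad_smul, hc, polar_comm Q' x y]))
    refine ⟨r, s, fun c e => hr c ?_⟩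
    rw [quad_add, quad_smul, polar_smul_right, smul_eq_mul] at e
    linear_combination e
  obtain ⟨r, s, e⟩ := key Q ⟨x, hx, qx⟩
  obtain ⟨r₁, s₁, e₁⟩ := key Q₁ h1
  obtain ⟨r₂, s₂, e₂⟩ := key Q₂ h2
  obtain ⟨c, hc⟩ := exists_notMem_list' [r, s, r₁, s₁, r₂, s₂] (by simp; omega)
  simp only [List.mem_cons, List.not_mem_nil, or_false, not_or] at hc
  exact ⟨_, add_mem hy (P.smul_mem c hx), fun q => by grind, fun q => by grind, fun q => by grind⟩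

namespace PC

variable {g : V ≃ₗ[F] V} {i j : τ} {a b : V}

/-! ### Characteristic two -/

theorem rr (h : PC Q D M) (h2 : (2 : F) = 0) (ha : a ∈ D i) (hb : b ∈ D j) (qa : Q a ≠ 0)
    (qb : Q b ≠ 0) : RR Q M a b := by
  have := Fintype.ofFinite F
  exact h.dec.RR h.lo ha hb qa qb (FiniteField.isSquare_of_char_two
    (CharP.ringChar_of_prime_eq_zero Nat.prime_two (by exact_mod_cast h2)) _)

theorem Av (h : PC Q D M) (h2 : (2 : F) = 0) (hg : g ∈ M) (ha : a ∈ D i) (qa : Q a ≠ 0)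
    (e : g a ∈ D j) : g ∈ decStab D := by
  have qc : Q (g a) ≠ 0 := by rwa [mem_OG.1 (h.le hg)]
  have r : ∀ {v}, RR Q M v (g a) → (oRefl Q v).1 ∈ extR M (oRefl_sq (Q := Q) (g a)) :=
    fun e => Or.inr ⟨e, e.symm⟩
  have hX : RB Q D (fun _ => True) (extR M (oRefl_sq (Q := Q) (g a))) := by
    refine ⟨h.toPD, fun x hx => hx.elim (fun e => h.le e.1) fun e => (Subgroup.mul_mem_cancel_right
      _ (oRefl Q _).2).1 (h.le e.1), by simp, fun l _ b hb qb => r (h.rr h2 hb e qb qc),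
      fun k l _ _ kl => ?_, fun a b c => ?_⟩
    · obtain ⟨s, hs, s1, s2⟩ := h.swap kl
      obtain ⟨m, hm⟩ := exists_apply_mem_of_decStab s1 j
      refine ⟨s, Or.inl ⟨hs, ?_⟩, s2⟩
      have := mul_mem (h.rr h2 e (hm _ e) qc (by rwa [mem_OG.1 (h.le hs)])) hs
      rwa [← conj_oRefl' (h.le hs), mul_assoc, inv_mul_cancel_right, ← mul_assoc] at this
    · simpa using (h.fresh a b c c).imp fun l hl => (⟨hl.1, hl.2.1, hl.2.2.1⟩ : _ ∧ _ ∧ _)
  refine h.conn (h.le hg) fun l b hb qb => ?_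
  by_contra! hc
  obtain ⟨Y, hY, h1⟩ := hX.main (r ((h.rr h2 hb ha qb qa).map (h.le hg) hg))
    (by rwa [mem_OG.1 (h.le hg)]) hc
  exact h.not_good i (h.good (X := extR M (oRefl_sq (Q := Q) (g a))) (fun E hE => hE.2.elim
    (·.1) fun e => absurd ((Subgroup.mul_mem_cancel_left _ hE.1).1 (h.hi e.1))
    (oRefl_notMem_OmG h.nd h.h5 qc)) (hY.anti (h.dec.perp_le fun i _ => h1 i trivial)))

theorem fix (h : PC Q D M) (h2 : (2 : F) = 0) (hg : g ∈ M) (ha : a ∈ D i) (qa : Q a ≠ 0)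
    {x : V ≃ₗ[F] V} (hx : x ∈ M) (e : x (g a) = g a) : g⁻¹ * x * g⁻¹⁻¹ ∈ decStab D :=
  h.Av h2 (mul_mem (mul_mem (inv_mem hg) hx) (inv_mem (inv_mem hg))) ha qa (j := i) (by
    rwa [inv_inv, LinearEquiv.mul_apply, LinearEquiv.mul_apply, e, inv_apply_apply])

theorem Z (h : PC Q D M) (h2 : (2 : F) = 0) (hg : g ∈ M) (ha : a ∈ D i) (qa : Q a ≠ 0)
    (e : g a ∈ perp (polarBilin Q) (D j)) : g ∈ decStab D := by
  obtain ⟨ρ, h1, r2, h3⟩ := h.exists_rot j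
  exact inv_mem_iff.1 (h.rot (inv_mem hg) r2 h3 (h.fix h2 hg ha qa h1 (r2.2 _ e)))

theorem a2 (h : PC Q D M) (h2 : (2 : F) = 0) (hg : g ∈ M) (ij : i ≠ j) (ha : a ∈ D i)
    (hb : b ∈ D j) (qa : Q a ≠ 0)
    (e : g * ((oRefl Q a).1 * (oRefl Q b).1) * g⁻¹ ∈ decStab D) : g ∈ decStab D := by
  have e1 : ∀ x, (g * ((oRefl Q a).1 * (oRefl Q b).1) * g⁻¹) x - x =
      -((Q a)⁻¹ * polar Q a (g⁻¹ x)) • g a - ((Q b)⁻¹ * polar Q b (g⁻¹ x)) • g b := fun x => by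
    simp only [LinearEquiv.mul_apply, oRefl_apply, map_sub, map_smul, apply_inv_apply,
      polar_sub_right, polar_smul_right, h.pol ij ha hb]
    module
  obtain ⟨m, hm⟩ := h.dec.exists_fix le_rfl e (W := Submodule.span F {g a, g b}) (fun x =>
    Submodule.mem_span_pair.2 ⟨_, _, by rw [e1, sub_eq_add_neg, ← neg_smul]⟩)
    ((IsWittPair.finrank_span_pair_le _ _).trans_lt (lt_of_lt_of_le (by decide) h.five))
  refine h.Z h2 hg ha qa (j := m) (mem_perp.2 fun x hx => ?_)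
  have e2 := e1 x
  rw [hm x hx, sub_self, eq_comm, ← map_smul, ← map_smul, ← map_sub, map_eq_zero_iff _ g.injective,
    sub_eq_zero] at e2
  have e3 : -((Q a)⁻¹ * polar Q a (g⁻¹ x)) • a = 0 := by_contra fun e =>
    ij (h.dec.eq_of_mem (Submodule.smul_mem _ _ ha) (e2 ▸ Submodule.smul_mem _ _ hb) e)
  rw [← apply_inv_apply g x, (h.le hg).1, polarBilin_apply_apply, polar_comm]
  simpa [qa, show a ≠ 0 by rintro rfl; simp at qa] using e3

theorem one (h : PC Q D M) (h2 : (2 : F) = 0) (hg : g ∈ M) (ha : a ∈ D i) (qa : Q a ≠ 0) {l : τ}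
    (jl : j ≠ l) (q1 : Q (h.dec.witt.pj (h.dec.nondeg j) (g a)) ≠ 0)
    (q2 : Q (h.dec.witt.pj (h.dec.nondeg l) (g a)) ≠ 0) : g ∈ decStab D := by
  have m := fun j => h.dec.witt.pj_mem (h.dec.nondeg j) (g a)
  have e : ∀ j, polar Q (h.dec.witt.pj (h.dec.nondeg j) (g a)) (g a) = 0 := fun j => by
    rw [← polarBilin_apply_apply, ← h.dec.witt.B_pj (h.dec.nondeg j) (m j), polarBilin_apply_apply,
      polar_self', h2, zero_mul]
  exact inv_mem_iff.1 (h.a2 h2 (inv_mem hg) jl (m j) (m l) q1 (h.fix h2 hg ha qa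
    (h.rr h2 (m j) (m l) q1 q2) (by rw [LinearEquiv.mul_apply, oRefl_of_polar_eq_zero (e l),
      oRefl_of_polar_eq_zero (e j)])))

theorem le_two (h : PC Q D M) (h2 : (2 : F) = 0) : M ≤ decStab D := fun g hg => by
  by_contra hn
  have hW := h.dec.witt
  have : Nonempty τ := Fintype.card_pos_iff.1 (lt_of_lt_of_le (by decide) h.five)
  obtain ⟨i⟩ := this
  rcases h.pc with ⟨h1, -⟩ | h7
  · obtain ⟨a, ha, qa⟩ := (h.pl i).exists_nonsing'
    obtain ⟨j, ji, -⟩ := h.fresh i i i i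
    have key : ∀ j, Q (hW.pj (h.dec.nondeg j) (g a)) ≠ 0 := fun j e =>
      hn (h.Z h2 hg ha qa ((hW.pj_eq_zero _).1 (h1 j _ (hW.pj_mem _ _) e)))
    exact hn (h.one h2 hg ha qa ji (key j) (key i))
  obtain ⟨o, ho⟩ : ∃ o, ∀ l, l ≠ o → ∀ x ∈ D i, Q (hW.pj (h.dec.nondeg l) (g x)) = 0 := by
    by_contra! hc
    obtain ⟨j, -, e1⟩ := hc i
    obtain ⟨l, lj, e2⟩ := hc j
    obtain ⟨a, ha, qa, q1, q2⟩ := (h.pl i).exists_three h7
      (Q₁ := Q.comp (hW.pj (h.dec.nondeg j) ∘ₗ (g : V →ₗ[F] V)))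
      (Q₂ := Q.comp (hW.pj (h.dec.nondeg l) ∘ₗ (g : V →ₗ[F] V))) e1 e2
    exact hn (h.one h2 hg ha qa lj q2 q1)
  have ker : ∀ l, l ≠ o → ∃ x ∈ D i, x ≠ 0 ∧ Q x = 0 ∧ g x ∈ perp (polarBilin Q) (D l) :=
    fun l hl => by
    by_contra! hc
    obtain ⟨a, ha, qa⟩ := (h.pl l).exists_nonsing'
    have : (D i).map (hW.pj (h.dec.nondeg l) ∘ₗ (g : V →ₗ[F] V)) = D l :=
      Submodule.eq_of_le_of_finrank_eq (by
        rintro _ ⟨x, -, rfl⟩; exact hW.pj_mem (h.dec.nondeg l) _) (by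
        rw [(h.dec.dim l).trans (h.dec.dim i).symm, ← LinearMap.range_domRestrict]
        refine LinearMap.finrank_range_of_inj ((injective_iff_map_eq_zero _).2 fun x hx => ?_)
        have e := (hW.pj_eq_zero (h.dec.nondeg l)).1 hx
        exact by_contra fun x0 => hc x x.2 (fun e => x0 (Subtype.ext e))
          (by_contra fun q => hn (h.Z h2 hg x.2 q e)) e)
    obtain ⟨x, hx, rfl⟩ := this.ge ha
    exact qa (ho l hl x hx)
  obtain ⟨l, l', ll, x, hx, x0, qx, e, e'⟩ : ∃ l l', l ≠ l' ∧ ∃ x ∈ D i, x ≠ 0 ∧ Q x = 0 ∧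
      g x ∈ perp (polarBilin Q) (D l) ∧ g x ∈ perp (polarBilin Q) (D l') := by
    obtain ⟨l₁, a1, -⟩ := h.fresh o o o o
    obtain ⟨l₂, a2, b2, -⟩ := h.fresh o l₁ o o
    obtain ⟨l₃, a3, b3, c3, -⟩ := h.fresh o l₁ l₂ o
    obtain ⟨x₁, m1, n1, q1, e1⟩ := ker l₁ a1
    obtain ⟨x₂, m2, n2, q2, e2⟩ := ker l₂ a2
    obtain ⟨x₃, m3, n3, q3, e3⟩ := ker l₃ a3
    have key : ∀ {x y : V} {l : τ}, y ∈ F ∙ x → g x ∈ perp (polarBilin Q) (D l) →
        g y ∈ perp (polarBilin Q) (D l) := fun hy e => by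
      obtain ⟨c, rfl⟩ := Submodule.mem_span_singleton.1 hy
      exact map_smul g c _ ▸ Submodule.smul_mem _ c e
    by_cases h12 : x₂ ∈ F ∙ x₁
    · exact ⟨_, _, b2, x₂, m2, n2, q2, e2, key h12 e1⟩
    by_cases h13 : x₃ ∈ F ∙ x₁
    · exact ⟨_, _, b3, x₃, m3, n3, q3, e3, key h13 e1⟩
    exact ⟨_, _, c3, x₃, m3, n3, q3, e3, key ((h.pl i).sing3 m1 m2 m3 n1 q1 q2 q3 h12 h13) e2⟩
  obtain ⟨ρ, r1, r2, r3⟩ := h.exists_rot i
  have st := fun z hz => subStab_apply (w := z) (mem_blkStab.1 (h.dec.Supp_le i r2) i) hz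
  have sp : ∀ z ∈ D i, polar Q x z = 0 → z ∈ F ∙ x := fun z hz e => by_contra fun e' =>
    x0 ((h.pl i).eq_zero hx hz x0 e' hx (by simp [polar_self', qx]) (polar_comm Q x z ▸ e))
  have r4 : ρ x ∈ F ∙ x := sp _ (st x hx) (by_contra fun e => by
    have q1 := (r2.1.2 x).trans qx
    have n : x ∉ F ∙ ρ x := fun m => by
      obtain ⟨c, hc⟩ := Submodule.mem_span_singleton.1 m
      exact e (by nth_rw 1 [← hc]; simp [polar_self', q1])
    obtain ⟨c, hc⟩ := Submodule.mem_span_singleton.1 ((h.pl i).sing3 (st x hx) hx (st _ (st x hx))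
      (by simpa using x0) q1 qx ((r2.1.2 _).trans q1) n fun m => by
        obtain ⟨c, hc⟩ := Submodule.mem_span_singleton.1 m
        rw [← map_smul, EmbeddingLike.apply_eq_iff_eq] at hc
        exact e (by rw [← hc]; simp [polar_self', qx]))
    have := r2.1.1 x (ρ x)
    rw [← hc] at this
    obtain rfl : c = 1 := by simpa [polar_comm Q (ρ x) x, e] using this
    exact x0 (r3 x hx (by rw [← hc, one_smul])))
  obtain ⟨y, hy, qy⟩ := (h.pl l).exists_nonsing'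
  refine hn (h.rot hg r2 r3 (h.Z h2 (mul_mem (mul_mem hg r1) (inv_mem hg)) hy qy (j := l') ?_))
  obtain ⟨z, hz, e1⟩ := hW.exists_comp (h.dec.nondeg i) (g⁻¹ y)
  obtain ⟨c, rfl⟩ := Submodule.mem_span_singleton.1 (sp z hz (by
    rw [← polar_comp e1 hx, ← polarBilin_apply_apply, ← (h.le hg).1, apply_inv_apply]
    exact hW.refl (mem_perp.1 e y hy)))
  obtain ⟨d, hd⟩ := Submodule.mem_span_singleton.1 r4
  rw [LinearEquiv.mul_apply, LinearEquiv.mul_apply, eq_add_of_sub_eq (Supp_comp e1 r2), map_add,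
    apply_inv_apply, map_smul, ← hd, smul_smul, ← sub_smul, map_smul]
  exact add_mem (Submodule.smul_mem _ _ e') (h.dec.orth l' l ll.symm hy)

/-! ### Odd characteristic -/

end PC

/-- `t` is `-1` on `W` and `1` on its complement. -/
def Ng (Q : QuadraticForm F V) (W : Submodule F V) (t : V ≃ₗ[F] V) : Prop :=
  t ∈ Supp (polarBilin Q) Q W ∧ ∀ x ∈ W, t x = -x

theorem Ng.conj {W : Submodule F V} {t g : V ≃ₗ[F] V} (h : Ng Q W t) (hg : g ∈ OG Q) :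
    Ng Q (W.map (g : V →ₗ[F] V)) (g * t * g⁻¹) :=
  ⟨conj_mem_Supp hg h.1, by rintro _ ⟨x, hx, rfl⟩; simp [inv_apply_apply, h.2 x hx]⟩

theorem perp_of_neg (h2 : (2 : F) ≠ 0) {t : V ≃ₗ[F] V} (ht : t ∈ OG Q) {x y : V} (hx : t x = -x)
    (hy : t y = y) : polar Q x y = 0 := by
  have := ht.1 x y
  rw [hx, hy] at this
  exact mul_left_cancel₀ h2 (by simp at this; linear_combination -this)

theorem Pl.exists_ng (h : Pl Q P) (h2 : (2 : F) ≠ 0) : ∃ a ∈ P, ∃ p ∈ P, Q a ≠ 0 ∧ Q p ≠ 0 ∧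
    ∀ g ∈ OG Q, Ng Q (P.map (g : V →ₗ[F] V)) ((oRefl Q (g a)).1 * (oRefl Q (g p)).1) := by
  obtain ⟨a, ha, qa⟩ := h.exists_nonsing'
  obtain ⟨p, hp, qp, pa, -⟩ := h.exists_perp ha qa
  refine ⟨a, ha, p, hp, qa, qp, fun g hg => ?_⟩
  have : Ng Q P ((oRefl Q a).1 * (oRefl Q p).1) := by
    refine ⟨mul_mem (oRefl_mem_Supp ha) (oRefl_mem_Supp hp), fun x hx => ?_⟩
    rw [← h.span ha hp (by rintro rfl; simp at qa) (fun e => by
      obtain ⟨c, rfl⟩ := Submodule.mem_span_singleton.1 e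
      simp [polar_self', h2, qa] at pa
      simp [pa] at qp), Submodule.mem_span_pair] at hx
    obtain ⟨α, β, rfl⟩ := hx
    simp [oRefl_self, qa, qp, oRefl_of_polar_eq_zero pa,
      oRefl_of_polar_eq_zero (polar_comm Q p a ▸ pa), add_comm]
  convert this.conj hg using 1
  rw [← conj_oRefl' hg, ← conj_oRefl' hg]; group

namespace PC

variable {g t t' : V ≃ₗ[F] V} {i j k l : τ}

theorem exists_ng (h : PC Q D M) (h2 : (2 : F) ≠ 0) (ij : i ≠ j) :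
    ∃ t ∈ OmG Q, Ng Q (D i ⊔ D j) t := by
  obtain ⟨a, ha, p, hp, qa, qp, e⟩ := (h.pl i).exists_ng h2
  obtain ⟨s, hs, -, s1, -⟩ := h.swap ij
  have e1 := e 1 (one_mem _)
  have e2 := s1 ▸ e s (h.le hs)
  simp only [LinearEquiv.coe_toLinearMap_one, Submodule.map_id, LinearEquiv.coe_one, id] at e1
  refine ⟨_, ?_, mul_mem (Supp_mono le_sup_left e1.1) (Supp_mono le_sup_right e2.1), fun x hx => ?_⟩
  · have r1 := oRefl_mul_mem_OmG h.nd qa (mem_OG.1 (h.le hs) a)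
    have r2 := oRefl_mul_mem_OmG h.nd qp (mem_OG.1 (h.le hs) p)
    have c := conj_oRefl' (oRefl Q p).2 (s a)
    rw [oRefl_of_polar_eq_zero (x := s a) (h.pol ij hp (s1 ▸ Submodule.mem_map_of_mem ha)),
      mul_inv_eq_iff_eq_mul] at c
    have := mul_mem r1 r2
    rwa [mul_assoc, ← mul_assoc (oRefl Q (s a)).1, ← c, mul_assoc, ← mul_assoc] at this
  · obtain ⟨z, hz, y, hy, rfl⟩ := Submodule.mem_sup.1 hx
    rw [LinearEquiv.mul_apply, map_add, e2.2 y hy, e2.1.2 z (h.dec.orth j i ij.symm hz), map_add,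
      e1.2 z hz, map_neg, e1.1.2 y (h.dec.orth i j ij hy), neg_add]

theorem ng_ext (h : PC Q D M) (ij : i ≠ j) (h1 : Ng Q (D i ⊔ D j) t) (h2 : Ng Q (D i ⊔ D j) t') :
    t = t' := h.dec.witt.Supp_ext (h.dec.witt.disjoint_sup_perp (h.dec.nondeg i) (h.dec.nondeg j)
  (h.dec.orth i j ij)) h1.1 h2.1 fun x hx => (h1.2 x hx).trans (h2.2 x hx).symm

theorem ng_fix (h : PC Q D M) (h1 : Ng Q (D i ⊔ D j) t) (li : l ≠ i) (lj : l ≠ j) {x : V}
    (hx : x ∈ D l) : t x = x :=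
  h1.1.2 x (perp_sup (D i) (D j) ▸ ⟨h.dec.orth i l li.symm hx, h.dec.orth j l lj.symm hx⟩)

theorem ng_sq (h : PC Q D M) (ij : i ≠ j) (h1 : Ng Q (D i ⊔ D j) t) : t * t = 1 :=
  h.dec.witt.Supp_ext (h.dec.witt.disjoint_sup_perp (h.dec.nondeg i) (h.dec.nondeg j)
    (h.dec.orth i j ij)) (mul_mem h1.1 h1.1) (one_mem _) fun x hx => by simp [h1.2 x hx]

theorem ng_inj (h : PC Q D M) (h2 : (2 : F) ≠ 0) (ij : i ≠ j) (h1 : Ng Q (D i ⊔ D j) t)
    (h3 : Ng Q (D k ⊔ D l) t) : (i = k ∧ j = l) ∨ (i = l ∧ j = k) := by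
  have key : ∀ m, D m ≤ D i ⊔ D j → m = k ∨ m = l := fun m hm => by
    by_contra! hc
    obtain ⟨a, ha, qa⟩ := (h.pl m).exists_nonsing'
    simpa [polar_self', h2, qa] using
      perp_of_neg h2 h1.1.1 (h1.2 a (hm ha)) (h.ng_fix h3 hc.1 hc.2 ha)
  have := key i le_sup_left
  have := key j le_sup_right
  grind

theorem finrank_ng (h : PC Q D M) (g : V ≃ₗ[F] V) (i j : τ) :
    finrank F ((D i ⊔ D j).map (g : V →ₗ[F] V)) ≤ 4 := by
  have := Submodule.finrank_add_le_finrank_add_finrank (D i) (D j)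
  rwa [h.dec.dim, h.dec.dim, ← LinearEquiv.finrank_map_eq g] at this

theorem dih (h : PC Q D M) (h2 : (2 : F) ≠ 0) :
    Dih M (decStab D) {t | t ∈ OmG Q ∧ ∃ i j, i ≠ j ∧ Ng Q (D i ⊔ D j) t} := by
  have mH : ∀ t ∈ {t | t ∈ OmG Q ∧ ∃ i j, i ≠ j ∧ Ng Q (D i ⊔ D j) t}, t ∈ decStab D := by
    rintro t ⟨-, i, j, ij, e⟩
    refine h.dec.mem_decStab fun l => ⟨l, fun x hx => ?_⟩
    by_cases li : l = i
    · exact e.2 x (Submodule.mem_sup_left (li ▸ hx)) ▸ neg_mem hx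
    by_cases lj : l = j
    · exact e.2 x (Submodule.mem_sup_right (lj ▸ hx)) ▸ neg_mem hx
    · rwa [h.ng_fix e li lj hx]
  refine ⟨fun t ht => h.lo ⟨ht.1, mH t ht⟩, mH, ?_, ?_, ?_, ?_⟩
  · rintro t ⟨-, i, j, ij, e⟩; exact h.ng_sq ij e
  · rintro g hg hg' t ⟨ht, i, j, ij, e⟩
    obtain ⟨π, hπ, -⟩ := ODec.exists_perm hg'
    exact ⟨mul_mem (mul_mem (h.hi hg) ht) (inv_mem (h.hi hg)), π i, π j, π.injective.ne ij, by
      rw [← hπ, ← hπ, ← Submodule.map_sup]; exact e.conj (h.le hg)⟩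
  · rintro g hg t ⟨-, i, j, ij, e⟩ e'
    have e1 := e.conj (h.le hg)
    obtain ⟨m, hm⟩ := h.dec.exists_fix le_rfl e' (h.dec.witt.Supp_disp e1.1)
      ((h.finrank_ng g i j).trans_lt h.five)
    exact h.np hg (i := i) (j := m) fun x hx => mem_perp.2 fun y hy => h.dec.witt.refl
      (perp_of_neg h2 e1.1.1 (e1.2 _ ⟨x, Submodule.mem_sup_left hx, rfl⟩) (hm y hy))
  · rintro g hg t₁ ⟨-, a, b, ab, e1⟩ t₂ ⟨-, c, d, cd, e2⟩ t₃ ⟨-, a', b', ab', e3⟩
      t₄ ⟨-, c', d', cd', e4⟩ h1 - e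
    obtain ⟨i, hi⟩ : ∃ i, ∀ x ∈ D i, (t₁ * t₂) x = -x := by
      have key : ∀ m, D m ≤ D a ⊔ D b → m ≠ c → m ≠ d → ∀ x ∈ D m, (t₁ * t₂) x = -x :=
        fun m hm mc md x hx => by rw [LinearEquiv.mul_apply, h.ng_fix e2 mc md hx, e1.2 x (hm hx)]
      by_cases f1 : a ≠ c ∧ a ≠ d
      · exact ⟨a, key a le_sup_left f1.1 f1.2⟩
      by_cases f2 : b ≠ c ∧ b ≠ d
      · exact ⟨b, key b le_sup_right f2.1 f2.2⟩
      refine absurd ?_ h1
      obtain ⟨rfl, rfl⟩ | ⟨rfl, rfl⟩ : (a = c ∧ b = d) ∨ (a = d ∧ b = c) := by grind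
      · rw [h.ng_ext ab e1 e2, h.ng_sq ab e2]
      · rw [h.ng_ext ab e1 (sup_comm (D b) _ ▸ e2), h.ng_sq cd e2]
    obtain ⟨m, m1, m2, m3, m4⟩ := h.fresh a' b' c' d'
    refine h.np hg (i := i) (j := m) fun x hx => mem_perp.2 fun y hy => h.dec.witt.refl
      (perp_of_neg h2 (mul_mem e3.1.1 e4.1.1) ?_ ?_)
    · rw [← e, LinearEquiv.mul_apply, LinearEquiv.mul_apply, inv_apply_apply, hi x hx, map_neg]
    · rw [LinearEquiv.mul_apply, h.ng_fix e4 m3 m4 hy, h.ng_fix e3 m1 m2 hy]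

theorem le_odd (h : PC Q D M) (h2 : (2 : F) ≠ 0) : M ≤ decStab D := fun g hg => by
  classical
  by_contra hn
  have h5 := h.five
  have hW := h.dec.witt
  have : Finite V := Module.finite_of_finite F
  have : Finite (V ≃ₗ[F] V) := Finite.of_injective _ DFunLike.coe_injective
  obtain ⟨a, b, ab⟩ := Fintype.exists_pair_of_one_lt_card (α := τ) (by omega)
  obtain ⟨t₀, h0, h0'⟩ := h.exists_ng h2 ab
  obtain ⟨S, h1, s2, h3⟩ := (h.dih h2).exists_regular hg hn ⟨h0, a, b, ab, h0'⟩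
  choose π n1 n2 using fun s : S => ODec.exists_perm (s2 s s.2).2.1
  have hp : ∀ i k i' k', i ≠ k → i' ≠ k' →
      ∃! y, (π y i = i' ∧ π y k = k') ∨ (π y i = k' ∧ π y k = i') := fun i k i' k' ik ik' => by
    obtain ⟨t, ht, e⟩ := h.exists_ng h2 ik
    obtain ⟨t', ht', e'⟩ := h.exists_ng h2 ik'
    obtain ⟨s, ⟨s1, s4⟩, s3⟩ := h3 _ ⟨ht, i, k, ik, e⟩ _ ⟨ht', i', k', ik', e'⟩
    have key : ∀ y : S, y.1 * t * y.1⁻¹ = t' ↔
        (π y i = i' ∧ π y k = k') ∨ (π y i = k' ∧ π y k = i') := fun y => by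
      have e1 := e.conj (h.le (s2 y y.2).1)
      rw [Submodule.map_sup, n1, n1] at e1
      refine ⟨fun e2 => h.ng_inj h2 ((π y).injective.ne ik) e1 (e2 ▸ e'), ?_⟩
      rintro (⟨rfl, rfl⟩ | ⟨rfl, rfl⟩)
      exacts [h.ng_ext ik' e1 e', h.ng_ext ik' (sup_comm (D (π y i)) _ ▸ e1) e']
    exact ⟨⟨s, s1⟩, (key _).1 s4, fun y hy => Subtype.ext (s3 y ⟨y.2, (key y).2 hy⟩)⟩
  have p1 : π ⟨1, h1⟩ = 1 := Equiv.ext fun i => h.dec.injective (by simp [← n1])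
  obtain ⟨o, ⟨y, hy⟩, hz⟩ := pairs_count π (x := ⟨1, h1⟩) hp p1 (by omega)
  obtain ⟨-, -, -, _, _, ⟨g₁, hg₁, t₁, ⟨-, i₁, j₁, -, e₁⟩, rfl⟩,
    ⟨g₂, hg₂, t₂, ⟨-, i₂, j₂, -, e₂⟩, rfl⟩, e⟩ := s2 y y.2
  have w1 := Submodule.finrank_add_le_finrank_add_finrank ((D i₁ ⊔ D j₁).map (g₁ : V →ₗ[F] V))
    ((D i₂ ⊔ D j₂).map (g₂ : V →ₗ[F] V))
  have w2 := finrank_le_fix_add y.1 _ (e ▸ hW.Supp_disp (mul_mem
    (Supp_mono le_sup_left (e₁.conj (h.le hg₁)).1) (Supp_mono le_sup_right (e₂.conj (h.le hg₂)).1)))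
  have w3 := three_mul_finrank_fix_le (fun i => perp (polarBilin Q) (D i)) (k := 2) (fun i => by
    have := hW.finrank_perp (D i)
    rw [h.dec.dim] at this; omega) (fun x hx => h.dec.eq_zero hx) (π y) hy
    (LinearMap.ker ((y.1 : V →ₗ[F] V) - 1)) fun x hx i hi => by
      rw [← n1, ← map_perp (h.le (s2 y y.2).1).1]
      exact ⟨x, hi, sub_eq_zero.1 hx⟩
  have w4 := h.finrank_ng g₁ i₁ j₁
  have w5 := h.finrank_ng g₂ i₂ j₂
  have w6 := h.dec.finrank_eq'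
  have w7 : Fintype.card τ = 5 := by obtain ⟨n, hn⟩ := o; omega
  obtain ⟨z, z1, i, z2⟩ := hz (by omega)
  have u : ∀ y i k, i ≠ k → (π y i = i ∧ π y k = k) ∨ (π y i = k ∧ π y k = i) → y = ⟨1, h1⟩ :=
    fun y i k ik e => (hp i k i k ik ik).unique e (by simp [p1])
  have p2 : ∀ j, π ⟨_, (s2 z z.2).2.2.1⟩ j = π z (π z j) := fun j =>
    h.dec.injective (by rw [← n1, ← n1, ← n1, map_mul_equiv])
  obtain ⟨j, ji, -⟩ := h.fresh i i i i
  have f1 : ∀ j, j ≠ i → π z j ≠ j := fun j ji e => z1 (u z i j ji.symm (Or.inl ⟨z2, e⟩))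
  have f2 : ∀ j, j ≠ i → π z (π z j) ≠ j := fun j ji e =>
    z1 (u z j _ (f1 j ji).symm (Or.inr ⟨rfl, e⟩))
  have f3 : ∀ j, j ≠ i → π z j ≠ i := fun j ji e => ji ((π z).injective (e.trans z2.symm))
  have f4 : π z (π z (π z (π z j))) = j := by
    have : ∀ (σ : Equiv.Perm (Fin 5)) (i j : Fin 5), σ i = i → j ≠ i → (∀ j, j ≠ i → σ j ≠ j) →
      (∀ j, j ≠ i → σ (σ j) ≠ j) → σ (σ (σ (σ j))) = j := by decide +kernel
    obtain ⟨ε⟩ := Fintype.truncEquivFinOfCardEq w7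
    simpa using this (ε.permCongr (π z)) (ε i) (ε j) (by simp [z2]) (by simpa using ji)
      (ε.surjective.forall.2 (by simpa using f1)) (ε.surjective.forall.2 (by simpa using f2))
  have := u ⟨_, (s2 z z.2).2.2.1⟩ j _ (f2 j ji).symm (Or.inr ⟨p2 j, (p2 _).trans f4⟩)
  exact f2 j ji (by rw [← p2, this, p1]; rfl)

end PC

/-- Stabilisers of decompositions into at least five planes are maximal in `Ω`. -/
theorem omega_maxIn_planes (h : ODec (polarBilin Q) Q 2 D) (h10 : 10 ≤ finrank F V)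
    (hc : ((∀ i, ∀ u ∈ D i, Q u = 0 → u = 0) ∧ Nat.card F ≠ 3) ∨ 7 ≤ Nat.card F) :
    MaxIn (OmG Q) (decStab D) := by
  have h5 : 5 ≤ Fintype.card τ := by have := h.finrank_eq'; omega
  have hP : PD Q D := ⟨h, hc⟩
  refine ⟨fun hle => ?_, fun M h1 h2 m hm hm' => by_contra fun hn => hm' ?_⟩
  · obtain ⟨i, j, ij⟩ := Fintype.exists_pair_of_one_lt_card (α := τ) (by omega)
    obtain ⟨u, hu, f, hf, qu, -, uf⟩ := hP.exists_pair ij
    obtain ⟨l, hl⟩ := exists_notMem_list [i, j] (by simp; omega)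
    simp only [List.mem_cons, List.not_mem_nil, or_false, not_or] at hl
    obtain ⟨w, hw, qw⟩ := (hP.pl l).exists_nonsing'
    have p := sup_le (h.orth l i hl.1) (h.orth l j hl.2)
    have e : polar Q u w = 0 := h.witt.refl (mem_perp.1 (p hu) w hw)
    have hE := (polarG_omega' hP.nd (by omega)).rad_le' (by rintro rfl; simp at uf) qu ⊤
      (eichler_mem_Rad (by simpa using qu) e trivial trivial)
    obtain ⟨a, ha, qa, e'⟩ := (hP.pl l).exists_nonsing hw (by rintro rfl; simp at qw)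
    obtain ⟨m, hm⟩ := exists_apply_mem_of_decStab (hle hE) l
    have := hm a ha
    rw [eichler_apply_of_perp _ _ (h.witt.refl (mem_perp.1 (p hu) a ha)), sub_eq_add_neg] at this
    exact h.add_notMem ha (neg_mem (Submodule.smul_mem _ _ (p hu))) (by rintro rfl; simp at qa)
      (neg_ne_zero.2 (smul_ne_zero e' (by rintro rfl; simp at uf))) m this
  · have : PC Q D M := ⟨hP, h5, h1, h2, hn⟩
    by_cases t : (2 : F) = 0
    exacts [this.le_two t hm, this.le_odd t hm]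

theorem omega_maxIn_dec_large [Nontrivial τ] {k : ℕ} (h : ODec (polarBilin Q) Q k D) (hk : 6 ≤ k) :
    MaxIn (OmG Q) (decStab D) := by
  obtain ⟨i⟩ : Nonempty τ := inferInstance
  have h5 : 5 ≤ finrank F V := by have := (D i).finrank_le; rw [h.dim] at this; omega
  obtain ⟨u, hu, u0, qu⟩ := exists_singular_mem Q (U := D i) (by rw [h.dim]; omega)
  refine ⟨h.not_le (polarG_omega' h.witt.nondegenerate h5) hu u0 (by simpa using qu),
    fun M hM hM' m hm hmD => ?_⟩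
  have c : OCtx Q k D M := ⟨h5, h, hM, hM'.trans OmG_le⟩
  exact h.le_of_large c.polarG (c.big (by omega)) (c.adj (by omega)) (singDim_quad Q) hk hM c.le'
    hm hmD

/-- Stabilisers of orthogonal decompositions into isometric subspaces of dimension at least two. -/
theorem omega_isMaximalIn_dec {F : Type*} [Field F] [Fintype F] {ι : Type} [Fintype ι]
    [DecidableEq ι] {Q : (ι → F) → F} (hQ : Cfsg.Geo.IsNondegenerateQuadraticForm Q) {t k : ℕ}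
    {D : Fin t → Submodule F (ι → F)} (hD : Cfsg.Geo.IsOrthogonalMDecomposition Q k D)
    (h5 : 5 ≤ Fintype.card ι) (hk : 2 ≤ k) (ho : Odd k → Odd (Fintype.card F))
    (h2 : k = 2 → 10 ≤ Fintype.card ι ∧ Fintype.card F ≠ 3 ∧
      ((∀ i, Cfsg.Geo.IsPlusTypeOn Q (D i)) → 7 ≤ Fintype.card F))
    (h3 : k = 3 → Fintype.card F ≠ 3)
    (h4 : k = 4 → Fintype.card F = 2 → ¬ ∀ i, Cfsg.Geo.IsPlusTypeOn Q (D i)) :
    Cfsg.Geo.IsMaximalIn (Cfsg.Geo.omegaGL Q)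
      (Cfsg.Geo.decompositionStabilizer D ⊓ Cfsg.Geo.omegaGL Q) := by
  obtain ⟨Q, rfl, hQ'⟩ := exists_quadraticForm hQ
  have h := odec_quad hQ' hD
  have := nontrivial_fin hD.decomp.decomp
  have hp : (¬ ∀ i, Cfsg.Geo.IsPlusTypeOn Q (D i)) → ∀ i, ¬ Cfsg.Geo.IsPlusTypeOn Q (D i) := by
    rintro hn i ⟨U, h1, h2, h3⟩
    refine hn fun j => ?_
    by_cases ij : i = j
    · exact ⟨U, ij ▸ h1, h2, ij ▸ h3⟩
    obtain ⟨g, hg, -, e, -⟩ := h.exists_swap₀ ij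
    refine ⟨U.map (g : (ι → F) →ₗ[F] (ι → F)), e ▸ Submodule.map_mono h1, ?_, by
      rw [LinearEquiv.finrank_map_eq, h3, h.dim, h.dim]⟩
    rintro _ ⟨x, hx, rfl⟩
    exact (hg.2 x).trans (h2 x hx)
  have c1 := Fintype.one_lt_card (α := F)
  refine MaxIn.isMaximalIn (glEquiv _ F) ?_ (mem_omegaGL_iff Q) (mem_decompositionStabilizer_iff D)
  by_cases k2 : k = 2
  · subst k2
    obtain ⟨a, b, c⟩ := h2 rfl
    refine omega_maxIn_planes h (by simpa using a) ?_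
    rw [Nat.card_eq_fintype_card]
    by_cases e : ∀ i, Cfsg.Geo.IsPlusTypeOn Q (D i)
    · exact Or.inr (c e)
    · exact Or.inl ⟨fun i u hu q => by_contra fun u0 =>
        hp e i (isPlusTypeOn_of_singular (h.dim i) hu q u0), b⟩
  by_cases k6 : 6 ≤ k
  · exact omega_maxIn_dec_large h k6
  by_cases t2 : (2 : F) = 0
  · have : ¬ Odd k := fun e => two_ne_zero_of_odd_card (ho e) t2
    obtain rfl : k = 4 := by rw [Nat.odd_iff] at this; omega
    exact omega_maxIn_dec_two (by simpa using h5) h le_rfl t2 fun e i =>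
      noTS2_of_not_plus (h.dim i) (hp (h4 rfl (by simpa using e)) i)
  refine omega_maxIn_dec_odd (by simpa using h5) h (by omega) t2 fun e => ?_
  have := h3 e
  have := Nat.odd_iff.1 (odd_card_of_two_ne_zero t2)
  rw [Nat.card_eq_fintype_card]; omega

theorem card_ne_six (F : Type*) [Field F] [Fintype F] : Fintype.card F ≠ 6 := fun e => by
  have := Fintype.isPrimePow_card_of_field (α := F)
  rw [e] at this
  exact absurd this (by decide)

end CF.Geom
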