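/-
Non-maximality of some geometric subgroups: tensor products with a small factor permuting a frame.
-/
import Cfsg.Agent.MaxSub.UnitB
import Cfsg.Agent.MaxSub.MaxO

set_option autoImplicit false

namespace CF.Geom.Nm

open Matrix Cfsg Cfsg.Geo CF.MaxSub
open scoped MatrixGroups Kronecker

theorem btw {G : Type*} [Group G] {T X M : Subgroup G} (h1 : T ⊓ X ≤ M) (h2 : ¬ X ≤ M) {g : G}
    (gX : g ∈ X) (gM : g ∈ M) (gT : g ∉ T) : ∃ K : Subgroup G, T ⊓ X < K ∧ K < X := by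
  refine ⟨M ⊓ X, lt_of_le_of_ne (le_inf h1 inf_le_right) fun e => gT ?_,
    lt_of_le_of_ne inf_le_right fun e => h2 (e ▸ inf_le_left)⟩
  exact (e ▸ (⟨gM, gX⟩ : g ∈ M ⊓ X) : g ∈ T ⊓ X).1

variable {ι : Type} [Fintype ι] [DecidableEq ι] {F : Type*} [Field F]

theorem tf_of_isTensor {n₁ n₂ : ℕ} (h1 : 0 < n₁) (h2 : 0 < n₂) {φ : FD ι F} {φ₁ : FD (Fin n₁) F}
    {φ₂ : FD (Fin n₂) F} (s1 : φ₁.σ = φ.σ) (s2 : φ₂.σ = φ.σ) {e : ι ≃ Fin n₁ × Fin n₂} {P : GL ι F}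
    (h : IsTensorFormStructure φ.σ φ.f φ₁.f φ₂.f e P) : ∃ c : Fˣ, TF φ e P (φ₁.smul c) φ₂ := by
  have : Nonempty (Fin n₁) := ⟨⟨0, h1⟩⟩
  have : Nonempty (Fin n₂) := ⟨⟨0, h2⟩⟩
  obtain ⟨c, c0, hc⟩ := h
  refine ⟨Units.mk0 c c0, TF.of_G s1 s2 (Units.ext (sf_injective φ.σ (funext₂ fun x y => ?_)))⟩
  have := hc x y
  rw [← φ.coordFD_f, formOfGram_eq, φ₁.f_def, φ₂.f_def, gramMatrix_sf, gramMatrix_sf] at this
  rw [coe_kronGL, FD.smul_G, smul_kronecker, sf_smul]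
  exact this

theorem not_mem_tensor {G : Subgroup (GL ι F)} {c : ℕ} {S : Set (GL ι F)} (h : Roots G c S)
    {n₁ n₂ : ℕ} (h1 : c < n₁) (h2 : c < n₂) (e : ι ≃ Fin n₁ × Fin n₂) (P : GL ι F) {T : GL ι F}
    (hT : T ∈ S) (h0 : T ≠ 1) : T ∉ tensorProductSubgroup n₁ n₂ e P := fun hm => by
  obtain ⟨a, b, hab⟩ := mem_kroneckerSubgroup.1 ((mem_tensorProductSubgroup e P T).1 hm)
  obtain ⟨x, hx⟩ := h.left_scalar (by rwa [Fintype.card_fin]) hT hab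
  obtain ⟨y, hy⟩ := h.left_scalar (by rwa [Fintype.card_fin]) hT (coordGL_swap hab)
  refine h0 (h.eq_one_of_scalar ?_ hT (d := x * y) ((coord e P).injective ?_))
  · rw [Fintype.card_congr e]
    simp only [Fintype.card_prod, Fintype.card_fin]
    nlinarith
  · rw [← coe_coordGL, hab, coe_kronGL, hx, hy, map_smul, map_one, smul_kronecker, kronecker_smul,
      smul_smul, one_kronecker_one]

/-- An element moving only inside one block of an orthogonal decomposition stabilizes it. -/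
theorem mem_ndec {φ : FD ι F} {t k : ℕ} {D : Fin t → Submodule F (ι → F)}
    (hD : IsNondegenerateMDecomposition φ.f k D) {i : Fin t} {g : GL ι F}
    (h1 : ∀ v, g.val *ᵥ v - v ∈ D i) (h2 : ∀ v ∈ φ.perp (D i), g.val *ᵥ v = v) :
    g ∈ decompositionStabilizer D := by
  refine mem_decomp_of_mapsTo hD.decomp fun j => ⟨j, fun v hv => ?_⟩
  by_cases hij : j = i
  · subst hij
    simpa using add_mem (h1 v) hv
  · rwa [h2 v (φ.ndec_le_perp hD hij hv)]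

theorem exists_tv_ndec {φ : FD ι F} {t k : ℕ} {D : Fin t → Submodule F (ι → F)}
    (hD : IsNondegenerateMDecomposition φ.f k D) {i : Fin t} {v : ι → F} (hv : v ∈ D i)
    (h0 : v ≠ 0) (h1 : φ.f v v = 0) {a : F} (a0 : a ≠ 0) (ha : φ.σ a + φ.ε * a = 0) :
    ∃ T ∈ φ.tvS, T ≠ 1 ∧ T ∈ decompositionStabilizer D := by
  refine ⟨φ.tvf v h1 a, ⟨v, h1, a, ha, rfl⟩, fun e => a0 (φ.tvf_injective h1 h0
    (e.trans (φ.tvf_zero v h1).symm)), mem_ndec hD (i := i) (fun x => ?_) fun x hx => ?_⟩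
  · simpa [φ.tvf_mulVec] using Submodule.smul_mem _ _ hv
  · simp [φ.tvf_mulVec, φ.mem_perp.1 hx v hv]

theorem exists_eich_ndec [Finite F] {φ : FD ι F} {Q : (ι → F) → F} (h : φ.IsQ Q) {t k : ℕ}
    {D : Fin t → Submodule F (ι → F)} (hD : IsNondegenerateMDecomposition φ.f k D) (hk : 3 ≤ k) :
    ∃ T ∈ h.eichS, T ≠ 1 ∧ T ∈ decompositionStabilizer D := by
  let i : Fin t := ⟨0, by have := hD.decomp.two_le; omega⟩
  obtain ⟨u, u1, u2, u3⟩ := h.exists_singular (U := D i) (by rwa [hD.decomp.finrank_eq])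
  obtain ⟨w, w1, w2⟩ : ∃ w ∈ D i ⊓ φ.perp (Submodule.span F {u}), w ∉ Submodule.span F {u} := by
    by_contra! hc
    have h1 := Submodule.finrank_mono (show D i ⊓ φ.perp (Submodule.span F {u}) ≤ _ from hc)
    have h2 := finrank_inf_ge (D i) (φ.perp (Submodule.span F {u}))
    have h3 := φ.finrank_perp (Submodule.span F {u})
    rw [finrank_span_singleton u2] at h1 h3
    rw [hD.decomp.finrank_eq] at h2
    omega
  have w3 : φ.f u w = 0 := φ.mem_perp'.1 w1.2 u (Submodule.mem_span_singleton_self u)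
  refine ⟨h.eich u3 w3, ⟨u, w, u3, w3, rfl⟩, h.eich_ne_one u3 w3 u2 w2,
    mem_ndec hD (i := i) (fun x => ?_) fun x hx => ?_⟩
  · have : (h.eich u3 w3).val *ᵥ x - x = φ.f u x • w - φ.f w x • u - (Q w * φ.f u x) • u := by
      rw [h.eich_mulVec]; abel
    rw [this]
    exact sub_mem (sub_mem (Submodule.smul_mem _ _ w1.1) (Submodule.smul_mem _ _ u1))
      (Submodule.smul_mem _ _ u1)
  · simp [h.eich_mulVec, φ.mem_perp'.1 hx u u1, φ.mem_perp'.1 hx w w1.1]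

variable [Fintype F]

theorem nm_sp_three {φ : FD ι F} (hσ : φ.σ = RingHom.id F) (halt : ∀ v, φ.f v v = 0)
    (hq : Fintype.card F = 3) {n₁ : ℕ} (hn : 2 ≤ n₁) {e : ι ≃ Fin n₁ × Fin 3} {P : GL ι F}
    {f₁ : (Fin n₁ → F) → (Fin n₁ → F) → F} {f₂ : (Fin 3 → F) → (Fin 3 → F) → F}
    (hf₁ : IsSymplecticForm f₁) (hf₂ : IsSymmetricForm f₂)
    (hT : IsTensorFormStructure id φ.f f₁ f₂ e P) : ∃ K : Subgroup (GL ι F),
      tensorProductSubgroup n₁ 3 e P ⊓ φ.isom < K ∧ K < φ.isom := by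
  obtain ⟨φ₁, a1, -, rfl⟩ := exists_FD_symp hf₁
  obtain ⟨φ₂, b1, b2, rfl⟩ := exists_FD_symm hf₂
  have : Nonempty (Fin n₁) := ⟨⟨0, by omega⟩⟩
  have : Nonempty ι := e.nonempty
  have hι : Fintype.card ι = n₁ * 3 := by simpa using Fintype.card_congr e
  obtain ⟨c, h⟩ := tf_of_isTensor (φ := φ) (by omega) (by omega) (a1.trans hσ.symm)
    (b1.trans hσ.symm) (by rwa [hσ])
  obtain ⟨b, -, h6, -, h7⟩ := φ₂.exists_frame_three b1 b2 hq rfl
  obtain ⟨D, h8, -, h9⟩ := h6.tf h (by omega)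
  have ha : φ.σ 1 + φ.ε * 1 = 0 := by simp [φ.eps_of_alt hσ halt]
  have hR := φ.roots_tv (by omega) one_ne_zero ha fun W h0 h1 =>
    let ⟨v, h2, h3⟩ := exists_notMem_two h1 (mt φ.perp_eq_top.1 h0)
    ⟨v, halt v, h2, h3⟩
  obtain ⟨v, v1, v2⟩ := Submodule.exists_mem_ne_zero_of_ne_bot (mdec_ne_bot h8.decomp 0)
  obtain ⟨T, T1, T2, T3⟩ := exists_tv_ndec h8 v1 v2 (halt v) one_ne_zero ha
  refine btw (M := decompositionStabilizer D) (fun g hg => ?_)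
    (fun hle => hR.not_le_decomp h8.decomp (by simp; omega) (inf_le_left.trans hle))
    (hR.mem T T1).1 T3 (not_mem_tensor hR (by omega) (by omega) e P T1 T2)
  obtain ⟨a, c, hac⟩ := mem_kroneckerSubgroup.1 ((mem_tensorProductSubgroup e P g).1 hg.1)
  exact h9 g a c hac (h7 c (h.mem_sim hg.2 hac).2)

theorem nm_o_three {φ : FD ι F} {Q : (ι → F) → F} (hQ : φ.IsQ Q)
    (hq : Fintype.card F = 3) {n₂ : ℕ} (hn : 3 ≤ n₂) {e : ι ≃ Fin 3 × Fin n₂} {P : GL ι F}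
    {f₁ : (Fin 3 → F) → (Fin 3 → F) → F} {f₂ : (Fin n₂ → F) → (Fin n₂ → F) → F}
    (hf₁ : IsSymmetricForm f₁) (hf₂ : IsSymmetricForm f₂)
    (hT : IsTensorFormStructure id (QuadraticMap.polar Q) f₁ f₂ e P) : ∃ K : Subgroup (GL ι F),
      tensorProductSubgroup 3 n₂ e P ⊓ omegaGL Q < K ∧ K < omegaGL Q := by
  obtain ⟨φ₁, a1, a2, rfl⟩ := exists_FD_symm hf₁
  obtain ⟨φ₂, b1, b2, rfl⟩ := exists_FD_symm hf₂
  have : Nonempty (Fin n₂) := ⟨⟨0, by omega⟩⟩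
  have hι : Fintype.card ι = 3 * n₂ := by simpa using Fintype.card_congr e
  rw [hQ.polar] at hT
  obtain ⟨c, h⟩ := tf_of_isTensor (φ := φ) (by omega) (by omega) (a1.trans hQ.σ.symm)
    (b1.trans hQ.σ.symm) (by rwa [hQ.σ])
  obtain ⟨b, -, h6, -, h7⟩ := (φ₁.smul c).exists_frame_three a1
    (by simp [FD.smul_ε, a1, a2]) hq rfl
  obtain ⟨D, h8, -, h9⟩ := h6.tf h.swap (by omega)
  have hR := hQ.roots (by omega)
  obtain ⟨T, T1, T2, T3⟩ := exists_eich_ndec hQ h8 (by simpa using hn)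
  refine btw (M := decompositionStabilizer D) (fun g hg => ?_) (hQ.not_le_ndec (by omega) h8)
    (hR.mem T T1) T3 (not_mem_tensor hR (by omega) (by omega) e P T1 T2)
  obtain ⟨a, c, hac⟩ := mem_kroneckerSubgroup.1 ((mem_tensorProductSubgroup e P g).1 hg.1)
  exact h9 g c a (coordGL_swap hac) (h7 a (h.mem_sim (hQ.omega_le hg.2) hac).1)

theorem nm_u_two {φ : FD ι F} (hU : φ.IsU 2) {n₂ : ℕ} (hn : 2 ≤ n₂) {e : ι ≃ Fin 2 × Fin n₂}
    {P : GL ι F} {f₁ : (Fin 2 → F) → (Fin 2 → F) → F} {f₂ : (Fin n₂ → F) → (Fin n₂ → F) → F}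
    (hf₁ : IsUnitaryFormPow 2 f₁) (hf₂ : IsUnitaryFormPow 2 f₂)
    (hT : IsTensorFormStructure (fun x : F => x ^ 2) φ.f f₁ f₂ e P) : ∃ K : Subgroup (GL ι F),
      tensorProductSubgroup 2 n₂ e P ⊓ φ.su < K ∧ K < φ.su := by
  obtain ⟨φ₁, a1, -, rfl⟩ := exists_FD (σ := φ.σ) (ε := 1) φ.invol hf₁.add_left hf₁.smul_left
    (fun u v => by rw [hf₁.herm, hU.σ, one_mul]) hf₁.nondegenerate
  obtain ⟨φ₂, b1, -, rfl⟩ := exists_FD (σ := φ.σ) (ε := 1) φ.invol hf₂.add_left hf₂.smul_left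
    (fun u v => by rw [hf₂.herm, hU.σ, one_mul]) hf₂.nondegenerate
  have : Nonempty (Fin n₂) := ⟨⟨0, by omega⟩⟩
  have hι : Fintype.card ι = 2 * n₂ := by simpa using Fintype.card_congr e
  obtain ⟨c, h⟩ := tf_of_isTensor (φ := φ) (by omega) (by omega) a1 b1 (by rwa [hU.coe_σ])
  obtain ⟨ψ₁, ψ₂, h, h1, -⟩ := hU.exists_TF le_rfl hn h
  obtain ⟨b, h4, -, h5⟩ := h1.frame_two rfl (by simp)
  obtain ⟨D, h8, -, h9⟩ := h4.tf h.swap le_rfl
  have hR := hU.roots (by omega)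
  obtain ⟨v, v1, v2, v3⟩ := hU.exists_iso (U := D 0) (by simpa [h8.decomp.finrank_eq] using hn)
  obtain ⟨a, a0, ha⟩ := hU.exists_skew
  obtain ⟨T, T1, T2, T3⟩ := exists_tv_ndec h8 v1 v2 v3 a0 ha
  refine btw (M := decompositionStabilizer D) (fun g hg => ?_) (hU.not_le_ndec (by omega) h8)
    (hR.mem T T1) T3 (not_mem_tensor hR (by omega) (by omega) e P T1 T2)
  obtain ⟨a, c, hac⟩ := mem_kroneckerSubgroup.1 ((mem_tensorProductSubgroup e P g).1 hg.1)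
  exact h9 g c a (coordGL_swap hac) (ψ₁.permL_of_line h4 h5 (h.mem_sim hg.2.1 hac).1)

end CF.Geom.Nm
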