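/-
Non-maximality of some geometric subgroups over very small fields.
-/
import Cfsg.Agent.Geom.NmT
import Cfsg.Agent.MaxSub.MaxL

set_option autoImplicit false

namespace CF.Geom.Nm

open Matrix Cfsg Cfsg.Geo CF.MaxSub
open scoped MatrixGroups Kronecker

variable {ι : Type} [Fintype ι] [DecidableEq ι] {F : Type*} [Field F]

theorem finrank_comap_ge (A : Submodule F (ι → F)) (x : Matrix ι ι F) :
    Module.finrank F A ≤ Module.finrank F (A.comap (toLin' x)) := by
  have h1 := LinearMap.finrank_range_add_finrank_ker (A.mkQ ∘ₗ toLin' x)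
  rw [LinearMap.ker_comp, Submodule.ker_mkQ] at h1
  have h2 := Submodule.finrank_le (LinearMap.range (A.mkQ ∘ₗ toLin' x))
  have h3 := A.finrank_quotient_add_finrank
  omega

/-- The elements fixing or interchanging `z` and `1 - z`. -/
def ZN (z : Matrix ι ι F) : Subgroup (GL ι F) where
  carrier := {g | cj g z = z ∨ cj g z = 1 - z}
  one_mem' := .inl (cj_one z)
  mul_mem' := by
    rintro a b (ha | ha) (hb | hb) <;> simp [cj_mul, ha, hb]
  inv_mem' := by
    rintro a (ha | ha)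
    · exact .inl (by rw [← ha, cj_inv_cj, ha])
    · refine .inr ?_
      have := congrArg (cj a⁻¹) ha
      rw [cj_inv_cj, map_sub, map_one] at this
      rw [eq_sub_iff_add_eq, add_comm, ← eq_sub_iff_add_eq, ← this]

theorem mem_ZN {z : Matrix ι ι F} {g : GL ι F} : g ∈ ZN z ↔ cj g z = z ∨ cj g z = 1 - z := Iff.rfl

theorem eq_zero_of_cj (h2 : (2 : F) = 0) {z : Matrix ι ι F} {g : GL ι F} (h : cj g z = 1 - z)
    {v : ι → F} (h0 : g.val *ᵥ v = v) (h1 : g.val *ᵥ (z *ᵥ v) = z *ᵥ v) : v = 0 := by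
  have := cj_mulVec g z v
  rw [h, h0, h1, sub_mulVec, one_mulVec, sub_eq_iff_eq_add, ← two_smul F, h2, zero_smul] at this
  exact this

theorem roots_not_le_ZN (h2 : (2 : F) = 0) {G : Subgroup (GL ι F)} {c : ℕ} {S : Set (GL ι F)}
    (h : Roots G c S) (hn : 2 * c < Fintype.card ι) {z : Matrix ι ι F} (hz : ∀ a : F, z ≠ a • 1) :
    ¬ G ≤ ZN z := fun hle => by
  refine (h.cen z fun T hT => ((cj_eq_self_iff _ _).1 ((hle (h.mem T hT)).resolve_right
    fun e => ?_)).symm).elim hz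
  obtain ⟨v, v1, v2, v3⟩ := h.exists_fix hT (U := (eig T.val 1).comap (toLin' z)) (by
    have := finrank_comap_ge (eig T.val 1) z
    have := h.fix T hT
    omega)
  exact v3 (eq_zero_of_cj h2 e v2 (mem_eig_one.1 v1))

theorem SL_not_le_ZN (h2 : (2 : F) = 0) (hn : 3 ≤ Fintype.card ι) {z : Matrix ι ι F}
    (hz : ∀ a : F, z ≠ a • 1) : ¬ specialLinear ι F ≤ ZN z := fun hle => by
  obtain ⟨v, hv⟩ := exists_not_eigen hz
  obtain ⟨ψ, x, h1, h3, h4⟩ := exists_dot_pair hn v (z *ᵥ v)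
  rcases hle (tv_mem_SL v ψ h3) with h | h
  · exact hv (mem_span_of_comm_tv h3 h1 ((cj_eq_self_iff _ _).1 h).symm)
  · have := eq_zero_of_cj h2 h (v := v) (by rw [tv_mulVec, h3]; simp) (by rw [tv_mulVec, h4]; simp)
    exact hv (by simp [this])

/-- An element of order three of `GL₂(2)`. -/
def om (F : Type*) [Field F] : Matrix (Fin 2) (Fin 2) F := !![0, 1; 1, 1]

theorem two_eq_zero_of_card [Fintype F] (hq : Fintype.card F = 2) : (2 : F) = 0 := by
  have := FiniteField.cast_card_eq_zero F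
  rwa [hq] at this

theorem om_mul (h2 : (2 : F) = 0) : om F * om F = om F - 1 := by
  have h3 : (-1 : F) = 1 := by linear_combination -h2
  have h4 : (1 : F) + 1 = 0 := by linear_combination h2
  ext i j
  fin_cases i <;> fin_cases j <;> simp [om, h3, h4]

theorem cj_om [Fintype F] (hq : Fintype.card F = 2) (u : GL (Fin 2) F) :
    cj u (om F) = om F ∨ cj u (om F) = 1 - om F := by
  have h2 := two_eq_zero_of_card hq
  have h3 : (-1 : F) = 1 := by linear_combination -h2
  have h4 : (1 : F) + 1 = 0 := by linear_combination h2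
  have hb : cj u (om F) * cj u (om F) = cj u (om F) - 1 := by
    rw [← map_mul, om_mul h2, map_sub, map_one]
  generalize cj u (om F) = b at hb
  rw [eta_fin_two b] at hb ⊢
  have e0 := congrFun (congrFun hb 0) 0
  have e1 := congrFun (congrFun hb 1) 1
  have e2 := congrFun (congrFun hb 0) 1
  rcases eq_zero_or_one_of_card_two hq (b 0 0) with h0 | h0 <;>
  rcases eq_zero_or_one_of_card_two hq (b 0 1) with h1 | h1 <;>
  rcases eq_zero_or_one_of_card_two hq (b 1 0) with h5 | h5 <;>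
  rcases eq_zero_or_one_of_card_two hq (b 1 1) with h6 | h6 <;>
  simp [h0, h1, h3, h4, h5, h6, om, one_fin_two] at e0 e1 e2 ⊢

/-- The element of order three of the small tensor factor. -/
def zt {n : ℕ} (e : ι ≃ Fin 2 × Fin n) (P : GL ι F) : Matrix ι ι F :=
  (coord e P).symm (om F ⊗ₖ 1)

theorem coord_zt {n : ℕ} (e : ι ≃ Fin 2 × Fin n) (P : GL ι F) :
    coord e P (zt e P) = om F ⊗ₖ 1 := AlgEquiv.apply_symm_apply _ _

theorem zt_ne {n : ℕ} (hn : 0 < n) (e : ι ≃ Fin 2 × Fin n) (P : GL ι F) (a : F) :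
    zt e P ≠ a • 1 := fun h => by
  have := coord_zt e P
  rw [h, map_smul, map_one] at this
  simpa [om] using congrFun (congrFun this (0, ⟨0, hn⟩)) (1, ⟨0, hn⟩)

theorem tensor_le_ZN [Fintype F] (hq : Fintype.card F = 2) {n : ℕ} (e : ι ≃ Fin 2 × Fin n)
    (P : GL ι F) : tensorProductSubgroup 2 n e P ≤ ZN (zt e P) := fun g hg => by
  obtain ⟨u, v, huv⟩ := mem_kroneckerSubgroup.1 ((mem_tensorProductSubgroup e P g).1 hg)
  refine (cj_om hq u).imp (fun h => (coord e P).injective ?_) fun h => (coord e P).injective ?_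
  · rw [coord_cj, coord_zt, huv, cj_kronGL, h, map_one]
  · rw [coord_cj, map_sub, map_one, coord_zt, huv, cj_kronGL, h, map_one, ← kronL_apply,
      ← kronL_apply, map_sub, map_one]

theorem nm_sl_two [Fintype F] (hq : Fintype.card F = 2) {n : ℕ} (hn : 2 ≤ n)
    (e : ι ≃ Fin 2 × Fin n) (P : GL ι F) : ∃ K : Subgroup (GL ι F),
      tensorProductSubgroup 2 n e P ⊓ specialLinear ι F < K ∧ K < specialLinear ι F := by
  have hι : Fintype.card ι = 2 * n := by simpa using Fintype.card_congr e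
  let i : Fin n := ⟨0, by omega⟩
  let j : Fin n := ⟨1, by omega⟩
  have hij : i ≠ j := by simp [i, j]
  let N : Matrix (Fin 2 × Fin n) (Fin 2 × Fin n) F := om F ⊗ₖ single i j 1
  have hN : N * N = 0 := by
    rw [← mul_kronecker_mul, single_mul_single_of_ne _ _ _ _ hij.symm, kronecker_zero]
  let g : GL (Fin 2 × Fin n) F := ⟨1 + N, 1 - N, by simp [add_mul, mul_sub, hN],
    by simp [sub_mul, mul_add, hN]⟩
  refine btw (M := ZN (zt e P)) (inf_le_left.trans (tensor_le_ZN hq e P))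
    (SL_not_le_ZN (two_eq_zero_of_card hq) (by omega) (zt_ne (by omega) e P))
    (g := (coordGL e P).symm g)
    (mem_specialLinear.2 (eq_one_of_card_two hq (Matrix.isUnits_det_units _).ne_zero))
    (.inl ((coord e P).injective ?_)) fun hg => ?_
  · rw [coord_cj, MulEquiv.apply_symm_apply, coord_zt, cj_eq_self_iff]
    simp [g, N, add_mul, mul_add, ← mul_kronecker_mul]
  · obtain ⟨u, v, huv⟩ := mem_kroneckerSubgroup.1 ((mem_tensorProductSubgroup e P _).1 hg)
    rw [MulEquiv.apply_symm_apply] at huv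
    have h := congrArg Units.val huv
    have h1 := congrFun (congrFun h (0, i)) (0, i)
    have h2 := congrFun (congrFun h (0, i)) (1, i)
    have h3 := congrFun (congrFun h (0, i)) (1, j)
    simp [g, N, om, hij.symm] at h1 h2 h3
    rcases h2 with h2 | h2
    · simp [h2] at h3
    · simp [h2] at h1

theorem nm_o_two [Fintype F] {φ : FD ι F} {Q : (ι → F) → F} (hQ : φ.IsQ Q)
    (hq : Fintype.card F = 2) {n : ℕ} (hn : 3 ≤ n) {e : ι ≃ Fin 2 × Fin n} {P : GL ι F}
    {f₁ : (Fin 2 → F) → (Fin 2 → F) → F} {f₂ : (Fin n → F) → (Fin n → F) → F}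
    (hf₁ : IsSymplecticForm f₁) (hf₂ : IsSymplecticForm f₂)
    (hT : IsTensorFormStructure id (QuadraticMap.polar Q) f₁ f₂ e P)
    (hp : ∀ x y, Q (crd e P (tm x y)) = 0) : ∃ K : Subgroup (GL ι F),
      tensorProductSubgroup 2 n e P ⊓ omegaGL Q < K ∧ K < omegaGL Q := by
  have alt₁ := hf₁.alternating
  obtain ⟨φ₁, a1, a2, rfl⟩ := exists_FD_symp hf₁
  obtain ⟨φ₂, b1, b2, rfl⟩ := exists_FD_symp hf₂
  have : Nonempty (Fin n) := ⟨⟨0, by omega⟩⟩
  have hι : Fintype.card ι = 2 * n := by simpa using Fintype.card_congr e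
  have h2 := two_eq_zero_of_card hq
  have h3 : (-1 : F) = 1 := by linear_combination -h2
  rw [hQ.polar] at hT
  obtain ⟨c, h⟩ := tf_of_isTensor (φ := φ) (by omega) (by omega) (a1.trans hQ.σ.symm)
    (b1.trans hQ.σ.symm) (by rwa [hQ.σ])
  have alt : ∀ v, (φ₁.smul c).f v v = 0 := fun v => by rw [FD.smul_f, alt₁, mul_zero]
  generalize φ₁.smul c = ψ at h alt
  have hR := hQ.roots (by omega)
  obtain ⟨y, y0⟩ := exists_ne (0 : Fin n → F)
  obtain ⟨x, x1, x2⟩ := FD.exists_perp_notMem (by simpa using hn) φ₂ y0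
  let e0 : Fin 2 → F := Pi.single 0 1
  let e1 : Fin 2 → F := Pi.single 1 1
  let v := crd e P (tm e0 x + tm e1 y)
  have hv : v = crd e P (tm e0 x) + crd e P (tm e1 y) := map_add _ _ _
  have v0 : Q v = 0 := by rw [hv, hQ.add, hp, hp, h.f_tm, x2]; simp
  have hzz : zt e P * zt e P = zt e P - 1 := (coord e P).injective (by
    rw [map_mul, map_sub, map_one, coord_zt, ← kronL_apply, ← map_mul, om_mul h2, map_sub, map_one])
  let z : GL ι F := ⟨zt e P, 1 - zt e P, by rw [mul_sub, hzz]; simp, by rw [sub_mul, hzz]; simp⟩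
  let a : GL (Fin 2) F := ⟨om F, 1 - om F, by rw [mul_sub, om_mul h2]; simp,
    by rw [sub_mul, om_mul h2]; simp⟩
  have hz : coordGL e P z = kronGL a 1 := Units.ext ((coe_coordGL e P z).trans (coord_zt e P))
  have z1 : z ∈ φ.isom := by
    rw [← φ.coordGL_mem_isom e P, hz]
    exact h.kron_mem_isom (ψ.SL_le_isom (h.σ₁.trans hQ.σ) alt (mem_specialLinear.2
      (eq_one_of_card_two hq (Matrix.isUnits_det_units _).ne_zero))) (one_mem _)
  have z2 : ∀ w, Q (zt e P *ᵥ w) = Q w := (hQ.comp z1).ext_span hQ (span_crd_single e P) (by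
    rintro _ ⟨⟨i, j⟩, rfl⟩
    change Q (zt e P *ᵥ crd e P _) = Q (crd e P _)
    rw [← tm_single, mulVec_crd, coord_zt, kron_mulVec_tm, hp, hp])
  have z3 : ∀ u w, φ.f (zt e P *ᵥ u) (zt e P *ᵥ w) = φ.f u w := φ.mem_isom.1 z1
  have z4 : ∀ w, zt e P *ᵥ (zt e P *ᵥ w) = zt e P *ᵥ w - w := fun w => by
    rw [mulVec_mulVec, hzz, sub_mulVec, one_mulVec]
  have v1 : Q (zt e P *ᵥ v) = 0 := (z2 v).trans v0
  have v2 : φ.f v (zt e P *ᵥ v) = 0 := by
    have := z2 (zt e P *ᵥ v)
    rw [z4, hQ.sub, v1, v0, hQ.symm] at this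
    simpa using this
  have hS : hQ.eich v0 v2 ∈ hQ.eichS := ⟨_, _, v0, v2, rfl⟩
  refine btw (M := ZN (zt e P)) (inf_le_left.trans (tensor_le_ZN hq e P))
    (roots_not_le_ZN h2 hR (by omega) (zt_ne (by omega) e P)) (hR.mem _ hS)
    (.inl ((cj_eq_self_iff _ _).2 (ext_of_mulVec_single fun k => ?_))) fun hg => ?_
  · generalize (Pi.single k 1 : ι → F) = w
    have : φ.f v (zt e P *ᵥ w) = φ.f v w - φ.f (zt e P *ᵥ v) w := by
      rw [← z3 v w, ← z3 (zt e P *ᵥ v) w, z4, φ.f_sub_left]; ring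
    simp only [← mulVec_mulVec, hQ.eich_mulVec, v1, z3, this, mulVec_add, mulVec_sub, mulVec_smul,
      z4]
    module
  · obtain ⟨u, w, huw⟩ := mem_kroneckerSubgroup.1 ((mem_tensorProductSubgroup e P _).1 hg)
    obtain ⟨d, hd⟩ := hR.left_scalar (by simp; omega) hS huw
    obtain ⟨s, hs⟩ := φ₂.exists_f_eq y0 1
    have h4 := hQ.eich_mulVec v0 v2 (crd e P (tm e0 s))
    have h5 : φ.f v (crd e P (tm e0 s)) ≠ 0 := by
      rw [hv, φ.f_add_left, h.f_tm, h.f_tm, alt, φ₂.f_swap y, hs, b1, b2]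
      simp only [zero_mul, zero_add, map_one, mul_one, mul_neg, ne_eq, neg_eq_zero]
      intro h5
      refine (by simp [e0] : e0 ≠ 0) (ψ.eq_zero_of_left fun r => ?_)
      have : r = r 0 • e0 + r 1 • e1 := by ext i; fin_cases i <;> simp [e0, e1]
      rw [this, ψ.f_add_left, ψ.f_smul_left, ψ.f_smul_left, alt, h5]; simp
    generalize φ.f v (crd e P (tm e0 s)) = α at h4 h5
    generalize φ.f (zt e P *ᵥ v) (crd e P (tm e0 s)) = β at h4
    rw [v1, mulVec_crd, ← coe_coordGL, huw, coe_kronGL, hd, kron_mulVec_tm, mulVec_crd, coord_zt,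
      mulVec_add, kron_mulVec_tm, kron_mulVec_tm, zero_mul, zero_smul, sub_zero, ← map_smul,
      ← map_smul, ← map_add, ← map_sub] at h4
    refine x1 (Submodule.mem_span_singleton.2 ⟨α⁻¹ * (β - α), funext fun j => ?_⟩)
    have := congrFun ((crd e P).injective h4) (1, j)
    simp [tm, e0, e1, om] at this
    rw [Pi.smul_apply, smul_eq_mul]
    field_simp
    linear_combination this

theorem exists_refl (φ : FD ι F) (hε : φ.ε = 1) {v : ι → F} {a : F} (ha : φ.σ a = a)
    (h : a * φ.f v v = -2) : ∃ r ∈ φ.isom, r.val.det = -1 ∧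
      ∀ x, r.val *ᵥ x = x + (a * φ.f x v) • v := by
  obtain ⟨ψ, hψ⟩ := φ.exists_dot v
  have h1 : 1 + (a • ψ) ⬝ᵥ v = -1 := by rw [smul_dotProduct, hψ, smul_eq_mul, h]; norm_num
  have h2 : ∀ x, (dil v (a • ψ) (by rw [h1]; simp)).val *ᵥ x = x + (a * φ.f x v) • v := fun x => by
    rw [dil_mulVec, smul_dotProduct, hψ, smul_eq_mul]
  refine ⟨_, φ.mem_isom.2 fun x y => ?_, by rw [coe_dil, det_one_add_vecMulVec, h1], h2⟩
  have h3 : φ.σ (φ.f y v) = φ.f v y := by rw [φ.f_swap v y, hε, one_mul]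
  simp only [h2, φ.f_add_left, φ.f_add_right, φ.f_smul_left, φ.f_smul_right, map_mul, ha, h3]
  linear_combination (a * φ.f x v * φ.f v y) * h

theorem six_eq_zero [Fintype F] (h : Fintype.card F ≤ 4) : (6 : F) = 0 := by
  have h1 := Fintype.one_lt_card (α := F)
  have h2 := FiniteField.cast_card_eq_zero F
  obtain h | h | h : Fintype.card F = 2 ∨ Fintype.card F = 3 ∨ Fintype.card F = 4 := by omega
  all_goals rw [h] at h2; push_cast at h2
  · linear_combination 3 * h2
  · linear_combination 2 * h2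
  · have : (2 : F) = 0 := pow_eq_zero_iff (n := 2) (by norm_num) |>.1 (by linear_combination h2)
    linear_combination 3 * this

theorem nm_dec [Fintype F] {t m : ℕ} {D : Fin t → Submodule F (ι → F)} (hD : IsMDecomposition m D)
    (ht : 4 ≤ t) (h : (m = 1 ∧ Fintype.card F ≤ 4) ∨ (m = 2 ∧ Fintype.card F = 2)) :
    ∃ K : Subgroup (GL ι F), decompositionStabilizer D ⊓ specialLinear ι F < K ∧
      K < specialLinear ι F := by
  have hc := mdec_card hD
  obtain ⟨e, P, hb, he⟩ := exists_crd_mdec hD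
  have key : ∀ (φ : FD (Fin m × Fin t) F), (∀ s g, bm s g ∈ φ.isom) → ∀ g ∈ φ.isom,
      g ∈ specialLinear _ F → g ∉ decompositionStabilizer (blk (Fin m) F) →
      ∃ K : Subgroup (GL ι F), decompositionStabilizer D ⊓ specialLinear ι F < K ∧
        K < specialLinear ι F := fun φ h1 g h2 h3 h4 => by
    refine btw (M := φ.isom.comap (coordGL e P).toMonoidHom) (fun g hg => ?_)
      (fun hle => SL_not_le_sim ?_ φ ((le_of_coord e P hle).trans φ.isom_le_sim))
      (g := (coordGL e P).symm g) ?_ ?_ ?_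
    · obtain ⟨s, g', h⟩ := (he g).1 hg.1
      change coordGL e P g ∈ φ.isom
      exact h ▸ h1 s g'
    · have := hD.pos
      simp only [Fintype.card_prod, Fintype.card_fin]
      nlinarith
    · rwa [← coordGL_mem_SL e P, MulEquiv.apply_symm_apply]
    · change coordGL e P _ ∈ φ.isom
      rwa [MulEquiv.apply_symm_apply]
    · rwa [he, MulEquiv.apply_symm_apply, ← mem_decompositionStabilizer_blk]
  let i : Fin 4 → Fin t := Fin.castLE ht
  have hi : ∀ a b, i a = i b ↔ a = b := fun a b => (Fin.castLE_injective ht).eq_iff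
  obtain ⟨rfl, h⟩ | ⟨rfl, h⟩ := h
  · obtain ⟨σ, hσ, h2⟩ := exists_invol_norm_one h
    have h6 := six_eq_zero h
    let φ := (oneFD σ hσ).dsum (Fin t)
    let b : Fin 4 → Fin 1 × Fin t → F := fun a => Pi.single (0, i a) 1
    have hb : ∀ a c, φ.f (b a) (b c) = if a = c then 1 else 0 := fun a c => by
      rw [φ.f_single]; simp [φ, FD.dsum, oneFD, coe_bm, bmm_apply, hi]
    obtain ⟨r, r1, r2, r3⟩ := exists_refl φ rfl (v := b 0 + b 1 + b 2 + b 3) (a := 1) (map_one _)
      (by simp [φ.f_add_left, φ.f_add_right, hb]; linear_combination h6)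
    obtain ⟨s, s1, s2, s3⟩ := exists_refl φ rfl (v := b 0) (a := -2) (by simp [map_ofNat])
      (by simp [hb])
    refine key φ (fun s g => FD.bm_mem_isom _ s g fun j => mem_isom_oneFD hσ
      (h2 _ (gl_one_ne_zero _))) (r * s) (mul_mem r1 s1)
      (by rw [mem_specialLinear, Units.val_mul, det_mul, r2, s2]; simp) fun hg => ?_
    obtain ⟨l, hl⟩ := mulVec_mem_of_mem_decomp hg (i 1)
    have h7 := mem_blk.1 (hl (b 1) (single_mem_blk _ _ _)) 0
    rw [Units.val_mul, ← mulVec_mulVec, s3, hb, r3] at h7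
    have h8 := h7 (i 0)
    have h9 := h7 (i 2)
    simp [φ.f_add_right, hb] at h8 h9
    simp [b, Pi.single_apply, hi] at h8 h9
    exact absurd ((hi _ _).1 (h8.trans h9.symm)) (by decide)
  · let φ := (detFD F).dsum (Fin t)
    have hf : ∀ u v, φ.f u v = ∑ j, (u (0, j) * v (1, j) - u (1, j) * v (0, j)) := fun u v => by
      simp [φ, FD.f_def, sf_eq_sum, FD.dsum, detFD, coe_bm, bmm_apply, Fintype.sum_prod_type,
        coe_J2, Finset.sum_sub_distrib, sub_eq_neg_add, Finset.sum_add_distrib]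
    have halt : ∀ v, φ.f v v = 0 := fun v => by simp [hf, mul_comm]
    let v : Fin 2 × Fin t → F := Pi.single (0, i 0) 1 + Pi.single (0, i 1) 1
    refine key φ (fun s g => FD.bm_mem_isom _ s g fun j => (detFD F).SL_le_isom rfl detFD_alt
      (mem_specialLinear.2 (eq_one_of_card_two h (Matrix.isUnits_det_units _).ne_zero)))
      (φ.tvf v (halt v) 1) (φ.tvf_mem_isom _ (by simp [φ, FD.dsum, detFD])) (φ.tvf_mem_SL _ _ _)
      fun hg => ?_
    obtain ⟨l, hl⟩ := mulVec_mem_of_mem_decomp hg (i 0)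
    have h7 := mem_blk.1 (hl (Pi.single (1, i 0) 1) (single_mem_blk _ _ _))
    rw [φ.tvf_mulVec] at h7
    have h8 := h7 1 (i 0)
    have h9 := h7 0 (i 1)
    simp [hf, v, Pi.single_apply, hi] at h8 h9
    exact absurd ((hi _ _).1 (h8.trans h9.symm)) (by decide)

end CF.Geom.Nm
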