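/-
Non-maximality of tensor-induced symplectic subgroups of orthogonal groups in characteristic two:
they normalise a space of matrices with scalar squares.
-/
import Cfsg.Agent.Geom.NmF

set_option autoImplicit false
set_option linter.unusedSectionVars false

namespace CF.Geom.Nm

open Matrix Cfsg Cfsg.Geo CF.MaxSub
open scoped MatrixGroups Kronecker commutatorElement

variable {ι : Type} [Fintype ι] [DecidableEq ι] {F : Type*} [Field F]

/-- The anticommutator. -/
def an (x y : Matrix ι ι F) : Matrix ι ι F := x * y + y * x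

theorem an_add_left (x y z : Matrix ι ι F) : an (x + y) z = an x z + an y z := by
  simp only [an, add_mul, mul_add]; abel

theorem an_add_right (x y z : Matrix ι ι F) : an x (y + z) = an x y + an x z := by
  simp only [an, add_mul, mul_add]; abel

theorem an_comm (x y : Matrix ι ι F) : an x y = an y x := add_comm _ _

theorem add_self_eq (h2 : (2 : F) = 0) (x : Matrix ι ι F) : x + x = 0 := by
  rw [← two_smul F, h2, zero_smul]

theorem an_of_comm (h2 : (2 : F) = 0) {x y : Matrix ι ι F} (h : x * y = y * x) : an x y = 0 := by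
  rw [an, h, add_self_eq h2]

theorem an_one_left (h2 : (2 : F) = 0) (x : Matrix ι ι F) : an 1 x = 0 := an_of_comm h2 (by simp)

theorem an_one_right (h2 : (2 : F) = 0) (x : Matrix ι ι F) : an x 1 = 0 := an_of_comm h2 (by simp)

theorem an_self (h2 : (2 : F) = 0) (x : Matrix ι ι F) : an x x = 0 := an_of_comm h2 rfl

/-- An involution as an invertible matrix. -/
def ivl (w : Matrix ι ι F) (h : w * w = 1) : GL ι F := ⟨w, w, h, h⟩

theorem ivl_inv (w : Matrix ι ι F) (h : w * w = 1) : (ivl w h)⁻¹ = ivl w h := rfl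

theorem cj_ivl (h2 : (2 : F) = 0) {w y : Matrix ι ι F} (h : w * w = 1) {c : F}
    (e : an w y = c • 1) : cj (ivl w h) y = y + c • w := by
  have : w * y = c • 1 - y * w := eq_sub_of_add_eq e
  change w * y * w = _
  rw [this, sub_mul, mul_assoc, h, mul_one, smul_mul_assoc, one_mul, sub_eq_iff_eq_add,
    add_comm y, add_assoc, add_self_eq h2, add_zero]

/-- The normaliser of a space of matrices. -/
def SN (W : Submodule F (Matrix ι ι F)) : Subgroup (GL ι F) where
  carrier := {g | (∀ x ∈ W, cj g x ∈ W) ∧ ∀ x ∈ W, cj g⁻¹ x ∈ W}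
  one_mem' := by simp
  mul_mem' := fun ha hb => ⟨fun x hx => cj_mul _ _ x ▸ ha.1 _ (hb.1 x hx),
    fun x hx => by rw [_root_.mul_inv_rev, cj_mul]; exact hb.2 _ (ha.2 x hx)⟩
  inv_mem' := fun ha => ⟨ha.2, by simpa using ha.1⟩

/-- A space of self-adjoint matrices with scalar anticommutators. -/
structure CD (φ : FD ι F) (W : Submodule F (Matrix ι ι F)) (e f : Matrix ι ι F) : Prop where
  inv : ∀ g ∈ similarityGroup φ.f, ∀ x ∈ W, cj g x ∈ W
  one : 1 ∈ W
  anti : ∀ x ∈ W, ∀ y ∈ W, ∃ c : F, an x y = c • 1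
  nd : ∀ x ∈ W, (∀ y ∈ W, an x y = 0) → ∃ c : F, x = c • 1
  sa : ∀ x ∈ W, φ.adj x = x
  em : e ∈ W
  fm : f ∈ W
  ee : e * e = 0
  ff : f * f = 0
  ef : an e f = 1

theorem CD.of_coord {κ : Type} [Fintype κ] [DecidableEq κ] {φ : FD ι F} {ε : ι ≃ κ} {P : GL ι F}
    {W : Submodule F (Matrix κ κ F)} {e f : Matrix κ κ F} (h : CD (φ.coordFD ε P) W e f) :
    CD φ (W.comap (coord ε P).toLinearMap) ((coord ε P).symm e) ((coord ε P).symm f) where
  inv g hg x hx := by
    change coord ε P _ ∈ W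
    rw [coord_cj]
    exact h.inv _ ((φ.coordGL_mem_sim ε P).2 hg) _ hx
  one := by
    change coord ε P _ ∈ W
    rw [map_one]; exact h.one
  anti x hx y hy := (h.anti _ hx _ hy).imp fun c hc => (coord ε P).injective (by
    simpa [an] using hc)
  nd x hx hy := (h.nd _ hx fun y hy' => by
    have := hy ((coord ε P).symm y) (by simpa using hy')
    simpa [an] using congrArg (coord ε P) this).imp fun c hc => (coord ε P).injective (by
      simpa using hc)
  sa x hx := (coord ε P).injective (by rw [← φ.coordFD_adj]; exact h.sa _ hx)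
  em := by simpa using h.em
  fm := by simpa using h.fm
  ee := by rw [← map_mul, h.ee, map_zero]
  ff := by rw [← map_mul, h.ff, map_zero]
  ef := (coord ε P).injective (by simpa [an] using h.ef)

theorem cd_two (h2 : (2 : F) = 0) (φ : FD (Fin 2) F) (hσ : φ.σ = RingHom.id F)
    (halt : ∀ v, φ.f v v = 0) :
    CD φ (LinearMap.ker (traceLinearMap (Fin 2) F F)) (single 0 1 1) (single 1 0 1) := by
  have h3 : ∀ x : Matrix (Fin 2) (Fin 2) F, x ∈ LinearMap.ker (traceLinearMap (Fin 2) F F) ↔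
      x 1 1 = x 0 0 := fun x => by
    simp only [LinearMap.mem_ker, traceLinearMap_apply, trace_fin_two]
    exact ⟨fun h => by linear_combination h - x 0 0 * h2, fun h => by
      linear_combination h + x 0 0 * h2⟩
  refine ⟨fun g _ x hx => by simpa [trace_cj] using hx, (h3 _).2 (by simp),
    fun x hx y hy => ⟨x 0 1 * y 1 0 + x 1 0 * y 0 1, ?_⟩, fun x hx h => ⟨x 0 0, ?_⟩,
    fun x hx => φ.adj_eq_iff.2 fun u v => ?_, (h3 _).2 (by simp), (h3 _).2 (by simp), by simp,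
    by simp, ?_⟩
  · rw [h3] at hx hy
    ext i j
    fin_cases i <;> fin_cases j <;> simp [an, mul_apply, hx, hy] <;> rw [← sub_eq_zero] <;>
      ring_nf <;> simp [h2]
  · have e1 := congrFun (congrFun (h (single 0 1 1) ((h3 _).2 (by simp))) 0) 0
    have e2 := congrFun (congrFun (h (single 1 0 1) ((h3 _).2 (by simp))) 0) 0
    rw [h3] at hx
    simp [an, mul_apply] at e1 e2
    ext i j
    fin_cases i <;> fin_cases j <;> simp [hx, e1, e2]
  · rw [h3] at hx
    rw [φ.f_eq_det hσ halt, φ.f_eq_det hσ halt u]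
    congr 1
    simp [detFD_f, mulVec, dotProduct, hx]
    rw [← sub_eq_zero]; ring_nf; simp [h2]
  · ext i j
    fin_cases i <;> fin_cases j <;> simp [an, mul_apply]

/-- The five-dimensional space of matrices attached to a symplectic form in dimension four. -/
def w4 (a : Fin 5 → F) : Matrix (Fin 4) (Fin 4) F :=
  !![a 0, 0, a 1, a 2; 0, a 0, a 3, a 4; a 4, a 2, a 0, 0; a 3, a 1, 0, a 0]

/-- The same, as a subspace. -/
def W4 (F : Type*) [Field F] : Submodule F (Matrix (Fin 4) (Fin 4) F) where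
  carrier := Set.range w4
  zero_mem' := ⟨0, by ext i j; fin_cases i <;> fin_cases j <;> simp [w4]⟩
  add_mem' := by
    rintro _ _ ⟨a, rfl⟩ ⟨b, rfl⟩
    exact ⟨a + b, by ext i j; fin_cases i <;> fin_cases j <;> simp [w4]⟩
  smul_mem' := by
    rintro c _ ⟨a, rfl⟩
    exact ⟨c • a, by ext i j; fin_cases i <;> fin_cases j <;> simp [w4]⟩

theorem an_w4 (h2 : (2 : F) = 0) (a b : Fin 5 → F) :
    an (w4 a) (w4 b) = (a 1 * b 4 + a 4 * b 1 + a 2 * b 3 + a 3 * b 2) • 1 := by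
  have h4 : (4 : F) = 0 := by linear_combination 2 * h2
  ext i j
  fin_cases i <;> fin_cases j <;> simp [an, w4] <;> rw [← sub_eq_zero] <;>
      ring_nf <;> simp [h2, h4]

theorem sq_w4 (h2 : (2 : F) = 0) (a : Fin 5 → F) :
    w4 a * w4 a = (a 0 ^ 2 + a 1 * a 4 + a 2 * a 3) • 1 := by
  ext i j
  fin_cases i <;> fin_cases j <;> simp [w4] <;> rw [← sub_eq_zero] <;>
      ring_nf <;> simp [h2]

theorem mem_W4 (h2 : (2 : F) = 0) {φ : FD (Fin 4) F}
    (hf : ∀ u v, φ.f u v = u 0 * v 1 + u 1 * v 0 + u 2 * v 3 + u 3 * v 2)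
    {x : Matrix (Fin 4) (Fin 4) F} :
    x ∈ W4 F ↔ (∀ v, φ.f (x *ᵥ v) v = 0) ∧ ∃ c : F, x * x = c • 1 := by
  constructor
  · rintro ⟨a, rfl⟩
    refine ⟨fun v => ?_, _, sq_w4 h2 a⟩
    simp [hf, w4, mulVec, dotProduct, Fin.sum_univ_four]
    ring_nf; simp [h2]
  rintro ⟨h, c, hc⟩
  have e0 := h (Pi.single 0 1)
  have e1 := h (Pi.single 1 1)
  have e2 := h (Pi.single 2 1)
  have e3 := h (Pi.single 3 1)
  have e4 := h (Pi.single 0 1 + Pi.single 1 1)
  have e5 := h (Pi.single 0 1 + Pi.single 2 1)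
  have e6 := h (Pi.single 0 1 + Pi.single 3 1)
  have e7 := h (Pi.single 1 1 + Pi.single 2 1)
  have e8 := h (Pi.single 1 1 + Pi.single 3 1)
  have e9 := h (Pi.single 2 1 + Pi.single 3 1)
  simp [hf, mulVec_add] at e0 e1 e2 e3 e4 e5 e6 e7 e8 e9
  have d4 : x 1 1 = x 0 0 := by linear_combination e4 - e0 - e1 - x 0 0 * h2
  have d5 : x 3 0 = x 1 2 := by linear_combination e5 - e0 - e2 - x 1 2 * h2
  have d6 : x 2 0 = x 1 3 := by linear_combination e6 - e0 - e3 - x 1 3 * h2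
  have d7 : x 3 1 = x 0 2 := by linear_combination e7 - e1 - e2 - x 0 2 * h2
  have d8 : x 2 1 = x 0 3 := by linear_combination e8 - e1 - e3 - x 0 3 * h2
  have d9 : x 3 3 = x 2 2 := by linear_combination e9 - e2 - e3 - x 2 2 * h2
  have c0 := congrFun (congrFun hc 0) 0
  have c2 := congrFun (congrFun hc 2) 2
  simp [mul_apply, Fin.sum_univ_four, e0, e1, e2, e3, d5, d6, d8] at c0 c2
  have d0 : x 2 2 = x 0 0 := by
    have : (x 2 2 - x 0 0) ^ 2 = 0 := by
      linear_combination c2 - c0 + (x 0 0 ^ 2 - x 0 0 * x 2 2) * h2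
    exact sub_eq_zero.1 (pow_eq_zero_iff two_ne_zero |>.1 this)
  refine ⟨![x 0 0, x 0 2, x 0 3, x 1 2, x 1 3], ?_⟩
  ext i j
  fin_cases i <;> fin_cases j <;> simp [w4, *]

theorem cd_four (h2 : (2 : F) = 0) {φ : FD (Fin 4) F}
    (hf : ∀ u v, φ.f u v = u 0 * v 1 + u 1 * v 0 + u 2 * v 3 + u 3 * v 2) :
    CD φ (W4 F) (w4 (Pi.single 1 1)) (w4 (Pi.single 4 1)) := by
  refine ⟨fun g ⟨d, hd⟩ x hx => ?_, ⟨Pi.single 0 1, ?_⟩, ?_, ?_, ?_, ⟨_, rfl⟩, ⟨_, rfl⟩,
    by simp [sq_w4 h2], by simp [sq_w4 h2], by simp [an_w4 h2]⟩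
  · obtain ⟨h1, c, hc⟩ := (mem_W4 h2 hf).1 hx
    refine (mem_W4 h2 hf).2 ⟨fun v => ?_, c, by rw [← map_mul, hc, map_smul, map_one]⟩
    rw [← mulVec_inv_mulVec g v, cj_mulVec, hd, h1, mul_zero]
  · ext i j; fin_cases i <;> fin_cases j <;> simp [w4]
  · rintro _ ⟨a, rfl⟩ _ ⟨b, rfl⟩
    exact ⟨_, an_w4 h2 a b⟩
  · rintro _ ⟨a, rfl⟩ h
    have e := fun k => congrFun (congrFun ((an_w4 h2 a (Pi.single k 1)).symm.trans
      (h _ ⟨_, rfl⟩)) 0) 0
    have e1 := e 1
    have e2 := e 2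
    have e3 := e 3
    have e4 := e 4
    simp at e1 e2 e3 e4
    exact ⟨a 0, by ext i j; fin_cases i <;> fin_cases j <;> simp [w4, *]⟩
  · rintro _ ⟨a, rfl⟩
    refine φ.adj_eq_iff.2 fun u v => ?_
    simp [hf, w4, mulVec, dotProduct, Fin.sum_univ_four]
    ring

/-- The standard symplectic form in dimension four and characteristic two. -/
def sp4 (F : Type*) [Field F] : FD (Fin 4) F where
  σ := RingHom.id F
  invol _ := rfl
  G := ivl !![0, 1, 0, 0; 1, 0, 0, 0; 0, 0, 0, 1; 0, 0, 1, 0] (by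
    ext i j; fin_cases i <;> fin_cases j <;> simp)
  ε := 1
  herm := by ext i j; fin_cases i <;> fin_cases j <;> simp [ivl]

theorem exists_cd_four (h2 : (2 : F) = 0) (φ : FD (Fin 4) F) (hσ : φ.σ = RingHom.id F)
    (halt : ∀ v, φ.f v v = 0) : ∃ W e f, CD φ W e f ∧ ∀ v, φ.f (e *ᵥ v) v = 0 := by
  classical
  have hs : ∀ u v, φ.f u v = φ.f v u := fun u v => by
    rw [φ.skew_of_alt halt]; linear_combination -φ.f v u * h2
  obtain ⟨a, a0⟩ := exists_ne (0 : Fin 4 → F)
  obtain ⟨b, hb⟩ := φ.exists_f_eq a0 1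
  obtain ⟨c, c1, c0⟩ : ∃ c ∈ φ.perp (Submodule.span F {a, b}), c ≠ 0 := by
    refine Submodule.exists_mem_ne_zero_of_ne_bot fun e => ?_
    have h1 := finrank_span_finset_le_card (R := F) ({a, b} : Finset (Fin 4 → F))
    rw [Set.finrank, Finset.coe_pair, φ.perp_eq_bot.1 e] at h1
    have := Finset.card_le_two (a := a) (b := b)
    simp at h1; omega
  have ca := φ.mem_perp_span.1 c1 a (by simp)
  have cb := φ.mem_perp_span.1 c1 b (by simp)
  obtain ⟨d, hd⟩ := φ.exists_f_eq c0 1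
  have da : φ.f (d - φ.f d a • b - φ.f d b • a) a = 0 := by
    simp [φ.f_sub_left, φ.f_smul_left, hb, halt]
  have db : φ.f (d - φ.f d a • b - φ.f d b • a) b = 0 := by
    simp [φ.f_sub_left, φ.f_smul_left, hs a b, hb, halt]
  have dc : φ.f (d - φ.f d a • b - φ.f d b • a) c = 1 := by
    simp [φ.f_sub_left, φ.f_smul_left, hs a c, hs b c, hd, ca, cb]
  generalize d - φ.f d a • b - φ.f d b • a = d' at da db dc
  obtain ⟨ε, P, -, h⟩ := φ.exists_crd_of_gram (sp4 F) hσ.symm rfl ![a, b, c, d'] fun i j => by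
    fin_cases i <;> fin_cases j <;>
      simp [sp4, ivl, halt, hs a b, hs a c, hs b c, hs a d', hs b d', hs c d', hb, ca, cb, da, db,
        dc]
  have hf : ∀ u v, (φ.coordFD ε P).f u v = u 0 * v 1 + u 1 * v 0 + u 2 * v 3 + u 3 * v 2 :=
    fun u v => by
      rw [FD.f_eq_of_G (φ := φ.coordFD ε P) (ψ := sp4 F) hσ h]
      simp [FD.f_def, sf_eq_sum, sp4, ivl, Fin.sum_univ_four]
  refine ⟨_, _, _, (cd_four h2 hf).of_coord, fun v => ?_⟩
  obtain ⟨v, rfl⟩ := (crd ε P).surjective v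
  rw [mulVec_crd, AlgEquiv.apply_symm_apply, φ.crd_f]
  exact ((mem_W4 h2 hf).1 ⟨_, rfl⟩).1 v

section pow

variable {τ κ : Type} [Fintype τ] [DecidableEq τ] [Fintype κ] [DecidableEq κ]

/-- The sum of the copies of a space of matrices in the tensor factors. -/
def WS (τ : Type) [Fintype τ] [DecidableEq τ] (W : Submodule F (Matrix κ κ F)) :
    Submodule F (Matrix (τ → κ) (τ → κ) F) where
  carrier := {y | ∃ m : τ → Matrix κ κ F, (∀ a, m a ∈ W) ∧ y = ∑ a, fac a (m a)}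
  zero_mem' := ⟨0, fun _ => zero_mem _, by simp⟩
  add_mem' := by
    rintro _ _ ⟨m, h, rfl⟩ ⟨m', h', rfl⟩
    exact ⟨m + m', fun a => add_mem (h a) (h' a), by simp [Finset.sum_add_distrib]⟩
  smul_mem' := by
    rintro c _ ⟨m, h, rfl⟩
    exact ⟨c • m, fun a => W.smul_mem c (h a), by simp [Finset.smul_sum]⟩

theorem fac_mem_WS {W : Submodule F (Matrix κ κ F)} (a : τ) {x : Matrix κ κ F} (hx : x ∈ W) :
    fac a x ∈ WS τ W := by
  refine ⟨Pi.single a x, fun b => ?_, ?_⟩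
  · by_cases h : b = a <;> simp [h, hx]
  · rw [Finset.sum_eq_single a (fun b _ h => by simp [h]) (by simp)]; simp

theorem an_fac_ne (h2 : (2 : F) = 0) {a b : τ} (h : a ≠ b) (x y : Matrix κ κ F) :
    an (fac a x) (fac b y) = 0 := an_of_comm h2 (fac_commute h x y)

theorem an_fac (a : τ) (x y : Matrix κ κ F) : an (fac a x) (fac a y) = fac a (an x y) := by
  simp [an]

theorem an_sum_fac (h2 : (2 : F) = 0) (m : τ → Matrix κ κ F) (b : τ) (y : Matrix κ κ F) :
    an (∑ a, fac a (m a)) (fac b y) = fac b (an (m b) y) := by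
  rw [← an_fac, an, Finset.sum_mul, Finset.mul_sum, ← Finset.sum_add_distrib]
  exact Finset.sum_eq_single b (fun a _ h => an_fac_ne h2 h _ _) (by simp)

theorem fac_mulVec_tp (a : τ) (y : Matrix κ κ F) (u : τ → κ → F) :
    fac a y *ᵥ tp u = tp (Function.update u a (y *ᵥ u a)) := by
  rw [fac_apply]
  refine (pure_mulVec _ _).trans (congrArg tp (funext fun b => ?_))
  by_cases h : b = a
  · subst h; simp
  · simp [h]

variable {φ₁ : FD κ F} {W : Submodule F (Matrix κ κ F)} {e f : Matrix κ κ F}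

theorem CD.anti_WS (h2 : (2 : F) = 0) (h : CD φ₁ W e f) {x y : Matrix (τ → κ) (τ → κ) F}
    (hx : x ∈ WS τ W) (hy : y ∈ WS τ W) : ∃ c : F, an x y = c • 1 := by
  obtain ⟨m, h1, rfl⟩ := hx
  obtain ⟨m', h1', rfl⟩ := hy
  choose c hc using fun a => h.anti _ (h1 a) _ (h1' a)
  refine ⟨∑ a, c a, ?_⟩
  rw [an, Finset.mul_sum, Finset.sum_mul _ fun a => fac a (m' a), ← Finset.sum_add_distrib,
    Finset.sum_smul]
  exact Finset.sum_congr rfl fun a _ => (an_sum_fac h2 m a _).trans (by rw [hc, map_smul, map_one])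

theorem CD.ivl_mem (h2 : (2 : F) = 0) (h : CD φ₁ W e f) {w : Matrix (τ → κ) (τ → κ) F}
    (hw : w ∈ WS τ W) (e : w * w = 1) : ivl w e ∈ SN (WS τ W) := by
  have : ∀ x ∈ WS τ W, cj (ivl w e) x ∈ WS τ W := fun x hx => by
    obtain ⟨c, hc⟩ := h.anti_WS h2 hw hx
    rw [cj_ivl h2 e hc]
    exact add_mem hx (Submodule.smul_mem _ _ hw)
  exact ⟨this, this⟩

theorem CD.small (h2 : (2 : F) = 0) (h : CD φ₁ W e f) {y : Matrix (τ → κ) (τ → κ) F}
    (hy : y ∈ WS τ W) {A : Submodule F ((τ → κ) → F)} (hA : ∀ v ∈ A, y *ᵥ v = 0)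
    (hn : Fintype.card (τ → κ) < 2 * Module.finrank F A) : y = 0 := by
  have key : ∀ (y' : Matrix (τ → κ) (τ → κ) F) (c : F), an y y' = c • 1 → c = 0 := fun y' c hc => by
    obtain ⟨v, v1, v2, v3⟩ := exists_mem_inf (A := A) (B := A.comap (toLin' y')) (by
      have := finrank_comap_ge A y'
      omega)
    have := congrArg (· *ᵥ v) hc
    simp only [an, add_mulVec, ← mulVec_mulVec, hA v v1, hA (y' *ᵥ v) v2, mulVec_zero, add_zero,
      smul_mulVec, one_mulVec] at this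
    exact (smul_eq_zero.1 this.symm).resolve_right v3
  obtain ⟨m, h1, rfl⟩ := hy
  choose c hc using fun a => h.nd _ (h1 a) fun x hx => by
    obtain ⟨d, hd⟩ := h.anti _ (h1 a) _ hx
    rw [hd, key (fac a x) d (by rw [an_sum_fac h2, hd, map_smul, map_one]), zero_smul]
  have h3 : ∑ a, fac a (m a) = (∑ a, c a) • (1 : Matrix (τ → κ) (τ → κ) F) := by
    simp [hc, Finset.sum_smul]
  obtain ⟨v, v1, v2⟩ := Submodule.exists_mem_ne_zero_of_ne_bot (p := A) (by
    rintro rfl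
    simp at hn)
  have := hA v v1
  rw [h3, smul_mulVec, one_mulVec] at this
  rw [h3, (smul_eq_zero.1 this).resolve_right v2, zero_smul]

theorem CD.not_le [Nonempty τ] [Nonempty κ] (h2 : (2 : F) = 0) (h : CD φ₁ W e f)
    {G : Subgroup (GL (τ → κ) F)} {S : Set (GL (τ → κ) F)} (hR : Roots G 2 S)
    (hn : 8 < Fintype.card (τ → κ)) : ¬ G ≤ SN (WS τ W) := fun hle => by
  obtain ⟨a⟩ := ‹Nonempty τ›
  have hx := fac_mem_WS a h.em
  obtain ⟨d, hd⟩ := hR.cen (fac a e) fun T hT => by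
    refine ((cj_eq_self_iff _ _).1 (sub_eq_zero.1
      (h.small h2 (sub_mem ((hle (hR.mem T hT)).1 _ hx) hx)
        (A := eig T.val 1 ⊓ (eig T.val 1).comap (toLin' (fac a e))) (fun v hv => ?_) ?_))).symm
    · have := cj_mulVec T (fac a e) v
      rw [mem_eig_one.1 hv.1, mem_eig_one.1 (show fac a e *ᵥ v ∈ _ from hv.2)] at this
      rw [sub_mulVec, this, sub_self]
    · have := finrank_inf_ge (eig T.val 1) ((eig T.val 1).comap (toLin' (fac a e)))
      have := finrank_comap_ge (eig T.val 1) (fac a e)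
      have := hR.fix T hT
      omega
  have h1 : e = d • 1 := fac_injective a (by rw [hd, map_smul, map_one])
  have h3 := h.ef
  rw [h1, an_of_comm h2 (by simp)] at h3
  exact zero_ne_one h3

theorem CD.wreath_mem (h : CD φ₁ W e f) {g : τ → GL κ F} (hg : ∀ a, g a ∈ similarityGroup φ₁.f)
    (s : Equiv.Perm τ) {x : Matrix (τ → κ) (τ → κ) F} (hx : x ∈ WS τ W) :
    cj (pureGL g * permGL κ F s) x ∈ WS τ W := by
  obtain ⟨m, h1, rfl⟩ := hx
  rw [map_sum]
  refine sum_mem fun a _ => ?_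
  rw [cj_mul, cj_permGL_fac, cj_pureGL_fac]
  exact fac_mem_WS _ (h.inv _ (hg _) _ (h1 a))

theorem CD.exists_witness [Nontrivial τ] [Nonempty κ] (h2 : (2 : F) = 0) (h : CD φ₁ W e f)
    (halt : ∀ v, φ₁.f v v = 0) (ht : 3 ≤ Fintype.card τ ∨ ∀ v, φ₁.f (e *ᵥ v) v = 0)
    {ψ : FD (τ → κ) F} {Q : ((τ → κ) → F) → F} (hQ : ψ.IsQ Q)
    (hadj : ∀ a y, ψ.adj (fac a y) = fac a (φ₁.adj y)) {c : F}
    (hf : ∀ x y, ψ.f (tp x) (tp y) = c * ∏ a, φ₁.f (x a) (y a)) (hp : ∀ x, Q (tp x) = 0) :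
    ∃ g ∈ omegaGL Q, g ∈ SN (WS τ W) ∧ ∀ u s, g ≠ pureGL u * permGL κ F s := by
  obtain ⟨a, b, hab⟩ := exists_pair_ne τ
  have iso : ∀ w ∈ WS τ W, ∀ e : w * w = 1, (∀ u, Q (w *ᵥ tp u) = 0) →
      ivl w e ∈ isometryGroup F Q := fun w hw e hu => by
    have h1 : ivl w e ∈ ψ.isom := by
      obtain ⟨m, h1, rfl⟩ := hw
      refine ψ.mem_isom_iff_adj.2 ?_
      change ψ.adj (∑ a, fac a (m a)) = ∑ a, fac a (m a)
      rw [ψ.adj_sum]
      exact Finset.sum_congr rfl fun a _ => by rw [hadj, h.sa _ (h1 a)]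
    refine Geom.mem_isometryGroup.2 ((hQ.comp h1).ext_span hQ span_single_top ?_)
    rintro _ ⟨z, rfl⟩
    change Q (w *ᵥ Pi.single z 1) = Q (Pi.single z 1)
    rw [← tp_single, hu, hp]
  have hz : ∀ (x y : τ → κ → F) (i : τ), φ₁.f (x i) (y i) = 0 → ψ.f (tp x) (tp y) = 0 :=
    fun x y i hi => by rw [hf, Finset.prod_eq_zero (Finset.mem_univ i) hi, mul_zero]
  have h1 : (1 : Matrix (τ → κ) (τ → κ) F) ∈ WS τ W := map_one (fac (F := F) (κ := κ) a) ▸
    fac_mem_WS a h.one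
  let x : Matrix (τ → κ) (τ → κ) F := 1 + fac a e + fac b e
  let y : Matrix (τ → κ) (τ → κ) F := 1 + fac a f
  have x1 : x ∈ WS τ W := add_mem (add_mem h1 (fac_mem_WS a h.em)) (fac_mem_WS b h.em)
  have y1 : y ∈ WS τ W := add_mem h1 (fac_mem_WS a h.fm)
  have x2 : x * x = 1 := by
    have : x * x = 1 + fac a (e * e) + fac b (e * e) + (fac a e + fac a e) + (fac b e + fac b e) +
        an (fac a e) (fac b e) := by
      simp only [x, an, map_mul]; noncomm_ring
    rw [this, h.ee, an_fac_ne h2 hab]; simp [add_self_eq h2]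
  have y2 : y * y = 1 := by
    have : y * y = 1 + fac a (f * f) + (fac a f + fac a f) := by
      simp only [y, map_mul]; noncomm_ring
    rw [this, h.ff]; simp [add_self_eq h2]
  have x3 := iso x x1 x2 fun u => by
    simp only [x, add_mulVec, one_mulVec, fac_mulVec_tp, hQ.add, hp, ψ.f_add_left]
    rw [hz _ _ b (by simp [hab.symm, halt]), hz _ _ a (by simp [hab, halt])]
    obtain ht | ht := ht
    · obtain ⟨i, hi⟩ : ∃ i, i ∉ ({a, b} : Finset τ) := by
        by_contra! hc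
        have := Finset.card_le_card (show Finset.univ ⊆ ({a, b} : Finset τ) from fun i _ => hc i)
        have := Finset.card_le_two (a := a) (b := b)
        rw [Finset.card_univ] at *
        omega
      simp only [Finset.mem_insert, Finset.mem_singleton, not_or] at hi
      rw [hz _ _ i (by simp [hi.1, hi.2, halt])]; simp
    · rw [hz _ _ a (by simp [hab, ht])]; simp
  have y3 := iso y y1 y2 fun u => by
    simp only [y, add_mulVec, one_mulVec, fac_mulVec_tp, hQ.add, hp]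
    rw [hz _ _ b (by simp [hab.symm, halt])]; simp
  have fe : an f e = 1 := (an_comm _ _).trans h.ef
  have o1 := an_one_left (ι := τ → κ) h2
  have o2 := an_one_right (ι := τ → κ) h2
  have o3 := an_fac_ne (κ := κ) h2 hab
  have o4 := an_fac_ne (κ := κ) h2 hab.symm
  have o5 := an_self (ι := κ) h2
  refine ⟨⁅ivl x x2, ivl y y2⁆, ?_, ?_, fun u s hg => ?_⟩
  · rw [omegaGL, Omega, Subgroup.map_subtype_commutator]
    exact Subgroup.commutator_mem_commutator x3 y3
  · have := h.ivl_mem h2 x1 x2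
    have := h.ivl_mem h2 y1 y2
    rw [commutatorElement_def]
    apply_rules [mul_mem, inv_mem]
  have c1 : cj (ivl y y2) (fac b f) = fac b f := by
    rw [cj_ivl h2 y2 (c := 0) (by simp [y, an_add_left, o1, o3])]; simp
  have c2 : cj (ivl x x2) (fac b f) = fac b f + x := by
    rw [cj_ivl h2 x2 (c := 1) (by simp [x, an_add_left, o1, o3, an_fac, h.ef])]; simp
  have c3 : cj (ivl y y2) x = x + y := by
    rw [cj_ivl h2 y2 (c := 1) (by
      simp [x, y, an_add_left, an_add_right, o1, o2, o3, an_fac, fe])]; simp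
  have c4 : cj (ivl x x2) y = y + x := by
    rw [cj_ivl h2 x2 (c := 1) (by
      simp [x, y, an_add_left, an_add_right, o1, o2, o4, an_fac, h.ef])]; simp
  have c5 : cj (ivl x x2) x = x := by rw [cj_ivl h2 x2 (c := 0) (by simp [an_self h2])]; simp
  have c6 : cj ⁅ivl x x2, ivl y y2⁆ (fac b f) = fac b f + x + y := by
    rw [commutatorElement_def, ivl_inv, ivl_inv, cj_mul, cj_mul, cj_mul, c1, c2, map_add, c1, c3,
      map_add, map_add, c2, c4, c5, add_comm y x, ← add_assoc x, add_self_eq h2, zero_add]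
  rw [hg, cj_mul, cj_permGL_fac, cj_pureGL_fac] at c6
  by_cases hs : s b = a
  · have := congrArg (an · (fac b e)) c6
    simp [hs, x, y, an_add_left, o1, o3, an_fac, fe, o5] at this
  · have := congrArg (an · (fac a e)) c6
    simp [an_fac_ne h2 hs, x, y, an_add_left, o1, o4, an_fac, fe, o5] at this

end pow

theorem coordGL_mem_omega {κ : Type} [Fintype κ] [DecidableEq κ] (Q : (ι → F) → F) (ε : ι ≃ κ)
    (P g : GL ι F) : coordGL ε P g ∈ omegaGL (fun v => Q (crd ε P v)) ↔ g ∈ omegaGL Q := by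
  have : isometryGroup F (fun v => Q (crd ε P v)) =
      (isometryGroup F Q).map (coordGL ε P).toMonoidHom := by
    ext x
    obtain ⟨x, rfl⟩ := (coordGL ε P).surjective x
    refine Iff.trans ?_ (Subgroup.mem_map_iff_mem (coordGL ε P).injective).symm
    simp only [Geom.mem_isometryGroup, coe_coordGL, ← mulVec_crd]
    exact ((crd ε P).surjective.forall (p := fun v => Q (x.val *ᵥ v) = Q v)).symm
  rw [omegaGL, omegaGL, Omega, Omega, Subgroup.map_subtype_commutator,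
    Subgroup.map_subtype_commutator, this, ← Subgroup.map_commutator]
  exact Subgroup.mem_map_iff_mem (coordGL ε P).injective

theorem nm_o_pow [Fintype F] {φ : FD ι F} {Q : (ι → F) → F} (hQ : φ.IsQ Q) (h2 : (2 : F) = 0)
    (hn : 8 < Fintype.card ι) {k t : ℕ} (ht : 2 ≤ t) (hk : k ≤ 4) {ε : ι ≃ (Fin t → Fin k)}
    {P : GL ι F} {f₁ : (Fin k → F) → (Fin k → F) → F} (hf₁ : IsSymplecticForm f₁)
    (hT : IsTensorPowerFormStructure id (QuadraticMap.polar Q) f₁ ε P)
    (hp : ∀ x, Q (crd ε P (tp x)) = 0) : ∃ K : Subgroup (GL ι F),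
      tensorWreathSubgroup k t ε P ⊓ omegaGL Q < K ∧ K < omegaGL Q := by
  have halt := hf₁.alternating
  obtain ⟨φ₁, a1, -, rfl⟩ := exists_FD_symp hf₁
  have hι : Fintype.card ι = k ^ t := by simpa using Fintype.card_congr ε
  have := Fin.nontrivial_iff_two_le.2 ht
  obtain ⟨c, c0, hc⟩ := hT
  have h : PF φ ε P φ₁ (Units.mk0 c c0) := ⟨a1.trans hQ.σ.symm,
    Units.ext (sf_injective φ.σ (funext₂ fun x y => by
      have := hc x y
      rw [hQ.polar, ← φ.coordFD_f, φ₁.f_def, gramMatrix_sf] at this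
      refine this.trans ?_
      simp [sf_eq_sum, hQ.σ, pure_apply, Finset.mul_sum, mul_assoc, mul_left_comm]))⟩
  obtain ⟨W, e, f, h3, h4⟩ : ∃ W e f, CD φ₁ W e f ∧
      (3 ≤ Fintype.card (Fin t) ∨ ∀ v, φ₁.f (e *ᵥ v) v = 0) := by
    have h5 := φ₁.even_of_alt halt
    obtain rfl | rfl | rfl : k = 0 ∨ k = 2 ∨ k = 4 := by
      obtain ⟨r, hr⟩ := h5
      rw [Fintype.card_fin] at hr
      omega
    · rw [zero_pow (by omega)] at hι; omega
    · refine ⟨_, _, _, cd_two h2 φ₁ a1 halt, .inl ?_⟩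
      rw [Fintype.card_fin]
      by_contra h6
      obtain rfl : t = 2 := by omega
      omega
    · obtain ⟨W, e, f, h3, h4⟩ := exists_cd_four h2 φ₁ a1 halt
      exact ⟨W, e, f, h3, .inr h4⟩
  have : Nonempty (Fin k) := ⟨⟨0, Nat.pos_of_ne_zero fun e => by
    rw [e, zero_pow (by omega)] at hι; omega⟩⟩
  have hQ' := hQ.coord ε P
  obtain ⟨g, g1, g2, g3⟩ := h3.exists_witness h2 halt h4 hQ' h.adj
    (fun x y => (φ.crd_f ε P _ _).symm.trans (h.f_pure x y)) hp
  have hn' : 8 < Fintype.card (Fin t → Fin k) := Fintype.card_congr ε ▸ hn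
  obtain ⟨g, rfl⟩ := (coordGL ε P).surjective g
  have key : ∀ g ∈ tensorWreathSubgroup k t ε P ⊓ omegaGL Q, ∀ x ∈ WS (Fin t) W,
      cj (coordGL ε P g) x ∈ WS (Fin t) W := fun g hg x hx => by
    obtain ⟨u, s, hu⟩ := mem_tensorWreathStandard.1 ((mem_tensorWreathSubgroup ε P g).1 hg.1)
    rw [hu]
    exact h3.wreath_mem (h.mem_sim (hQ.omega_le hg.2) hu) s hx
  refine btw (M := (SN (WS (Fin t) W)).comap (coordGL ε P).toMonoidHom)
    (fun g hg => ⟨key g hg, by simpa using key g⁻¹ (inv_mem hg)⟩)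
    (fun hle => h3.not_le h2 (hQ'.roots (by omega)) hn' fun g hg => ?_)
    ((coordGL_mem_omega Q ε P g).1 g1) g2 fun hg => ?_
  · obtain ⟨g, rfl⟩ := (coordGL ε P).surjective g
    exact hle ((coordGL_mem_omega Q ε P g).1 hg)
  · obtain ⟨u, s, hu⟩ := mem_tensorWreathStandard.1 ((mem_tensorWreathSubgroup ε P g).1 hg)
    exact g3 u s hu

end CF.Geom.Nm
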