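/-
Non-maximal geometric subgroups: subspace stabilisers and small decompositions.
-/
import Cfsg.Agent.Geom.MaxTSP2
import Cfsg.Agent.Geom.C8S

set_option autoImplicit false
set_option linter.unusedSectionVars false

namespace CF.Geom

open Module QuadraticMap

/-- Some subgroup lies strictly between `K ⊓ H` and `K`. -/
def Btw {G : Type*} [Group G] (K H : Subgroup G) : Prop :=
  ∃ L : Subgroup G, K ⊓ H ≤ L ∧ ¬ K ≤ L ∧ ∃ g ∈ K, g ∈ L ∧ g ∉ H

theorem Btw.transfer {G G' : Type*} [Group G] [Group G'] (e : G ≃* G') {K H : Subgroup G}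
    {K' H' : Subgroup G'} (h : Btw K' H') (hK : ∀ g, g ∈ K ↔ e g ∈ K')
    (hH : ∀ g, g ∈ H ↔ e g ∈ H') : ∃ M : Subgroup G, H ⊓ K < M ∧ M < K :=
  let ⟨L, h1, h2, h3⟩ := h
  exists_between_of_equiv e hK (fun g _ => hH g) L h1 h2 h3

variable {F V : Type*} [Field F] [AddCommGroup V] [Module F V] {σ : F →+* F}

/-- The stabiliser of a set of vectors. -/
def setStab (F : Type*) [Field F] [Module F V] (X : Set V) : Subgroup (V ≃ₗ[F] V) where
  carrier := {g | ∀ x, g x ∈ X ↔ x ∈ X}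
  one_mem' := fun _ => Iff.rfl
  mul_mem' := fun {a b} ha hb x => (ha (b x)).trans (hb x)
  inv_mem' := fun {a} ha x => by rw [← ha, apply_inv_apply]

theorem mem_setStab [Finite F] [FiniteDimensional F V] {X : Set V} {g : V ≃ₗ[F] V} :
    g ∈ setStab F X ↔ ∀ x ∈ X, g x ∈ X := by
  refine ⟨fun h x hx => (h x).2 hx, fun h x => ⟨fun hx => ?_, h x⟩⟩
  have : Finite V := Module.finite_of_finite F
  obtain ⟨y, hy, e⟩ := ((Set.toFinite X).injOn_iff_bijOn_of_mapsTo h).1 g.injective.injOn |>.surjOn hx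
  rwa [← g.injective e]

theorem notMem_decStab {τ : Type*} {D : τ → Submodule F V} {g : V ≃ₗ[F] V} {i : τ} {a : V}
    (ha : a ∈ D i) (h : ∀ j, g a ∉ D j) : g ∉ decStab D := fun hg =>
  let ⟨j, hj⟩ := exists_apply_mem_of_decStab hg i; h j (hj a ha)

section General

variable {B : V →ₛₗ[σ] V →ₗ[F] F} {Q : V → F} {G : Subgroup (V ≃ₗ[F] V)} [FiniteDimensional F V]

theorem IsWittPair.eq_zero_of_plane (h : IsWittPair σ B Q) {A : Submodule F V}
    (hA : Disjoint A (perp B A)) (h2 : finrank F A = 2) {a s : V} (ha : a ∈ A) (hs : s ∈ A)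
    (h0 : B a a ≠ 0) (h1 : B s a = 0) (h3 : B s s = 0) : s = 0 := by
  by_contra s0
  have e : Submodule.span F {s, a} = A := Submodule.eq_of_le_of_finrank_eq
    (Submodule.span_le.2 (by simp [Set.insert_subset_iff, ha, hs])) (by
      rw [h2, finrank_span_pair (linearIndependent_pair_of_notMem s0 fun e => by
        obtain ⟨c, rfl⟩ := Submodule.mem_span_singleton.1 e
        simp [h3] at h0)])
  exact s0 (Submodule.disjoint_def.1 hA s hs (by
    rw [← e]; exact mem_perp_pair.2 ⟨h3, h.refl h1⟩))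

variable {τ : Type*} {k : ℕ} {D : τ → Submodule F V}

theorem ODec.notMem_decStab (h : ODec B Q k D) {g : V ≃ₗ[F] V} {i : τ} {a b : V} (ha : a ∈ D i)
    (hb : b ∈ D i) (b0 : b ≠ 0) (h1 : g a ∉ D i) (h2 : g b ∈ D i) : g ∉ decStab D := fun hg => by
  obtain ⟨j, hj⟩ := exists_apply_mem_of_decStab hg i
  obtain rfl := h.eq_of_mem h2 (hj b hb) (by simpa using b0)
  exact h1 (hj a ha)

theorem ODec.exists_move (h : ODec B Q k D) (hG : PolarG B Q G) {i : τ} {a u : V} (ha : a ∈ D i)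
    (a0 : a ≠ 0) (hu : u ∈ perp B (D i)) (u0 : u ≠ 0) (qu : Q u = Q 0) (c : F) :
    ∃ g ∈ G, g a = a + c • u := by
  obtain ⟨z, hz, e⟩ : ∃ z ∈ D i, B z a ≠ 0 := by
    by_contra! hc
    exact a0 (Submodule.disjoint_def.1 (h.nondeg i) a ha (mem_perp.2 hc))
  obtain ⟨g, hg, e⟩ := h.witt.exists_Rad_perp qu u0 (A := ⊤) trivial trivial
    (h.witt.refl (mem_perp.1 hu z hz)) (h.witt.refl (mem_perp.1 hu a ha)) e c
  exact ⟨g, hG.rad_le u u0 qu hg, e⟩

theorem ODec.btw_of_set [Finite F] (h : ODec B Q k D) (hG : PolarG B Q G) {d : ℕ}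
    (hd : SingDim F Q d) (hk : k + d ≤ finrank F V) {c : F} {i : τ} {a : V} (ha : a ∈ D i)
    (a0 : a ≠ 0) (qa : Q a = c) {g : V ≃ₗ[F] V} (hg : g ∈ G)
    (h1 : ∀ j, ∀ x ∈ D j, Q x = c → ∃ l, g x ∈ D l) (h2 : g ∉ decStab D) : Btw G (decStab D) := by
  refine ⟨setStab F {x | (∃ j, x ∈ D j) ∧ Q x = c}, fun m hm => mem_setStab.2 ?_, fun hle => ?_,
    g, hg, mem_setStab.2 ?_, h2⟩
  · rintro x ⟨⟨j, hj⟩, e⟩
    obtain ⟨l, hl⟩ := exists_apply_mem_of_decStab hm.2 j
    exact ⟨⟨l, hl x hj⟩, ((mem_isom.1 (hG.le hm.1)).2 x).trans e⟩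
  · obtain ⟨u, hu, u0, qu⟩ := hd (perp B (D i)) (by
      have := h.witt.finrank_perp (D i); rw [h.dim] at this; omega)
    obtain ⟨m, hm, e⟩ := h.exists_move hG ha a0 hu u0 qu 1
    obtain ⟨⟨j, hj⟩, -⟩ := mem_setStab.1 (hle hm) a ⟨⟨i, ha⟩, qa⟩
    exact h.add_notMem ha hu a0 u0 j (by simpa [e] using hj)
  · rintro x ⟨⟨j, hj⟩, e⟩
    exact ⟨h1 j x hj e, ((mem_isom.1 (hG.le hg)).2 x).trans e⟩

theorem ODec.exists_perp (h : ODec B Q k D) (hk : 2 ≤ k) (i : τ) (a : V) :
    ∃ b ∈ D i, b ≠ 0 ∧ B a b = 0 := by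
  have h1 := h.witt.finrank_inf_perp_ge (D i) (F ∙ a)
  have h2 := finrank_span_singleton_le (F := F) a
  rw [h.dim] at h1
  obtain ⟨b, hb, b0⟩ := exists_notMem_of_finrank_lt (X := D i ⊓ perp B (F ∙ a)) (Z := ⊥)
    (by rw [finrank_bot]; omega)
  exact ⟨b, hb.1, by simpa using b0, mem_perp_singleton.1 hb.2⟩

end General

section Omega

variable [Finite F] [FiniteDimensional F V] {Q : QuadraticForm F V}

theorem MaxTS.even_of_mem (hQ : (polarBilin Q).Nondegenerate) (h5 : 5 ≤ finrank F V)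
    {U : Submodule F V} (hU : MaxTS Q U) {g : V ≃ₗ[F] V} (hg : g ∈ OmG Q) :
    Even (finrank F U - finrank F ↥(U ⊓ U.map (g : V →ₗ[F] V))) := by
  have htop := reflSub_eq_top hQ (Or.inr (by omega))
  obtain ⟨vs, hvs, e⟩ := mem_reflSub_iff.1 (htop.symm ▸ Subgroup.mem_top (⟨g, OmG_le hg⟩ : OG Q))
  have h1 := (prod_oRefl_mem_commutator_iff hQ htop vs hvs).1 (by rw [e]; exact mem_OmG.1 hg)
  have h2 := (hU.even_length_iff hQ vs hvs).1 h1.1
  rwa [e] at h2

theorem omega_not_le_subStab (hQ : (polarBilin Q).Nondegenerate) (h5 : 5 ≤ finrank F V)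
    {W : Submodule F V} (h0 : W ≠ ⊥) (h1 : W ≠ ⊤) : ¬ OmG Q ≤ subStab W :=
  (polarG_omega' hQ h5).not_le_subStab (big_quad hQ ⊤ (isWittPair_quad Q hQ).disjoint_top
    (by rw [finrank_top]; omega)) h0 h1

theorem omega_btw_tsp {D : Fin 2 → Submodule F V} (h : TSP (polarBilin Q) Q (D 0) (D 1))
    (h3 : 3 ≤ finrank F (D 0)) (ho : Odd (finrank F (D 0))) : Btw (OmG Q) (decStab D) := by
  have hQ := h.witt.nondegenerate
  have hd := h.two_mul
  have hG := polarG_omega' hQ (by omega)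
  refine ⟨subStab (D 0), fun g hg => ?_, omega_not_le_subStab hQ (by omega)
    (fun e => by rw [e, finrank_bot] at h3; omega) (fun e => by
      rw [e, finrank_top] at hd h3; omega), ?_⟩
  · obtain ⟨s, hs⟩ := mem_decStab.1 hg.2
    have h1 := hs 0
    have h2 := MaxTS.even_of_mem hQ (by omega) ⟨hd, by simpa using h.q⟩ hg.1
    revert h1
    refine Fin.forall_fin_two (p := fun j => (D 0).map (g : V →ₗ[F] V) = D j → g ∈ subStab (D 0))
      |>.2 ⟨id, fun e => ?_⟩ (s 0)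
    rw [e, h.c.inf_eq_bot, finrank_bot] at h2
    exact absurd h2 (Nat.not_even_iff_odd.2 ho)
  · obtain ⟨u, hu, h0⟩ := exists_notMem_of_finrank_lt (X := D 0) (Z := ⊥)
      (by rw [finrank_bot]; omega)
    rw [Submodule.mem_bot] at h0
    obtain ⟨a, ha, hau⟩ := exists_notMem_of_finrank_lt (X := D 0) (Z := F ∙ u)
      (by have := finrank_span_singleton_le (F := F) u; omega)
    obtain ⟨f, hf, ef⟩ := h.dual₀ hu h0
    obtain ⟨g, hg, c, e⟩ := hG.witt.exists_Rad_add (h.q u hu) (A := ⊤) trivial (y := f) (w := a)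
      (by simp [ef]) (h.p u hu a ha) trivial
    refine ⟨g, hG.rad_le u h0 (h.q u hu) hg, h.rad_le hu _ hg, notMem_decStab hf ?_⟩
    have hac : a + c • u ∈ D 0 := (D 0).add_mem ha ((D 0).smul_mem _ hu)
    rw [e, add_assoc]
    refine Fin.forall_fin_two.2 ⟨fun e1 => ?_, fun e1 => ?_⟩
    · rw [h.eq_zero ((Submodule.add_mem_iff_left _ hac).1 e1) hf] at ef
      simp at ef
    · refine hau (Submodule.mem_span_singleton.2 ⟨-c, ?_⟩)
      rw [neg_smul, neg_eq_iff_add_eq_zero, add_comm]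
      exact h.eq_zero hac ((Submodule.add_mem_iff_right _ hf).1 e1)

theorem omega_btw_codim (hQ : (polarBilin Q).Nondegenerate) (h5 : 5 ≤ finrank F V)
    (hp : IsPlus Q) {W : Submodule F V} (hW : ∀ w ∈ W, Q w = 0)
    (hd : 2 * (finrank F W + 1) = finrank F V) : Btw (OmG Q) (subStab W) := by
  obtain ⟨X, h1, h2⟩ := hp
  have hX : MaxTS Q X := ⟨h1, h2⟩
  obtain ⟨⟨U, hU, hWU⟩⟩ : Nonempty {U : Submodule F V // MaxTS Q U ∧ W ≤ U} :=
    (Nat.card_pos_iff.1 (by rw [hX.card_containing hQ hW (by omega)]; omega)).1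
  have hUd := hU.dim
  have hG := polarG_omega' hQ h5
  refine ⟨subStab U, fun g hg => ?_, omega_not_le_subStab hQ h5
    (fun e => by rw [e, finrank_bot] at hUd; omega)
    (fun e => by rw [e, finrank_top] at hUd; omega), ?_⟩
  · have h3 := MaxTS.even_of_mem hQ h5 hU hg.1
    have h4 : W ≤ U ⊓ U.map (g : V →ₗ[F] V) := le_inf hWU (by
      rw [← mem_subStab.1 hg.2]; exact Submodule.map_mono hWU)
    have h6 := Submodule.finrank_mono h4
    have h7 := Submodule.finrank_mono (inf_le_left : U ⊓ U.map (g : V →ₗ[F] V) ≤ U)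
    obtain ⟨j, hj⟩ := h3
    have h8 : U ⊓ U.map (g : V →ₗ[F] V) = U :=
      Submodule.eq_of_le_of_finrank_eq inf_le_left (by omega)
    exact (Submodule.eq_of_le_of_finrank_eq (inf_eq_left.1 h8) (finrank_map_equiv g U).symm).symm
  · obtain ⟨u, hu, huW⟩ := exists_notMem_of_finrank_lt (X := U) (Z := W) (by omega)
    obtain ⟨w, hw, hwu⟩ := exists_notMem_of_finrank_lt (X := W) (Z := F ∙ u)
      (by have := finrank_span_singleton_le (F := F) u; omega)
    have u0 : u ≠ 0 := by rintro rfl; simp at huW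
    have qu : Q u = Q 0 := by simpa using hU.sing u hu
    obtain ⟨z, e1, e2⟩ := hG.witt.exists_dual_vec hwu
    have hp : ∀ x ∈ U, polarBilin Q u x = 0 := fun x hx =>
      polar_eq_zero_of_totally_singular hU.sing hu hx
    obtain ⟨g, hg, e⟩ := hG.witt.exists_Rad_perp qu u0 (A := ⊤) trivial trivial
      (e2 u (Submodule.mem_span_singleton_self u)) (hp w (hWU hw))
      (fun e => by rw [hG.witt.refl e] at e1; exact zero_ne_one e1) 1
    refine ⟨g, hG.rad_le u u0 qu hg, Rad_le_subStab_of_perp _ hu hp hg, fun hc => huW ?_⟩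
    simpa [e, Submodule.add_mem_iff_right _ hw] using subStab_apply hc hw

theorem exists_hyp_plane (hQ : (polarBilin Q).Nondegenerate) {A : Submodule F V}
    (hA : Disjoint A (perp (polarBilin Q) A)) (h2 : finrank F A = 2) {e : V} (he : e ∈ A)
    (e0 : e ≠ 0) (qe : Q e = 0) : ∃ f ∈ A, Q f = 0 ∧ polar Q e f = 1 ∧
      (∀ α β : F, Q (α • e + β • f) = α * β) ∧ ∀ v ∈ A, ∃ α β : F, v = α • e + β • f := by
  obtain ⟨f, hf, qf, ef, W, -, -, h3, h4⟩ := exists_hyp_compl hQ hA he e0 qe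
  refine ⟨f, hf, qf, ef, fun α β => by
    rw [quad_add, quad_smul, quad_smul, polar_smul_left, polar_smul_right, qe, qf, ef]; simp,
    fun v hv => ?_⟩
  obtain ⟨w, e1, e2, e3⟩ := hyp_decomp qe qf ef v
  have hw : w ∈ W := (h4 w).2 ⟨by
    have : w = v - (polar Q f v • e + polar Q e v • f) := by rw [eq_sub_iff_add_eq', ← e1]
    rw [this]; exact A.sub_mem hv (A.add_mem (A.smul_mem _ he) (A.smul_mem _ hf)), e2, e3⟩
  rw [Submodule.finrank_eq_zero.1 (show finrank F W = 0 by omega), Submodule.mem_bot] at hw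
  exact ⟨_, _, by rw [hw, add_zero] at e1; exact e1⟩

theorem sq_eq_one_of_card_le {F : Type*} [Field F] [Fintype F] (h : Fintype.card F ≤ 3) {a : F}
    (ha : a ≠ 0) : a ^ 2 = 1 := by
  have h1 := FiniteField.pow_card_sub_one_eq_one a ha
  have h2 := Fintype.one_lt_card (α := F)
  obtain e | e : Fintype.card F = 2 ∨ Fintype.card F = 3 := by omega
  · rw [e] at h1; simp only [Nat.add_one_sub_one, pow_one] at h1; simp [h1]
  · rwa [e] at h1

theorem omega_btw_plane (hQ : (polarBilin Q).Nondegenerate) (h5 : 5 ≤ finrank F V)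
    (hq : ∀ a : F, a ≠ 0 → a ^ 2 = 1) {W : Submodule F V}
    (hW : Disjoint W (perp (polarBilin Q) W)) (h2 : finrank F W = 2) {e : V} (he : e ∈ W)
    (e0 : e ≠ 0) (qe : Q e = 0) : Btw (OmG Q) (subStab W) := by
  obtain ⟨f, hf, qf, ef, h3, h4⟩ := exists_hyp_plane hQ hW h2 he e0 qe
  have hG := polarG_omega' hQ h5
  have q1 : Q (e + f) = 1 := by simpa using h3 1 1
  have h0 : e + f ≠ 0 := fun e => by simp [e] at q1
  refine ⟨subStab (F ∙ (e + f)), fun g hg => mem_subStab_iff_le.2 fun w hw => ?_,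
    omega_not_le_subStab hQ h5 (by simpa using h0) (fun e1 => by
      have := finrank_span_singleton_le (F := F) (e + f)
      rw [e1, finrank_top] at this; omega), ?_⟩
  · obtain ⟨c, rfl⟩ := Submodule.mem_span_singleton.1 hw
    obtain ⟨α, β, e1⟩ := h4 _ (subStab_apply hg.2 (W.add_mem he hf))
    have e2 := mem_OG.1 (OmG_le hg.1) (e + f)
    rw [e1, h3, q1] at e2
    have : β = α := by
      have := hq α (left_ne_zero_of_mul_eq_one e2)
      linear_combination α * e2 - β * this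
    rw [map_smul, e1, this, ← smul_add]
    exact Submodule.smul_mem _ _ (Submodule.smul_mem _ _ (Submodule.mem_span_singleton_self _))
  · obtain ⟨u, hu, u0, qu⟩ := exists_singular_mem Q (U := perp (polarBilin Q) W) (by
      have := hG.witt.finrank_perp W; omega)
    have hp : ∀ x ∈ W, polar Q u x = 0 := fun x hx => by
      rw [polar_comm]; exact mem_perp.1 hu x hx
    have hw := hp _ (W.sub_mem he hf)
    refine ⟨_, hG.rad_le u u0 (by simpa using qu) (eichler_mem_Rad qu hw trivial trivial),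
      mem_subStab_iff_le.2 fun w hw' => ?_, fun hc => u0 (Submodule.disjoint_def.1 hW u ?_ hu)⟩
    · obtain ⟨c, rfl⟩ := Submodule.mem_span_singleton.1 hw'
      rw [map_smul, eichler_apply_of_perp _ _ (hp _ (W.add_mem he hf))]
      simpa [polar_sub_left, polar_add_right, polar_self', qe, qf, ef, polar_comm Q f e] using hw'
    · have := subStab_apply hc he
      rw [eichler_apply_of_perp _ _ (hp _ he)] at this
      simpa [polar_sub_left, polar_self', qe, polar_comm Q f e, ef,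
        Submodule.add_mem_iff_right _ he] using this

variable {τ : Type*} {k : ℕ} {D : τ → Submodule F V}

theorem omega_btw_frame [Fintype τ] (h : ODec (polarBilin Q) Q k D) (h2 : (2 : F) ≠ 0)
    (hτ : 3 ≤ Fintype.card τ) (hk : 2 ≤ k) (hk' : k + 3 ≤ finrank F V) {c : F} (hc : c ≠ 0)
    (hX : ∀ i, ∀ a ∈ D i, ∀ b ∈ D i, Q a = c → Q b = c → polar Q a b = 0 ∨ b = a ∨ b = -a) :
    Btw (OmG Q) (decStab D) := by
  have hQ := h.witt.nondegenerate
  have hX' : ∀ i j, ∀ a ∈ D i, ∀ b ∈ D j, Q a = c → Q b = c →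
      polar Q a b = 0 ∨ b = a ∨ b = -a := fun i j a ha b hb qa qb => by
    by_cases e : i = j
    · exact hX i a ha b (e ▸ hb) qa qb
    · exact Or.inl (h.B_eq_zero e ha hb)
  choose a ha qa using fun i => exists_quad_eq_mem (h.nondeg i) (by rw [h.dim]; exact hk) hc
  have a0 : ∀ i, a i ≠ 0 := fun i e => hc (by simpa [e] using (qa i).symm)
  have hab : ∀ i j, i ≠ j → polar Q (a i) (a j) = 0 := fun i j e => h.B_eq_zero e (ha i) (ha j)
  have qr : ∀ i j, i ≠ j → Q (a j - a i) = 2 * c := fun i j e => by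
    rw [quad_sub, qa, qa, hab j i e.symm]; ring
  have r1 : ∀ i j, i ≠ j → (oRefl Q (a j - a i)).1 (a i) = a j := fun i j e =>
    oRefl_sub_apply ((qa j).trans (qa i).symm) (by rw [qr i j e]; exact mul_ne_zero h2 hc)
  have r2 : ∀ i j, i ≠ j → ∀ l, ∀ x ∈ D l, Q x = c →
      ∃ l', (oRefl Q (a j - a i)).1 x ∈ D l' := fun i j e l x hx qx => by
    rcases hX' i l _ (ha i) x hx (qa i) qx with e1 | rfl | rfl
    · rcases hX' j l _ (ha j) x hx (qa j) qx with e2 | rfl | rfl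
      · exact ⟨l, by rwa [oRefl_of_polar_eq_zero (by rw [polar_sub_left, e1, e2, sub_zero])]⟩
      · exact ⟨i, by rw [← neg_sub, oRefl_neg, r1 j i e.symm]; exact ha i⟩
      · exact ⟨i, by rw [← neg_sub, oRefl_neg, map_neg, r1 j i e.symm]; exact (D i).neg_mem (ha i)⟩
    · exact ⟨j, by rw [r1 i j e]; exact ha j⟩
    · exact ⟨j, by rw [map_neg, r1 i j e]; exact (D j).neg_mem (ha j)⟩
  obtain ⟨i⟩ : Nonempty τ := Fintype.card_pos_iff.1 (by omega)
  obtain ⟨j, hj, -⟩ := exists_third hτ i i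
  obtain ⟨l, hl, hl'⟩ := exists_third hτ i j
  obtain ⟨b, hb, b0, e⟩ := h.exists_perp hk i (a i)
  refine h.btw_of_set (polarG_omega' hQ (by omega)) (singDim_quad Q) hk' (ha i) (a0 i) (qa i)
    (oRefl_mul_mem_OmG hQ (v := a j - a i) (w := a l - a i)
      (by rw [qr i j hj.symm]; exact mul_ne_zero h2 hc) (by rw [qr i j hj.symm, qr i l hl.symm]))
    (fun m x hx qx => ?_) (h.notMem_decStab (ha i) hb b0 ?_ ?_)
  · obtain ⟨m', h1⟩ := r2 i l hl.symm m x hx qx
    exact r2 i j hj.symm m' _ h1 ((OG_map _ _).trans qx)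
  · rw [LinearEquiv.mul_apply, r1 i l hl.symm, oRefl_of_polar_eq_zero (by
      rw [polar_sub_left, hab j l hl'.symm, hab i l hl.symm, sub_zero])]
    exact fun e1 => hl (h.eq_of_mem (ha l) e1 (a0 l))
  · have k1 : ∀ m, m ≠ i → polar Q (a m - a i) b = 0 := fun m hm => by
      rw [polar_sub_left, show polar Q (a m) b = 0 from h.B_eq_zero hm (ha m) hb,
        show polar Q (a i) b = 0 from e, sub_zero]
    rwa [LinearEquiv.mul_apply, oRefl_of_polar_eq_zero (k1 l hl), oRefl_of_polar_eq_zero (k1 j hj)]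

theorem cases_of_card_three {F : Type*} [Field F] [Fintype F] (h : Fintype.card F = 3) (a : F) :
    a = 0 ∨ a = 1 ∨ a = -1 := by
  by_cases h0 : a = 0
  · exact Or.inl h0
  · exact Or.inr (sq_eq_one_iff_of_ne_zero' (sq_eq_one_of_card_le h.le h0))

theorem frame_of_aniso {A : Submodule F V} (hq : ∀ a : F, a = 0 ∨ a = 1 ∨ a = -1) (h2 : (2 : F) ≠ 0)
    {c : F} (hc : c ≠ 0) {a b : V} (ha : a ∈ A) (hb : b ∈ A) (qa : Q a = c) (qb : Q b = c)
    (h : ∀ s ∈ A, Q s = 0 → polar Q a s = 0 → s = 0) : polar Q a b = 0 ∨ b = a ∨ b = -a := by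
  have h2c := mul_ne_zero h2 hc
  rcases hq (polar Q a b / (2 * c)) with e | e | e
  · exact Or.inl (by simpa [h2, hc] using e)
  · rw [div_eq_one_iff_eq h2c] at e
    refine Or.inr (Or.inl (sub_eq_zero.1 (h _ (A.sub_mem hb ha) ?_ ?_)))
    · rw [quad_sub, qa, qb, polar_comm, e]; ring
    · rw [polar_sub_right, e, polar_self', qa, sub_self]
  · rw [div_eq_iff h2c] at e
    refine Or.inr (Or.inr (eq_neg_of_add_eq_zero_left (h _ (A.add_mem hb ha) ?_ ?_)))
    · rw [quad_add, qa, qb, polar_comm, e]; ring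
    · rw [polar_add_right, e, polar_self', qa]; ring

theorem omega_btw_three [Fintype τ] (h : ODec (polarBilin Q) Q k D)
    (hq : ∀ a : F, a = 0 ∨ a = 1 ∨ a = -1) (h2 : (2 : F) ≠ 0) (hτ : 3 ≤ Fintype.card τ)
    (hk : k = 2 ∨ k = 3) (h6 : 6 ≤ finrank F V) : Btw (OmG Q) (decStab D) := by
  have hQ := h.witt.nondegenerate
  rcases hk with rfl | rfl
  · refine omega_btw_frame h h2 hτ le_rfl (by omega) one_ne_zero fun i a ha b hb qa qb =>
      frame_of_aniso hq h2 one_ne_zero ha hb qa qb fun s hs qs e =>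
        h.witt.eq_zero_of_plane (h.nondeg i) (h.dim i) ha hs ?_ (h.witt.refl e) ?_
    · simpa [polar_self', qa] using h2
    · simp [polar_self', qs]
  · obtain ⟨i₀⟩ : Nonempty τ := Fintype.card_pos_iff.1 (by omega)
    obtain ⟨u, hu, u0, qu⟩ := exists_singular_mem Q (U := D i₀) (h.dim i₀).ge
    obtain ⟨f, hf, qf, ef, W, hW, h3, h4, h5⟩ := exists_hyp_compl hQ (h.nondeg i₀) hu u0 qu
    rw [h.dim] at h4
    obtain ⟨x, hx, qx⟩ := exists_nonsingular_mem h3 (fun e => by rw [e, finrank_bot] at h4; omega)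
    refine omega_btw_frame h h2 hτ (by omega) h6 (neg_ne_zero.2 qx) fun i a ha b hb qa qb =>
      frame_of_aniso hq h2 (neg_ne_zero.2 qx) ha hb qa qb fun s hs qs e => by_contra fun s0 => ?_
    obtain ⟨φ, φ1, φ2⟩ := h.iso i i₀
    obtain ⟨g, hg, e1⟩ := h.witt.exists_Supp_vec (h.nondeg i₀) (φ ⟨s, hs⟩).2 hu
      (by simpa using s0) u0 (by rw [φ2, qu]; exact qs.symm)
    set a' := g (φ ⟨a, ha⟩) with ha'
    have k1 : a' ∈ D i₀ := subStab_apply (h.witt.Supp_le_subStab (Or.inl le_rfl) hg) (φ _).2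
    have k2 : Q a' = -Q x := by rw [ha', (mem_isom.1 hg.1).2, φ2]; exact qa
    have k3 : polar Q u a' = 0 := by
      rw [← e1, ha', ← polarBilin_apply_apply, (mem_isom.1 hg.1).1, φ1]
      exact h.witt.refl e
    obtain ⟨w, e2, e3, e4⟩ := hyp_decomp qu qf ef a'
    rw [k3, zero_smul, add_zero] at e2
    have hw : w ∈ W := (h5 w).2 ⟨(Submodule.add_mem_iff_right _ ((D i₀).smul_mem _ hu)).1 (e2 ▸ k1),
      e3, e4⟩
    have : W = F ∙ x := (Submodule.eq_of_le_of_finrank_eq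
      ((Submodule.span_singleton_le_iff_mem _ _).2 hx) (by
        rw [finrank_span_singleton (by rintro rfl; simp at qx)]; omega)).symm
    obtain ⟨γ, rfl⟩ := Submodule.mem_span_singleton.1 (this ▸ hw)
    rw [e2, quad_add, quad_smul, quad_smul, qu, polar_smul_left, e3] at k2
    have k4 : γ ^ 2 + 1 = 0 := mul_right_cancel₀ qx (by linear_combination k2)
    rcases hq γ with rfl | rfl | rfl
    · simp at k4
    · exact h2 (by linear_combination k4)
    · exact h2 (by linear_combination k4)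

theorem omega_btw_five [Fintype τ] (h : ODec (polarBilin Q) Q 2 D)
    (hq : ∀ a : F, a ≠ 0 → a ^ 4 = 1) (h2 : (2 : F) ≠ 0) (hτ : 3 ≤ Fintype.card τ)
    (hp : ∀ i, ∃ e ∈ D i, e ≠ 0 ∧ Q e = 0) (h5 : 5 ≤ finrank F V) : Btw (OmG Q) (decStab D) := by
  refine omega_btw_frame h h2 hτ le_rfl h5 one_ne_zero fun i a ha b hb qa qb => ?_
  obtain ⟨e, he, e0, qe⟩ := hp i
  obtain ⟨f, hf, qf, ef, h3, h4⟩ :=
    exists_hyp_plane h.witt.nondegenerate (h.nondeg i) (h.dim i) he e0 qe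
  obtain ⟨α, β, rfl⟩ := h4 a ha
  obtain ⟨γ, δ, rfl⟩ := h4 b hb
  rw [h3] at qa qb
  have k1 := hq (γ * β) (mul_ne_zero (left_ne_zero_of_mul_eq_one qb)
    (right_ne_zero_of_mul_eq_one qa))
  have k2 : (γ * β - 1) * ((γ * β + 1) * ((γ * β) ^ 2 + 1)) = 0 := by linear_combination k1
  rcases mul_eq_zero.1 k2 with k3 | k3
  · have e1 : γ = α := by linear_combination α * k3 - γ * qa
    have e2 : δ = β := by linear_combination β * qb - δ * k3
    exact Or.inr (Or.inl (by rw [e1, e2]))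
  rcases mul_eq_zero.1 k3 with k3 | k3
  · have e1 : γ = -α := by linear_combination α * k3 - γ * qa
    have e2 : δ = -β := by linear_combination δ * k3 - β * qb
    exact Or.inr (Or.inr (by rw [e1, e2]; module))
  · left
    simp only [polar_add_left, polar_add_right, polar_smul_left, polar_smul_right, polar_self', qe,
      qf, ef, polar_comm Q f e, smul_eq_mul]
    linear_combination α * δ * k3 - γ * β * (α * β * qb + qa)

end Omega

end CF.Geom
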