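/-
Non-maximal decomposition stabilisers in characteristic two.
-/
import Cfsg.Agent.Geom.NonMax

set_option autoImplicit false
set_option linter.unusedSectionVars false

namespace CF.Geom

open Module QuadraticMap

variable {F V : Type*} [Field F] [AddCommGroup V] [Module F V] {σ : F →+* F}
  [Finite F] [FiniteDimensional F V] {τ : Type*} {k : ℕ} {D : τ → Submodule F V}

theorem ODec.add_ne_zero {B : V →ₛₗ[σ] V →ₗ[F] F} {Q : V → F} (h : ODec B Q k D) {i j : τ}
    (hij : i ≠ j) {x y : V} (hx : x ∈ D i) (hy : y ∈ D j) (h0 : x ≠ 0) : x + y ≠ 0 := fun e =>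
  hij (h.eq_of_mem hx (by rw [eq_neg_of_add_eq_zero_left e]; exact (D j).neg_mem hy) h0)

theorem add_self_of_two (h2 : (2 : F) = 0) (x : V) : x + x = 0 := by
  rw [← two_smul F, h2, zero_smul]

theorem two_eq_zero_of_cases (hq : ∀ a : F, a = 0 ∨ a = 1) : (2 : F) = 0 :=
  (hq 2).resolve_right fun e => one_ne_zero (by linear_combination e : (1 : F) = 0)

section Omega

variable {Q : QuadraticForm F V}

theorem omega_btw_two [Fintype τ] (h : ODec (polarBilin Q) Q 2 D) (hq : ∀ a : F, a = 0 ∨ a = 1)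
    (hτ : 3 ≤ Fintype.card τ) (hp : ∀ i, ∃ e ∈ D i, e ≠ 0 ∧ Q e = 0) (h5 : 5 ≤ finrank F V) :
    Btw (OmG Q) (decStab D) := by
  have hQ := h.witt.nondegenerate
  have h2 := two_eq_zero_of_cases hq
  have hG := polarG_omega' hQ h5
  have : ∀ i, ∃ a ∈ D i, Q a = 1 ∧ (∀ x ∈ D i, Q x = 1 → x = a) ∧ ∃ e ∈ D i, polar Q a e = 1 :=
    fun i => by
      obtain ⟨e, he, e0, qe⟩ := hp i
      obtain ⟨f, hf, qf, ef, h3, h4⟩ := exists_hyp_plane hQ (h.nondeg i) (h.dim i) he e0 qe
      refine ⟨e + f, (D i).add_mem he hf, by simpa using h3 1 1, fun x hx qx => ?_, e, he, by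
        simp [polar_add_left, polar_self', qe, polar_comm Q f e, ef]⟩
      obtain ⟨α, β, rfl⟩ := h4 x hx
      rw [h3] at qx
      rw [(hq α).resolve_left (left_ne_zero_of_mul_eq_one qx),
        (hq β).resolve_left (right_ne_zero_of_mul_eq_one qx), one_smul, one_smul]
  choose a ha qa hu e he hae using this
  have a0 : ∀ i, a i ≠ 0 := fun i e => by simpa [e] using qa i
  have hab : ∀ i j, polar Q (a i) (a j) = 0 := fun i j => by
    by_cases e : i = j
    · rw [e, polar_self', h2, zero_mul]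
    · exact h.B_eq_zero e (ha i) (ha j)
  obtain ⟨i⟩ : Nonempty τ := Fintype.card_pos_iff.1 (by omega)
  obtain ⟨j, hj, -⟩ := exists_third hτ i i
  obtain ⟨l, hl, hl'⟩ := exists_third hτ i j
  have qu : ∀ j, Q (a i + a j) = 0 := fun j => by
    rw [quad_add, qa, qa, hab]; linear_combination h2
  have huw : polar Q (a i + a j) (a i + a l) = 0 := by simp [polar_add_left, polar_add_right, hab]
  refine h.btw_of_set hG (singDim_quad Q) h5 (ha i) (a0 i) (qa i)
    (hG.rad_le _ (h.add_ne_zero hj.symm (ha i) (ha j) (a0 i)) (by simpa using qu j)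
      (eichler_mem_Rad (qu j) huw trivial trivial)) (fun m x hx qx => ⟨m, ?_⟩)
    (notMem_decStab (he i) fun m => ?_)
  · rw [hu m x hx qx, eichler_apply]
    simpa [polar_add_left, hab] using ha m
  · have k1 : ∀ m, m ≠ i → polar Q (a m) (e i) = 0 := fun m hm => h.B_eq_zero hm (ha m) (he i)
    have : (eichler (qu j) huw).1 (e i) = e i + (a l + -a j) := by
      simp only [eichler_apply, polar_add_left, hae, k1 j hj, k1 l hl, qu l]
      module
    rw [this]
    exact h.add_notMem (he i) (add_mem (h.orth i l hl.symm (ha l))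
      (neg_mem (h.orth i j hj.symm (ha j)))) (fun e0 => by simpa [e0] using hae i)
      (h.add_ne_zero hl' (ha l) (neg_mem (ha j)) (a0 l)) m

theorem omega_btw_four [Fintype τ] (h : ODec (polarBilin Q) Q 2 D) (h2 : (2 : F) = 0)
    (hq : ∀ a : F, a ≠ 0 → a ^ 3 = 1) {ω : F} (hω : ω ^ 2 ≠ ω) (hτ : 3 ≤ Fintype.card τ)
    (hp : ∀ i, ∃ e ∈ D i, e ≠ 0 ∧ Q e = 0) (h5 : 5 ≤ finrank F V) : Btw (OmG Q) (decStab D) := by
  have hQ := h.witt.nondegenerate
  have hG := polarG_omega' hQ h5
  choose e he e0 qe using hp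
  choose f hf qf ef h3 h4 using fun i =>
    exists_hyp_plane hQ (h.nondeg i) (h.dim i) (he i) (e0 i) (qe i)
  set a := fun i => e i + f i with ha'
  have ha : ∀ i, a i ∈ D i := fun i => (D i).add_mem (he i) (hf i)
  have qa : ∀ i, Q (a i) = 1 := fun i => by simpa using h3 i 1 1
  have a0 : ∀ i, a i ≠ 0 := fun i e => by simpa [e] using qa i
  have hae : ∀ i, polar Q (a i) (e i) = 1 := fun i => by
    simp [ha', polar_add_left, polar_self', qe, polar_comm Q (f i) (e i), ef]
  let S : AddSubgroup F :=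
    { carrier := {β | β ^ 2 = β}
      zero_mem' := by simp
      add_mem' := fun {x y} (hx : x ^ 2 = x) (hy : y ^ 2 = y) =>
        show (x + y) ^ 2 = x + y by linear_combination hx + hy + x * y * h2
      neg_mem' := fun {x} (hx : x ^ 2 = x) => show (-x) ^ 2 = -x by linear_combination hx + x * h2 }
  have hS : ∀ x ∈ S, ∀ y ∈ S, x * y ∈ S := fun x (hx : x ^ 2 = x) y (hy : y ^ 2 = y) =>
    show (x * y) ^ 2 = x * y by rw [mul_pow, hx, hy]
  let Y : Set V := {v | ∀ j, ∀ x ∈ D j, Q x = 1 → polar Q x v ∈ S}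
  have haY : ∀ i, a i ∈ Y := fun i j x hx qx => by
    by_cases hij : j = i
    · subst hij
      obtain ⟨α, β, rfl⟩ := h4 j x hx
      rw [h3] at qx
      have k := hq α (left_ne_zero_of_mul_eq_one qx)
      change _ ^ 2 = _
      simp only [ha', polar_add_left, polar_add_right, polar_smul_left, polar_self', qe, qf, ef,
        polar_comm Q (f j) (e j), smul_eq_mul]
      have : β = α ^ 2 := by linear_combination α ^ 2 * qx - β * k
      rw [this]
      linear_combination α * k + α ^ 3 * h2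
    · rw [show polar Q x (a i) = 0 from h.B_eq_zero hij hx (ha i)]; exact S.zero_mem
  have hYadd : ∀ u ∈ Y, ∀ v ∈ Y, u + v ∈ Y := fun u hu v hv j x hx qx => by
    rw [polar_add_right]; exact S.add_mem (hu j x hx qx) (hv j x hx qx)
  have hr : ∀ v ∈ Y, Q v = 1 → (∀ y ∈ Y, polar Q v y ∈ S) → (oRefl Q v).1 ∈ setStab F Y :=
    fun v hv qv hv' => mem_setStab.2 fun y hy j x hx qx => by
      rw [oRefl_apply, qv, inv_one, one_mul, polar_sub_right, polar_smul_right]
      exact S.sub_mem (hy j x hx qx) (hS _ (hv' y hy) _ (hv j x hx qx))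
  obtain ⟨i⟩ : Nonempty τ := Fintype.card_pos_iff.1 (by omega)
  obtain ⟨j, hj, -⟩ := exists_third hτ i i
  obtain ⟨l, hl, hl'⟩ := exists_third hτ i j
  have hab : ∀ i j, polar Q (a i) (a j) = 0 := fun i j => by
    by_cases e : i = j
    · rw [e, polar_self', h2, zero_mul]
    · exact h.B_eq_zero e (ha i) (ha j)
  have qv : Q (a i + (a j + a l)) = 1 := by
    simp only [quad_add, qa, polar_add_right, hab]; linear_combination h2
  refine ⟨setStab F Y, fun g hg => mem_setStab.2 fun y hy m x hx qx => ?_, fun hle => ?_,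
    _, oRefl_mul_mem_OmG hQ (v := a i + (a j + a l)) (w := a i) (by simp [qv]) (by rw [qv, qa]),
    Subgroup.mul_mem _ (hr _ (hYadd _ (haY i) _ (hYadd _ (haY j) _ (haY l))) qv fun y hy => ?_)
      (hr _ (haY i) (qa i) fun y hy => hy i _ (ha i) (qa i)), notMem_decStab (he i) fun m => ?_⟩
  · obtain ⟨m', hm'⟩ := exists_apply_mem_of_decStab (Subgroup.inv_mem _ hg.2) m
    have k1 := OG_polar ⟨g, OmG_le hg.1⟩ (g⁻¹ x) y
    rw [show (⟨g, OmG_le hg.1⟩ : OG Q).1 (g⁻¹ x) = x from apply_inv_apply g x] at k1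
    rw [k1]
    exact hy m' _ (hm' x hx) (by rw [mem_OG.1 (OmG_le (Subgroup.inv_mem _ hg.1)), qx])
  · obtain ⟨g, hg, e1⟩ := h.exists_move hG (ha i) (a0 i) (h.orth i j hj.symm (he j)) (e0 j)
      (by simpa using qe j) ω
    have := mem_setStab.1 (hle hg) _ (haY i) j _ (ha j) (qa j)
    rw [e1, polar_add_right, polar_smul_right, hab, hae] at this
    simp only [zero_add, smul_eq_mul, mul_one] at this
    exact hω this
  · rw [polar_add_left Q (a i), polar_add_left Q (a j)]
    exact S.add_mem (hy i _ (ha i) (qa i)) (S.add_mem (hy j _ (ha j) (qa j)) (hy l _ (ha l) (qa l)))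
  · have k1 : ∀ m, m ≠ i → polar Q (a m) (e i) = 0 := fun m hm => h.B_eq_zero hm (ha m) (he i)
    have : ((oRefl Q (a i + (a j + a l))).1 * (oRefl Q (a i)).1) (e i) =
        (e i - a i - a i) + -(a j + a l) := by
      simp only [LinearEquiv.mul_apply, oRefl_apply, qv, qa, polar_add_left, polar_sub_right,
        polar_smul_right, hab, hae, k1 j hj, k1 l hl]
      module
    rw [this]
    refine h.add_notMem ((D i).sub_mem ((D i).sub_mem (he i) (ha i)) (ha i)) (neg_mem (add_mem
      (h.orth i j hj.symm (ha j)) (h.orth i l hl.symm (ha l)))) (fun e0 => ?_)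
      (neg_ne_zero.2 (h.add_ne_zero hl'.symm (ha j) (ha l) (a0 j))) m
    have := congrArg (polar Q (a i)) e0
    simp [polar_sub_right, hab, hae] at this

theorem exists_minus_plane (hQ : (polarBilin Q).Nondegenerate) (hq : ∀ a : F, a = 0 ∨ a = 1)
    {A U : Submodule F V} (hA : Disjoint A (perp (polarBilin Q) A)) (h4 : finrank F A = 4)
    (hU : U ≤ A) (hU' : ∀ u ∈ U, Q u = 0) (hd : finrank F U = 2) :
    ∃ a ∈ A, ∃ b ∈ A, Q a = 1 ∧ Q b = 1 ∧ polar Q a b = 1 ∧ (∀ x ∈ A, Q x = 1 →
      (x = a ∨ x = b ∨ x = a + b) ∨ (polar Q a x = 0 ∧ polar Q b x = 0)) ∧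
      ∃ y ∈ A, y ≠ 0 ∧ polar Q a y = 0 ∧ polar Q b y = 0 := by
  have h2 := two_eq_zero_of_cases hq
  obtain ⟨e, he, e0⟩ := exists_notMem_of_finrank_lt (X := U) (Z := ⊥) (by rw [finrank_bot]; omega)
  rw [Submodule.mem_bot] at e0
  obtain ⟨u, hu, hue⟩ := exists_notMem_of_finrank_lt (X := U) (Z := F ∙ e)
    (by have := finrank_span_singleton_le (F := F) e; omega)
  have qe := hU' e he
  obtain ⟨f, hf, qf, ef, W, hW, h5, h6, h7⟩ := exists_hyp_compl hQ hA (hU he) e0 qe
  have he' : u - polar Q f u • e ∈ U := U.sub_mem hu (U.smul_mem _ he)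
  obtain ⟨f', hf', qf', ef', -, h8⟩ := exists_hyp_plane hQ h5 (by omega) (e := u - polar Q f u • e)
    ((h7 _).2 ⟨hU he', polar_eq_zero_of_totally_singular hU' he he', by
      simp [polar_sub_right, polar_comm Q f e, ef]⟩)
    (fun e1 => hue (Submodule.mem_span_singleton.2 ⟨_, (sub_eq_zero.1 e1).symm⟩)) (hU' _ he')
  have qe' := hU' _ he'
  have k1 := polar_eq_zero_of_totally_singular hU' he he'
  have k2 : polar Q f (u - polar Q f u • e) = 0 := by simp [polar_sub_right, polar_comm Q f e, ef]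
  have k0 := hU he'
  generalize u - polar Q f u • e = e' at *
  obtain ⟨-, k3, k4⟩ := (h7 _).1 hf'
  have c1 := polar_comm Q f e
  have c2 := polar_comm Q e' e
  have c3 := polar_comm Q e' f
  have c4 := polar_comm Q f' e
  have c5 := polar_comm Q f' f
  have c6 := polar_comm Q f' e'
  rw [ef] at c1; rw [k1] at c2; rw [k2] at c3; rw [k3] at c4; rw [k4] at c5; rw [ef'] at c6
  have s1 := polar_self' Q e
  have s2 := polar_self' Q f
  have s3 := polar_self' Q e'
  have s4 := polar_self' Q f'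
  rw [h2, zero_mul] at s1 s2 s3 s4
  have h11 : (1 : F) + 1 = 0 := by linear_combination h2
  refine ⟨e + f, add_mem (hU he) hf, e' + f' + e, add_mem (add_mem k0 (hW hf')) (hU he),
    by simp [quad_add, *], by simp [quad_add, polar_add_left, *],
    by simp [polar_add_left, polar_add_right, *], fun x hx qx => ?_,
    e' + f', add_mem k0 (hW hf'), fun e1 => ?_, by simp [polar_add_left, polar_add_right, *],
    by simp [polar_add_left, polar_add_right, *]⟩
  · obtain ⟨w, e1, e2, e3⟩ := hyp_decomp qe qf ef x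
    obtain ⟨γ, δ, rfl⟩ := h8 w ((h7 w).2 ⟨(Submodule.add_mem_iff_right _ (add_mem
      (A.smul_mem _ (hU he)) (A.smul_mem _ hf))).1 (e1 ▸ hx), e2, e3⟩)
    generalize polar Q f x = α at e1
    generalize polar Q e x = β at e1
    subst e1
    have e4 : e + f + (e' + f' + e) = f + (e' + f') := by
      linear_combination (norm := module) add_self_of_two h2 e
    rw [e4]
    rcases hq α with rfl | rfl <;> rcases hq β with rfl | rfl <;> rcases hq γ with rfl | rfl <;>
      rcases hq δ with rfl | rfl <;>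
      simp [quad_add, polar_add_left, polar_add_right, add_comm e (e' + f'), *] at qx ⊢
  · have := congrArg (polar Q e') e1
    simp [polar_add_right, s3, ef'] at this

theorem omega_btw_four_two [Nontrivial τ] (h : ODec (polarBilin Q) Q 4 D)
    (hq : ∀ a : F, a = 0 ∨ a = 1) (hp : ∀ i, ∃ U ≤ D i, (∀ u ∈ U, Q u = 0) ∧ finrank F U = 2)
    (h7 : 7 ≤ finrank F V) : Btw (OmG Q) (decStab D) := by
  have hQ := h.witt.nondegenerate
  have h2 := two_eq_zero_of_cases hq
  have hG := polarG_omega' hQ (by omega)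
  choose U hU hU' hd using hp
  choose a ha b hb qa qb hab hx y hy y0 hay hby using fun i =>
    exists_minus_plane hQ hq (h.nondeg i) (h.dim i) (hU i) (hU' i) (hd i)
  have a0 : ∀ i, a i ≠ 0 := fun i e => by simpa [e] using qa i
  obtain ⟨i, j, hij⟩ := exists_pair_ne τ
  have ho : ∀ {i j}, i ≠ j → ∀ {x y}, x ∈ D i → y ∈ D j → polar Q x y = 0 :=
    fun e _ _ hx hy => h.B_eq_zero e hx hy
  have hs : ∀ x, polar Q x x = 0 := fun x => by rw [polar_self', h2, zero_mul]
  have hba : ∀ i, polar Q (b i) (a i) = 1 := fun i => by rw [polar_comm, hab]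
  have qu : Q (a i + a j) = 0 := by
    rw [quad_add, qa, qa, ho hij (ha i) (ha j)]; linear_combination h2
  have qw : Q (b i + b j) = 0 := by
    rw [quad_add, qb, qb, ho hij (hb i) (hb j)]; linear_combination h2
  have huw : polar Q (a i + a j) (b i + b j) = 0 := by
    simp only [polar_add_left, polar_add_right, hab, ho hij (ha i) (hb j), ho hij.symm (ha j) (hb i)]
    linear_combination h2
  have key : ∀ {i j}, i ≠ j → ∀ t : V ≃ₗ[F] V, (∀ x, t x = x + polar Q (a i + a j) x • (b i + b j) -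
      polar Q (b i + b j) x • (a i + a j)) → t (a i) ∈ D j ∧ ∀ x ∈ D i, Q x = 1 → ∃ l, t x ∈ D l :=
    fun {i j} hij t ht => by
      have e1 : t (a i) = -a j := by
        simp only [ht, polar_add_left, hs, hba, ho hij.symm (ha j) (ha i), ho hij.symm (hb j) (ha i)]
        module
      have e2 : t (b i) = b j := by
        simp only [ht, polar_add_left, hs, hab, ho hij.symm (ha j) (hb i), ho hij.symm (hb j) (hb i)]
        linear_combination (norm := module) add_self_of_two h2 (b i)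
      refine ⟨e1 ▸ neg_mem (ha j), fun x hx' qx => ?_⟩
      rcases hx i x hx' qx with (rfl | rfl | rfl) | ⟨e3, e4⟩
      · exact ⟨j, e1 ▸ neg_mem (ha j)⟩
      · exact ⟨j, e2 ▸ hb j⟩
      · exact ⟨j, by rw [map_add, e1, e2]; exact add_mem (neg_mem (ha j)) (hb j)⟩
      · refine ⟨i, ?_⟩
        simpa [ht, polar_add_left, e3, e4, ho hij.symm (ha j) hx', ho hij.symm (hb j) hx'] using hx'
  have ht : ∀ x, (eichler qu huw).1 x = x + polar Q (a i + a j) x • (b i + b j) -
      polar Q (b i + b j) x • (a i + a j) := fun x => by simp [eichler_apply, qw]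
  refine h.btw_of_set hG (singDim_quad Q) h7 (ha i) (a0 i) (qa i)
    (hG.rad_le _ (h.add_ne_zero hij (ha i) (ha j) (a0 i)) (by simpa using qu)
      (eichler_mem_Rad qu huw trivial trivial)) (fun m x hx qx => ?_)
    (h.notMem_decStab (ha i) (hy i) (y0 i) (fun e => ?_) ?_)
  · by_cases e1 : m = i
    · exact (key hij _ ht).2 x (e1 ▸ hx) qx
    by_cases e2 : m = j
    · exact (key hij.symm _ fun x => by rw [ht, add_comm (a i), add_comm (b i)]).2 x (e2 ▸ hx) qx
    · refine ⟨m, ?_⟩
      simpa [ht, polar_add_left, ho (Ne.symm e1) (ha i) hx, ho (Ne.symm e1) (hb i) hx,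
        ho (Ne.symm e2) (ha j) hx, ho (Ne.symm e2) (hb j) hx] using hx
  · exact hij (h.eq_of_mem e (key hij _ ht).1 (by simpa using a0 i))
  · simpa [ht, polar_add_left, hay, hby, ho hij.symm (ha j) (hy i), ho hij.symm (hb j) (hy i)]
      using hy i

theorem sp_btw_two [Fintype τ] (h : ODec (polarBilin Q) (fun _ => (0 : F)) k D) (h2 : (2 : F) = 0)
    (hτ : 3 ≤ Fintype.card τ) (h3 : 3 ≤ finrank F V) (hq : ∀ i, ∀ v ∈ D i, v ≠ 0 → Q v = 1) :
    Btw (SpG (polarBilin Q)) (decStab D) := by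
  have hQ := h.witt.nondegenerate
  choose a ha a0 using fun i => (D i).exists_mem_ne_zero_of_ne_bot (h.ne_bot i)
  have hs : ∀ x, polar Q x x = 0 := fun x => by rw [polar_self', h2, zero_mul]
  have ho : ∀ {i j}, i ≠ j → ∀ {x y}, x ∈ D i → y ∈ D j → polar Q x y = 0 :=
    fun e _ _ hx hy => h.B_eq_zero e hx hy
  obtain ⟨i⟩ : Nonempty τ := Fintype.card_pos_iff.1 (by omega)
  obtain ⟨j, hj, -⟩ := exists_third hτ i i
  obtain ⟨l, hl, hl'⟩ := exists_third hτ i j
  obtain ⟨b, hb, e⟩ : ∃ b ∈ D i, polar Q (a i) b ≠ 0 := by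
    by_contra! hc
    exact a0 i (Submodule.disjoint_def.1 (h.nondeg i) _ (ha i)
      (mem_perp.2 fun x hx => h.witt.refl (hc x hx)))
  have qv : Q (a i + (a j + a l)) = 1 := by
    simp only [quad_add, hq _ _ (ha _) (a0 _), polar_add_right, ho hj.symm (ha i) (ha j),
      ho hl.symm (ha i) (ha l), ho hl'.symm (ha j) (ha l)]
    linear_combination h2
  refine ⟨OG Q, fun g hg => mem_OG.2 fun v => ?_, (o_in_sp_maxIn hQ h2 h3).1,
    (oRefl Q (a i + (a j + a l))).1, mem_SpG.2 (OG_polar _), (oRefl Q _).2,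
    notMem_decStab hb fun m => ?_⟩
  · have hv : v ∈ iSup D := h.top ▸ Submodule.mem_top
    induction hv using Submodule.iSup_induction' with
    | mem m x hx =>
      obtain ⟨m', hm'⟩ := exists_apply_mem_of_decStab hg.2 m
      by_cases x0 : x = 0
      · simp [x0]
      · rw [hq m x hx x0, hq m' _ (hm' x hx) (by simpa using x0)]
    | zero => simp
    | add x y _ _ hx hy =>
      rw [map_add, quad_add, quad_add, hx, hy]
      exact congrArg _ (mem_SpG.1 hg.1 x y)
  · have : (oRefl Q (a i + (a j + a l))).1 b =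
        (b - polar Q (a i) b • a i) + -polar Q (a i) b • (a j + a l) := by
      simp only [oRefl_apply, qv, polar_add_left, ho hj (ha j) hb, ho hl (ha l) hb]
      module
    rw [this]
    refine h.add_notMem ((D i).sub_mem hb ((D i).smul_mem _ (ha i))) (Submodule.smul_mem _ _ (add_mem
      (h.orth i j hj.symm (ha j)) (h.orth i l hl.symm (ha l)))) (fun e0 => ?_)
      (smul_ne_zero (neg_ne_zero.2 e) (h.add_ne_zero hl'.symm (ha j) (ha l) (a0 j))) m
    have := congrArg (polar Q (a i)) e0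
    simp [polar_sub_right, hs, e] at this

end Omega

theorem su_btw_two {B : V →ₛₗ[σ] V →ₗ[F] F} [Nontrivial τ] (hH : IsHerm B)
    (h : ODec B (fun x => B x x) 2 D) (h2 : (2 : F) = 0) (hq : ∀ a : F, a ≠ 0 → σ a * a = 1)
    (h4 : 4 ≤ finrank F V) : Btw (SUG B) (decStab D) := by
  have hB := h.witt.nondegenerate
  have hG := polarG_su' hH hB (by omega)
  have : ∀ i, ∃ a ∈ D i, B a a = 1 := fun i => by
    obtain ⟨v, hv, e⟩ := exists_nonisotropic_mem (Or.inl hH.ne_id) hH.symm (h.nondeg i) (h.ne_bot i)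
    obtain ⟨t, ht⟩ := exists_smul_norm_eq hH.ne_id hH.invol hH.symm e (map_one σ)
    exact ⟨_, (D i).smul_mem t hv, ht⟩
  choose a ha qa using this
  have a0 : ∀ i, a i ≠ 0 := fun i e => by simpa [e] using qa i
  have hX : ∀ i, ∀ x ∈ D i, B x x = 1 → B (a i) x = 0 ∨ x = B (a i) x • a i := fun i x hx qx => by
    refine or_iff_not_imp_left.2 fun e => sub_eq_zero.1 (h.witt.eq_zero_of_plane (h.nondeg i)
      (h.dim i) (ha i) ((D i).sub_mem hx ((D i).smul_mem _ (ha i))) (by simp [qa])
      (hH.refl (by simp [qa])) ?_)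
    have := hq _ e
    simp only [map_sub, map_smulₛₗ, LinearMap.sub_apply, LinearMap.smul_apply, smul_eq_mul, qa, qx,
      RingHom.id_apply, ← hH.eq (a i) x]
    linear_combination -this
  obtain ⟨i, j, hij⟩ := exists_pair_ne τ
  have ho : ∀ {i j}, i ≠ j → ∀ {x y}, x ∈ D i → y ∈ D j → B x y = 0 :=
    fun e _ _ hx hy => h.B_eq_zero e hx hy
  have qu : B (a i + a j) (a i + a j) = 0 := by
    simp only [map_add, LinearMap.add_apply, qa, ho hij (ha i) (ha j), ho hij.symm (ha j) (ha i)]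
    linear_combination h2
  have hs : σ 1 = -1 := by rw [map_one]; linear_combination h2
  have key : ∀ {i j}, i ≠ j → ∀ t : V ≃ₗ[F] V, (∀ x, t x = x + B (a i + a j) x • (a i + a j)) →
      t (a i) = a j ∧ ∀ x ∈ D i, B x x = 1 → ∃ l, t x ∈ D l := fun {i j} hij t ht => by
    have e1 : t (a i) = a j := by
      simp only [ht, map_add, LinearMap.add_apply, qa, ho hij.symm (ha j) (ha i)]
      linear_combination (norm := module) add_self_of_two h2 (a i)
    refine ⟨e1, fun x hx qx => ?_⟩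
    rcases hX i x hx qx with e | e
    · exact ⟨i, by simpa [ht, e, ho hij.symm (ha j) hx] using hx⟩
    · exact ⟨j, by rw [e, map_smul, e1]; exact (D j).smul_mem _ (ha j)⟩
  have ht : ∀ x, (uTrans hH qu hs).1 x = x + B (a i + a j) x • (a i + a j) := fun x => by
    rw [uTrans_apply, one_mul]
  obtain ⟨b, hb, b0, e⟩ := h.exists_perp le_rfl i (a i)
  refine h.btw_of_set hG (singDim_herm hH) h4 (ha i) (a0 i) (qa i)
    (hG.rad_le _ (h.add_ne_zero hij (ha i) (ha j) (a0 i)) (by simpa using qu)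
      (uTrans_mem_Rad hH qu hs trivial)) (fun m x hx qx => ?_)
    (h.notMem_decStab (ha i) hb b0 (fun e => ?_) ?_)
  · by_cases e1 : m = i
    · exact (key hij _ ht).2 x (e1 ▸ hx) qx
    by_cases e2 : m = j
    · exact (key hij.symm _ fun x => by rw [ht, add_comm (a i)]).2 x (e2 ▸ hx) qx
    · exact ⟨m, by simpa [ht, ho (Ne.symm e1) (ha i) hx, ho (Ne.symm e2) (ha j) hx] using hx⟩
  · rw [(key hij _ ht).1] at e
    exact hij (h.eq_of_mem e (ha j) (a0 j))
  · simpa [ht, e, ho hij.symm (ha j) hb] using hb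

end CF.Geom
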