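/-
Small field facts and bridges for the non-maximal geometric subgroups.
-/
import Cfsg.Agent.Geom.NonMax2

set_option autoImplicit false
set_option linter.unusedSectionVars false

namespace CF.Geom

open Module QuadraticMap

variable {F : Type*} [Field F] [Fintype F]

theorem pow_eq_one_of_card {n : ℕ} (h : Fintype.card F = n + 1) (a : F) (ha : a ≠ 0) :
    a ^ n = 1 := by
  simpa [h] using FiniteField.pow_card_sub_one_eq_one a ha

theorem cases_of_card_two (h : Fintype.card F = 2) (a : F) : a = 0 ∨ a = 1 :=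
  or_iff_not_imp_left.2 fun ha => by simpa using pow_eq_one_of_card h a ha

theorem exists_sq_ne_self (h : Fintype.card F ≠ 2) : ∃ ω : F, ω ^ 2 ≠ ω := by
  obtain ⟨a, h0, h1⟩ := exists_ne_zero_ne_one_of_card (F := F) (by rwa [Nat.card_eq_fintype_card])
  exact ⟨a, fun e => h1 (mul_left_cancel₀ h0 (by linear_combination e))⟩

theorem exists_sing_of_plusTypeOn {ι : Type} [Fintype ι] {Q : (ι → F) → F}
    {W : Submodule F (ι → F)} (h : Cfsg.Geo.IsPlusTypeOn Q W) (h0 : 0 < finrank F W) :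
    ∃ e ∈ W, e ≠ 0 ∧ Q e = 0 := by
  obtain ⟨U, h1, h2, h3⟩ := h
  obtain ⟨e, he, e0⟩ := exists_notMem_of_finrank_lt (X := U) (Z := ⊥) (by rw [finrank_bot]; omega)
  exact ⟨e, h1 he, by simpa using e0, h2 e he⟩

theorem isPlus_of_plusTypeOn {ι : Type} {Q : QuadraticForm F (ι → F)}
    (h : Cfsg.Geo.IsPlusTypeOn Q ⊤) : IsPlus Q :=
  let ⟨U, _, h2, h3⟩ := h; ⟨U, by rwa [finrank_top] at h3, h2⟩

/-- All exceptional orthogonal decompositions. -/
theorem omega_btw_dec {ι : Type} [Fintype ι] [DecidableEq ι] {Q : QuadraticForm F (ι → F)}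
    (hQ : (polarBilin Q).Nondegenerate) (hn : 7 ≤ Fintype.card ι) {t k : ℕ}
    {D : Fin t → Submodule F (ι → F)} (hD : Cfsg.Geo.IsOrthogonalMDecomposition Q k D)
    (hcase : (k = 2 ∧ (Fintype.card F = 3 ∨ ((∀ i, Cfsg.Geo.IsPlusTypeOn Q (D i)) ∧
      (Fintype.card F = 2 ∨ Fintype.card F = 4 ∨ Fintype.card F = 5)))) ∨
      (k = 3 ∧ Fintype.card F = 3) ∨
      (k = 4 ∧ Fintype.card F = 2 ∧ ∀ i, Cfsg.Geo.IsPlusTypeOn Q (D i))) :
    Btw (OmG Q) (decStab D) := by
  have h := odec_quad hQ hD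
  have := nontrivial_fin hD.decomp.decomp
  have e := finrank_eq_of_isMDec hD.decomp.decomp
  have hp : (∀ i, Cfsg.Geo.IsPlusTypeOn Q (D i)) → ∀ i, ∃ e ∈ D i, e ≠ 0 ∧ Q e = 0 :=
    fun h1 i => exists_sing_of_plusTypeOn (h1 i) (by rw [h.dim]; exact h.pos)
  have h3 : Fintype.card F = 3 → (2 : F) ≠ 0 := fun e => two_ne_zero_of_odd_card (by rw [e]; decide)
  rcases hcase with ⟨rfl, hq | ⟨h1, hq | hq | hq⟩⟩ | ⟨rfl, hq⟩ | ⟨rfl, hq, h1⟩
  · exact omega_btw_three h (cases_of_card_three hq) (h3 hq) (by simp; omega) (Or.inl rfl)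
      (by simp; omega)
  · exact omega_btw_two h (cases_of_card_two hq) (by simp; omega) (hp h1) (by simp; omega)
  · obtain ⟨ω, hω⟩ := exists_sq_ne_self (F := F) (by omega)
    exact omega_btw_four h (two_eq_zero_of_not_odd_card (by rw [hq]; decide))
      (pow_eq_one_of_card hq) hω (by simp; omega) (hp h1) (by simp; omega)
  · exact omega_btw_five h (pow_eq_one_of_card hq) (two_ne_zero_of_odd_card (by rw [hq]; decide))
      (by simp; omega) (hp h1) (by simp; omega)
  · exact omega_btw_three h (cases_of_card_three hq) (h3 hq) (by simp; omega) (Or.inr rfl)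
      (by simp; omega)
  · refine omega_btw_four_two h (cases_of_card_two hq) (fun i => ?_) (by simp; omega)
    obtain ⟨U, h2, h4, h5⟩ := h1 i
    exact ⟨U, h2, h4, by rw [h.dim] at h5; omega⟩

end CF.Geom
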