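import Mathlib
import Cfsg.Agent.Solv.Cores

/-!
# Classes of involutions whose non-commuting products all have one odd order
-/

set_option autoImplicit false
set_option linter.unusedSectionVars false

namespace CF.Geom.R3

open Cfsg Subgroup

variable {G : Type*} [Group G] {D : Set G} {n : ℕ} {a b c d e f g t u w x y : G}

/-- all products of non-commuting members have the odd order `n` -/
structure Pn (D : Set G) (n : ℕ) : Prop where
  o2 : ∀ d ∈ D, orderOf d = 2
  cj : ∀ d ∈ D, ∀ g, g * d * g⁻¹ ∈ D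
  odd : Odd n
  pr : ∀ a ∈ D, ∀ b ∈ D, Commute a b ∨ orderOf (a * b) = n

/-- all triples are of type `4` -/
def Four (D : Set G) : Prop :=
  ∀ x ∈ D, ∀ w ∈ D, ∀ u ∈ D, Commute x w → ¬ Commute x u → ¬ Commute w u → Commute (x * u * x) (w * u * w)

theorem eq_pow_sq {k : ℕ} (h : orderOf g = 2 * k + 1) : (g * g) ^ (k + 1) = g := by
  rw [← sq, ← pow_mul, show 2 * (k + 1) = orderOf g + 1 by omega, pow_succ, pow_orderOf_eq_one, one_mul]

theorem cm_of_sq (h : Odd (orderOf g)) (k : Commute t (g * g)) : Commute t g :=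
  let ⟨j, hj⟩ := h; eq_pow_sq hj ▸ k.pow_right (j + 1)

theorem cm_cancel (h : Commute t a) (k : Commute t (a * b)) : Commute t b := by
  simpa using h.inv_right.mul_right k

theorem cm_conj (g : G) : Commute (g * a * g⁻¹) (g * b * g⁻¹) ↔ Commute a b :=
  ⟨fun h => h.of_map (f := MulAut.conj g) (MulAut.conj g).injective, fun h => h.map (MulAut.conj g)⟩

namespace Pn

variable (h : Pn D n)
include h

theorem sq (ha : a ∈ D) : a * a = 1 := by rw [← _root_.sq, ← h.o2 a ha, pow_orderOf_eq_one]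

theorem inv (ha : a ∈ D) : a⁻¹ = a := inv_eq_of_mul_eq_one_right (h.sq ha)

theorem sq' (ha : a ∈ D) (g : G) : a * (a * g) = g := by rw [← mul_assoc, h.sq ha, one_mul]

theorem op (ha : a ∈ D) (hb : b ∈ D) : a * b * a ∈ D := by simpa [h.inv ha] using h.cj b hb a

theorem ord (ha : a ∈ D) (hb : b ∈ D) (k : ¬ Commute a b) : orderOf (a * b) = n := (h.pr a ha b hb).resolve_left k

theorem odd' (ha : a ∈ D) (hb : b ∈ D) (k : ¬ Commute a b) : Odd (orderOf (a * b)) := h.ord ha hb k ▸ h.odd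

theorem cm_op (ha : a ∈ D) : Commute (a * b * a) (a * c * a) ↔ Commute b c := by
  simpa [h.inv ha] using cm_conj (a := b) (b := c) a

theorem fix (ha : a ∈ D) (k : Commute a b) : a * b * a = b := by rw [k.eq, mul_assoc, h.sq ha, mul_one]

theorem of_cm (ha : a ∈ D) (hb : b ∈ D) (k : Commute a (b * a * b)) : Commute a b := by
  by_contra m
  have := cm_of_sq (h.odd' ha hb m) (t := a) (by simpa only [mul_assoc] using (Commute.refl a).mul_right k)
  exact m (cm_cancel (.refl a) this)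

theorem fixz (ha : a ∈ D) (hb : b ∈ D) (hy : y ∈ D) (ne : a ≠ b) (k : Commute (a * b) y) : Commute a y := by
  have e : a * y * a = b * y * b := by
    have := congrArg (fun s => a * s * b) k.eq
    simp only [mul_assoc, h.sq' ha, h.sq hb, mul_one] at this ⊢
    exact this.symm
  by_contra m
  have m' : ¬ Commute b y := fun c => m (by
    rw [h.fix hb c, mul_assoc, ← eq_inv_mul_iff_mul_eq, h.inv ha] at e; exact e.symm)
  obtain ⟨j, hj⟩ := h.odd
  refine ne (mul_right_cancel (b := y) ?_)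
  rw [← eq_pow_sq ((h.ord ha hy m).trans hj), ← eq_pow_sq ((h.ord hb hy m').trans hj), ← mul_assoc, ← mul_assoc, e]

theorem cop (h3 : n ≠ 3) (ha : a ∈ D) (hb : b ∈ D) (k : ¬ Commute a b) : Nat.Coprime 3 n := by
  refine (Nat.Prime.coprime_iff_not_dvd Nat.prime_three).2 fun ⟨m, hm⟩ => ?_
  have m0 : m ≠ 0 := by rintro rfl; simpa [hm] using h.odd
  have o : orderOf ((a * b) ^ 3) = m := by
    rw [orderOf_pow' _ (by norm_num), h.ord ha hb k, hm, Nat.gcd_mul_right_left, Nat.mul_div_cancel_left _ (by norm_num)]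
  have e : a * (b * a * b * (b * a)⁻¹) = (a * b) ^ 3 := by
    simp only [mul_inv_rev, h.inv ha, h.inv hb, pow_succ, pow_zero, one_mul, mul_assoc]
  rcases h.pr a ha _ (h.cj b hb (b * a)) with c | c
  · have : m ∣ 2 := by
      rw [← o, orderOf_dvd_iff_pow_eq_one, ← e, c.mul_pow, _root_.sq, _root_.sq, h.sq ha, h.sq (h.cj b hb _), one_mul]
    have o' := h.odd
    rcases (Nat.dvd_prime Nat.prime_two).1 this with rfl | rfl
    exacts [h3 hm, absurd (hm ▸ o') (by decide)]
  · rw [e, o] at c; omega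

theorem p4 (h3 : n ≠ 3) (h4 : Four D) (hx : x ∈ D) (hu : u ∈ D) (hw : w ∈ D) (hf : f ∈ D) (xw : Commute x w)
    (xf : Commute x f) (uf : Commute u f) (uw : ¬ Commute u w) (wf : ¬ Commute f w) : Commute x u := by
  by_contra xu
  have m2 := h.op hw hf
  have m3 := h.cj w hw (w * f)
  have n2 : ¬ Commute (w * f * w) u := fun c =>
    uw (cm_cancel uf (cm_of_sq (h.odd' hf hw wf) (by simpa only [mul_assoc] using uf.mul_right c.symm)))
  have x3 : Commute x (w * f * w * (w * f)⁻¹) := ((xw.mul_right xf).mul_right xw).mul_right (xw.mul_right xf).inv_right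
  have n1 : ¬ Commute (w * u * w) (w * f * w * (w * f)⁻¹) := fun c => uw (by
    rw [mul_inv_rev, h.inv hw, h.inv hf, show w * f * w * (f * w) = w * (f * w * f) * w by simp only [mul_assoc],
      h.cm_op hw, ← h.fix hf uf.symm, h.cm_op hf] at c
    exact c)
  have c := cm_cancel ((h4 x hx w hw u hu xw xu fun c => uw c.symm)) (cm_of_sq (h.odd' (h.op hw hu) m3 n1) (by
    have := (h4 x hx w hw u hu xw xu fun c => uw c.symm).mul_right
      (h4 x hx _ m2 u hu ((xw.mul_right xf).mul_right xw) xu n2)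
    nth_rewrite 3 [← h.fix hf uf.symm] at this
    simpa only [mul_inv_rev, h.inv hw, h.inv hf, mul_assoc, h.sq' hw] using this))
  rw [← h.fix hx x3, h.cm_op hx] at c
  have c3 : Commute u ((f * w) ^ 3) := by
    simpa only [mul_inv_rev, h.inv hw, h.inv hf, pow_succ, pow_zero, one_mul, mul_assoc] using uf.mul_right c
  obtain ⟨k, hk⟩ := mem_zpowers_pow_iff.2 (show Nat.gcd 3 (orderOf (f * w)) = 1 by
    rw [h.ord hf hw wf]; exact h.cop h3 hf hw wf)
  exact uw (cm_cancel uf (hk ▸ c3.zpow_right k))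

theorem trans [Finite G] (h3 : n ≠ 3) (h4 : Four D) (hg : closure D = ⊤) (hc : ∀ a ∈ D, ∀ b ∈ D, IsConj a b)
    (hp : ∀ a ∈ D, ∀ b ∈ D, ∀ c ∈ D, ∀ d ∈ D, ¬ Commute a b → ¬ Commute c d → ∃ g, g * a * g⁻¹ = c ∧ g * b * g⁻¹ = d)
    (hx : x ∈ D) (hw : w ∈ D) (hf : f ∈ D) (xw : Commute x w) (xf : Commute x f) : Commute f w := by
  by_contra wf
  let C : G → G → Set G := fun a b => {c | c ∈ D ∧ Commute c a ∧ Commute c b}
  have cd : ∀ {a b}, a ∈ D → b ∈ D → ¬ Commute a b → (C a b).ncard = (C f w).ncard := fun {a b} ha hb k => by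
    obtain ⟨g, rfl, rfl⟩ := hp a ha b hb f hf w hw k wf
    refine Set.ncard_congr (fun c _ => g * c * g⁻¹) (fun c hc => ⟨h.cj _ hc.1 _, (cm_conj g).2 hc.2.1,
      (cm_conj g).2 hc.2.2⟩) (fun _ _ _ _ e => by simpa using e) fun c hc => ⟨g⁻¹ * c * g⁻¹⁻¹, ⟨h.cj _ hc.1 _, ?_, ?_⟩,
        by simp [mul_assoc]⟩
    · simpa [mul_assoc] using (cm_conj g⁻¹).2 hc.2.1
    · simpa [mul_assoc] using (cm_conj g⁻¹).2 hc.2.2
  let B : Set G := {b | b ∈ D ∧ b ∉ C f w ∧ ∀ c ∈ C f w, Commute c b}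
  have k1 : ∀ {a b y}, a ∈ D → b ∈ D → ¬ Commute a b → C a b = C f w → y ∈ D → Commute y a → y ∈ C f w ∨ y ∈ B :=
    fun {a b y} ha hb k e hy ya => or_iff_not_imp_left.2 fun m => ⟨hy, m, fun c hc => by
      rw [← e] at hc m
      exact h.p4 h3 h4 hc.1 hy hb ha hc.2.2 hc.2.1 ya (fun s => m ⟨hy, ya, s⟩) k⟩
  have k2 : ∀ {b y}, b ∈ B → y ∈ D → Commute y b → y ∈ C f w ∨ y ∈ B := fun {b y} hb hy yb => by
    by_cases e : Commute b f
    · exact k1 hb.1 hw (fun s => hb.2.1 ⟨hb.1, e, s⟩) (Set.eq_of_subset_of_ncard_le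
        (fun c hc => And.intro hc.1 ⟨hb.2.2 c hc, hc.2.2⟩) (cd hb.1 hw fun s => hb.2.1 ⟨hb.1, e, s⟩).le).symm hy yb
    · exact k1 hb.1 hf e (Set.eq_of_subset_of_ncard_le (fun c hc => And.intro hc.1 ⟨hb.2.2 c hc, hc.2.1⟩)
        (cd hb.1 hf e).le).symm hy yb
  have fB : f ∈ B := ⟨hf, fun m => wf m.2.2, fun c hc => hc.2.1⟩
  have k3 : ∀ r ∈ D, r ∈ C f w ∨ r ∈ B := fun r hr => by
    by_contra m
    have rf : ¬ Commute r f := fun s => m (k2 fB hr s)
    have e : C r f = C f w := Set.eq_of_subset_of_ncard_le (fun c hc => (k2 fB hc.1 hc.2.2).resolve_right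
      fun s => m (k2 s hr hc.2.1.symm)) (cd hr hf rf).ge
    exact m (k1 hr hf rf e hr (.refl r))
  have k4 : ∀ g : G, ∀ b ∈ B, g * b * g⁻¹ ∈ B := fun g => by
    induction (hg ▸ mem_top g : g ∈ closure D) using closure_induction_left with
    | one => simp
    | mul_left d hd g _ ih =>
      intro b hb
      have := ih b hb
      rw [mul_inv_rev, show d * g * b * (g⁻¹ * d⁻¹) = d * (g * b * g⁻¹) * d by simp only [mul_assoc, h.inv hd]]
      generalize g * b * g⁻¹ = b at this
      rcases k3 d hd with m | m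
      · rwa [h.fix hd (this.2.2 d m)]
      · refine (k3 _ (h.op hd this.1)).resolve_left fun s => this.2.1 ?_
        rwa [← h.fix hd (m.2.2 _ s).symm, ← mul_assoc, ← mul_assoc, h.sq hd, one_mul, mul_assoc, h.sq hd, mul_one] at s
    | inv_mul_cancel d hd g _ ih =>
      intro b hb
      have := ih b hb
      rw [mul_inv_rev, show d⁻¹ * g * b * (g⁻¹ * d⁻¹⁻¹) = d * (g * b * g⁻¹) * d by simp only [mul_assoc, h.inv hd]]
      generalize g * b * g⁻¹ = b at this
      rcases k3 d hd with m | m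
      · rwa [h.fix hd (this.2.2 d m)]
      · refine (k3 _ (h.op hd this.1)).resolve_left fun s => this.2.1 ?_
        rwa [← h.fix hd (m.2.2 _ s).symm, ← mul_assoc, ← mul_assoc, h.sq hd, one_mul, mul_assoc, h.sq hd, mul_one] at s
  obtain ⟨g, rfl⟩ := isConj_iff.1 (hc f hf x hx)
  exact (k4 g f fB).2.1 ⟨hx, xf, xw⟩

theorem eq_of [Finite G] (h4 : Four D) (hg : closure D = ⊤)
    (hs : ∀ N : Subgroup G, N.Normal → Group.IsSolvable N → N = ⊥)
    (ht : ∀ x ∈ D, ∀ w ∈ D, ∀ f ∈ D, Commute x w → Commute x f → Commute f w) (hx : x ∈ D) (hw : w ∈ D)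
    (xw : Commute x w) : x = w := by
  have : Fact (Nat.Prime 2) := ⟨Nat.prime_two⟩
  let K : Subgroup G :=
    { carrier := {k | ∀ y ∈ D, Commute (k * y * k⁻¹) y}
      one_mem' := fun y _ => by simp
      mul_mem' := fun {k l} hk hl y hy => by
        have := hk _ (h.cj y hy l)
        rw [mul_inv_rev, show k * l * y * (l⁻¹ * k⁻¹) = k * (l * y * l⁻¹) * k⁻¹ by simp only [mul_assoc]]
        exact ht _ (h.cj y hy l) _ hy _ (h.cj _ (h.cj y hy l) k) (hl y hy) this.symm
      inv_mem' := fun {k} hk y hy => by simpa [mul_assoc] using ((cm_conj k⁻¹).2 (hk y hy)).symm }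
  have : K.Normal := ⟨fun k hk g y hy => by simpa [mul_assoc] using (cm_conj g).2 (hk _ (h.cj y hy g⁻¹))⟩
  have hO : pCore 2 G = ⊥ := hs _ inferInstance (have := Solv.pCore_isPGroup (p := 2) (G := G) |>.isNilpotent
    inferInstance)
  have kc : ∀ k ∈ K, ∀ y ∈ D, Commute k y := fun k hk y hy => by
    let S : Set G := {s | s ∈ D ∧ Commute s y}
    have sc : ∀ a ∈ S, ∀ b ∈ S, Commute a b := fun a ha b hb => ht y hy b hb.1 a ha.1 hb.2.symm ha.2.symm
    have p2 : IsPGroup 2 (closure S) := fun ⟨s, hs⟩ => ⟨1, Subtype.ext (by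
      change s ^ 2 ^ 1 = 1
      induction hs using closure_induction with
      | mem a ha => rw [pow_one, _root_.sq, h.sq ha.1]
      | one => simp
      | mul a b ha hb ia ib =>
        rw [Commute.mul_pow (closure_induction₂ (p := fun a b _ _ => Commute a b) (fun a b x y => sc a x b y) (by simp) (by simp)
          (fun _ _ _ _ _ _ => Commute.mul_left) (fun _ _ _ _ _ _ => Commute.mul_right)
          (fun _ _ _ _ => Commute.inv_left) (fun _ _ _ _ => Commute.inv_right) ha hb), ia, ib, one_mul]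
      | inv a _ ia => rw [inv_pow, ia, inv_one])⟩
    have nm : K ≤ normalizer (closure S : Set G) := Subgroup.le_normalizer_closure_iff.2 fun l hl s hs =>
      Subgroup.subset_closure (And.intro (h.cj s hs.1 l) (ht s hs.1 y hy _ (h.cj s hs.1 l) hs.2 (hl s hs.1).symm))
    have le := (Solv.le_map_pCore (H := closure S ⊓ K) inf_le_right
      ((le_inf nm le_normalizer).trans inf_normalizer_le_normalizer_inf) p2.to_inf_left).trans
      ((Solv.map_pCore_of_normal K).le.trans (inf_le_left.trans hO.le))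
    have m := le (x := k * y * k⁻¹ * y⁻¹) ⟨(closure S).mul_mem (Subgroup.subset_closure ⟨h.cj y hy k, hk y hy⟩)
      ((closure S).inv_mem (Subgroup.subset_closure ⟨hy, .refl y⟩)), show _ ∈ K by
        simpa only [mul_assoc] using mul_mem hk (this.conj_mem _ (inv_mem hk) y)⟩
    exact commutatorElement_eq_one_iff_commute.1 m
  have hK : K = ⊥ := hs K inferInstance (by
    have : IsMulCommutative K := ⟨⟨fun a b => Subtype.ext (mem_center_iff.1 (show (b : G) ∈ center G by
      rw [← centralizer_univ, ← coe_top, ← hg, centralizer_closure]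
      exact fun y hy => (kc b b.2 y hy).symm) a)⟩⟩
    exact Group.isSolvable_of_comm this.is_comm.comm)
  have : x * w ∈ K := fun y hy => by
    rw [mul_inv_rev, h.inv hx, h.inv hw, show x * w * y * (w * x) = x * (w * y * w) * x by simp only [mul_assoc]]
    by_cases e : Commute x y
    · rw [h.fix hw (ht x hx y hy w hw e xw), h.fix hx e]
    · nth_rewrite 2 [show y = x * (x * y * x) * x by simp only [mul_assoc, h.sq' hx, h.sq hx, mul_one]]
      exact (h.cm_op hx).2 (h4 x hx w hw y hy xw e fun s => e (ht w hw y hy x hx s xw.symm)).symm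
  rw [hK, mem_bot, mul_eq_one_iff_eq_inv, h.inv hw] at this
  exact this

end Pn

end CF.Geom.R3
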