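import Mathlib
import Cfsg.Agent.Geom.R3a
import Cfsg.Agent.S5051
import Cfsg.Agent.S0215
import Cfsg.Agent.S0205
import Cfsg.Agent.S2302
import Cfsg.Agent.BN.SzNorm
import Cfsg.Agent.Perm.Zass3
import Cfsg.Agent.Invol.BaerSuzuki
import Cfsg.Agent.Invol.Dihedral

/-!
# Rank three classes of involutions
-/

set_option autoImplicit false
set_option linter.unusedSectionVars false

namespace CF.Geom.R3

open Cfsg Subgroup

variable {G T : Type*} [Group G] [Group T] {D : Set G} {n : ℕ} {a b c d e f g t u w x y z : G}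

/-- groups with one class of involutions and enough products -/
def Rich (T : Type*) [Group T] : Prop := (∀ a b : T, orderOf a = 2 → orderOf b = 2 → IsConj a b) ∧
  ∀ n, (∀ a b : T, orderOf a = 2 → orderOf b = 2 → Commute a b ∨ orderOf (a * b) = n) → n = 3

theorem Rich.congr (h : Rich T) (e : G ≃* T) : Rich G :=
  ⟨fun a b ha hb => by simpa using e.symm.toMonoidHom.map_isConj (h.1 (e a) (e b) (by simpa) (by simpa)),
    fun n k => h.2 n fun a b ha hb => (k (e.symm a) (e.symm b) (by simpa) (by simpa)).imp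
      (fun c => by simpa using c.map e) fun c => by rwa [← map_mul, MulEquiv.orderOf_eq] at c⟩

theorem rich_sl {F : Type*} [Field F] [Fintype F] [CharP F 2] : Rich (Matrix.SpecialLinearGroup (Fin 2) F) := by
  refine ⟨fun a b ha hb => (Cfsg.Agent.S2302.result a b ha hb).1, fun n k => ?_⟩
  have h2 : (1 : F) + 1 = 0 := CharTwo.add_self_eq_zero 1
  obtain ⟨a, ha⟩ : ∃ a : Matrix.SpecialLinearGroup (Fin 2) F, a.1 = !![1, 1; 0, 1] := ⟨⟨_, by simp⟩, rfl⟩
  obtain ⟨b, hb⟩ : ∃ a : Matrix.SpecialLinearGroup (Fin 2) F, a.1 = !![1, 0; 1, 1] := ⟨⟨_, by simp⟩, rfl⟩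
  have : Fact (Nat.Prime 3) := ⟨Nat.prime_three⟩
  rcases k a b (orderOf_eq_prime (Subtype.ext (by simp [ha, _root_.sq, h2, Matrix.one_fin_two])) fun e => by
      simpa [ha] using congrArg (fun m => m.1 0 1) e) (orderOf_eq_prime (Subtype.ext (by
        simp [hb, _root_.sq, h2, Matrix.one_fin_two])) fun e => by simpa [hb] using congrArg (fun m => m.1 1 0) e) with c | c
  · exact absurd (congrArg (fun m => m.1 0 0) c.eq) (by simp [ha, hb])
  · rw [← c]
    exact orderOf_eq_prime (Subtype.ext (by simp [ha, hb, pow_succ, h2, Matrix.one_fin_two])) fun e => by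
      simpa [ha, hb] using congrArg (fun m => m.1 0 1) e

theorem inv_pair {t h : T} (ht : t * t = 1) (t1 : t ≠ 1) (o : Odd (orderOf h)) (h1 : h ≠ 1) (e : t * h * t⁻¹ = h⁻¹)
    (k : ∀ a b : T, orderOf a = 2 → orderOf b = 2 → Commute a b ∨ orderOf (a * b) = n) : orderOf h = n := by
  have n2 : ¬ Commute t h := fun c => h1 (by
    obtain ⟨j, hj⟩ := o
    rw [c.eq, mul_inv_cancel_right, ← mul_eq_one_iff_eq_inv] at e
    rw [← eq_pow_sq hj, e, one_pow])
  rw [inv_eq_of_mul_eq_one_right ht] at e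
  have := k t (t * h) (orderOf_eq_prime (by rw [_root_.sq, ht]) t1) (orderOf_eq_prime (by
    rw [_root_.sq, ← mul_assoc, e, inv_mul_cancel]) fun c => n2 (by
      rw [mul_eq_one_iff_eq_inv.1 c]; exact (Commute.refl h).inv_left))
  rwa [← mul_assoc, ht, one_mul, or_iff_right fun c => n2 (cm_cancel (.refl t) c)] at this

theorem rich_sz (h : Lie.IsoSuzuki G) : Rich G := by
  obtain ⟨F, _, _, m, hm, hF, ⟨e⟩⟩ := h
  refine Rich.congr ?_ e
  let S := CF.BN.Suz.lieD F m hF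
  have sq : ∀ {a : Lie.Sz F (2 ^ (m + 1))}, orderOf a = 2 → a * a = 1 ∧ a ≠ 1 := fun ha =>
    ⟨by rw [← _root_.sq]; exact orderOf_dvd_iff_pow_eq_one.1 ha.dvd, by rintro rfl; simp at ha⟩
  refine ⟨fun a b ha hb => S.isConj_of_involution (sq ha).1 (sq hb).1 (sq ha).2 (sq hb).2, fun n k => ?_⟩
  have hq := Nat.card_eq_fintype_card.trans hF
  have hr := CF.BN.Suz.sq_two_pow hq
  have h8 : 8 ≤ Nat.card F := hq ▸ Nat.pow_le_pow_right (n := 2) (i := 3) two_pos (by omega)
  obtain ⟨s, hs⟩ := CF.BN.Suz.exists_unit_ne_one (F := F) (by omega)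
  have d1 := orderOf_dvd_of_pow_eq_one (S.h_pow_card s)
  have s1 := (map_ne_one_iff _ S.h_injective).2 hs
  have e1 := inv_pair S.w_mul_w S.w_ne_one ((CF.BN.Suz.titsOfCard F m hF).odd_card_sub_one.of_dvd_nat d1) s1
    (S.w_conj_h s) k
  obtain ⟨z, -, hz, -⟩ := S.exists_tori hr h8
  obtain ⟨v, hv, o⟩ := hz.exists_orderOf_four hr h8
  have o2 : orderOf (v * v) = 2 := by rw [← _root_.sq, orderOf_pow' _ two_ne_zero, o]; rfl
  have := S.finite
  have e2 := inv_pair (sq o2).1 (sq o2).2 (hz.odd_card_centralizer.of_dvd_nat (orderOf_dvd_natCard _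
    (mem_centralizer_singleton_iff.2 rfl))) hz.ne_one (hz.conj_eq_inv (mul_mem hv hv) (fun c => absurd
      (hz.odd_card_centralizer.of_dvd_nat (o2 ▸ orderOf_dvd_natCard _ c)) (by decide)) (sq o2).1
        (mem_centralizer_singleton_iff.2 rfl)) k
  have := (CF.BN.Suz.coprime_sq_add_one (CF.BN.Suz.titsOfCard F m hF).even_card hz.orderOf_dvd).coprime_mul_left_right
  rw [e2, ← e1] at this
  exact (s1 (orderOf_eq_one_iff.1 (Nat.eq_one_of_dvd_coprimes this dvd_rfl d1))).elim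

theorem ord_map [Finite G] (φ : G →* T) (hk : IsPGroup 2 φ.ker) (h : Odd (orderOf g)) : orderOf (φ g) = orderOf g := by
  refine Nat.dvd_antisymm (orderOf_map_dvd φ g) (orderOf_dvd_of_pow_eq_one ?_)
  obtain ⟨k, e⟩ := hk ⟨g ^ orderOf (φ g), by rw [MonoidHom.mem_ker, map_pow, pow_orderOf_eq_one]⟩
  exact orderOf_eq_one_iff.1 (Nat.eq_one_of_dvd_coprimes (Nat.Coprime.pow_left k (Nat.coprime_two_left.2 h))
    (orderOf_dvd_of_pow_eq_one (congrArg Subtype.val e)) (orderOf_pow_dvd _))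

theorem dih {k : ℕ} {a b c : DihedralGroup k} (ha : a * a = 1) (hb : b * b = 1) (hc : c * c = 1) (ab : Commute a b)
    (o1 : Odd (orderOf (a * c))) (o2 : Odd (orderOf (b * c))) (n1 : ¬ Commute a c) (n2 : ¬ Commute b c) : a = b := by
  have r : ∀ {i : ZMod k} {c}, DihedralGroup.r i * .r i = 1 → Commute (DihedralGroup.r i) c := fun {i c} e => by
    cases c with
    | r j => simp [Commute, SemiconjBy, add_comm]
    | sr j =>
      rw [DihedralGroup.r_mul_r, DihedralGroup.one_def, DihedralGroup.r.injEq] at e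
      simp only [Commute, SemiconjBy, DihedralGroup.r_mul_sr, DihedralGroup.sr_mul_r, DihedralGroup.sr.injEq]
      linear_combination -e
  rcases a with i | i; · exact (n1 (r ha)).elim
  rcases b with j | j; · exact (n2 (r hb)).elim
  rcases c with l | l; · exact (n1 (r hc).symm).elim
  have k : Commute (DihedralGroup.sr i * .sr l) (DihedralGroup.sr j * .sr l)⁻¹ := by
    simp [Commute, SemiconjBy, add_comm]
  have o := (o1.mul (show Odd (orderOf (DihedralGroup.sr j * .sr l)⁻¹) by rwa [orderOf_inv])).of_dvd_nat k.orderOf_mul_dvd_mul_orderOf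
  rw [mul_inv_rev, mul_assoc, mul_inv_cancel_left] at o
  obtain ⟨m, hm⟩ := o
  rw [← mul_inv_eq_one, ← eq_pow_sq hm, ← _root_.sq, ab.inv_right.mul_pow, inv_pow, _root_.sq, _root_.sq, ha, hb,
    inv_one, one_mul, one_pow]

namespace Pn

variable [Finite G] (h : Pn D n) (h3 : n ≠ 3)
include h

theorem ne1 (ha : a ∈ D) (hb : b ∈ D) (k : ¬ Commute a b) : n ≠ 1 := fun e => k (by
  rw [mul_eq_one_iff_eq_inv.1 (orderOf_eq_one_iff.1 ((h.ord ha hb k).trans e))]; exact (Commute.refl b).inv_left)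

include h3

theorem img (φ : G →* T) (hs : Function.Surjective φ) (hk : IsPGroup 2 φ.ker)
    (hT : Rich T ∨ ∃ k, Nonempty (T ≃* DihedralGroup k)) (hd : d ∈ D) (he : e ∈ D) (hx : x ∈ D) (de : Commute d e)
    (dx : ¬ Commute d x) (ex : ¬ Commute e x) : φ d = φ e := by
  have sq : ∀ {a}, a ∈ D → φ a * φ a = 1 := fun ha => by rw [← map_mul, h.sq ha, map_one]
  have o : ∀ {a b}, a ∈ D → b ∈ D → ¬ Commute a b → orderOf (φ a * φ b) = n := fun ha hb k => by
    rw [← map_mul, ord_map φ hk (h.odd' ha hb k), h.ord ha hb k]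
  have nc : ∀ {a b}, a ∈ D → b ∈ D → ¬ Commute a b → ¬ Commute (φ a) (φ b) := fun ha hb k c => h.ne1 ha hb k (by
    have : n ∣ 2 := by rw [← o ha hb k, orderOf_dvd_iff_pow_eq_one, c.mul_pow, _root_.sq, _root_.sq, sq ha, sq hb, one_mul]
    exact ((Nat.dvd_prime Nat.prime_two).1 this).resolve_right fun e => absurd (e ▸ h.odd) (by decide))
  rcases hT with r | ⟨k, ⟨ψ⟩⟩
  · have ox : orderOf (φ x) = 2 := orderOf_eq_prime (by rw [_root_.sq, sq hx]) fun e => nc hd hx dx (e ▸ .one_right _)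
    have lf : ∀ a : T, orderOf a = 2 → ∃ y ∈ D, φ y = a := fun a ha => by
      obtain ⟨g, rfl⟩ := isConj_iff.1 (r.1 _ _ ox ha)
      obtain ⟨g, rfl⟩ := hs g
      exact ⟨_, h.cj x hx g, by simp⟩
    refine (h3 (r.2 n fun a b ha hb => ?_)).elim
    obtain ⟨a, ma, rfl⟩ := lf a ha
    obtain ⟨b, mb, rfl⟩ := lf b hb
    exact or_iff_not_imp_left.2 fun c => o ma mb fun k => c (k.map φ)
  · have s : ∀ {a}, a ∈ D → ψ (φ a) * ψ (φ a) = 1 := fun ha => by rw [← map_mul, sq ha, map_one]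
    refine ψ.injective (dih (s hd) (s he) (s hx) ((de.map φ).map ψ) ?_ ?_ (fun c => nc hd hx dx (c.of_map ψ.injective))
      fun c => nc he hx ex (c.of_map ψ.injective))
    exacts [by rw [← map_mul, ψ.orderOf_eq, o hd hx dx]; exact h.odd, by rw [← map_mul, ψ.orderOf_eq, o he hx ex]; exact h.odd]

omit h3 in
theorem sub (K : Subgroup G) : Pn (K.subtype ⁻¹' D) n :=
  ⟨fun d hd => (orderOf_coe d).symm.trans (h.o2 _ hd), fun d hd g => h.cj _ hd g, h.odd, fun a ha b hb =>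
    (h.pr _ ha _ hb).imp (fun c => c.of_map K.subtype_injective) fun e => (orderOf_coe (a * b)).symm.trans e⟩

theorem same (hg : closure D = ⊤) (hd : d ∈ D) (he : e ∈ sameCommutingClass D d) (hx : x ∈ D) (dx : ¬ Commute d x) :
    Commute x (d * e * x * (d * e)⁻¹) := by
  have : Fact (Nat.Prime 2) := ⟨Nat.prime_two⟩
  have k : ∀ y ∈ D, Commute d y ↔ Commute e y := fun y hy => by
    simpa [commutingMembers, hy, Commute, SemiconjBy, eq_comm] using Set.ext_iff.1 he.2 y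
  let X := closure (sameCommutingClass D d ∪ {x})
  have m1 : d ∈ X := subset_closure (.inl ⟨hd, rfl⟩)
  have m2 : e ∈ X := subset_closure (.inl he)
  have m3 : x ∈ X := subset_closure (.inr rfl)
  have := (h.sub X).img h3 (QuotientGroup.mk' (pCore 2 X)) (QuotientGroup.mk'_surjective _)
    (by rw [QuotientGroup.ker_mk']; exact Solv.pCore_isPGroup) (by
      rcases Cfsg.Agent.S5051.result ⟨⟨h.o2, hg, h.cj, fun a ha b hb => (h.pr a ha b hb).imp id fun e =>
        .inl (by rw [e]; exact h.odd)⟩, fun a ha b hb e => (h.pr a ha b hb).elim (fun c => absurd (e ▸ orderOf_dvd_of_pow_eq_one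
          (show (a * b) ^ 2 = 1 by rw [c.mul_pow, _root_.sq, _root_.sq, h.sq ha, h.sq hb, one_mul])) (by decide))
            fun c => absurd (e ▸ c ▸ h.odd) (by decide)⟩ hd ⟨hx, fun e => dx (e ▸ .refl _), h.odd' hd hx dx⟩ with
        ⟨F, _, _, _, _, ⟨ψ⟩⟩ | r | r
      · obtain ⟨χ⟩ := CF.Perm.psl_equiv_sl_of_even F (Nat.even_iff.2 (FiniteField.even_card_of_char_two (ringChar.eq F 2)))
        exact .inl (rich_sl.congr (ψ.trans χ))
      exacts [.inl (rich_sz r), .inr r]) (d := (⟨d, m1⟩ : X)) (e := (⟨e, m2⟩ : X)) (x := (⟨x, m3⟩ : X)) hd he.1 hx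
    (Subtype.ext ((k e he.1).2 (.refl e))) (fun c => dx (congrArg Subtype.val c))
    fun c => dx ((k x hx).2 (congrArg Subtype.val c))
  have m := QuotientGroup.eq.1 this
  obtain ⟨j, hj⟩ := Solv.pCore_isPGroup ⟨_, mul_mem ((pCore_normal 2 X).conj_mem _ m ⟨x, m3⟩) (inv_mem m)⟩
  replace hj : (x * (d * e * x * (d * e)⁻¹)) ^ 2 ^ j = 1 := by
    simpa [h.inv hd, h.inv hx, mul_assoc] using congrArg (fun s : pCore 2 X => ((s : X) : G)) hj
  by_contra c
  have := h.cj x hx (d * e)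
  exact h.ne1 hx this c (Nat.eq_one_of_dvd_coprimes (Nat.Coprime.pow_left j (Nat.coprime_two_left.2 h.odd))
    (h.ord hx this c ▸ orderOf_dvd_of_pow_eq_one hj) dvd_rfl)

theorem four : Four D := fun x hx w hw u hu xw xu wu => by
  by_contra c
  have ne : x ≠ w := fun e => c (e ▸ .refl _)
  have hv := h.op hx (h.op hw hu)
  have c' : ¬ Commute u (x * (w * u * w) * x) := fun k => c (by
    rwa [← h.cm_op hx, ← mul_assoc, ← mul_assoc, h.sq hx, one_mul, mul_assoc _ x x, h.sq hx, mul_one] at k)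
  obtain ⟨j, hj⟩ := h.odd' hu hv c'
  set s := u * (x * (w * u * w) * x) with hs
  have su : u * s * u = s⁻¹ := by simp only [hs, mul_inv_rev, h.inv hu, h.inv hx, h.inv hw, mul_assoc, h.sq' hu]
  have sz : x * w * s * (x * w)⁻¹ = s⁻¹ := by
    simp only [hs, mul_inv_rev, h.inv hu, h.inv hx, h.inv hw, mul_assoc, h.sq' hx, h.sq' hw, xw.left_comm, h.sq hx, h.sq hw, mul_one]
  have up : ∀ k : ℕ, (s ^ k)⁻¹ * u = u * s ^ k := fun k => by
    rw [← inv_pow, ← su, show u * s * u = u * s * u⁻¹ by rw [h.inv hu], conj_pow, inv_mul_cancel_right]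
  have s1 : s ^ (j + 1) * s ^ (j + 1) = s := by rw [← (Commute.refl s).mul_pow, eq_pow_sq hj]
  have hy : u * s ^ (j + 1) ∈ D := by
    have := h.cj u hu ((s ^ (j + 1)) ^ (j + 1))⁻¹
    rwa [inv_inv, ← pow_mul, up, mul_assoc, pow_mul, ← (Commute.refl _).mul_pow, s1] at this
  set y := u * s ^ (j + 1) with hy'
  have e1 : y * u * y = x * w * u * (x * w)⁻¹ := by
    rw [hy', mul_assoc, h.sq' hu, mul_assoc, s1, hs, h.sq' hu, mul_inv_rev, h.inv hx, h.inv hw]; simp only [mul_assoc]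
  have e2 : Commute (x * w) y := by
    rw [commute_iff_eq, ← mul_inv_eq_iff_eq_mul, hy', ← conj_mul, ← conj_pow, sz, ← e1, hy', mul_assoc _ u, h.sq' hu,
      inv_pow, mul_assoc, mul_assoc, mul_inv_cancel, mul_one]
  have xy := h.fixz hx hw hy ne e2
  have wy := cm_cancel xy.symm e2.symm
  have tu : Commute u (x * w * y) := calc
    u * (x * w * y) = y * (y * u * y) * (x * w) := by rw [e2.eq]; simp only [mul_assoc, h.sq' hy]
    _ = x * w * y * u := by rw [e1, e2.eq, mul_assoc y, inv_mul_cancel_right, ← mul_assoc]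
  let S : Set G := {d | d ∈ D ∧ Commute d (x * w * y)}
  have ct : ∀ g ∈ closure S, Commute g (x * w * y) := fun g hg =>
    (closure_le (centralizer {x * w * y})).2 (fun d hd => mem_centralizer_singleton_iff.2 hd.2) hg _ rfl |>.symm
  have m1 : x ∈ closure S := subset_closure ⟨hx, ((Commute.refl x).mul_right xw).mul_right xy⟩
  have m2 : w ∈ closure S := subset_closure ⟨hw, (xw.symm.mul_right (.refl w)).mul_right wy.symm⟩
  have m3 : u ∈ closure S := subset_closure ⟨hu, tu⟩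
  have := (h.sub (closure S)).same h3 (eq_top_iff.2 (closure_closure_coe_preimage.ge.trans
    (closure_mono fun d hd => hd.1))) (d := (⟨x, m1⟩ : closure S)) (e := (⟨w, m2⟩ : closure S))
    (x := (⟨u, m3⟩ : closure S)) hx ⟨hw, Set.ext fun g => by
      refine and_congr_right fun hg => ?_
      simp only [Subtype.ext_iff, coe_mul]
      exact ⟨fun k => (h.fixz hw hy hg (fun e => xu (by rw [← e, mul_assoc, h.sq hw, mul_one] at tu; exact tu.symm))
        (cm_cancel k (mul_assoc x w y ▸ ct g g.2)).symm).symm, fun k => (h.fixz hx hy hg (fun e => wu (by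
          rw [← e, h.fix hx xw] at tu; exact tu.symm)) (cm_cancel k (mul_assoc w x y ▸ xw.eq ▸ ct g g.2)).symm).symm⟩⟩
    hu fun c => xu (congrArg Subtype.val c)
  exact c' (by simpa [h.inv hx, h.inv hw, mul_assoc] using this.map (closure S).subtype)

end Pn

theorem rank_three [Finite G] (hs : ∀ N : Subgroup G, N.Normal → Group.IsSolvable N → N = ⊥)
    (o2 : ∀ d ∈ D, orderOf d = 2) (hd : D = conjugatesOf d) (hg : closure D = ⊤) (hy : y ∈ D) (hz : z ∈ D)
    (h : ∀ w ∈ D, w = d ∨ (∃ g, Commute g d ∧ g * y * g⁻¹ = w) ∨ ∃ g, Commute g d ∧ g * z * g⁻¹ = w) :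
    ∀ a ∈ D, ∀ b ∈ D, (a * b) ^ 2 = 1 ∨ (a * b) ^ 3 = 1 := by
  have : Fact (Nat.Prime 2) := ⟨Nat.prime_two⟩
  have md : d ∈ D := hd ▸ IsConj.refl d
  have cl : ∀ a ∈ D, ∀ b ∈ D, IsConj a b := fun a ha b hb => by rw [hd] at ha hb; exact IsConj.trans (IsConj.symm ha) hb
  have cj : ∀ a ∈ D, ∀ g, g * a * g⁻¹ ∈ D := fun a ha g => by
    rw [hd] at ha ⊢; exact IsConj.trans ha (isConj_iff.2 ⟨g, rfl⟩)
  have sq : ∀ {a}, a ∈ D → a * a = 1 := fun ha => by rw [← _root_.sq, ← o2 _ ha, pow_orderOf_eq_one]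
  have iv : ∀ {a}, a ∈ D → a⁻¹ = a := fun ha => inv_eq_of_mul_eq_one_right (sq ha)
  have d1 : d ≠ 1 := by rintro rfl; simpa using o2 1 md
  have nz : d ∉ center G := fun m => d1 (mem_bot.1 (hs (center G) inferInstance (Group.isSolvable_of_comm
    fun a b => Subtype.ext (mem_center_iff.1 b.2 a)) ▸ m))
  obtain ⟨b, hb, bd, db⟩ : ∃ b ∈ D, b ≠ d ∧ Commute d b := by
    by_contra! k
    have k' : ∀ j : ℕ, ∀ b ∈ D, (d * b) ^ 2 ^ j = 1 → b = d := fun j => by
      induction j with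
      | zero => exact fun b hb e => by rw [pow_zero, pow_one, mul_eq_one_iff_inv_eq, iv md] at e; exact e.symm
      | succ j ih =>
        intro b hb e
        have := ih _ (cj d md b) (by rw [iv hb, ← e, pow_succ', pow_mul, _root_.sq, mul_assoc, mul_assoc])
        by_contra m
        exact k b hb m (mul_inv_eq_iff_eq_mul.1 this).symm
    obtain ⟨P, hP⟩ := (IsPGroup.of_card (p := 2) (n := 1) ((Nat.card_zpowers d).trans (o2 d md))).exists_le_sylow
    obtain ⟨N, h1, h2, h3⟩ := Cfsg.Agent.S0215.result P d (o2 d md) (hP (mem_zpowers d)) fun g m => by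
      obtain ⟨j, e⟩ := P.2 ⟨_, mul_mem (hP (mem_zpowers d)) m⟩
      exact k' j _ (cj d md g) (congrArg Subtype.val e)
    rw [hs N h1 (Cfsg.Agent.S0205.result h2)] at h3
    exact nz (mem_center_iff.2 fun g => (commutatorElement_eq_one_iff_commute.1 (h3 g)).symm)
  obtain ⟨c, hc, dc⟩ : ∃ c ∈ D, ¬ Commute d c := by
    by_contra! k
    exact nz (by rw [← centralizer_univ, ← coe_top, ← hg, centralizer_closure]; exact fun y hy => (k y hy).symm)
  have ob : ∀ {g y}, Commute g d → (Commute d (g * y * g⁻¹) ↔ Commute d y) := fun {g y} k => by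
    rw [← cm_conj (a := d) (b := y) g, k.eq, mul_inv_cancel_right]
  obtain ⟨v, hv, dv, tv⟩ : ∃ v ∈ D, ¬ Commute d v ∧ ∀ w ∈ D, ¬ Commute d w → ∃ g, Commute g d ∧ g * v * g⁻¹ = w := by
    by_cases e : Commute d y
    · have : ∀ w ∈ D, ¬ Commute d w → ∃ g, Commute g d ∧ g * z * g⁻¹ = w := fun w hw k =>
        ((h w hw).resolve_left fun e => k (e ▸ .refl _)).resolve_left fun ⟨g, a, b⟩ => k (b ▸ (ob a).2 e)
      exact ⟨z, hz, fun m => let ⟨g, a, b⟩ := this c hc dc; dc (b ▸ (ob a).2 m), this⟩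
    · obtain ⟨g, a, rfl⟩ := ((h b hb).resolve_left bd).resolve_left fun ⟨g, a, b⟩ => e ((ob a).1 (b ▸ db))
      exact ⟨y, hy, e, fun w hw k => ((h w hw).resolve_left fun e => k (e ▸ .refl _)).resolve_right
        fun ⟨g', a', b⟩ => k (b ▸ (ob a').2 ((ob a).1 db))⟩
  have tr : ∀ a ∈ D, ∀ b ∈ D, ¬ Commute a b → ∃ g, g * d * g⁻¹ = a ∧ g * v * g⁻¹ = b := fun a ha b hb k => by
    obtain ⟨g, rfl⟩ := isConj_iff.1 (cl d md a ha)
    obtain ⟨l, e, e'⟩ := tv _ (cj b hb g⁻¹) fun m => k (by simpa [mul_assoc] using (cm_conj g).2 m)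
    exact ⟨g * l, by rw [mul_assoc g, e.eq]; simp [mul_assoc], by
      rw [mul_inv_rev, show g * l * v * (l⁻¹ * g⁻¹) = g * (l * v * l⁻¹) * g⁻¹ by simp only [mul_assoc], e']
      simp [mul_assoc]⟩
  have pr : ∀ a ∈ D, ∀ b ∈ D, Commute a b ∨ orderOf (a * b) = orderOf (d * v) := fun a ha b hb =>
    or_iff_not_imp_left.2 fun k => by
      obtain ⟨g, rfl, rfl⟩ := tr a ha b hb k
      rw [conj_mul]; exact (MulAut.conj g).orderOf_eq _
  have c2 : ∀ {a b}, a ∈ D → b ∈ D → Commute a b → (a * b) ^ 2 = 1 := fun ha hb c => by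
    rw [c.mul_pow, _root_.sq, _root_.sq, sq ha, sq hb, one_mul]
  have e2 : d * (v * d * v⁻¹) = (d * v) ^ 2 := by rw [iv hv, _root_.sq, mul_assoc, mul_assoc]
  rcases pr d md _ (cj d md v) with k | k
  · have k4 : ∀ a ∈ D, ∀ b ∈ D, orderOf (a * b) ∣ 2 ^ 2 := fun a ha b hb => (pr a ha b hb).elim
      (fun c => (orderOf_dvd_of_pow_eq_one (c2 ha hb c)).trans (by norm_num)) fun e => e ▸ orderOf_dvd_of_pow_eq_one (by
        rw [_root_.sq, pow_mul, ← e2, c2 md (cj d md v) k])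
    have := Invol.baer_suzuki_set (p := 2) (fun g d hd => cj d hd g) fun a ha b hb => by
      obtain ⟨ψ⟩ := Invol.nonempty_closure_pair_equiv_dihedral (o2 a ha) (o2 b hb)
      obtain ⟨j, -, hj⟩ := (Nat.dvd_prime_pow Nat.prime_two).1 (k4 a ha b hb)
      exact IsPGroup.of_card (n := j + 1) (by rw [Nat.card_congr ψ.toEquiv, DihedralGroup.nat_card, hj, pow_succ'])
    rw [hg] at this
    have := this.isNilpotent
    exact (d1 (mem_bot.1 (hs ⊤ inferInstance inferInstance ▸ mem_top d))).elim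
  have H : Pn D (orderOf (d * v)) := ⟨o2, cj, by
    rw [e2, orderOf_pow' _ two_ne_zero] at k
    exact Nat.coprime_two_right.1 ((Nat.div_eq_self.1 k).resolve_left (orderOf_pos _).ne'), pr⟩
  by_cases h3 : orderOf (d * v) = 3
  · exact fun a ha b hb => (pr a ha b hb).imp (c2 ha hb) fun e => by rw [← h3, ← e, pow_orderOf_eq_one]
  refine (bd (H.eq_of (H.four h3) hg hs (fun x hx w hw f hf => H.trans h3 (H.four h3) hg cl
    (fun a ha b hb c hc e he k k' => ?_) hx hw hf) hb md db.symm)).elim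
  obtain ⟨g, rfl, rfl⟩ := tr a ha b hb k
  obtain ⟨l, rfl, rfl⟩ := tr c hc e he k'
  exact ⟨l * g⁻¹, by simp [mul_assoc], by simp [mul_assoc]⟩

end CF.Geom.R3
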