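/-
Rational structures on a space with a form.
-/
import Cfsg.Agent.Geom.MaxTSP
import Cfsg.Agent.MaxSub.Subfield

set_option autoImplicit false
set_option linter.unusedSectionVars false

namespace CF.Geom

open Module

variable {F V : Type*} [Field F] [AddCommGroup V] [Module F V] {ι : Type} [Fintype ι]
  {σ : F →+* F}

/-- The coordinates of `v` lie in `F₀`. -/
def IsRat (ε : V ≃ₗ[F] (ι → F)) (F₀ : Subfield F) (v : V) : Prop := ∀ i, ε v i ∈ F₀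

variable {ε : V ≃ₗ[F] (ι → F)} {F₀ : Subfield F}

namespace IsRat

variable {v w : V}

theorem zero : IsRat ε F₀ 0 := fun i => by simp

theorem add (h : IsRat ε F₀ v) (h' : IsRat ε F₀ w) : IsRat ε F₀ (v + w) := fun i => by
  simpa using add_mem (h i) (h' i)

theorem neg (h : IsRat ε F₀ v) : IsRat ε F₀ (-v) := fun i => by simpa using h i

theorem sub (h : IsRat ε F₀ v) (h' : IsRat ε F₀ w) : IsRat ε F₀ (v - w) := fun i => by
  simpa using sub_mem (h i) (h' i)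

theorem smul (h : IsRat ε F₀ v) {c : F} (hc : c ∈ F₀) : IsRat ε F₀ (c • v) := fun i => by
  simpa using mul_mem hc (h i)

theorem sum {κ : Type*} (s : Finset κ) {v : κ → V} (h : ∀ j, IsRat ε F₀ (v j)) :
    IsRat ε F₀ (∑ j ∈ s, v j) := fun i => by
  simpa using sum_mem fun j _ => h j i

theorem mem_of_smul (h : IsRat ε F₀ v) (h0 : v ≠ 0) {c : F} (hc : IsRat ε F₀ (c • v)) :
    c ∈ F₀ := by
  obtain ⟨i, hi⟩ : ∃ i, ε v i ≠ 0 := by
    by_contra! e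
    exact h0 (ε.map_eq_zero_iff.1 (funext e))
  have := mul_mem (hc i) (inv_mem (h i))
  simpa [hi] using this

end IsRat

theorem exists_rat_decomp [Finite F] (ε : V ≃ₗ[F] (ι → F)) (F₀ : Subfield F) (v : V) :
    ∃ (n : ℕ) (θ : Fin n → F) (w : Fin n → V), LinearIndependent F₀ θ ∧
      (∀ j, IsRat ε F₀ (w j)) ∧ v = ∑ j, θ j • w j := by
  let b := finBasis F₀ F
  refine ⟨_, b, fun j => ε.symm fun i => b.repr (ε v i) j, b.linearIndependent,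
    fun j i => by simp, ε.injective (funext fun i => ?_)⟩
  simp only [map_sum, map_smul, LinearEquiv.apply_symm_apply, Finset.sum_apply, Pi.smul_apply,
    smul_eq_mul]
  conv_lhs => rw [← b.sum_repr (ε v i)]
  exact Finset.sum_congr rfl fun j _ => mul_comm _ _

theorem exists_rat_two (ε : V ≃ₗ[F] (ι → F)) {θ : F}
    (h : ∀ a : F, ∃ x ∈ F₀, ∃ y ∈ F₀, a = x + θ * y) (v : V) :
    ∃ x y, IsRat ε F₀ x ∧ IsRat ε F₀ y ∧ v = x + θ • y := by
  choose x hx y hy e using h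
  exact ⟨ε.symm fun i => x (ε v i), ε.symm fun i => y (ε v i), fun i => by simpa using hx _,
    fun i => by simpa using hy _, ε.injective (funext fun i => by simpa using e _)⟩

/-- The subfield group. -/
def RG (ε : V ≃ₗ[F] (ι → F)) (F₀ : Subfield F) : Subgroup (V ≃ₗ[F] V) where
  carrier := {g | ∃ c : F, c ≠ 0 ∧ ∀ v, IsRat ε F₀ v ↔ IsRat ε F₀ (c • g v)}
  mul_mem' := by
    rintro g h ⟨c, c0, hc⟩ ⟨d, d0, hd⟩
    refine ⟨c * d, mul_ne_zero c0 d0, fun v => ?_⟩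
    rw [hd, hc, map_smul, smul_smul]; rfl
  one_mem' := ⟨1, one_ne_zero, fun v => by simp⟩
  inv_mem' := by
    rintro g ⟨c, c0, hc⟩
    refine ⟨c⁻¹, inv_ne_zero c0, fun v => ?_⟩
    rw [hc (c⁻¹ • _), map_smul, apply_inv_apply, smul_inv_smul₀ c0]

theorem rat_iff_of [Finite F] {g : V ≃ₗ[F] V} {c : F} (c0 : c ≠ 0)
    (h : ∀ v, IsRat ε F₀ v → IsRat ε F₀ (c • g v)) (v : V) :
    IsRat ε F₀ v ↔ IsRat ε F₀ (c • g v) := by
  refine ⟨h v, fun hv => ?_⟩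
  have : Finite V := Finite.of_equiv _ ε.symm.toEquiv
  have inj : ∀ {x y}, c • g x = c • g y → x = y := fun e =>
    g.injective (smul_right_injective V c0 e)
  obtain ⟨w, hw⟩ := (Finite.injective_iff_surjective
    (f := fun x : {v // IsRat ε F₀ v} => (⟨c • g x, h x x.2⟩ : {v // IsRat ε F₀ v}))).1
    (fun x y e => Subtype.ext (inj (congrArg Subtype.val e))) ⟨_, hv⟩
  exact inj (congrArg Subtype.val hw) ▸ w.2

theorem mem_RG_of [Finite F] {g : V ≃ₗ[F] V} {c : F} (c0 : c ≠ 0)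
    (h : ∀ v, IsRat ε F₀ v → IsRat ε F₀ (c • g v)) : g ∈ RG ε F₀ := ⟨c, c0, rat_iff_of c0 h⟩

/-- `g` preserves the rational vectors. -/
def RatM (ε : V ≃ₗ[F] (ι → F)) (F₀ : Subfield F) (g : V ≃ₗ[F] V) : Prop :=
  ∀ v, IsRat ε F₀ v → IsRat ε F₀ (g v)

theorem RatM.mem [Finite F] {g : V ≃ₗ[F] V} (h : RatM ε F₀ g) : g ∈ RG ε F₀ :=
  mem_RG_of one_ne_zero fun v hv => by simpa using h v hv

theorem RatM.inv [Finite F] {g : V ≃ₗ[F] V} (h : RatM ε F₀ g) : RatM ε F₀ g⁻¹ := fun v hv =>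
  (rat_iff_of (g := g) one_ne_zero (fun v hv => by simpa using h v hv) _).2
    (by rwa [apply_inv_apply, one_smul])

theorem RatM.mul {g k : V ≃ₗ[F] V} (h : RatM ε F₀ g) (h' : RatM ε F₀ k) : RatM ε F₀ (g * k) :=
  fun v hv => h _ (h' v hv)

open Matrix in
theorem mem_subfieldSubgroup_iff [DecidableEq ι] [Finite F] (P g : GL ι F) :
    g ∈ Cfsg.Geo.subfieldSubgroup F₀ P ↔ glEquiv ι F g ∈ RG (glEquiv ι F P).symm F₀ := by
  have e : ∀ (c : F) v, (c • MaxSub.cj P⁻¹ (g : Matrix ι ι F)) *ᵥ ((glEquiv ι F P).symm v) =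
      (glEquiv ι F P).symm (c • glEquiv ι F g v) := fun c v => by
    obtain ⟨u, rfl⟩ := (glEquiv ι F P).surjective v
    rw [LinearEquiv.symm_apply_apply, LinearEquiv.eq_symm_apply]
    simp [MaxSub.cj_apply, smul_mulVec, mulVec_smul, ← mul_assoc]
  rw [MaxSub.mem_subfieldSubgroup]
  refine ⟨fun ⟨c, hc⟩ => mem_RG_of c.ne_zero fun v hv i => ?_, fun ⟨c, c0, hc⟩ =>
    ⟨Units.mk0 c c0, fun i j => ?_⟩⟩
  · rw [← e]; exact MaxSub.mulVec_mem_of_mem_rat hc hv i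
  · have := (hc (glEquiv ι F P (Pi.single j 1))).1 (fun l => by
      simp only [LinearEquiv.symm_apply_apply, Pi.single_apply]
      split_ifs
      exacts [one_mem _, zero_mem _]) i
    rwa [← e, LinearEquiv.symm_apply_apply, mulVec_single_one] at this

open Matrix in
theorem IsRat.exists_mulVec [DecidableEq ι] {P : GL ι F} {v : ι → F}
    (h : IsRat (glEquiv ι F P).symm F₀ v) :
    ∃ u : ι → F, (∀ i, u i ∈ F₀) ∧ v = (P : Matrix ι ι F) *ᵥ u :=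
  ⟨_, h, ((glEquiv ι F P).apply_symm_apply v).symm⟩

/-! ### Scaling the form -/

section Scale

variable {B : V →ₛₗ[σ] V →ₗ[F] F} {Q : V → F} {c : F}

theorem Isom_smul (hc : c ≠ 0) : Isom (c • B) Q = Isom B Q := by
  ext g; simp [mem_isom, hc]

theorem Rad_smul_form (hc : c ≠ 0) (u : V) (A : Submodule F V) :
    Rad (c • B) Q u A = Rad B Q u A := by
  ext g; simp [mem_Rad, Isom_smul hc, hc]

theorem IsWittPair.smul_form (h : IsWittPair σ B Q) (hc : c ≠ 0) : IsWittPair σ (c • B) Q :=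
  ⟨h.surj, fun x hx => h.nondeg x fun y => by simpa [hc] using hx y,
    fun x y x' y' e => by simpa [hc] using h.symm x y x' y' (by simpa [hc] using e),
    fun x y x' y' e1 e2 e => h.add x y x' y' e1 e2 (by simpa [hc] using e), h.smul,
    fun x x' e => by simpa [hc] using h.self x x' e,
    fun p r r' e1 e2 => h.slide p r r' e1 (by simpa [hc] using e2)⟩

theorem PolarG.smul_form {G : Subgroup (V ≃ₗ[F] V)} (h : PolarG B Q G) (hc : c ≠ 0) :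
    PolarG (c • B) Q G :=
  ⟨h.witt.smul_form hc, Isom_smul (B := B) hc ▸ h.le,
    fun u h0 hu => Rad_smul_form (B := B) hc u ⊤ ▸ h.rad_le u h0 hu,
    fun M hM => h.gen M fun u h0 hu => Rad_smul_form (B := B) hc u ⊤ ▸ hM u h0 hu⟩

theorem RD.of_smul_form {M : Subgroup (V ≃ₗ[F] V)} (hc : c ≠ 0) {u w : V}
    (h : RD (c • B) Q M u (c⁻¹ • w)) : RD B Q M u w := by
  obtain ⟨g, hM, hg, e⟩ := h
  refine ⟨g, hM, Rad_smul_form (B := B) hc u ⊤ ▸ hg, fun f hf => ?_⟩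
  have := Submodule.smul_mem _ c (e (c⁻¹ • f) (by simp [hf, hc]))
  simpa [smul_sub, hc] using this

end Scale

section RDs

variable {B : V →ₛₗ[σ] V →ₗ[F] F} {Q : V → F} {M : Subgroup (V ≃ₗ[F] V)} {u w : V}

theorem RD.map (h : RD B Q M u w) {m : V ≃ₗ[F] V} (hm : m ∈ Isom B Q) (hM : m ∈ M) :
    RD B Q M (m u) (m w) := by
  obtain ⟨g, hgM, hg, e⟩ := h
  refine ⟨m * g * m⁻¹, M.mul_mem (M.mul_mem hM hgM) (M.inv_mem hM),
    Rad_mono _ le_top (conj_mem_Rad hm hg), fun f hf => ?_⟩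
  obtain ⟨c, hc⟩ := Submodule.mem_span_singleton.1 (e (m⁻¹ f) (by
    rw [← (mem_isom.1 hm).1, apply_inv_apply, hf]))
  refine Submodule.mem_span_singleton.2 ⟨c, ?_⟩
  have := congrArg m hc
  rw [map_smul, map_sub, map_sub, apply_inv_apply] at this
  rw [this, LinearEquiv.mul_apply, LinearEquiv.mul_apply]

theorem RD.smul_base {c : F} (hc : c ≠ 0) (h : RD B Q M (c • u) w) : RD B Q M u (σ c • w) := by
  obtain ⟨g, hM, hg, e⟩ := h
  have h0 : σ c ≠ 0 := (map_ne_zero σ).2 hc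
  refine ⟨g, hM, Rad_smul_le u ⊤ hc hg, fun f hf => ?_⟩
  have := Submodule.smul_mem _ (σ c) (e ((σ c)⁻¹ • f) (by simp [hf, h0]))
  rw [Submodule.span_singleton_smul_eq (IsUnit.mk0 c hc)] at this
  simpa [smul_sub, h0] using this

theorem RD.self (c : F) : RD B Q M u (c • u) :=
  ⟨1, M.one_mem, Subgroup.one_mem _, fun f _ => by
    simpa using Submodule.smul_mem _ c (Submodule.mem_span_singleton_self u)⟩

theorem RD.move (h : RD B Q M u w) {m : V ≃ₗ[F] V} (hm : m ∈ Isom B Q) (hM : m ∈ M)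
    (hu : m u = u) : RD B Q M u (m w - w) := (h.conj hm hM hu).sub h

theorem Rad_disp_eq {g : V ≃ₗ[F] V} (hg : g ∈ Rad B Q u ⊤) {f : V} (hf : B u f = 1)
    (e : g f - f - w ∈ F ∙ u) (x : V) : ∃ l : F, g x = x + B u x • w + l • u := by
  obtain ⟨a, ha⟩ := Submodule.mem_span_singleton.1 e
  obtain ⟨b, hb⟩ := Submodule.mem_span_singleton.1 (hg.2.2.1 (x - B u x • f) (by simp [hf]))
  rw [map_sub, map_smul] at hb
  exact ⟨B u x * a + b, by linear_combination (norm := module) (-B u x) • ha - hb⟩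

theorem IsWittPair.RD_perp [FiniteDimensional F V] (h : IsWittPair σ B Q) (h0 : u ≠ 0)
    (hu : Q u = Q 0) (hR : RD B Q M u w) : B u w = 0 := by
  obtain ⟨g, -, hg, e⟩ := hR
  obtain ⟨f, -, hf⟩ := h.exists_hyperbolic h0 hu
  obtain ⟨a, ha⟩ := Submodule.mem_span_singleton.1 (e f hf)
  have := congrArg (B u) ha
  rw [map_sub _ _ w, Rad_disp_perp hg] at this
  simpa [h.self_eq_zero hu] using this.symm

end RDs

/-- A form with a rational structure. -/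
structure RForm (B : V →ₛₗ[σ] V →ₗ[F] F) (Q : V → F) (G : Subgroup (V ≃ₗ[F] V))
    (ε : V ≃ₗ[F] (ι → F)) (F₀ : Subfield F) : Prop where
  polar : PolarG B Q G
  invol : ∀ a, σ (σ a) = a
  sig : ∀ a ∈ F₀, σ a ∈ F₀
  ratB : ∀ x y, IsRat ε F₀ x → IsRat ε F₀ y → B x y ∈ F₀
  slide : ∀ p y, IsRat ε F₀ p → IsRat ε F₀ y → Q p = Q 0 → B p y ≠ 0 →
    ∃ c ∈ F₀, Q (y + c • p) = Q 0
  sing : ∀ a b, IsRat ε F₀ a → IsRat ε F₀ b → ∃ c, IsRat ε F₀ c ∧ Q c = Q 0 ∧ B a c = 0 ∧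
    B b c = 0 ∧ c ∉ Submodule.span F {a, b}
  six : 6 ≤ finrank F V
  max : ∀ K : Subfield F, F₀ ≤ K → K = F₀ ∨ K = ⊤
  ne_top : F₀ ≠ ⊤

section Lin

variable [Finite F] {B : V →ₛₗ[σ] V →ₗ[F] F}

theorem exists_rat_notMem (hB : ∀ x y, IsRat ε F₀ x → IsRat ε F₀ y → B x y ∈ F₀) {S : Set V}
    (hS : ∀ s ∈ S, IsRat ε F₀ s) {w : V} (hw : ∀ s ∈ S, B s w = 0) {Z : Submodule F V}
    (hZ : w ∉ Z) : ∃ w₀, IsRat ε F₀ w₀ ∧ (∀ s ∈ S, B s w₀ = 0) ∧ w₀ ∉ Z := by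
  obtain ⟨n, θ, x, h1, h2, rfl⟩ := exists_rat_decomp ε F₀ w
  by_contra! hc
  refine hZ (sum_mem fun j _ => Z.smul_mem _ (hc _ (h2 j) fun s hs => ?_))
  have := Fintype.linearIndependent_iff.1 h1 (fun j => ⟨_, hB _ _ (hS s hs) (h2 j)⟩) (by
    rw [← hw s hs, map_sum]
    exact Finset.sum_congr rfl fun j _ => by rw [map_smul, smul_eq_mul, mul_comm]; rfl) j
  exact congrArg Subtype.val this

theorem exists_retract (hB : ∀ x y, IsRat ε F₀ x → IsRat ε F₀ y → B x y ∈ F₀) (y : V) :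
    ∃ y₀, IsRat ε F₀ y₀ ∧ ∀ x, IsRat ε F₀ x → B x y ∈ F₀ → B x y₀ = B x y := by
  obtain ⟨n, θ, w, -, h2, rfl⟩ := exists_rat_decomp ε F₀ y
  obtain ⟨ρ, hρ⟩ := (Algebra.linearMap F₀ F).exists_leftInverse_of_injective
    (LinearMap.ker_eq_bot.2 Subtype.val_injective)
  refine ⟨∑ j, (ρ (θ j) : F) • w j, IsRat.sum _ fun j => (h2 j).smul (ρ (θ j)).2,
    fun x hx h => ?_⟩
  have e1 : ρ (B x (∑ j, θ j • w j)) = ⟨_, h⟩ := LinearMap.congr_fun hρ ⟨_, h⟩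
  have e2 : B x (∑ j, θ j • w j) = ∑ j, (⟨_, hB _ _ hx (h2 j)⟩ : F₀) • θ j := by
    rw [map_sum]
    exact Finset.sum_congr rfl fun j _ => by rw [map_smul, smul_eq_mul, mul_comm]; rfl
  have e3 := congrArg Subtype.val e1
  simp only at e3
  rw [← e3, e2, map_sum, map_sum]
  simp [mul_comm]

end Lin

namespace RForm

variable [Finite F] {B : V →ₛₗ[σ] V →ₗ[F] F} {Q : V → F} {G : Subgroup (V ≃ₗ[F] V)}
  (h : RForm B Q G ε F₀)
include h

theorem fd : FiniteDimensional F V := ε.symm.finiteDimensional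

theorem witt : IsWittPair σ B Q := h.polar.witt

theorem exists_not_perp {S : Set V} (hS : ∀ s ∈ S, IsRat ε F₀ s) {y : V}
    (hy : y ∉ Submodule.span F S) : ∃ x, IsRat ε F₀ x ∧ (∀ s ∈ S, B s x = 0) ∧ B y x ≠ 0 := by
  have := h.fd
  obtain ⟨w, h1, h2⟩ := h.witt.exists_dual_vec hy
  obtain ⟨x, h3, h4, h5⟩ := exists_rat_notMem h.ratB hS
    (fun s hs => h2 s (Submodule.subset_span hs)) (Z := perp B (F ∙ y))
    (by rw [mem_perp_singleton, h1]; exact one_ne_zero)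
  exact ⟨x, h3, h4, fun e => h5 (mem_perp_singleton.2 e)⟩

theorem exists_dual {S : Set V} (hS : ∀ s ∈ S, IsRat ε F₀ s) {y : V} (hy' : IsRat ε F₀ y)
    (hy : y ∉ Submodule.span F S) : ∃ x, IsRat ε F₀ x ∧ (∀ s ∈ S, B s x = 0) ∧ B y x = 1 := by
  obtain ⟨x, h1, h2, h3⟩ := h.exists_not_perp hS hy
  exact ⟨(B y x)⁻¹ • x, h1.smul (inv_mem (h.ratB _ _ hy' h1)), fun s hs => by simp [h2 s hs],
    by simp [h3]⟩

theorem exists_partner {S : Set V} (hS : ∀ s ∈ S, IsRat ε F₀ s) {y : V} (hy' : IsRat ε F₀ y)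
    (q : Q y = Q 0) (hy : y ∉ Submodule.span F S) (hp : ∀ s ∈ S, B s y = 0) :
    ∃ x, IsRat ε F₀ x ∧ Q x = Q 0 ∧ (∀ s ∈ S, B s x = 0) ∧ B y x = 1 := by
  obtain ⟨x, h1, h2, h3⟩ := h.exists_dual hS hy' hy
  obtain ⟨c, hc, h4⟩ := h.slide y x hy' h1 q (by simp [h3])
  exact ⟨x + c • y, h1.add (hy'.smul hc), h4, fun s hs => by simp [h2 s hs, hp s hs],
    by simp [h3, h.witt.self_eq_zero q]⟩

theorem exists_hyp {e : V} (he : IsRat ε F₀ e) (q : Q e = Q 0) (h0 : e ≠ 0) :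
    ∃ f, IsRat ε F₀ f ∧ Q f = Q 0 ∧ B e f = 1 :=
  let ⟨f, h1, h2, _, h3⟩ := h.exists_partner (S := ∅) (by simp) he q (by simpa using h0) (by simp)
  ⟨f, h1, h2, h3⟩

theorem exists_sing : ∃ e, IsRat ε F₀ e ∧ Q e = Q 0 ∧ e ≠ 0 :=
  let ⟨e, h1, h2, _, _, h3⟩ := h.sing 0 0 IsRat.zero IsRat.zero
  ⟨e, h1, h2, by rintro rfl; exact h3 (zero_mem _)⟩

theorem sing₁ {e : V} (he : IsRat ε F₀ e) :
    ∃ c, IsRat ε F₀ c ∧ Q c = Q 0 ∧ B e c = 0 ∧ c ∉ F ∙ e :=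
  let ⟨c, h1, h2, h3, _, h4⟩ := h.sing e e he he
  ⟨c, h1, h2, h3, by simpa using h4⟩

theorem rat_mod {e y : V} (he : IsRat ε F₀ e)
    (hy : ∀ x, IsRat ε F₀ x → B e x = 0 → B x y ∈ F₀) : ∃ y₀, IsRat ε F₀ y₀ ∧ y - y₀ ∈ F ∙ e := by
  obtain ⟨y₀, h1, h2⟩ := exists_retract h.ratB y
  refine ⟨y₀, h1, by_contra fun hc => ?_⟩
  obtain ⟨x, h3, h4, h5⟩ := h.exists_not_perp (S := {e}) (by simpa using he) hc
  exact h5 (h.witt.refl (by rw [map_sub, h2 x h3 (hy x h3 (h4 e rfl)), sub_self]))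

theorem rat_of {y : V} (hy : ∀ x, IsRat ε F₀ x → B x y ∈ F₀) : IsRat ε F₀ y := by
  obtain ⟨y₀, h1, h2⟩ := h.rat_mod (e := 0) IsRat.zero fun x hx _ => hy x hx
  rwa [show y = y₀ from sub_eq_zero.1 (by simpa using h2)]

theorem coeff {e e' : V} (he : IsRat ε F₀ e) (he' : IsRat ε F₀ e') (hee : e ∉ F ∙ e') {a b : F}
    (hv : IsRat ε F₀ (a • e + b • e')) : a ∈ F₀ := by
  obtain ⟨x, h1, h2, h3⟩ := h.exists_dual (S := {e'}) (by simpa using he') he hee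
  have := h.sig _ (h.ratB _ _ hv h1)
  simpa [h3, h2 e' rfl, h.invol] using this

theorem span_sing {e z : V} (he : IsRat ε F₀ e) (hz : IsRat ε F₀ z) (q : Q z = Q 0)
    (hez : B e z = 0) (hz' : z ∉ F ∙ e) {P : V → Prop} (hadd : ∀ a b, P a → P b → P (a + b))
    (hsm : ∀ c ∈ F₀, ∀ a, P a → P (c • a)) (h1 : P z)
    (h2 : ∀ s, IsRat ε F₀ s → Q s = Q 0 → B e s = 0 → B z s ≠ 0 → P s) {w : V}
    (hw : IsRat ε F₀ w) (hew : B e w = 0) : P w := by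
  have key : ∀ w, IsRat ε F₀ w → B e w = 0 → B z w ≠ 0 → P w := fun w hw hew h0 => by
    obtain ⟨c, hc, h3⟩ := h.slide z w hz hw q h0
    simpa using hadd _ _ (h2 _ (hw.add (hz.smul hc)) h3 (by simp [hew, hez])
      (by simpa [h.witt.self_eq_zero q] using h0)) (hsm (-c) (neg_mem hc) _ h1)
  by_cases h0 : B z w = 0
  · obtain ⟨v, v1, v2, v3⟩ := h.exists_dual (S := {e}) (by simpa using he) hz hz'
    simpa using hadd _ _ (key (w + v) (hw.add v1) (by simp [hew, v2 e rfl]) (by simp [h0, v3]))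
      (hsm (-1) (neg_mem (one_mem _)) _ (key v v1 (v2 e rfl) (by simp [v3])))
  · exact key w hw hew h0

theorem exists_sing_not_perp {v : V} (hv : v ≠ 0) :
    ∃ e, IsRat ε F₀ e ∧ Q e = Q 0 ∧ B e v ≠ 0 := by
  by_contra! hc
  obtain ⟨z, z1, z2, z3⟩ := h.exists_sing
  obtain ⟨x, h1, -, h2⟩ := h.exists_not_perp (S := ∅) (by simp) (y := v) (by simpa using hv)
  exact h2 (h.witt.refl (h.span_sing (e := 0) IsRat.zero z1 z2 (by simp) (by simpa using z3)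
    (P := fun a => B a v = 0) (fun a b ha hb => by simp [ha, hb])
    (fun c _ a ha => by simp [ha]) (hc z z1 z2) (fun s s1 s2 _ _ => hc s s1 s2) h1 (by simp)))

theorem ratM_of_Rad {e y : V} (he : IsRat ε F₀ e) (q : Q e = Q 0) {k : V ≃ₗ[F] V}
    (hk : k ∈ Rad B Q e ⊤) (hy : IsRat ε F₀ y) (hy' : IsRat ε F₀ (k y)) (h0 : B e y ≠ 0) :
    RatM ε F₀ k := fun v hv => by
  have c1 := inv_mem (h.ratB _ _ he hy)
  obtain ⟨l, h1, h2⟩ := h.witt.Rad_perp_eq q hk (f := y) (w := k y - y)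
    (x := v - (B e v * (B e y)⁻¹) • y) (by simp) (by simp [h0])
  have c2 := mul_mem (h.ratB _ _ he hv) c1
  have h3 : B y e ≠ 0 := fun e => h0 (h.witt.refl e)
  have c3 : l ∈ F₀ := by
    rw [← mul_div_cancel_right₀ l h3, h2]
    exact div_mem (neg_mem (h.ratB _ _ (hy'.sub hy) (hv.sub (hy.smul c2)))) (h.ratB _ _ hy he)
  rw [map_sub, map_smul, sub_eq_iff_eq_add] at h1
  exact h1 ▸ ((hv.sub (hy.smul c2)).add (he.smul c3)).add (hy'.smul c2)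

theorem exists_ratRad₀ {e : V} (he : IsRat ε F₀ e) (q : Q e = Q 0) (h0 : e ≠ 0) :
    ∃ a ∈ F₀, a ≠ 0 ∧ ∀ w, IsRat ε F₀ w → B e w = 0 → ∃ k ∈ Rad B Q e ⊤, RatM ε F₀ k ∧
      (∀ f, B e f = 1 → k f - f - w ∈ F ∙ e) ∧ ∀ x, B e x = 0 → k x = x + (a * B w x) • e := by
  have := h.fd
  obtain ⟨f, f1, f2, f3⟩ := h.exists_hyp he q h0
  have h3 : B f e ≠ 0 := fun e => by simp [h.witt.refl e] at f3
  refine ⟨-(B f e)⁻¹, neg_mem (inv_mem (h.ratB _ _ f1 he)), by simpa using h3, fun w hw hew => ?_⟩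
  obtain ⟨c, hc, h1⟩ := h.slide e (f + w) he (f1.add hw) q (by simp [f3, hew])
  obtain ⟨k, hk, e1⟩ := h.witt.exists_Rad q (A := ⊤) trivial (y := f) (y' := f + w + c • e)
    (by simp [f3]) (by simp [hew, h.witt.self_eq_zero q]) (h1.trans f2.symm) trivial
  have e2 : k f - f - w ∈ F ∙ e := Submodule.mem_span_singleton.2 ⟨c, by rw [e1]; abel⟩
  refine ⟨k, hk, h.ratM_of_Rad he q hk f1 (e1 ▸ (f1.add hw).add (he.smul hc)) (by simp [f3]),
    fun f' hf' => ?_, fun x hx => ?_⟩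
  · obtain ⟨l, hl⟩ := Rad_disp_eq hk f3 e2 f'
    exact Submodule.mem_span_singleton.2 ⟨l, by rw [hl, hf']; module⟩
  · obtain ⟨l, h4, h5⟩ := h.witt.Rad_perp_eq q hk e2 hx
    rw [h4, show l = -(B f e)⁻¹ * B w x by field_simp; exact h5]

theorem exists_ratRad {e w : V} (he : IsRat ε F₀ e) (q : Q e = Q 0) (h0 : e ≠ 0)
    (hw : IsRat ε F₀ w) (hew : B e w = 0) : ∃ k ∈ Rad B Q e ⊤, RatM ε F₀ k ∧
      (∀ f, B e f = 1 → k f - f - w ∈ F ∙ e) ∧ ∀ x, B e x = 0 → B w x = 0 → k x = x :=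
  let ⟨_, _, _, h1⟩ := h.exists_ratRad₀ he q h0
  let ⟨k, h2, h3, h4, h5⟩ := h1 w hw hew
  ⟨k, h2, h3, h4, fun x e1 e2 => by simp [h5 x e1, e2]⟩

theorem exists_ratRad' {e w : V} (he : IsRat ε F₀ e) (q : Q e = Q 0) (h0 : e ≠ 0)
    (hw : IsRat ε F₀ w) (hew : B e w = 0) : ∃ k ∈ Rad B Q e ⊤, RatM ε F₀ k ∧
      ∀ x, B e x = 0 → k x = x + B w x • e :=
  let ⟨a, a1, a0, h1⟩ := h.exists_ratRad₀ he q h0
  let ⟨k, h2, h3, _, h5⟩ := h1 (σ a⁻¹ • w) (hw.smul (h.sig _ (inv_mem a1))) (by simp [hew])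
  ⟨k, h2, h3, fun x e1 => by simp [h5 x e1, h.invol, a0]⟩

theorem exists_ratM_map {e e' : V} (he : IsRat ε F₀ e) (q : Q e = Q 0) (h0 : e ≠ 0)
    (he' : IsRat ε F₀ e') (q' : Q e' = Q 0) (h0' : e' ≠ 0) :
    ∃ k ∈ G, RatM ε F₀ k ∧ ∃ a ∈ F₀, a ≠ 0 ∧ k e = a • e' := by
  have := h.fd
  obtain ⟨c, c1, c2, c3, c4, c5⟩ := h.sing e e' he he'
  obtain ⟨y, y1, y2, y3⟩ : ∃ y, IsRat ε F₀ y ∧ B e y ≠ 0 ∧ B e' y ≠ 0 := by
    obtain ⟨f, f1, -, f2⟩ := h.exists_hyp he q h0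
    obtain ⟨f', f3, -, f4⟩ := h.exists_hyp he' q' h0'
    by_cases e1 : B e' f = 0
    · by_cases e2 : B e f' = 0
      · exact ⟨f + f', f1.add f3, by simp [f2, e2], by simp [e1, f4]⟩
      · exact ⟨f', f3, e2, by simp [f4]⟩
    · exact ⟨f, f1, by simp [f2], e1⟩
  obtain ⟨y, y1, y2, y3, y4⟩ : ∃ y, IsRat ε F₀ y ∧ B e y ≠ 0 ∧ B e' y ≠ 0 ∧ B c y ≠ 0 := by
    by_cases e1 : B c y = 0
    · obtain ⟨d, d1, d2, d3⟩ := h.exists_dual (S := {e, e'}) (by simp [he, he']) c1 c5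
      exact ⟨y + d, y1.add d1, by simpa [d2 e (by simp)] using y2,
        by simpa [d2 e' (by simp)] using y3, by simp [e1, d3]⟩
    · exact ⟨y, y1, y2, y3, e1⟩
  obtain ⟨t, ht, u2⟩ := h.slide c y c1 y1 c2 y4
  have u1 := y1.add (c1.smul ht)
  have u3 : B (y + t • c) e ≠ 0 := fun e => y2 (by simpa [c3] using h.witt.refl e)
  have u4 : B (y + t • c) e' ≠ 0 := fun e => y3 (by simpa [c4] using h.witt.refl e)
  generalize y + t • c = u at u1 u2 u3 u4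
  have a1 := div_mem (h.ratB _ _ u1 he) (h.ratB _ _ u1 he')
  obtain ⟨k, hk, e1⟩ := h.witt.exists_Rad u2 (A := ⊤) trivial (y := e)
    (y' := (B u e / B u e') • e') u3 (by simp [u4])
    ((h.witt.norm_smul_singular q' _).trans q.symm) trivial
  exact ⟨k, h.polar.rad_le u (by rintro rfl; simp at u3) u2 hk,
    h.ratM_of_Rad u1 u2 hk he (e1 ▸ he'.smul a1) u3, _, a1, div_ne_zero u3 u4, e1⟩

theorem not_le : ¬ G ≤ RG ε F₀ := fun hle => by
  have := h.fd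
  obtain ⟨e, e1, e2, e3⟩ := h.exists_sing
  obtain ⟨f, f1, f2, f3⟩ := h.exists_hyp e1 e2 e3
  obtain ⟨w, w1, -, w3, w4⟩ := h.sing₁ e1
  obtain ⟨γ, hγ⟩ : ∃ γ, γ ∉ F₀ := by
    by_contra! hc
    exact h.ne_top (eq_top_iff.2 fun c _ => hc c)
  obtain ⟨k, hk, c, e4⟩ := h.witt.exists_Rad_add e2 (A := ⊤) trivial (y := f) (w := γ • w)
    (by simp [f3]) (by simp [w3]) trivial
  obtain ⟨a, a0, ha⟩ := hle (h.polar.rad_le e e3 e2 hk)
  have h1 : a ∈ F₀ := e1.mem_of_smul e3 (by simpa [hk.2.1] using (ha e).1 e1)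
  have h2 := (((ha f).1 f1).smul (inv_mem h1)).sub f1
  rw [inv_smul_smul₀ a0, e4, add_assoc, add_sub_cancel_left] at h2
  exact hγ (h.coeff w1 e1 w4 h2)

end RForm

end CF.Geom
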