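import Mathlib
import Cfsg.Agent.Cls.CentU
import Cfsg.Agent.Cls.KO9

/-!
# Regular unipotent elements of symplectic groups in odd characteristic
-/

set_option autoImplicit false

namespace CF.Geom.RegU

open Polynomial Module CF.Cls

variable {F : Type*} [Field F]

theorem card_unitary [Finite F] (h2 : (2 : F) ≠ 0) {R : Type*} [CommRing R] [Algebra F R] (σ : R →ₐ[F] R) {y : R}
    {m : ℕ} (h1 : σ y = -y) (h0 : y ^ (2 * m) = 0) (h3 : y ^ (2 * m - 1) ≠ 0) (h4 : ∀ a, ∃ p : F[X], aeval y p = a) :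
    Nat.card {a // σ a * a = 1} = 2 * Nat.card F ^ m := by
  have : Nontrivial R := nontrivial_of_ne _ _ h3
  have hs : ∀ p : F[X], σ (aeval y p) = aeval (-y) p := fun p => by rw [← aeval_algHom_apply, h1]
  have nl : ∀ a : R, ∃ c : F, IsNilpotent (a - algebraMap F R c) := fun a => by
    obtain ⟨p, rfl⟩ := h4 a
    refine ⟨p.coeff 0, ?_⟩
    nth_rewrite 1 [← X_mul_divX_add p]
    rw [map_add, aeval_C, add_sub_cancel_right, map_mul, aeval_X]
    exact (Commute.all _ _).isNilpotent_mul_right (⟨_, h0⟩ : IsNilpotent y)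
  have z : ∀ c : F, IsNilpotent (algebraMap F R c) → c = 0 := fun c h => by
    by_contra k; exact ((Ne.isUnit k).map (algebraMap F R)).not_isNilpotent h
  obtain ⟨t, ht⟩ : ∃ t : R, 2 * t = 1 := ⟨algebraMap F R 2⁻¹, by
    rw [← map_ofNat (algebraMap F R), ← map_mul, mul_inv_cancel₀ h2, map_one]⟩
  have sk : ∀ s : {s // σ s = -s}, IsNilpotent s.1 := fun ⟨s, hs⟩ => by
    obtain ⟨c, hc⟩ := nl s
    have := (Commute.all _ _).isNilpotent_add hc (hc.map σ)
    rw [map_sub, hs, AlgHom.commutes, show s - algebraMap F R c + (-s - algebraMap F R c) =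
      algebraMap F R (-(2 * c)) by rw [map_neg, map_mul, map_ofNat]; ring] at this
    simpa [(mul_eq_zero.1 (neg_eq_zero.1 (z _ this))).resolve_left h2] using hc
  choose w hw using fun s => (sk s).isUnit_one_sub.exists_right_inv
  have e : Nat.card (ℤˣ × {s // σ s = -s}) = Nat.card {a // σ a * a = 1} := by
    refine Nat.card_congr (Equiv.ofBijective (fun x => ⟨((x.1 : ℤ) : R) * ((1 + x.2.1) * w x.2), ?_⟩) ⟨?_, ?_⟩)
    · have := congrArg σ (hw x.2)
      rw [map_mul, map_sub, map_one, x.2.2] at this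
      rw [map_mul, map_mul, map_add, map_one, x.2.2, map_intCast]
      have := hw x.2
      rcases Int.units_eq_one_or x.1 with h | h <;> simp only [h, Units.val_one, Units.val_neg] <;> push_cast <;> grind
    · rintro ⟨a, s⟩ ⟨b, r⟩ h
      have k : ¬ (1 + s.1) * w s = -((1 + r.1) * w r) := fun k =>
        not_isNilpotent_one ((show s.1 * r.1 = 1 by
          linear_combination -t * (1 - s.1) * (1 - r.1) * k + t * (1 + s.1) * (1 - r.1) * hw s +
            t * (1 + r.1) * (1 - s.1) * hw r + (1 - s.1 * r.1) * ht) ▸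
          (Commute.all s.1 r.1).isNilpotent_mul_right (sk s))
      have k' : (1 + s.1) * w s = (1 + r.1) * w r → s = r := fun k => Subtype.ext (by
        linear_combination t * (1 - s.1) * (1 - r.1) * k - t * (1 + s.1) * (1 - r.1) * hw s +
          t * (1 + r.1) * (1 - s.1) * hw r + (r.1 - s.1) * ht)
      rcases Int.units_eq_one_or a with rfl | rfl <;> rcases Int.units_eq_one_or b with rfl | rfl <;>
        simp only [Subtype.mk.injEq, Units.val_one, Units.val_neg, Int.cast_neg, Int.cast_one, one_mul, neg_mul,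
          neg_inj, neg_eq_iff_eq_neg (a := (1 + s.1) * w s), neg_neg] at h
      exacts [by rw [k' h], (k h).elim, (k h).elim, by rw [k' h]]
    · rintro ⟨a, ha⟩
      have k : ∀ b : R, σ b * b = 1 → IsNilpotent (b - 1) → ∃ s, (1 + s.1) * w s = b := fun b hb h => by
        obtain ⟨v, hv⟩ := (h.isUnit_add_right_of_commute (IsUnit.of_mul_eq_one _ ht) (.all _ _)).exists_right_inv
        have := congrArg σ hv
        rw [map_mul, map_add, map_sub, map_one, map_ofNat] at this
        refine ⟨⟨(b - 1) * v, by rw [map_mul, map_sub, map_one]; grind⟩, ?_⟩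
        have := hw ⟨(b - 1) * v, by rw [map_mul, map_sub, map_one]; grind⟩
        grind
      obtain ⟨c, hc⟩ := nl a
      have := (Commute.all _ _).isNilpotent_add ((Commute.all (σ a) _).isNilpotent_mul_left hc)
        ((Commute.all (algebraMap F R c) _).isNilpotent_mul_left (hc.map σ))
      rw [map_sub, AlgHom.commutes, show σ a * (a - algebraMap F R c) + algebraMap F R c * (σ a - algebraMap F R c) =
        algebraMap F R (1 - c * c) by rw [map_sub, map_mul, map_one, ← ha]; ring] at this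
      rcases mul_self_eq_one_iff.1 (sub_eq_zero.1 (z _ this)).symm with rfl | rfl
      · obtain ⟨s, hs⟩ := k a ha (by simpa using hc)
        exact ⟨(1, s), by simp [hs]⟩
      · obtain ⟨s, hs⟩ := k (-a) (by simpa using ha) (by simpa [add_comm, sub_eq_add_neg] using hc.neg)
        exact ⟨(-1, s), by simp [hs]⟩
  have mp : (minpoly F y).natDegree = 2 * m := by
    obtain ⟨k, hk, e⟩ := (dvd_prime_pow prime_X _).1 (minpoly.dvd F y (p := X ^ (2 * m)) (by simpa using h0))
    rw [natDegree_eq_of_degree_eq (degree_eq_degree_of_associated e), natDegree_X_pow]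
    refine hk.antisymm (not_lt.1 fun l => h3 (pow_eq_zero_of_le (m := k) (by omega) ?_))
    simpa using (minpoly.dvd_iff (p := X ^ k)).1 e.dvd
  have li : LinearIndependent F fun i : Fin m => y ^ (2 * (i : ℕ) + 1) := (linearIndependent_pow (K := F) y).comp
    (fun i : Fin m => ⟨2 * i + 1, by omega⟩) fun i j h => Fin.ext (by simpa using h)
  have := FiniteDimensional.span_of_finite F (Set.finite_range fun i : Fin m => y ^ (2 * (i : ℕ) + 1))
  rw [← e, Nat.card_prod, Nat.card_eq_fintype_card, Fintype.card_units_int, ← (finrank_span_eq_card li).trans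
    (Fintype.card_fin m), ← natCard_eq_pow_finrank (K := F)]
  refine congrArg _ (Nat.card_congr (Equiv.subtypeEquivRight fun s => ⟨fun h => ?_, fun h => ?_⟩))
  · obtain ⟨p, rfl⟩ := h4 s
    have : aeval y p - aeval (-y) p ∈ Submodule.span F (Set.range fun i : Fin m => y ^ (2 * (i : ℕ) + 1)) := by
      clear h
      induction p using Polynomial.induction_on' with
      | add p q hp hq => simpa [add_sub_add_comm] using add_mem hp hq
      | monomial k a =>
        rw [aeval_monomial, aeval_monomial, ← mul_sub, ← Algebra.smul_def]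
        refine Submodule.smul_mem _ _ ?_
        rcases k.even_or_odd with h | ⟨i, rfl⟩
        · simp [h.neg_pow]
        by_cases l : i < m
        · rw [(odd_two_mul_add_one i).neg_pow, sub_neg_eq_add]
          exact add_mem (Submodule.subset_span ⟨⟨i, l⟩, rfl⟩) (Submodule.subset_span ⟨⟨i, l⟩, rfl⟩)
        · simp [(odd_two_mul_add_one i).neg_pow, pow_eq_zero_of_le (show 2 * m ≤ 2 * i + 1 by omega) h0]
    rw [← hs, h, sub_neg_eq_add, ← two_smul F] at this
    exact (Submodule.smul_mem_iff _ h2).1 this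
  · induction h using Submodule.span_induction with
    | mem _ h => obtain ⟨i, rfl⟩ := h; rw [map_pow, h1, (odd_two_mul_add_one _).neg_pow]
    | zero => simp
    | add a b _ _ ha hb => rw [map_add, ha, hb, neg_add]
    | smul c a _ ha => rw [map_smul, ha, smul_neg]

theorem card_unitary' [Finite F] (h2 : (2 : F) ≠ 0) {R : Type*} [CommRing R] [Algebra F R] (σ : R →ₐ[F] R) {x : R}
    {m : ℕ} (hm : 1 ≤ m) (hx : σ x * x = 1) (n0 : ∀ k, (x - 1) ^ k = 0 ↔ 2 * m ≤ k) (ae : ∀ a, ∃ p : F[X], aeval x p = a) :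
    Nat.card {a // σ a * a = 1} = 2 * Nat.card F ^ m := by
  obtain ⟨v, hv⟩ := (IsNilpotent.isUnit_add_right_of_commute ⟨_, (n0 _).2 le_rfl⟩
    ((Ne.isUnit h2).map (algebraMap F R)) (.all _ _)).exists_right_inv
  rw [map_ofNat] at hv
  have hv' := congrArg σ hv
  rw [map_mul, map_add, map_sub, map_one, map_ofNat] at hv'
  have y0 : ((x - 1) * v) ^ (2 * m) = 0 := by rw [mul_pow, (n0 _).2 le_rfl, zero_mul]
  refine card_unitary h2 σ (y := (x - 1) * v) (by rw [map_mul, map_sub, map_one]; grind) y0 (fun e => by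
    rw [mul_pow, ((IsUnit.of_mul_eq_one_right _ hv).pow _).mul_left_eq_zero, n0] at e; omega) fun a => ?_
  obtain ⟨p, rfl⟩ := ae a
  refine ⟨p.comp ((1 + X) * ∑ i ∈ Finset.range (2 * m), X ^ i), ?_⟩
  have := mul_neg_geom_sum ((x - 1) * v) (2 * m)
  simp only [aeval_comp, map_mul, map_add, map_sum, map_pow, aeval_X, map_one]
  rw [y0] at this
  congr 2
  grind

variable {V : Type*} [AddCommGroup V] [Module F V]

theorem exists_aeval {f φ : End F V} {a : F[X]} (h : Sim f (cyc a)) (c : φ * f = f * φ) : ∃ p : F[X], aeval f p = φ := by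
  obtain ⟨e, he⟩ := h
  obtain ⟨p, hp⟩ := AdjoinRoot.mk_surjective (e (φ (e.symm 1)))
  have k : ∀ r : F[X], ∀ v, e (aeval f r v) = AdjoinRoot.mk a r * e v := fun r v =>
    (aeval_intertwine e.toLinearMap he r v).trans (aeval_cyc _ _ _)
  refine ⟨p, LinearMap.ext fun v => e.injective ?_⟩
  obtain ⟨r, hr⟩ := AdjoinRoot.mk_surjective (e v)
  obtain rfl : aeval f r (e.symm 1) = v := e.injective (by rw [k, ← hr]; simp)
  rw [aeval_intertwine φ (fun v => LinearMap.congr_fun c v), k, k, k, hp, e.apply_symm_apply, mul_one, mul_comm]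

theorem card_cent [Finite F] [FiniteDimensional F V] (h2 : (2 : F) ≠ 0) {ε : F} {B : LinearMap.BilinForm F V} (h : EH (RingHom.id F) ε B)
    {f : End F V} (hf : Pres B f) {m : ℕ} (hm : 1 ≤ m) (hu : UJ f {2 * m}) :
    Nat.card {φ : End F V // φ * f = f * φ ∧ Pres B φ} = 2 * Nat.card F ^ m := by
  let R := Subalgebra.centralizer F {f}
  have mem : ∀ {φ}, φ ∈ R ↔ φ * f = f * φ := by simp [R, Subalgebra.mem_centralizer_iff, eq_comm]
  let x : R := ⟨f, mem.2 rfl⟩
  have ae : ∀ a : R, ∃ p : F[X], aeval x p = a := fun a =>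
    (exists_aeval (sim_cyc_of_jt hu.1 hu.2) (mem.1 a.2)).imp fun p hp => Subtype.ext (by simp [x, hp])
  let _ : CommRing R := { (inferInstance : Ring R) with
    mul_comm := fun a b => by obtain ⟨p, rfl⟩ := ae a; obtain ⟨q, rfl⟩ := ae b; rw [← map_mul, mul_comm, map_mul] }
  let σ : R →ₐ[F] R :=
    { toFun := fun a => ⟨h.adj a, mem.2 (h.adj_comm hf (mem.1 a.2))⟩
      map_one' := Subtype.ext h.isAnti_adj.one
      map_mul' := fun a b => by rw [mul_comm a b]; exact Subtype.ext (h.isAnti_adj.mul _ _)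
      map_zero' := Subtype.ext h.isAnti_adj.zero
      map_add' := fun a b => Subtype.ext (h.isAnti_adj.add _ _)
      commutes' := fun c => Subtype.ext (h.adj_algebraMap c) }
  have n0 : ∀ k, (x - 1) ^ k = 0 ↔ 2 * m ≤ k := fun k => by
    simpa [hu.2, x, Subtype.ext_iff] using unip_pow_eq_zero_iff hu.1 k
  rw [← card_unitary' h2 σ hm (Subtype.ext (h.pres_iff.1 hf)) n0 ae]
  exact Nat.card_congr ⟨fun φ => ⟨⟨φ.1, mem.2 φ.2.1⟩, Subtype.ext (h.pres_iff.1 φ.2.2)⟩,
    fun a => ⟨a.1.1, mem.1 a.1.2, h.pres_iff.2 (congrArg Subtype.val a.2)⟩, fun _ => rfl, fun _ => rfl⟩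

theorem uj_iff {m : ℕ} (hm : 1 ≤ m) (u : Matrix.symplecticGroup (Fin m) F) :
    UJ (spEquiv m F u).1.toLinearMap {2 * m} ↔ (u.1 - 1) ^ (2 * m) = 0 ∧ (u.1 - 1).rank = 2 * m - 1 := by
  have e : (spEquiv m F u).1.toLinearMap = Matrix.toLin' u.1 := LinearMap.ext fun _ => rfl
  have c : Fintype.card (Fin m ⊕ Fin m) = 2 * m := by simp [two_mul]
  rw [UJ, e, unip_toLin'_iff, ← c]
  exact ⟨fun h => ⟨unipM_pow_card h.1, (jtM_regular_iff h.1 (by omega)).1 h.2⟩,
    fun h => ⟨⟨_, h.1⟩, (jtM_regular_iff ⟨_, h.1⟩ (by omega)).2 h.2⟩⟩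

end CF.Geom.RegU
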