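import Cfsg.Agent.Geom.Tm5
import Cfsg.Agent.BG.B10

/-! Abelian TI `2`-subgroups that are not elementary: adjacent pairs and elations. -/

namespace CF.Geom.Ta
open Subgroup CF.BG CF.Xs CF.Geom.Tm
open scoped commutatorElement
set_option linter.unusedSectionVars false

variable {G : Type*} [Group G]
variable {𝒞 : Set (Subgroup G)} {A B C D E P Q R S T U V W Y Z : Subgroup G}
  {a b c d e f g k l p t u v w x y z : G}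

theorem me {H : Subgroup G} (h : x ∈ H) (e : x = y) : y ∈ H := e ▸ h

theorem exists_fm [Finite G] (hU : PiGrp {2} U) (hR : PiGrp {2} R) (n : R ≤ 𝐍 U) (n' : R ≤ 𝐍 V) (nU : U ≤ 𝐍 V)
    (h : ¬ U ≤ V) : ∃ y ∈ U, y ∉ V ∧ y * y ∈ V ∧ ∀ r ∈ R, ⁅y, r⁆ ∈ V := by
  have k := (hR.qt V).inf_cent_ne_bot (hU.qt V) (qt_norm V n) fun e => h ((qt_eq_bot nU).1 e)
  obtain ⟨_, hz, z1⟩ := exists_mem_ne_one (((hU.qt V).le inf_le_left).Om_ne_bot k)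
  by_contra H
  refine z1 (eq_one_of_mem_bot (le_bot_iff.1 (Om_le_iff.2 ?_)) hz)
  rintro _ ⟨hy', hc⟩ e
  obtain ⟨y, hy, hn, rfl⟩ := mem_qt.1 hy'
  by_contra o
  refine H ⟨y, hy, fun k => o (qe_of_mem k), (qe_eq_one (mm hn hn)).1 (by rw [qe_mul hn hn, ← pow_two, e]),
    fun r hr => (qe_eq_one (mm (mm (mm hn (n' hr)) (im hn)) (im (n' hr)))).1 ?_⟩
  exact (qe_comm hn (n' hr)).trans (br_one.2 (hc _ (qe_mem_qt hr (n' hr))).symm)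

theorem dih_pow {s : G} (hs : s * s = 1) (ht : t * t = 1) (j : ℕ) : ∃ k : ℕ,
    (s * t) ^ j * s = (s * t) ^ k * s * ((s * t) ^ k)⁻¹ ∨ (s * t) ^ j * s = (s * t) ^ k * t * ((s * t) ^ k)⁻¹ := by
  obtain ⟨k, rfl | rfl⟩ := j.even_or_odd'
  · exact ⟨k, .inl (dih_cj hs ht k).symm⟩
  refine ⟨k + 1, .inr ?_⟩
  have e : s * t * t * (s * t)⁻¹ = s * t * s := by
    rw [mul_inv_rev, inv_of_sq hs, inv_of_sq ht, mul_assoc _ t, sq_left ht]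
  calc _ = (s * t) ^ k * (s * t * ((s * t) ^ k * s)) := by rw [two_mul, add_assoc, pow_add, pow_succ']; group
    _ = (s * t) ^ k * (s * t * s * ((s * t) ^ k)⁻¹) := by rw [mul_assoc _ s, conj_pow_inv' (dih1 hs ht)]
    _ = _ := by rw [← e, pow_succ]; group

theorem dih_comm {s : G} {m : ℕ} (hs : s * s = 1) (ht : t * t = 1)
    (h : (s * t) ^ (m + 1) * (s * t) ^ (m + 1) = 1) : t * ((s * t) ^ m * s) = (s * t) ^ m * s * t := by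
  have e : (s * t) ^ m * s * t = (s * t) ^ (m + 1) := by rw [pow_succ, mul_assoc]
  have k : s * (t * ((s * t) ^ m * s)) * s = (s * t) ^ (m + 1) := by
    rw [pow_succ']; simp only [mul_assoc]; rw [hs, mul_one]
  have u := conj_pow_inv (dih1 hs ht) (m + 1)
  rw [inv_of_sq h] at u
  rw [e]
  refine mul_left_cancel (a := s) (mul_right_cancel (b := s) ?_)
  rw [k, u, mul_assoc, hs, mul_one]

theorem br_sq (h : b * ⁅y, b⁆ = ⁅y, b⁆ * b) : ⁅y, b * b⁆ = ⁅y, b⁆ * ⁅y, b⁆ := by rw [br_mul', cj_of_comm h]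

theorem sq_br (h : y * ⁅y, b⁆ = ⁅y, b⁆ * y) : ⁅y * y, b⁆ = ⁅y, b⁆ * ⁅y, b⁆ := by rw [br_mul, cj_of_comm h]

theorem cj_br (hc : c * c = 1) (b : G) : c * ⁅b, c⁆ * c⁻¹ = ⁅b, c⁆⁻¹ := by
  calc _ = c * b * c * b⁻¹ * (c * c)⁻¹ := by simp only [br_def]; group
    _ = _ := by rw [hc, commutatorElement_inv, br_def, inv_of_sq hc]; simp

theorem sq_of_sq (h : a * b = b * a) (ha : a * a = 1) (e : a⁻¹ * b * (a⁻¹ * b) = 1) : b * b = 1 := by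
  rwa [inv_of_sq ha, mul_assoc, ← mul_assoc b, ← h, mul_assoc, sq_left ha] at e

/-- a class of abelian, non-cyclic, non-elementary TI `2`-subgroups -/
structure TA (𝒞 : Set (Subgroup G)) : Prop where
  cj : ∀ {B} g, B ∈ 𝒞 → cj g B ∈ 𝒞
  tr : ∀ {B C}, B ∈ 𝒞 → C ∈ 𝒞 → ∃ g, BG.cj g B = C
  ab : ∀ {B}, B ∈ 𝒞 → Abel B
  pi : ∀ {B}, B ∈ 𝒞 → PiGrp {2} B
  ti : ∀ {B C x}, B ∈ 𝒞 → C ∈ 𝒞 → x ∈ B → x ∈ C → x ≠ 1 → B = C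
  ne : ∀ {B}, B ∈ 𝒞 → ∃ b ∈ B, b * b ≠ 1
  four : ∀ {B}, B ∈ 𝒞 → ∃ a ∈ 𝛀 2 B, ∃ a' ∈ 𝛀 2 B, a ≠ 1 ∧ a' ≠ 1 ∧ a ≠ a'

/-- adjacent members -/
structure Ad (𝒞 : Set (Subgroup G)) (B C : Subgroup G) : Prop where
  h : TA 𝒞
  l : B ∈ 𝒞
  r : C ∈ 𝒞
  nb : C ⇂ B ≠ ⊥
  nc : ¬ B ≤ 𝐂 C

/-- elations of `P` with axis `D` -/
structure El (P D : Subgroup G) (e : G) : Prop where
  n : e ∈ 𝐍 P
  br : ∀ p ∈ P, ⁅p, e⁆ ∈ D
  fx : ∀ p ∈ P, p ∈ D → p * e = e * p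

theorem El.cj (h : El P D e) (hg : g ∈ 𝐍 P) : El P (cj g D) (g * e * g⁻¹) := by
  refine ⟨cjm hg h.n, fun p hp => ?_, fun p hp hp' => ?_⟩
  · have := conj_mem_cj (g := g).2 (h.br _ (conj_mem_of_norm' hg hp))
    rw [br_cj] at this; simpa [mul_assoc] using this
  · have := h.fx _ (conj_mem_of_norm' hg hp) (mem_cj.1 hp')
    calc _ = g * (g⁻¹ * p * g * e) * g⁻¹ := by group
      _ = _ := by rw [this]; group

theorem El.mul (h : El P D e) (h' : El P D f) : El P D (e * f) :=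
  ⟨mm h.n h'.n, fun p hp => by
    rw [br_mul', cj_of_comm (h.fx _ (br_left hp h'.n) (h'.br p hp)).symm]; exact mm (h.br p hp) (h'.br p hp),
    fun p hp hp' => by rw [← mul_assoc, h.fx p hp hp', mul_assoc, h'.fx p hp hp', mul_assoc]⟩

theorem El.of_cent (D : Subgroup G) (h : k ∈ 𝐂 P) : El P D k :=
  ⟨cent_le_norm _ h, fun p hp => by rw [br_one.2 (h p hp)]; exact one_mem _, fun p hp _ => h p hp⟩

theorem El.sq (h : El P D e) (hP : ∀ p ∈ P, p * p = 1) : e * e ∈ 𝐂 P := fun p hp => br_one.1 (by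
  rw [br_sq (h.fx _ (br_left hp h.n) (h.br p hp)).symm, hP _ (br_left hp h.n)])

theorem El.inv (h : El P D e) (hP : ∀ p ∈ P, p * p = 1) : El P D e⁻¹ := by
  simpa using h.mul (.of_cent D (im (h.sq hP)))

theorem br_congr (h : f * e⁻¹ ∈ 𝐂 P) (n : e ∈ 𝐍 P) (hp : p ∈ P) : ⁅p, f⁆ = ⁅p, e⁆ := by
  rw [← inv_mul_cancel_right f e, br_mul', br_one.2 (h p hp), one_mul, cj_of_comm (h _ (br_left hp n)).symm]

namespace TA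
variable (h : TA 𝒞)
include h

theorem comm (hB : B ∈ 𝒞) (hx : x ∈ B) (hy : y ∈ B) : x * y = y * x := (h.ab hB).mul_comm hx hy

theorem cj_eq (hB : B ∈ 𝒞) (hC : C ∈ 𝒞) (hx : x ∈ B) (x1 : x ≠ 1) (e : g * x * g⁻¹ ∈ C) : BG.cj g B = C :=
  h.ti (h.cj g hB) hC (conj_mem_cj.2 hx) e (by simpa using x1)

theorem norm (hB : B ∈ 𝒞) (hx : x ∈ B) (x1 : x ≠ 1) (e : g * x = x * g) : g ∈ 𝐍 B :=
  cj_eq_self.1 (h.cj_eq hB hB hx x1 (by rwa [cj_of_comm e]))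

theorem eq_one (hB : B ∈ 𝒞) (hC : C ∈ 𝒞) (ne : B ≠ C) (hx : x ∈ B) (hx' : x ∈ C) : x = 1 :=
  by_contra fun e => ne (h.ti hB hC hx hx' e)

theorem mem_om (hB : B ∈ 𝒞) : x ∈ 𝛀 2 B ↔ x ∈ B ∧ x * x = 1 := by rw [(h.ab hB).mem_Om, pow_two]

theorem sq (hB : B ∈ 𝒞) (hx : x ∈ 𝛀 2 B) : x * x = 1 := ((h.mem_om hB).1 hx).2

theorem card_eq (hB : B ∈ 𝒞) (hC : C ∈ 𝒞) : ♯B = ♯C := by obtain ⟨g, rfl⟩ := h.tr hB hC; simp

theorem card_om (hB : B ∈ 𝒞) (hC : C ∈ 𝒞) : ♯(𝛀 2 B) = ♯(𝛀 2 C) := by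
  obtain ⟨g, rfl⟩ := h.tr hB hC; rw [← cj_Om, card_cj]

theorem comm0 (hB : B ∈ 𝒞) (hC : C ∈ 𝒞) (ne : B ≠ C) (hb : b ∈ B ⇂ C) (hc : c ∈ C ⇂ B) : b * c = c * b :=
  br_one.1 (h.eq_one hB hC ne (br_left hb.1 hc.2) (br_right hc.1 hb.2))

theorem sq_fm (hB : B ∈ 𝒞) (hC : C ∈ 𝒞) (ne : B ≠ C) (hy : y ∈ C) (hy' : y ∉ 𝐍 B) (yy : y * y ∈ 𝐍 B)
    (hb : b ∈ B ⇂ C) (e : ⁅y, b⁆ ∈ 𝐍 B) : b * b = 1 := by
  have k := br_left hy hb.2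
  have e1 := sq_br (h.comm hC hy k)
  rw [br_one.2 (h.comm0 hB hC ne hb ⟨mm hy hy, yy⟩).symm, ← br_sq (h.comm0 hB hC ne hb ⟨k, e⟩)] at e1
  exact by_contra fun o => hy' (h.norm hB (mm hb.1 hb.1) o (br_one.1 e1.symm))

end TA

namespace Ad
variable (s : Ad 𝒞 B C)
include s

theorem ne : B ≠ C := by rintro rfl; exact s.nc (s.h.ab s.l)

protected theorem cj (g : G) : Ad 𝒞 (cj g B) (cj g C) :=
  ⟨s.h, s.h.cj g s.l, s.h.cj g s.r, by rw [← cj_res, Ne, cj_eq_bot]; exact s.nb, by rw [cj_cent_iff]; exact s.nc⟩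

variable [Finite G]

theorem symm : Ad 𝒞 C B := by
  obtain ⟨c, hc, c1⟩ := exists_mem_ne_one s.nb
  obtain ⟨b, hb, b1⟩ := exists_mem_ne_one (((s.h.pi s.r).elt hc.1).zpowers.inf_cent_ne_bot (s.h.pi s.l)
    (zpowers_le.2 hc.2) fun e => s.nc (e ▸ bot_le))
  exact ⟨s.h, s.r, s.l, ne_bot_of_mem ⟨hb.1, s.h.norm s.r hc.1 c1 (hb.2 c (mem_zpowers c)).symm⟩ b1,
    fun e => s.nc (cent_symm e)⟩

theorem comm0 (hb : b ∈ B ⇂ C) (hc : c ∈ C ⇂ B) : b * c = c * b := s.h.comm0 s.l s.r s.ne hb hc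

theorem nl : ¬ B ≤ 𝐍 C := fun l => by
  by_cases k : C ≤ 𝐍 B
  · exact s.nc fun b hb c hc => (s.comm0 ⟨hb, l hb⟩ ⟨hc, k hc⟩).symm
  obtain ⟨y, hy, y1, yy, e⟩ := exists_fm (V := C ⇂ B) (s.h.pi s.r) (s.h.pi s.l) l
    (norm_inf l ((le_norm_self B).trans (norm_le_norm_norm B))) ((s.h.ab s.r).le_norm inf_le_left)
    fun e => k (e.trans inf_le_right)
  obtain ⟨b, hb, b1⟩ := s.h.ne s.l
  exact b1 (s.h.sq_fm s.l s.r s.ne hy (fun o => y1 ⟨hy, o⟩) yy.2 ⟨hb, l hb⟩ (e b hb).2)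

theorem exists_y : ∃ y ∈ B, y ∉ 𝐍 C ∧ y * y ∈ 𝐍 C ∧ ∀ c ∈ C ⇂ B, ⁅y, c⁆ ∈ B ⇂ C := by
  obtain ⟨y, hy, y1, yy, e⟩ := exists_fm (V := B ⇂ C) (R := C ⇂ B) (s.h.pi s.l) ((s.h.pi s.r).le inf_le_left) inf_le_right
    (norm_inf inf_le_right (inf_le_left.trans ((le_norm_self C).trans (norm_le_norm_norm C))))
    ((s.h.ab s.l).le_norm inf_le_left) fun e => s.nl (e.trans inf_le_right)
  exact ⟨y, hy, fun o => y1 ⟨hy, o⟩, yy.2, e⟩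

theorem sq0 (hc : c ∈ C ⇂ B) : c * c = 1 := by
  obtain ⟨y, hy, y1, yy, e⟩ := s.exists_y
  exact s.h.sq_fm s.r s.l s.ne.symm hy y1 yy hc (e c hc).2

theorem fpf (hy : y ∉ 𝐍 C) (hc : c ∈ C) (e : c * y = y * c) : c = 1 :=
  by_contra fun o => hy (s.h.norm s.r hc o e.symm)

theorem bil (e : ∀ c ∈ C ⇂ B, ⁅y, c⁆ ∈ B ⇂ C) : Bil (C ⇂ B) y :=
  fun _ hu v hv => (s.comm0 (br_inv_mem (e v hv)) hu).symm

theorem card_le0 : ♯(C ⇂ B) ≤ ♯(B ⇂ C) := by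
  obtain ⟨y, -, y1, -, e⟩ := s.exists_y
  exact (s.bil e).card_le' (fun u hu => br_inv_mem (e u hu)) fun u hu => s.fpf y1 hu.1

theorem surj0 (y1 : y ∉ 𝐍 C) (e : ∀ c ∈ C ⇂ B, ⁅y, c⁆ ∈ B ⇂ C) (ha : a ∈ B ⇂ C) : ∃ c ∈ C ⇂ B, ⁅c, y⁆ = a :=
  (s.bil e).surj' (fun u hu => br_inv_mem (e u hu)) (fun u hu => s.fpf y1 hu.1) (s.symm.card_le0) ha

theorem br0 (hb : b ∈ B) (hc : c ∈ C ⇂ B) : ⁅b, c⁆ ∈ B ⇂ C := by
  by_contra o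
  have nB : C ⇂ B ≤ 𝐍 (B ⇂ C) :=
    norm_inf inf_le_right (inf_le_left.trans ((le_norm_self C).trans (norm_le_norm_norm C)))
  obtain ⟨b, hb, b1, bb, e⟩ := exists_fm (V := B ⊓ centMod (C ⇂ B) (B ⇂ C)) (R := C ⇂ B) (s.h.pi s.l)
    ((s.h.pi s.r).le inf_le_left) inf_le_right (norm_inf inf_le_right (norm_centMod (le_norm_self _) nB))
    ((s.h.ab s.l).le_norm inf_le_left) fun e => o ((e hb).2.2 c hc)
  obtain ⟨c, hc, o⟩ : ∃ c ∈ C ⇂ B, ⁅b, c⁆ ∉ 𝐍 C := by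
    by_contra! H
    exact b1 ⟨hb, (s.h.ab s.l).le_norm inf_le_left hb, fun c hc => ⟨(e c hc).1, H c hc⟩⟩
  have f : ∀ c ∈ C ⇂ B, ⁅⁅b, c⁆, c⁆ = ⁅b, c⁆ * ⁅b, c⁆ := fun c hc => by
    have := cj_br (s.sq0 hc) b
    calc _ = ⁅b, c⁆ * (c * ⁅b, c⁆ * c⁻¹)⁻¹ := by rw [br_def ⁅b, c⁆]; group
      _ = _ := by rw [this, inv_inv]
  have k : ∀ c ∈ C ⇂ B, c ≠ 1 → ⁅b, c⁆⁻¹ * (b * b) ∈ 𝐍 C := fun c hc c1 =>
    s.h.norm s.r hc.1 c1 (comm_of_br_eq ((f c hc).trans (sq_br (s.h.comm s.l hb (e c hc).1)).symm))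
  have c1 : c ≠ 1 := by rintro rfl; exact o (by simp)
  by_cases H : ∃ d ∈ C ⇂ B, d ≠ 1 ∧ c * d ≠ 1
  · obtain ⟨d, hd, d1, cd⟩ := H
    have k1 := mm (k c hc c1) (im (k _ (mm hc hd) cd))
    rw [br_mul', cj_eq_br] at k1
    have k2 := mm (im (br_inv_mem ((e d hd).2.2 c hc)).2) (me (y := ⁅c, ⁅b, d⁆⁆ * ⁅b, d⁆) k1 (by group))
    have k3 := mm (mm k2 (k d hd d1)) (im (k c hc c1))
    exact o (me k3 (by group))
  have z : ∀ a ∈ B ⇂ C, a ≠ 1 → a = ⁅c, ⁅b, c⁆⁆ := fun a ha a1 => by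
    obtain ⟨d, hd, rfl⟩ := s.surj0 o (e c hc).2.2 ha
    by_contra k
    refine H ⟨d, hd, fun e => a1 (by simp [e]), fun e => k ?_⟩
    rw [← inv_eq_of_mul_eq_one_right e, inv_of_sq (s.sq0 hc)]
  obtain ⟨a, ha, n⟩ : ∃ a ∈ 𝛀 2 B, a ∉ 𝐍 C := by
    obtain ⟨a, ha, a', ha', a1, a1', ne⟩ := s.h.four s.l
    by_contra! H
    exact ne ((z a ⟨Om_le _ _ ha, H a ha⟩ a1).trans (z a' ⟨Om_le _ _ ha', H a' ha'⟩ a1').symm)
  have aB := Om_le _ _ ha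
  have m := br_left aB hc.2
  have e1 : ⁅a, c⁆ * ⁅a, c⁆ = 1 := by rw [← sq_br (s.h.comm s.l aB m), s.h.sq s.l ha]; simp
  have e2 : ⁅a, c⁆ = ⁅⁅b, c⁆, c⁆ := (z _ ⟨m, s.h.norm s.r hc.1 c1 (by
      rw [eq_comm, ← mul_inv_eq_iff_eq_mul, cj_br (s.sq0 hc), inv_of_sq e1])⟩
    fun k => c1 (s.fpf n hc.1 (br_one.1 k).symm)).trans
    (z _ ((e c hc).2.2 c hc) fun k => c1 (s.fpf o hc.1 (br_one.1 k).symm)).symm
  have e3 := sq_of_sq (s.h.comm s.l aB (e c hc).1) (s.h.sq s.l ha) (s.symm.sq0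
    ⟨mm (im aB) (e c hc).1, s.h.norm s.r hc.1 c1 (comm_of_br_eq e2)⟩)
  exact c1 (s.fpf o hc.1 (br_one.1 ((f c hc).trans e3)).symm)

theorem abel0 : Abel (NN B C) :=
  ((s.h.ab s.l).mono inf_le_left).sup ((s.h.ab s.r).mono inf_le_left) fun _ hb _ hc => (s.comm0 hb hc).symm

theorem mem0 : p ∈ NN B C ↔ ∃ a ∈ B ⇂ C, ∃ c ∈ C ⇂ B, a * c = p :=
  mem_sup_norm (norm_of_cent fun _ hb _ hc => (s.comm0 hb hc).symm)

theorem sqP0 (p : G) (hp : p ∈ NN B C) : p * p = 1 := by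
  obtain ⟨a, ha, c, hc, rfl⟩ := s.mem0.1 hp
  exact sq_mul (s.symm.sq0 ha) (s.sq0 hc) (s.comm0 ha hc).symm

theorem inf0 (hp : p ∈ NN B C) (hB : p ∈ B) : p ∈ B ⇂ C := by
  obtain ⟨a, ha, c, hc, rfl⟩ := s.mem0.1 hp
  exact ⟨hB, mm ha.2 (le_norm_self _ hc.1)⟩

theorem el0 (hb : b ∈ B) : El (NN B C) B b := by
  have k : ∀ p ∈ NN B C, ⁅b, p⁆ ∈ B ⇂ C := fun p hp => by
    obtain ⟨a, ha, c, hc, rfl⟩ := s.mem0.1 hp
    rw [s.comm0 ha hc, br_mul_comm (s.h.comm s.l hb ha.1)]; exact s.br0 hb hc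
  refine ⟨mem_norm_of_cj_le ?_, fun p hp => br_inv_mem (k p hp).1, fun p _ hp => s.h.comm s.l hp hb⟩
  rintro _ ⟨p, hp, rfl⟩
  exact me (mm (mem_NN_left (k p hp)) hp) (cj_eq_br _ _).symm

theorem el_fix (r : El (NN B C) B e) (e1 : e ∉ 𝐂 (NN B C)) (hp : p ∈ NN B C) (k : p * e = e * p) : p ∈ B := by
  obtain ⟨a, ha, c, hc, rfl⟩ := s.mem0.1 hp
  have ea := r.fx a (mem_NN_left ha) ha.1
  by_cases c1 : c = 1
  · simpa [c1] using ha.1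
  have n := s.h.norm (g := e) s.r hc.1 c1 (mul_left_cancel (a := a) (by rw [← mul_assoc, ea, mul_assoc, ← k, mul_assoc]))
  refine (e1 fun p hp => ?_).elim
  obtain ⟨a, ha, c, hc, rfl⟩ := s.mem0.1 hp
  rw [mul_assoc, br_one.1 (s.h.eq_one s.l s.r s.ne (r.br c (mem_NN_right hc)) (br_left hc.1 n)), ← mul_assoc,
    r.fx a (mem_NN_left ha) ha.1, mul_assoc]

theorem el_axis (hD : D ∈ 𝒞) (r : El (NN B C) B e) (e1 : e ∉ 𝐂 (NN B C)) (r' : El (NN B C) D g)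
    (g1 : g ∉ 𝐂 (NN B C)) (k : ⁅e, g⁆ ∈ 𝐂 (NN B C)) : D = B := by
  obtain ⟨p, hp, o⟩ : ∃ p ∈ NN B C, ⁅p, g⁆ ≠ 1 := by
    by_contra! H; exact g1 fun p hp => br_one.1 (H p hp)
  have m := br_left hp r'.n
  by_cases c : ⁅p, g⁆ * e = e * ⁅p, g⁆
  · exact s.h.ti hD s.l (r'.br p hp) (s.el_fix r e1 m c) o
  refine s.h.ti hD s.l (me (mm (r'.br p hp) (im (r'.br _ (conj_mem_of_norm r.n hp)))) ?_) (r.br _ m)
    fun o => c (br_one.1 o)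
  rw [← br_congr (f := e * g * e⁻¹) k r'.n (conj_mem_of_norm r.n hp), ← br_cj, br_def ⁅p, g⁆]; group

theorem el_conj (r : El (NN B C) B e) (e1 : e ∉ 𝐂 (NN B C)) (r' : El (NN B C) C f) (f1 : f ∉ 𝐂 (NN B C)) :
    ∃ g ∈ zpowers e ⊔ zpowers f, g * e * g⁻¹ * f⁻¹ ∈ 𝐂 (NN B C) := by
  have nn := norm_le_norm_cent (NN B C)
  have ne := nn r.n
  have nf := nn r'.n
  have he : qe (𝐂 (NN B C)) e * qe _ e = 1 := (qe_mul ne ne).symm.trans (qe_of_mem (r.sq s.sqP0))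
  have hf : qe (𝐂 (NN B C)) f * qe _ f = 1 := (qe_mul nf nf).symm.trans (qe_of_mem (r'.sq s.sqP0))
  have me' : e ∈ zpowers e ⊔ zpowers f := mem_sup_left (mem_zpowers e)
  have mf : f ∈ zpowers e ⊔ zpowers f := mem_sup_right (mem_zpowers f)
  have ef := mm r.n r'.n
  have q : ∀ j : ℕ, qe (𝐂 (NN B C)) ((e * f) ^ j) = (qe _ e * qe _ f) ^ j := fun j => by
    rw [qe_pow (nn ef), qe_mul ne nf]
  rcases Nat.even_or_odd (orderOf (qe (𝐂 (NN B C)) e * qe _ f)) with ⟨m, o⟩ | o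
  swap
  · have n := mm (pow_mem ef (orderOf (qe (𝐂 (NN B C)) e * qe _ f) / 2)) r.n
    refine ⟨_, mm (pow_mem (mm me' mf) _) me', (qe_eq_one (nn (mm (cjm n r.n) (im r'.n)))).1 ?_⟩
    rw [qe_mul (nn (cjm n r.n)) (im nf), qe_conj (nn n) ne, qe_inv nf, qe_mul (nn (pow_mem ef _)) ne, q]
    exact mul_inv_eq_one.2 (tt_x he hf o)
  exfalso
  obtain ⟨m, rfl⟩ : ∃ j, m = j + 1 := ⟨m - 1, by have := orderOf_pos (qe (𝐂 (NN B C)) e * qe _ f); omega⟩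
  have u2 : (qe (𝐂 (NN B C)) e * qe _ f) ^ (m + 1) * (qe _ e * qe _ f) ^ (m + 1) = 1 := by
    rw [← pow_add, ← o, pow_orderOf_eq_one]
  have u1 : (e * f) ^ (m + 1) ∉ 𝐂 (NN B C) := fun k =>
    absurd (Nat.le_of_dvd m.succ_pos (orderOf_dvd_of_pow_eq_one ((q _).symm.trans (qe_of_mem k)))) (by omega)
  have ue := conj_pow_inv (dih1 he hf) (m + 1)
  rw [inv_of_sq u2] at ue
  have key : ∀ j : ℕ, ∃ D ∈ 𝒞, El (NN B C) D ((e * f) ^ j * e) ∧ (e * f) ^ j * e ∉ 𝐂 (NN B C) := fun j => by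
    have n := mm (pow_mem ef j) r.n
    have aux : ∀ (k : ℕ) {D x}, D ∈ 𝒞 → El (NN B C) D x → x ∉ 𝐂 (NN B C) →
        (qe (𝐂 (NN B C)) e * qe _ f) ^ j * qe _ e = (qe _ e * qe _ f) ^ k * qe _ x * ((qe _ e * qe _ f) ^ k)⁻¹ →
        ∃ D ∈ 𝒞, El (NN B C) D ((e * f) ^ j * e) ∧ (e * f) ^ j * e ∉ 𝐂 (NN B C) := fun k D x hD rx x1 hk => by
      have nk := pow_mem ef k
      rw [← q, ← q, ← qe_mul (nn (pow_mem ef j)) ne, ← qe_conj (nn nk) (nn rx.n), eq_comm,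
        qe_eq_iff (nn (cjm nk rx.n)) (nn n)] at hk
      have k1 := (rx.cj nk).mul (.of_cent _ hk)
      rw [mul_inv_cancel_left] at k1
      exact ⟨_, s.h.cj ((e * f) ^ k) hD, k1, fun o =>
        x1 (me (conj_mem_of_norm' (nn nk) (mm o (im hk))) (by group))⟩
    obtain ⟨k, hk | hk⟩ := dih_pow he hf j
    exacts [aux k s.l r e1 hk, aux k s.r r' f1 hk]
  obtain ⟨D, hD, rD, d1⟩ := key (m + 1)
  obtain ⟨E, hE, rE, d2⟩ := key m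
  have n1 := mm (pow_mem ef (m + 1)) r.n
  have n2 := mm (pow_mem ef m) r.n
  obtain rfl := s.el_axis hD r e1 rD d1 ((qe_eq_one (nn (mm (cjm r.n n1) (im n1)))).1 ((qe_comm ne (nn n1)).trans
    (br_one.2 (by rw [qe_mul (nn (pow_mem ef _)) ne, q, ← mul_assoc, ue]))))
  rw [NN_symm] at r' f1 rE d2
  obtain rfl := s.symm.el_axis hE r' f1 rE d2 (NN_symm D C ▸ (qe_eq_one (nn (mm (cjm (NN_symm D C ▸ r'.n) n2)
    (im n2)))).1 ((qe_comm nf (nn n2)).trans (br_one.2 (by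
      rw [qe_mul (nn (pow_mem ef _)) ne, q]; exact dih_comm he hf u2))))
  rw [NN_symm] at r' rE
  have k1 := rD.mul (r.inv s.sqP0)
  have k2 := rE.mul r'
  rw [mul_inv_cancel_right] at k1
  rw [mul_assoc, ← pow_succ] at k2
  exact u1 fun p hp => br_one.1 (s.h.eq_one s.l s.r s.ne (k1.br p hp) (k2.br p hp))

theorem not_cent0 (hb : b ∉ 𝐍 C) : b ∉ 𝐂 (NN B C) := fun k => by
  obtain ⟨c, hc, c1⟩ := exists_mem_ne_one s.nb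
  exact c1 (s.fpf hb hc.1 (k c (mem_NN_right hc)))

theorem el_trans (r : El (NN B C) B e) (e1 : e ∉ 𝐂 (NN B C)) (hb : b ∈ B) (b1 : b ∉ 𝐍 C) :
    ∃ l ∈ B ⊔ C ⊔ zpowers e, l ∈ 𝐍 B ∧ l * b * l⁻¹ * e⁻¹ ∈ 𝐂 (NN B C) := by
  obtain ⟨f, hf, f1⟩ := SetLike.not_le_iff_exists.1 s.symm.nl
  have rf := s.symm.el0 hf
  have f2 := s.symm.not_cent0 f1
  rw [NN_symm] at rf f2
  have rb := s.el0 hb
  obtain ⟨g, hg, k⟩ := s.el_conj r e1 rf f2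
  obtain ⟨g', hg', k'⟩ := s.el_conj rb (s.not_cent0 b1) rf f2
  have n : g ∈ 𝐍 (NN B C) := sup_le (zpowers_le.2 r.n) (zpowers_le.2 rf.n) hg
  have n' : g' ∈ 𝐍 (NN B C) := sup_le (zpowers_le.2 rb.n) (zpowers_le.2 rf.n) hg'
  have c : g⁻¹ * g' * b * (g⁻¹ * g')⁻¹ * e⁻¹ ∈ 𝐂 (NN B C) :=
    me (conj_mem_of_norm' (norm_le_norm_cent _ n) (mm k' (im k))) (by group)
  refine ⟨g⁻¹ * g', mm (im (sup_le le_sup_right (le_sup_of_le_left (le_sup_of_le_right (zpowers_le.2 hf))) hg))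
    (mem_sup_left (sup_le_sup (zpowers_le.2 hb) (zpowers_le.2 hf) hg')), ?_, c⟩
  obtain ⟨p, hp, p1⟩ := exists_mem_ne_one s.nb
  have m := conj_mem_of_norm (mm (im n) n') (mem_NN_right hp)
  refine cj_eq_self.1 (s.h.cj_eq s.l s.l (rb.br p (mem_NN_right hp)) (fun o => p1 (s.fpf b1 hp.1 (br_one.1 o))) ?_)
  rw [br_cj, br_congr c r.n m]; exact r.br _ m

theorem memN (hb : b ∈ B) : b ∈ 𝐍 C ↔ b ∈ 𝛀 2 B := by
  rw [s.h.mem_om s.l]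
  refine ⟨fun k => ⟨hb, s.symm.sq0 ⟨hb, k⟩⟩, fun k => by_contra fun o => ?_⟩
  obtain ⟨u, hu, u1⟩ := s.h.ne s.l
  obtain ⟨l, -, hl, e⟩ := s.el_trans (s.el0 hu) (s.not_cent0 fun k => u1 (s.symm.sq0 ⟨hu, k⟩)) hb o
  have m := conj_mem_of_norm hl hb
  refine u1 (sq_of_sq (s.h.comm s.l m hu) (by rw [conj_mul, k.2]; simp) ?_)
  have := s.symm.sq0 (c := (l * b * l⁻¹)⁻¹ * u) ⟨mm (im m) hu, by_contra fun o => s.not_cent0 o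
    (by rw [s.h.comm s.l (im m) hu]; exact me (im e) (by group))⟩
  exact this

theorem res : B ⇂ C = 𝛀 2 B :=
  le_antisymm (fun _ h => (s.memN h.1).1 h.2) fun _ h => ⟨Om_le _ _ h, (s.memN (Om_le _ _ h)).2 h⟩

theorem NN_eq : NN B C = 𝛀 2 B ⊔ 𝛀 2 C := by rw [NN, s.res, s.symm.res]

end Ad

end CF.Geom.Ta
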