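import Cfsg.Agent.Geom.Ta1

/-! Lines through adjacent members. -/

namespace CF.Geom.Ta
open Subgroup CF.BG CF.Xs CF.Geom.Tm
open scoped commutatorElement
set_option linter.unusedSectionVars false

scoped notation "Ω " B:max => Cfsg.omegaOne 2 B

variable {G : Type*} [Group G]
variable {𝒞 : Set (Subgroup G)} {A B C D E P Q R S T U V W Y Z : Subgroup G}
  {a b b' c d e f g k l p t u v w x y z : G}

theorem om (h : x ∈ Ω B) : x ∈ B := Om_le _ _ h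

theorem cj_om (g : G) (h : x ∈ Ω B) : g * x * g⁻¹ ∈ Ω (cj g B) := cj_Om g 2 B ▸ conj_mem_cj.2 h

theorem cj_om' (hg : g ∈ 𝐍 B) (h : x ∈ Ω B) : g * x * g⁻¹ ∈ Ω B := conj_mem_of_norm (norm_Om 2 B hg) h

theorem om_cj (h : x ∈ Ω (cj g B)) : g⁻¹ * x * g ∈ Ω B := mem_cj.1 ((cj_Om g 2 B).symm ▸ h)

theorem cj_comm' (g : G) (h : x * y = y * x) : g * x * g⁻¹ * (g * y * g⁻¹) = g * y * g⁻¹ * (g * x * g⁻¹) := by
  rw [conj_mul, conj_mul, h]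

theorem mul_cent (h1 : x * z = z * x) (h2 : y * z = z * y) : x * y * z = z * (x * y) := by
  rw [mul_assoc, h2, ← mul_assoc, h1, mul_assoc]

theorem inv_cent (h : x * z = z * x) : x⁻¹ * z = z * x⁻¹ := (Commute.inv_left h).eq

/-- the involutions commute -/
abbrev Cm (B C : Subgroup G) : Prop := Ω B ≤ 𝐂 (Ω C)

theorem Cm.symm (h : Cm B C) : Cm C B := cent_symm h

theorem Cm.comm (h : Cm B C) (ha : a ∈ Ω B) (hc : c ∈ Ω C) : a * c = c * a := (h ha c hc).symm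

theorem Cm.of_pp (h : B ≤ 𝐂 C) : Cm B C := cent_mono h (Om_le _ _) (Om_le _ _)

theorem Cm.cj (h : Cm B C) (g : G) : Cm (cj g B) (cj g C) := by
  rw [Cm, ← cj_Om, ← cj_Om, cj_cent_iff]; exact h

variable [Finite G]

namespace Ad
variable (s : Ad 𝒞 B C)
include s

theorem omN (hc : c ∈ Ω C) : c ∈ 𝐍 B := (s.symm.memN (om hc)).2 hc

theorem rs (hc : c ∈ Ω C) : c ∈ C ⇂ B := ⟨om hc, s.omN hc⟩

theorem comm (ha : a ∈ Ω B) (hc : c ∈ Ω C) : a * c = c * a := s.comm0 (s.symm.rs ha) (s.rs hc)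

theorem cm : Cm B C := fun _ ha _ hc => (s.comm ha hc).symm

theorem br (hb : b ∈ B) (hc : c ∈ Ω C) : ⁅b, c⁆ ∈ Ω B := s.res ▸ s.br0 hb (s.rs hc)

theorem br' (hb : b ∈ B) (hc : c ∈ Ω C) : ⁅c, b⁆ ∈ Ω B := br_inv_mem (s.br hb hc)

theorem brs (hb : b ∈ B) (hc : c ∈ Ω C) : ⁅c, b⁆ = ⁅b, c⁆ := br_symm (s.h.sq s.l (s.br hb hc))

theorem meml (ha : a ∈ Ω B) : a ∈ NN B C := mem_NN_left (s.symm.rs ha)

theorem memr (hc : c ∈ Ω C) : c ∈ NN B C := mem_NN_right (s.rs hc)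

theorem memP : p ∈ NN B C ↔ ∃ a ∈ Ω B, ∃ c ∈ Ω C, a * c = p := by rw [s.mem0, s.res, s.symm.res]

theorem commP (hp : p ∈ NN B C) (hx : x ∈ NN B C) : p * x = x * p := s.abel0.mul_comm hp hx

theorem infP (hp : p ∈ NN B C) (hB : p ∈ B) : p ∈ Ω B := s.res ▸ s.inf0 hp hB

theorem PN (hp : p ∈ NN B C) : p ∈ 𝐍 B := by
  obtain ⟨a, ha, c, hc, rfl⟩ := s.memP.1 hp
  exact mm (le_norm_self _ (om ha)) (s.omN hc)

theorem brP (hb : b ∈ B) (hp : p ∈ NN B C) : ⁅p, b⁆ ∈ Ω B :=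
  s.infP (br_left hp (s.el0 hb).n) ((s.el0 hb).br p hp)

theorem nN (hb : b ∈ B) (b1 : b ∉ Ω B) : b ∉ 𝐍 C := fun o => b1 ((s.memN hb).1 o)

theorem fix (hb : b ∈ B) (b1 : b ∉ Ω B) (hp : p ∈ NN B C) (e : p * b = b * p) : p ∈ Ω B :=
  s.infP hp (s.el_fix (s.el0 hb) (s.not_cent0 (s.nN hb b1)) hp e)

theorem fpf' (hb : b ∈ B) (b1 : b ∉ Ω B) (hc : c ∈ C) (e : c * b = b * c) : c = 1 := s.fpf (s.nN hb b1) hc e

theorem inj (hb : b ∈ B) (hc : c ∈ C) (c1 : c ≠ 1) (e : c * b = b * c) : b ∈ Ω B :=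
  by_contra fun o => c1 (s.fpf' hb o hc e)

theorem one (hx : x ∈ B) (hx' : x ∈ C) : x = 1 := s.h.eq_one s.l s.r s.ne hx hx'

theorem exb : ∃ b ∈ B, b ∉ Ω B := by
  obtain ⟨b, hb, b1⟩ := s.h.ne s.l; exact ⟨b, hb, fun o => b1 (s.h.sq s.l o)⟩

theorem centP (hp : p ∈ NN B C) (e : p ∈ 𝐂 B) : p ∈ Ω B := by
  obtain ⟨b, hb, b1⟩ := s.exb; exact s.fix hb b1 hp (e b hb).symm

theorem cent_r (hc : c ∈ C) (e : c ∈ 𝐂 B) : c = 1 := by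
  obtain ⟨b, hb, b1⟩ := s.exb; exact s.fpf' hb b1 hc (e b hb).symm

theorem sq4 (hb : b ∈ B) : b * b ∈ Ω B := by
  obtain ⟨c, hc, -, -, c1, -⟩ := s.h.four s.r
  refine s.inj (mm hb hb) (om hc) c1 (br_one.1 ?_)
  rw [br_sq (s.h.comm s.l hb (om (s.br' hb hc))), s.h.sq s.l (s.br' hb hc)]

theorem surj (hb : b ∈ B) (b1 : b ∉ Ω B) (ha : a ∈ Ω B) : ∃ c ∈ Ω C, ⁅c, b⁆ = a := by
  have := s.surj0 (s.nN hb b1) (fun c hc => s.br0 hb hc) (s.symm.rs ha)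
  rwa [s.symm.res] at this

theorem nBP (hb : b ∈ B) : b ∈ 𝐍 (NN B C) := (s.el0 hb).n

theorem nCP (hc : c ∈ C) : c ∈ 𝐍 (NN B C) := NN_symm C B ▸ s.symm.nBP hc

theorem nLP : B ⊔ C ≤ 𝐍 (NN B C) := sup_le (fun _ => s.nBP) fun _ => s.nCP

theorem normP (h1 : g ∈ 𝐍 B) (h2 : g ∈ 𝐍 C) : g ∈ 𝐍 (NN B C) :=
  mem_norm_sup (mem_norm_res h1 h2) (mem_norm_res h2 h1)

theorem KN (hk : k ∈ 𝐂 (NN B C)) : k ∈ 𝐍 B := by
  obtain ⟨a, ha, -, -, a1, -⟩ := s.h.four s.l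
  exact s.h.norm s.l (om ha) a1 (hk a (s.meml ha)).symm

end Ad

namespace TA
variable (h : TA 𝒞)
include h

theorem exa (hB : B ∈ 𝒞) : ∃ a ∈ Ω B, a ≠ 1 := by obtain ⟨a, ha, -, -, a1, -⟩ := h.four hB; exact ⟨a, ha, a1⟩

theorem tri (hB : B ∈ 𝒞) (hC : C ∈ 𝒞) (hx : x ∈ C) (x1 : x ≠ 1) (n : x ∈ 𝐍 B) : B ≤ 𝐂 C ∨ Ad 𝒞 B C :=
  (em _).imp_right fun o => ⟨h, hB, hC, ne_bot_of_mem ⟨hx, n⟩ x1, o⟩

theorem cm_of (hB : B ∈ 𝒞) (hC : C ∈ 𝒞) (hx : x ∈ C) (x1 : x ≠ 1) (n : x ∈ 𝐍 B) : Cm B C :=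
  (h.tri hB hC hx x1 n).elim .of_pp Ad.cm

theorem cm_of' (hB : B ∈ 𝒞) (hC : C ∈ 𝒞) (hx : x ∈ C) (x1 : x ≠ 1) (hy : y ∈ B) (y1 : y ≠ 1)
    (e : x * y = y * x) : Cm B C := h.cm_of hB hC hx x1 (h.norm hB hy y1 e)

theorem cmN (hB : B ∈ 𝒞) (m : Cm B C) (hc : c ∈ Ω C) : c ∈ 𝐍 B := by
  obtain ⟨a, ha, a1⟩ := h.exa hB
  exact h.norm hB (om ha) a1 (m.comm ha hc).symm

theorem cases (hB : B ∈ 𝒞) (hC : C ∈ 𝒞) (m : Cm B C) : B ≤ 𝐂 C ∨ Ad 𝒞 B C := by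
  obtain ⟨c, hc, c1⟩ := h.exa hC
  exact h.tri hB hC (om hc) c1 (h.cmN hB m hc)

theorem pp_of_le (hB : B ∈ 𝒞) (hC : C ∈ 𝒞) (l : B ≤ 𝐍 C) : B ≤ 𝐂 C := by
  obtain ⟨a, ha, a1⟩ := h.exa hB
  exact (h.tri hC hB (om ha) a1 (l (om ha))).elim cent_symm fun s => (s.symm.nl l).elim

theorem pp_of_cent (hB : B ∈ 𝒞) (hC : C ∈ 𝒞) (hx : x ∈ C) (x1 : x ≠ 1) (e : x ∈ 𝐂 B) : B ≤ 𝐂 C :=
  h.pp_of_le hB hC fun b hb => h.norm hC hx x1 (e b hb)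

theorem cm_refl (hB : B ∈ 𝒞) : Cm B B := .of_pp (h.ab hB)

end TA

namespace Ad
variable (s : Ad 𝒞 B C)
include s

theorem card_NN : ♯(NN B C) = ♯(Ω B) * ♯(Ω B) := by
  rw [s.NN_eq, card_sup_of_inf_bot (.inl (norm_of_cent s.cm))
    (eq_bot_of_forall fun x hx => s.one (om hx.1) (om hx.2)), s.h.card_om s.r s.l]

theorem on (hD : D ∈ 𝒞) (l : Ω D ≤ NN B C) (ne : B ≠ D) : Ad 𝒞 B D ∧ NN B D = NN B C := by
  obtain ⟨d, hd, d1⟩ := s.h.exa hD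
  have t := (s.h.tri s.l hD (om hd) d1 (s.PN (l hd))).resolve_left fun o =>
    d1 (s.h.eq_one s.l hD ne (om (s.centP (l hd) (cent_symm o (om hd)))) (om hd))
  refine ⟨t, eq_of_card_eq ?_ (t.card_NN.trans s.card_NN.symm)⟩
  rw [t.NN_eq]; exact sup_le (fun _ => s.meml) l

theorem on2 (hD : D ∈ 𝒞) (hE : E ∈ 𝒞) (l : Ω D ≤ NN B C) (l' : Ω E ≤ NN B C) (ne : D ≠ E) :
    Ad 𝒞 D E ∧ NN D E = NN B C := by
  by_cases k : B = D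
  · subst k; exact s.on hE l' ne
  obtain ⟨t, e⟩ := s.on hD l k
  have := t.symm.on hE (by rwa [NN_symm, e]) ne
  rwa [NN_symm D B, e] at this

theorem cj_on (hg : g ∈ 𝐍 (NN B C)) (l : Ω D ≤ NN B C) : Ω (BG.cj g D) ≤ NN B C :=
  cj_Om g 2 D ▸ cj_le_of_norm hg l

theorem ad_cj (hb : b ∈ B) (b1 : b ∉ Ω B) : Ad 𝒞 C (BG.cj b C) ∧ NN C (BG.cj b C) = NN B C :=
  s.on2 s.r (s.h.cj b s.r) (fun _ => s.memr) (s.cj_on (s.nBP hb) fun _ => s.memr)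
    fun e => s.nN hb b1 (cj_eq_self.1 e.symm)

theorem mem_of_sq (hb : b ∈ B) (hb' : b' ∈ B) (e : b * b = b' * b') : b * b'⁻¹ ∈ Ω B := by
  refine (s.h.mem_om s.l).2 ⟨mm hb (im hb'), ?_⟩
  rw [mul_assoc, ← mul_assoc b'⁻¹, s.h.comm s.l (im hb') hb, mul_assoc, ← mul_assoc, e]; group

theorem sq_of_mem (hb' : b' ∈ B) (e : b * b'⁻¹ ∈ Ω B) : b * b = b' * b' := by
  obtain ⟨a, rfl⟩ : ∃ a, b = a * b' := ⟨b * b'⁻¹, by group⟩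
  rw [mul_inv_cancel_right] at e
  rw [mul_assoc, ← mul_assoc b', s.h.comm s.l hb' (om e), mul_assoc, sq_left (s.h.sq s.l e)]

theorem brN (hk : k ∈ 𝐍 B) (e : ∀ a ∈ Ω B, a * k = k * a) (hb : b ∈ B) : ⁅k, b⁆ ∈ Ω B :=
  s.mem_of_sq (conj_mem_of_norm hk hb) hb (by rw [conj_mul, cj_of_comm (e _ (s.sq4 hb)).symm])

theorem brK (hk : k ∈ 𝐂 (NN B C)) (hb : b ∈ B) : ⁅k, b⁆ ∈ Ω B := s.brN (s.KN hk) (fun a ha => hk a (s.meml ha)) hb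

theorem KL (hk : k ∈ 𝐂 (NN B C)) (hl : l ∈ B ⊔ C) : ⁅l, k⁆ ∈ NN B C :=
  br_sup (fun _ => s.nBP) (fun _ => s.nCP) (fun _ hb => s.meml (br_inv_mem (s.brK hk hb)))
    (fun _ hb => s.memr (br_inv_mem (s.symm.brK (NN_symm B C ▸ hk) hb))) hl

theorem sqK (hk : k ∈ 𝐂 (NN B C)) : k * k ∈ 𝐂 B := fun b hb => (br_one.1 (by
  rw [sq_br (hk _ (s.meml (s.brK hk hb))).symm, s.h.sq s.l (s.brK hk hb)])).symm

theorem axis (hD : D ∈ 𝒞) (r : El (NN B C) D e) (hb : b ∈ B) (b1 : b ∉ Ω B) (k : b * e⁻¹ ∈ 𝐂 (NN B C)) : D = B := by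
  obtain ⟨c, hc, c1⟩ := s.h.exa s.r
  exact s.h.ti hD s.l (br_congr k r.n (s.memr hc) ▸ r.br c (s.memr hc)) (om (s.br' hb hc))
    fun o => c1 (s.fpf' hb b1 (om hc) (br_one.1 o))

theorem swap : ∃ w ∈ B ⊔ C, BG.cj w B = C := by
  obtain ⟨b, hb, b1⟩ := s.exb
  obtain ⟨f, hf, f1⟩ := s.symm.exb
  have rf := s.symm.el0 hf
  have f2 := s.symm.not_cent0 (s.symm.nN hf f1)
  rw [NN_symm] at rf f2
  obtain ⟨g, hg, k⟩ := s.el_conj (s.el0 hb) (s.not_cent0 (s.nN hb b1)) rf f2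
  have m := sup_le_sup (zpowers_le.2 hb) (zpowers_le.2 hf) hg
  have r := (s.el0 hb).cj (s.nLP m)
  rw [NN_symm] at r k
  exact ⟨g, m, s.symm.axis (s.h.cj g s.l) r hf f1 (me (im k) (by group))⟩

theorem F2 (hk : k ∈ 𝐂 (NN B C)) (hj : k ∈ 𝐂 B) : ∃ a ∈ Ω B, a * k ∈ 𝐂 C := by
  obtain ⟨w, hw, e⟩ := s.swap
  obtain ⟨a, ha, c, hc, k1⟩ := s.memP.1 (s.KL hk hw)
  have : w * k * w⁻¹ ∈ 𝐂 C := e ▸ cj_cent w B ▸ conj_mem_cj.2 hj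
  rw [cj_eq_br, ← k1, s.comm ha hc, mul_assoc] at this
  exact ⟨a, ha, me (mm (im (s.h.ab s.r (om hc))) this) (by group)⟩

theorem elb (r : El (NN B C) B e) : ∃ b ∈ B, b * e⁻¹ ∈ 𝐂 (NN B C) := by
  by_cases e1 : e ∈ 𝐂 (NN B C)
  · exact ⟨1, one_mem _, by simpa using e1⟩
  obtain ⟨b, hb, b1⟩ := s.exb
  obtain ⟨l, -, hl, k⟩ := s.el_trans r e1 hb (s.nN hb b1)
  exact ⟨_, conj_mem_of_norm hl hb, k⟩

theorem elinv (ee : e * e = 1) (hb : b ∈ B) (k : b * e⁻¹ ∈ 𝐂 (NN B C)) : ⁅b, e⁆ = b * b := by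
  have n : e ∈ 𝐍 B := me (mm (im (s.KN k)) (le_norm_self _ hb)) (by group)
  have e1 : b * e⁻¹ * (b * e⁻¹) = b * (e * b * e⁻¹) := by rw [inv_of_sq ee]; group
  have := s.symm.cent_r (mm hb (conj_mem_of_norm n hb)) (e1 ▸ s.symm.sqK (NN_symm B C ▸ k))
  calc _ = b * (e * b * e⁻¹)⁻¹ := by rw [br_def]; group
    _ = _ := by rw [← inv_eq_of_mul_eq_one_right this, inv_inv]

theorem trans (hb : b ∈ B) (b1 : b ∉ Ω B) (hb' : b' ∈ B) (b1' : b' ∉ Ω B) :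
    ∃ l ∈ B ⊔ C, l ∈ 𝐍 B ∧ l * b * l⁻¹ * b'⁻¹ ∈ Ω B := by
  obtain ⟨l, hl, n, k⟩ := s.el_trans (s.el0 hb') (s.not_cent0 (s.nN hb' b1')) hb (s.nN hb b1)
  have m := mm (conj_mem_of_norm n hb) (im hb')
  exact ⟨l, sup_le le_rfl (le_sup_of_le_left (zpowers_le.2 hb')) hl, n, by_contra fun o => s.not_cent0 (s.nN m o) k⟩

theorem el_of (h1 : d ∈ 𝐍 (NN B C)) (e : ∀ a ∈ Ω B, a * d = d * a) (h2 : d ∈ 𝐍 B) : El (NN B C) B d := by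
  refine ⟨h1, fun p hp => ?_, fun p hp hp' => e p (s.infP hp hp')⟩
  obtain ⟨b, hb, b1⟩ := s.exb
  have m := conj_mem_of_norm h1 hp
  have k : ⁅d * p * d⁻¹, d * b * d⁻¹⁆ = ⁅p, b⁆ := by rw [← br_cj, cj_of_comm (e _ (s.brP hb hp)).symm]
  rw [cj_eq_br d b, s.h.comm s.l (om (s.brN h2 e hb)) hb,
    br_mul_comm (s.commP m (s.meml (s.brN h2 e hb)))] at k
  have := s.fix hb b1 (mm (im m) hp) (comm_of_br_eq k)
  rw [s.commP (im m) hp] at this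
  exact me (om this) (by rw [br_def]; group)

theorem fixpt (ht : t ∈ 𝐍 (NN B C)) (tt : t * t = 1) : ∃ D ∈ 𝒞, Ω D ≤ NN B C ∧ t ∈ 𝐍 D := by
  classical
  let X := {D // D ∈ 𝒞 ∧ Ω D ≤ NN B C}
  have : Fintype X := Fintype.ofFinite X
  let f : ∀ g ∈ 𝐍 (NN B C), Function.End X := fun g hg D => ⟨BG.cj g D.1, s.h.cj g D.2.1, s.cj_on hg D.2.2⟩
  have key : ∀ g hg, (∀ D : X, g * g ∈ 𝐍 D.1) → Fintype.card X ≡ Fintype.card (f g hg).fixedPoints [MOD 2] :=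
    fun g hg H => Equiv.Perm.card_fixedPoints_modEq (p := 2) (n := 1) (funext fun D => Subtype.ext
      ((cj_cj g g D.1).trans (cj_of_norm (H D))))
  obtain ⟨b, hb, b1⟩ := s.exb
  have k1 := key b (s.nBP hb) fun D => by
    obtain ⟨d, hd, d1⟩ := s.h.exa D.2.1
    exact s.h.norm D.2.1 (om hd) d1 (s.commP (s.meml (s.sq4 hb)) (D.2.2 hd))
  have k2 := key t ht fun D => tt ▸ one_mem _
  have e : Fintype.card (f b (s.nBP hb)).fixedPoints = 1 := Fintype.card_eq_one_iff.2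
    ⟨⟨⟨B, s.l, fun _ => s.meml⟩, Subtype.ext (cj_of_mem hb)⟩, fun D => Subtype.ext (Subtype.ext (by_contra fun o =>
      (s.on D.1.2.1 D.1.2.2 (Ne.symm o)).1.nN hb b1 (cj_eq_self.1 (congrArg Subtype.val D.2))))⟩
  obtain ⟨⟨D, hD⟩⟩ : Nonempty (f t ht).fixedPoints := Fintype.card_pos_iff.1 (by
    rw [e] at k1; have := k1.symm.trans k2; unfold Nat.ModEq at this; omega)
  exact ⟨D.1, D.2.1, D.2.2, cj_eq_self.1 (congrArg Subtype.val hD)⟩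

end Ad

end CF.Geom.Ta
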