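import Cfsg.Agent.Geom.Ta2

/-! Triangles of members force `B ≅ Z₄ × Z₄`. -/

namespace CF.Geom.Ta
open Subgroup CF.BG CF.Xs CF.Geom.Tm
open scoped commutatorElement
set_option linter.unusedSectionVars false

variable {G : Type*} [Group G]
variable {𝒞 : Set (Subgroup G)} {A B C D E P Q R S T U V W Y Z : Subgroup G}
  {a a' b b' c c' d e g k l p u v w x y z : G}

theorem ncard4 (a1 : a ≠ 1) (b1 : b ≠ 1) (ab : a ≠ b) (aa : a * a = 1) : ({1, a, b, a * b} : Set G).ncard = 4 := by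
  have e1 : a * b ≠ 1 := fun e => ab (mul_left_cancel (aa.trans e.symm))
  have e2 : a * b ≠ a := by simpa using b1
  have e3 : a * b ≠ b := by simpa using a1
  exact Set.ncard_eq_four.2 ⟨_, _, _, _, a1.symm, b1.symm, e1.symm, ab, e2.symm, e3.symm, rfl⟩

theorem sub4 (ha : a ∈ V) (hb : b ∈ V) : ({1, a, b, a * b} : Set G) ⊆ V := by
  rintro _ (rfl | rfl | rfl | rfl)
  exacts [one_mem V, ha, hb, mm ha hb]

theorem card_four (ha : a ∈ V) (hb : b ∈ V) (a1 : a ≠ 1) (b1 : b ≠ 1) (ab : a ≠ b) (aa : a * a = 1)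
    (h : ∀ x ∈ V, x = 1 ∨ x = a ∨ x = b ∨ x = a * b) : ♯V = 4 := by
  rw [← ncard4 a1 b1 ab aa, (sub4 ha hb).antisymm h]; rfl

theorem four_cases [Finite G] (h : ♯V = 4) (ha : a ∈ V) (hb : b ∈ V) (a1 : a ≠ 1) (b1 : b ≠ 1) (ab : a ≠ b)
    (aa : a * a = 1) (hx : x ∈ V) : x = 1 ∨ x = a ∨ x = b ∨ x = a * b :=
  (Set.eq_of_subset_of_ncard_le (sub4 ha hb) (h.trans (ncard4 a1 b1 ab aa).symm).le).ge hx

theorem br_fix (hv : v * v = 1) (h : ⁅u, v⁆ * ⁅u, v⁆ = 1) : v * ⁅u, v⁆ = ⁅u, v⁆ * v := by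
  rw [← mul_inv_eq_iff_eq_mul, cj_br hv, inv_of_sq h]

theorem br_eq_mul (hu : u * u = 1) (v : G) : ⁅u, v⁆ = u * (v * u * v⁻¹) := by
  rw [br_def, inv_of_sq hu]; group

/-- pairs whose involutions generate a group of class two -/
structure C2 (𝒞 : Set (Subgroup G)) (S T : Subgroup G) : Prop where
  h : TA 𝒞
  l : S ∈ 𝒞
  r : T ∈ 𝒞
  nc : ¬ Cm S T
  cl : ∀ u ∈ Ω S, ∀ v ∈ Ω T, ∀ x ∈ Ω S, x * ⁅u, v⁆ = ⁅u, v⁆ * x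
  cr : ∀ u ∈ Ω S, ∀ v ∈ Ω T, ∀ x ∈ Ω T, x * ⁅u, v⁆ = ⁅u, v⁆ * x

/-- triangles -/
structure Tri (𝒞 : Set (Subgroup G)) (Z S T : Subgroup G) : Prop where
  l : Ad 𝒞 Z S
  r : Ad 𝒞 Z T
  br : ∀ u ∈ Ω S, ∀ v ∈ Ω T, ⁅u, v⁆ ∈ Ω Z
  nc : ¬ Cm S T

theorem C2.symm (s : C2 𝒞 S T) : C2 𝒞 T S :=
  ⟨s.h, s.r, s.l, fun e => s.nc e.symm,
    fun u hu v hv x hx => by rw [← commutatorElement_inv]; exact (inv_cent (s.cr v hv u hu x hx).symm).symm,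
    fun u hu v hv x hx => by rw [← commutatorElement_inv]; exact (inv_cent (s.cl v hv u hu x hx).symm).symm⟩

theorem Tri.symm (t : Tri 𝒞 Z S T) : Tri 𝒞 Z T S :=
  ⟨t.r, t.l, fun u hu v hv => br_inv_mem (t.br v hv u hu), fun e => t.nc e.symm⟩

protected theorem Tri.cj (t : Tri 𝒞 Z S T) (g : G) : Tri 𝒞 (cj g Z) (cj g S) (cj g T) :=
  ⟨t.l.cj g, t.r.cj g, fun u hu v hv => me (cj_om g (t.br _ (om_cj hu) _ (om_cj hv))) (by rw [br_cj]; group),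
    fun e => t.nc (by simpa using e.cj g⁻¹)⟩

variable [Finite G]

namespace TA
variable (h : TA 𝒞)
include h

theorem nd (hS : S ∈ 𝒞) (hT : T ∈ 𝒞) (n : ¬ Cm S T) (hu : u ∈ S) (u1 : u ≠ 1) (hv : v ∈ T) (v1 : v ≠ 1) :
    ⁅u, v⁆ ≠ 1 := fun e => n (h.cm_of' hS hT hv v1 hu u1 (br_one.1 e).symm)

theorem four_arg (hS : S ∈ 𝒞) (hT : T ∈ 𝒞) (H : ∀ v ∈ Ω T, S ≤ 𝐂 (BG.cj v S)) : Cm S T := by
  by_contra n
  obtain ⟨d, hd, dd⟩ := h.ne hS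
  obtain ⟨v, hv, w, hw, v1, w1, vw⟩ := h.four hT
  have c : ∀ v ∈ Ω T, v * d * v⁻¹ ∈ 𝐂 S := fun v hv => cent_symm (H v hv) (conj_mem_cj.2 hd)
  have key : ∀ v ∈ Ω T, v ≠ 1 → ∀ w ∈ Ω T, w * d * w⁻¹ * (w * v * d * (w * v)⁻¹) = d * (v * d * v⁻¹) :=
    fun v hv v1 w hw => by
    have e : d * (v * d * v⁻¹) * v = v * (d * (v * d * v⁻¹)) := by
      conv_rhs => rw [c v hv d hd]
      simp only [inv_of_sq (h.sq hT hv)]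
      simp only [mul_assoc, sq_left (h.sq hT hv), h.sq hT hv, mul_one]
    have e1 : ⁅w, d * (v * d * v⁻¹)⁆ = w * d * w⁻¹ * (w * v * d * (w * v)⁻¹) * (d * (v * d * v⁻¹))⁻¹ := by
      rw [br_def]; group
    refine mul_inv_eq_one.1 (e1 ▸ by_contra fun o => n (.of_pp (h.pp_of_cent hS hT
      (br_left (om hw) (h.norm hT (om hv) v1 e)) o ?_)))
    exact e1 ▸ mm (mm (c w hw) (c _ (mm hw hv))) (im (mm (h.ab hS hd) (c v hv)))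
  have k1 := key v hv v1 w hw
  have k2 := key w hw w1 v hv
  rw [h.comm hT (om hv) (om hw)] at k2
  have c1 := c v hv d hd
  have c2 := c w hw d hd
  have c3 : v * d * v⁻¹ * (w * d * w⁻¹) = w * d * w⁻¹ * (v * d * v⁻¹) := by
    have := cj_comm' v (c _ (mm (im hv) hw) d hd)
    calc _ = _ := by group
      _ = _ := this
      _ = _ := by group
  have k : v * d * v⁻¹ * (v * d * v⁻¹) = w * d * w⁻¹ * (w * d * w⁻¹) := by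
    generalize v * d * v⁻¹ = x at *
    generalize w * d * w⁻¹ = y at *
    refine mul_left_cancel (a := d) ?_
    rw [← mul_assoc, c1, mul_assoc, ← k1, ← mul_assoc, c3, mul_assoc, k2, ← mul_assoc, ← c2, mul_assoc]
  refine h.nd hS hT n (mm hd hd) dd (om (mm (im hw) hv)) (fun e => vw (inv_mul_eq_one.1 e).symm) (br_one.2 ?_)
  rw [conj_mul, conj_mul] at k
  calc _ = w⁻¹ * (w * (d * d) * w⁻¹) * v := by group
    _ = _ := by rw [← k]; group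

theorem c2_of (hS : S ∈ 𝒞) (hT : T ∈ 𝒞) (n : ¬ Cm S T) (H : ∀ v ∈ Ω T, Cm S (BG.cj v S)) : C2 𝒞 S T := by
  have c : ∀ u ∈ Ω S, ∀ v ∈ Ω T, v * u * v⁻¹ ∈ 𝐂 (Ω S) := fun u hu v hv => (H v hv).symm (cj_om v hu)
  have c' : ∀ u ∈ Ω S, ∀ v ∈ Ω T, ⁅u, v⁆ ∈ 𝐂 (Ω S) := fun u hu v hv =>
    br_eq_mul (h.sq hS hu) v ▸ mm (h.cm_refl hS hu) (c u hu v hv)
  refine ⟨h, hS, hT, n, c', fun u hu v hv x hx => ?_⟩
  by_cases v1 : v = 1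
  · simp [v1]
  have e := br_fix (u := u) (h.sq hT hv) (by
    rw [br_eq_mul (h.sq hS hu)]
    exact sq_mul (h.sq hS hu) (by rw [conj_mul, h.sq hS hu]; simp) (c u hu v hv u hu).symm)
  obtain ⟨a, ha, a1⟩ := h.exa hS
  refine br_one.1 (by_contra fun o => n (h.cm_of' hS hT (br_left (om hx) (h.norm hT (om hv) v1 e.symm)) o (om ha) a1
    ((?_ : _ ∈ 𝐂 (Ω S)) a ha).symm))
  refine me (mm (mm (c u hu x hx) (c u hu _ (mm hx hv))) (im (c' u hu v hv))) ?_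
  rw [br_def x, br_eq_mul (h.sq hS hu)]; group

end TA

namespace C2
variable (s : C2 𝒞 S T)
include s

theorem nd (hu : u ∈ S) (u1 : u ≠ 1) (hv : v ∈ T) (v1 : v ≠ 1) : ⁅u, v⁆ ≠ 1 := s.h.nd s.l s.r s.nc hu u1 hv v1

theorem cm (hv : v ∈ Ω T) : Cm S (cj v S) := fun x hx y hy => by
  have := mul_cent (s.symm.cr v hv _ (om_cj hy) x hx).symm (s.h.comm s.l (om (om_cj hy)) (om hx))
  rwa [← cj_eq_br, show v * (v⁻¹ * y * v) * v⁻¹ = y by group] at this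

theorem aux (hv : v ∈ Ω T) (r : Ad 𝒞 S (cj v S)) : ∃ Z, Ad 𝒞 S Z ∧ (∀ u ∈ Ω S, ⁅u, v⁆ ∈ Ω Z) ∧ Cm Z T := by
  have vv := s.h.sq s.r hv
  have v1 : v ≠ 1 := by rintro rfl; exact r.ne (cj_one _).symm
  obtain ⟨Z, hZ, l, n⟩ := r.fixpt (t := v) (cj_eq_self.1 (by rw [cj_NN, cj_cj, vv, cj_one, NN_symm])) vv
  have m := s.h.cm_of hZ s.r (om hv) v1 n
  obtain ⟨r', e⟩ := r.on hZ l (by rintro rfl; exact s.nc m)
  refine ⟨Z, r', fun u hu => ?_, m⟩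
  obtain ⟨a, ha, z, hz, k⟩ := r'.memP.1 (e ▸ br_eq_mul (s.h.sq s.l hu) v ▸ mm (r.meml hu) (r.memr (cj_om v hu)) :
    ⁅u, v⁆ ∈ NN S Z)
  obtain rfl : a = 1 := by_contra fun o => s.nd (om ha) o (om hv) v1 (br_one.2 (by
    have := mul_cent (s.cr u hu v hv v hv).symm (inv_cent (m.comm hz hv))
    rwa [← k, mul_inv_cancel_right] at this))
  rwa [← k, one_mul]

theorem tri : ∃ Z, Tri 𝒞 Z S T ∧ ∀ v ∈ Ω T, v ≠ 1 → Ad 𝒞 S (cj v S) := by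
  have ex : ∀ {S T}, C2 𝒞 S T → ∃ v ∈ Ω T, Ad 𝒞 S (cj v S) := fun s => by
    by_contra! H
    exact s.nc (s.h.four_arg s.l s.r fun v hv => (s.h.cases s.l (s.h.cj v s.l) (s.cm hv)).resolve_right (H v hv))
  obtain ⟨v, hv, r⟩ := ex s
  obtain ⟨u, hu, r'⟩ := ex s.symm
  obtain ⟨Z, a1, b1, -⟩ := s.aux hv r
  obtain ⟨Z', a2, b2, -⟩ := s.symm.aux hu r'
  have v1 : v ≠ 1 := by rintro rfl; exact r.ne (cj_one _).symm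
  have u1 : u ≠ 1 := by rintro rfl; exact r'.ne (cj_one _).symm
  obtain rfl := s.h.ti a1.r a2.r (om (b1 u hu)) (om (br_inv_mem (b2 v hv))) (s.nd (om hu) u1 (om hv) v1)
  have k : ∀ v ∈ Ω T, v ≠ 1 → Ad 𝒞 S (cj v S) := fun v hv v1 =>
    (s.h.cases s.l (s.h.cj v s.l) (s.cm hv)).resolve_left fun o => s.symm.nd (om hv) v1 (om hu) u1
      (a1.cent_r (om (b2 v hv)) (mm (cent_symm o (conj_mem_cj.2 (om hu))) (im (s.h.ab s.l (om hu)))))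
  refine ⟨Z, ⟨a1.symm, a2.symm, fun x hx v hv => ?_, s.nc⟩, k⟩
  by_cases v1 : v = 1
  · simp [v1]
  obtain ⟨Z', a3, b3, -⟩ := s.aux hv (k v hv v1)
  obtain rfl := s.h.ti a1.r a3.r (om (br_inv_mem (b2 v hv))) (om (b3 u hu)) (s.nd (om hu) u1 (om hv) v1)
  exact b3 x hx

end C2

/-- `|B| = |Ω B|²` -/
def Fu (𝒞 : Set (Subgroup G)) : Prop := ∀ B ∈ 𝒞, ♯B = ♯(Ω B) * ♯(Ω B)

namespace Ad
variable (s : Ad 𝒞 B C)
include s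

theorem brP' (hb : b ∈ B) (hp : p ∈ NN B C) : ⁅b, p⁆ ∈ Ω B := br_inv_mem (s.brP hb hp)

theorem ca (ha : a ∈ Ω B) (hb : b ∈ B) : a * b = b * a := s.h.comm s.l (om ha) hb

theorem sa (ha : a ∈ Ω B) : a * a = 1 := s.h.sq s.l ha

theorem cA (x y : G) (hx : x ∈ Ω B) (hy : y ∈ Ω B) : x * y = y * x := s.ca hx (om hy)

theorem lA (x y z : G) (hx : x ∈ Ω B) (hy : y ∈ Ω B) : x * (y * z) = y * (x * z) := by
  rw [← mul_assoc, s.cA x y hx hy, mul_assoc]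

theorem sA (x z : G) (hx : x ∈ Ω B) : x * (x * z) = z := sq_left (s.sa hx) z

theorem sq_mul' (hb : b ∈ B) (hb' : b' ∈ B) : b * b' * (b * b') = b * b * (b' * b') := by
  rw [mul_assoc, ← mul_assoc b', s.h.comm s.l hb' hb]; simp only [mul_assoc]

theorem brl (hb : b ∈ B) (hb' : b' ∈ B) (hp : p ∈ NN B C) : ⁅b * b', p⁆ = ⁅b, p⁆ * ⁅b', p⁆ := by
  rw [br_mul, cj_of_comm (s.ca (s.brP' hb' hp) hb).symm, s.ca (s.brP' hb' hp) (om (s.brP' hb hp))]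

theorem brr (hb : b ∈ B) (hp : p ∈ NN B C) (hx : x ∈ NN B C) : ⁅b, p * x⁆ = ⁅b, p⁆ * ⁅b, x⁆ := by
  rw [br_mul', cj_of_comm (s.commP hp (s.meml (s.brP' hb hx)))]

theorem br_eq (hb' : b' ∈ B) (e : b * b'⁻¹ ∈ Ω B) (hp : p ∈ NN B C) : ⁅b, p⁆ = ⁅b', p⁆ := by
  rw [← inv_mul_cancel_right b b', s.brl (om e) hb' hp, br_one.2 (s.commP (s.meml e) hp), one_mul]

theorem eq_of_br (hb : b ∈ B) (b1 : b ∉ Ω B) (hc : c ∈ Ω C) (hc' : c' ∈ Ω C) (e : ⁅b, c⁆ = ⁅b, c'⁆) : c = c' := by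
  have := s.fpf' hb b1 (om (mm hc hc')) (br_one.1 (by
    rw [s.brr hb (s.memr hc) (s.memr hc'), e, s.sa (s.br hb hc')])).symm
  rw [← inv_eq_of_mul_eq_one_right this, inv_of_sq (s.symm.sa hc)]

theorem mem_of_br (hb : b ∈ B) (hb' : b' ∈ B) (hc : c ∈ Ω C) (c1 : c ≠ 1) (e : ⁅b, c⁆ = ⁅b', c⁆) : b * b'⁻¹ ∈ Ω B := by
  have := s.inj (mm hb hb') (om hc) c1 (br_one.1 (by rw [s.brl hb hb' (s.memr hc), e, s.sa (s.br hb' hc)])).symm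
  exact me (mm this (im (s.sq4 hb'))) (by group)

theorem inf_cent (hc : c ∈ Ω C) (c1 : c ≠ 1) : B ⊓ 𝐂₁ c = Ω B :=
  le_antisymm (fun _ hb => s.inj hb.1 (om hc) c1 (mem_cent1.1 hb.2).symm)
    fun _ ha => ⟨om ha, mem_cent1.2 (s.comm ha hc)⟩

theorem surj' (hb : b ∈ B) (b1 : b ∉ Ω B) (ha : a ∈ Ω B) : ∃ c ∈ Ω C, ⁅b, c⁆ = a := by
  obtain ⟨c, hc, e⟩ := s.surj hb b1 ha; exact ⟨c, hc, s.brs hb hc ▸ e⟩

variable (f : Fu 𝒞)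
include f

theorem full (hc : c ∈ Ω C) (c1 : c ≠ 1) (ha : a ∈ Ω B) : ∃ b ∈ B, ⁅b, c⁆ = a :=
  (Bil.of_abel (s.h.ab s.l) (s.omN hc)).surj (fun _ hb => s.br hb hc) (by rw [s.inf_cent hc c1, f B s.l]) ha

theorem sqrt (ha : a ∈ Ω B) : ∃ b ∈ B, b * b = a := by
  let φ : B →* G := MonoidHom.mk' (fun b => b * b) fun x y => by
    simp only [coe_mul, mul_assoc]; rw [← mul_assoc y.1, s.h.comm s.l y.2 x.2, mul_assoc]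
  have k : φ.ker = (Ω B).subgroupOf B := Subgroup.ext fun b =>
    ⟨fun h => (s.h.mem_om s.l).2 ⟨b.2, h⟩, fun h => s.sa h⟩
  have c := φ.ker.card_eq_card_quotient_mul_card_subgroup
  rw [Nat.card_congr (QuotientGroup.quotientKerEquivRange φ).toEquiv, k, card_subgroupOf' (Om_le _ _), f B s.l] at c
  obtain ⟨b, rfl⟩ := (eq_of_card_eq (H := φ.range) (by rintro _ ⟨b, rfl⟩; exact s.sq4 b.2)
    (Nat.eq_of_mul_eq_mul_right (card_pos' _) c).symm).ge ha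
  exact ⟨b, b.2, rfl⟩

theorem spread (hp : p ∈ NN B C) : ∃ D ∈ 𝒞, Ω D ≤ NN B C ∧ p ∈ Ω D := by
  obtain ⟨a, ha, c, hc, rfl⟩ := s.memP.1 hp
  by_cases c1 : c = 1
  · exact ⟨B, s.l, fun _ => s.meml, by simpa [c1] using ha⟩
  obtain ⟨b, hb, rfl⟩ := s.full f hc c1 ha
  exact ⟨_, s.h.cj b s.r, s.cj_on (s.nBP hb) fun _ => s.memr, cj_eq_br b c ▸ cj_om b hc⟩

theorem wb (hb : b ∈ B) (b1 : b ∉ Ω B) : ∃ g ∈ C, BG.cj g B = BG.cj b C ∧ ∀ w, w = b⁻¹ * g * b⁻¹ →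
    BG.cj w B = C ∧ ∀ c ∈ Ω C, w * c * w⁻¹ = ⁅b, c⁆ ∧ w * ⁅b, c⁆ * w⁻¹ = c := by
  obtain ⟨c, hc, c1⟩ := s.h.exa s.r
  have a1 : ⁅b, c⁆ ≠ 1 := fun o => c1 (s.fpf' hb b1 (om hc) (br_one.1 o).symm)
  obtain ⟨g, hg, e⟩ := s.symm.full f (s.br hb hc) a1 hc
  have k : BG.cj g B = BG.cj b C := s.h.cj_eq s.l (s.h.cj b s.r) (om (s.br hb hc)) a1 (by
    rw [cj_eq_br, e, ← s.comm (s.br hb hc) hc, ← cj_eq_br]; exact conj_mem_cj.2 (om hc))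
  have key : ∀ c ∈ Ω C, g * ⁅b, c⁆ * g⁻¹ = ⁅b, c⁆ * c := fun c hc => by
    have m := om_cj (k ▸ cj_om b hc)
    obtain ⟨a, ha⟩ : ∃ a, a = g⁻¹ * (b * c * b⁻¹) * g := ⟨_, rfl⟩
    rw [← ha] at m
    have e : ⁅b, c⁆ * c = a * ⁅g, a⁆ := by
      rw [s.comm m (s.symm.br hg m), ← cj_eq_br, ← cj_eq_br, ha]; group
    have e1 : a⁻¹ * ⁅b, c⁆ = ⁅g, a⁆ * c⁻¹ := by rw [← mul_inv_cancel_right ⁅b, c⁆ c, e]; group
    have e2 := s.one (om (mm (im m) (s.br hb hc))) (e1 ▸ om (mm (s.symm.br hg m) (im hc)))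
    conv_lhs => rw [← inv_mul_eq_one.1 e2]
    rw [e, cj_eq_br, s.comm m (s.symm.br hg m)]
  have bi : ∀ c ∈ Ω C, b⁻¹ * c * b = ⁅b, c⁆ * c := fun c hc => by
    rw [← s.br_eq (b := b⁻¹) hb (me (im (s.sq4 hb)) (by group)) (s.memr hc), ← cj_eq_br, inv_inv]
  have k2 : ∀ c ∈ Ω C, b⁻¹ * g * b⁻¹ * c * (b⁻¹ * g * b⁻¹)⁻¹ = ⁅b, c⁆ ∧
      b⁻¹ * g * b⁻¹ * ⁅b, c⁆ * (b⁻¹ * g * b⁻¹)⁻¹ = c := fun c hc => by
    have m := s.br hb hc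
    have o : b⁻¹ * ⁅b, c⁆ * b = ⁅b, c⁆ := by rw [mul_assoc, s.ca m hb, inv_mul_cancel_left]
    constructor
    · calc _ = b⁻¹ * (g * (b⁻¹ * c * b) * g⁻¹) * b := by group
        _ = _ := by
          rw [bi c hc, ← conj_mul, key c hc, cj_of_comm (s.symm.ca hc hg).symm, mul_assoc _ c, s.symm.sa hc, mul_one, o]
    · calc _ = b⁻¹ * (g * (b⁻¹ * ⁅b, c⁆ * b) * g⁻¹) * b := by group
        _ = b⁻¹ * ⁅b, c⁆ * b * (b⁻¹ * c * b) := by (conv_lhs => rw [o, key c hc]); simp [mul_assoc]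
        _ = _ := by rw [o, bi c hc, sq_left (s.sa m)]
  refine ⟨g, hg, k, ?_⟩
  rintro _ rfl
  exact ⟨s.h.cj_eq s.l s.r (om (s.br hb hc)) a1 ((k2 c hc).2.symm ▸ om hc), k2⟩

theorem wb' (hb : b ∈ B) (b1 : b ∉ Ω B) : ∃ w ∈ B ⊔ C, ∀ c ∈ Ω C, w * c * w⁻¹ = ⁅b, c⁆ ∧ w * ⁅b, c⁆ * w⁻¹ = c := by
  obtain ⟨g, hg, -, k⟩ := s.wb f hb b1
  exact ⟨_, mm (mm (mem_sup_left (im hb)) (mem_sup_right hg)) (mem_sup_left (im hb)), (k _ rfl).2⟩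

theorem trP (ha : a ∈ Ω B) (a1 : a ≠ 1) (hc : c ∈ Ω C) (c1 : c ≠ 1) : ∃ l ∈ B ⊔ C, l * a * l⁻¹ = c := by
  obtain ⟨b, hb, rfl⟩ := s.full f hc c1 ha
  obtain ⟨w, hw, k⟩ := s.wb' f hb fun o => a1 (br_one.2 (s.comm o hc))
  exact ⟨w, hw, (k c hc).2⟩

theorem trA (ha : a ∈ Ω B) (a1 : a ≠ 1) (ha' : a' ∈ Ω B) (a1' : a' ≠ 1) :
    ∃ l ∈ B ⊔ C, l ∈ 𝐍 B ∧ l * a * l⁻¹ = a' := by
  obtain ⟨c, hc, c1⟩ := s.h.exa s.r
  obtain ⟨l, hl, e⟩ := s.trP f ha a1 hc c1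
  obtain ⟨l', hl', e'⟩ := s.trP f ha' a1' hc c1
  have k : l'⁻¹ * l * a * (l'⁻¹ * l)⁻¹ = a' := by
    calc _ = l'⁻¹ * (l * a * l⁻¹) * l' := by group
      _ = _ := by rw [e, ← e']; group
  exact ⟨_, mm (im hl') hl, cj_eq_self.1 (s.h.cj_eq s.l s.l (om ha) a1 (k ▸ om ha')), k⟩

/-- the torus elements -/
theorem tor (hb : b ∈ B) (b1 : b ∉ Ω B) (hb' : b' ∈ B) (b1' : b' ∉ Ω B) : ∃ g ∈ 𝐍 B, ∀ c ∈ Ω C,
    g * c * g⁻¹ ∈ Ω C ∧ ⁅b', g * c * g⁻¹⁆ = ⁅b, c⁆ ∧ g * ⁅b, c⁆ * g⁻¹ = ⁅b', c⁆ := by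
  obtain ⟨w, -, k⟩ := s.wb' f hb b1
  obtain ⟨w', -, k'⟩ := s.wb' f hb' b1'
  have e : ∀ x, w' * w * x * (w' * w)⁻¹ = w' * (w * x * w⁻¹) * w'⁻¹ := fun x => by group
  have k2 : ∀ c ∈ Ω C, w' * w * ⁅b, c⁆ * (w' * w)⁻¹ = ⁅b', c⁆ := fun c hc => by rw [e, (k c hc).2, (k' c hc).1]
  obtain ⟨c, hc, c1⟩ := s.h.exa s.r
  refine ⟨w' * w, cj_eq_self.1 (s.h.cj_eq s.l s.l (om (s.br hb hc))
    (fun o => c1 (s.fpf' hb b1 (om hc) (br_one.1 o).symm)) (k2 c hc ▸ om (s.br hb' hc))), fun c hc => ?_⟩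
  obtain ⟨c', hc', e'⟩ := s.surj' hb' b1' (s.br hb hc)
  rw [k2 c hc, e, (k c hc).1, ← e', (k' c' hc').2]
  exact ⟨hc', rfl, rfl⟩

theorem two : ∃ b ∈ B, ∃ b' ∈ B, b * b ≠ 1 ∧ b' * b' ≠ 1 ∧ b * b ≠ b' * b' := by
  obtain ⟨a, ha, a', ha', k⟩ := s.h.four s.l
  obtain ⟨b, hb, rfl⟩ := s.sqrt f ha
  obtain ⟨b', hb', rfl⟩ := s.sqrt f ha'
  exact ⟨b, hb, b', hb', k⟩

theorem noinv (hc : c ∈ Ω C) (H : ∀ b ∈ B, ⁅b, c⁆ = b * b) : False := by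
  obtain ⟨b, hb, b', hb', b1, b1', ne⟩ := s.two f
  obtain ⟨g, hg, k⟩ := s.tor f hb (fun o => b1 (s.sa o)) hb' fun o => b1' (s.sa o)
  obtain ⟨m, e, -⟩ := k c hc
  refine ne ((H b hb).symm.trans (e.symm.trans ?_))
  have := congrArg (g * · * g⁻¹) (H _ (conj_mem_of_norm' hg hb'))
  simp only [br_cj] at this
  simpa [mul_assoc] using this

end Ad

namespace Tri
variable (t : Tri 𝒞 Z S T)
include t

theorem nd (hu : u ∈ S) (u1 : u ≠ 1) (hv : v ∈ T) (v1 : v ≠ 1) : ⁅u, v⁆ ≠ 1 := t.l.h.nd t.l.r t.r.r t.nc hu u1 hv v1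

theorem nP (hv : v ∈ Ω T) : v ∈ 𝐍 (NN Z S) := mem_norm_of_cj_le (by
  rintro _ ⟨p, hp, rfl⟩
  obtain ⟨a, ha, u, hu, rfl⟩ := t.l.memP.1 hp
  refine me (mm (t.l.meml (mm ha (t.symm.br v hv u hu))) (t.l.memr hu)) ?_
  rw [mul_assoc, ← cj_eq_br, ← mul_assoc, ← mul_assoc, t.r.comm ha hv]; simp [mul_assoc])

theorem el (hv : v ∈ Ω T) : ∃ b ∈ Z, b * v⁻¹ ∈ 𝐂 (NN Z S) :=
  t.l.elb (t.l.el_of (t.nP hv) (fun _ ha => t.r.comm ha hv) (t.r.omN hv))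

theorem surj (hv : v ∈ Ω T) (v1 : v ≠ 1) (ha : a ∈ Ω Z) : ∃ u ∈ Ω S, ⁅u, v⁆ = a :=
  Bil.surj' (fun u hu u' hu' => (t.l.comm (t.br u' hu' v hv) hu).symm) (fun u hu => t.br u hu v hv)
    (fun u hu e => by_contra fun o => t.nd (om hu) o (om hv) v1 (br_one.2 e)) (t.l.h.card_om t.l.l t.l.r).le ha

theorem fu : Fu 𝒞 := fun B hB => by
  obtain ⟨u, hu, u1⟩ := t.l.h.exa t.l.r
  have h := Bil.of_abel (t.l.h.ab t.l.l) (t.l.omN hu)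
  have c := h.card
  rw [t.l.inf_cent hu u1, show cm Z u = Ω Z from le_antisymm (cm_le.2 fun _ hb => t.l.br hb hu) fun a ha => by
    obtain ⟨v, hv, rfl⟩ := t.symm.surj hu u1 ha
    obtain ⟨b, hb, k⟩ := t.el hv
    exact br_inv_mem (br_congr k (t.nP hv) (t.l.memr hu) ▸ br_inv_mem (br_mem_cm hb))] at c
  rw [t.l.h.card_eq hB t.l.l, t.l.h.card_om hB t.l.l, c]

theorem exR (hb : b ∈ Z) : ∃ v ∈ Ω T, b * v⁻¹ ∈ 𝐂 (NN Z S) := by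
  obtain ⟨u, hu, u1⟩ := t.l.h.exa t.l.r
  obtain ⟨v, hv, e⟩ := t.symm.surj hu u1 (t.l.br hb hu)
  obtain ⟨b', hb', k⟩ := t.el hv
  have := t.l.mem_of_br hb hb' hu u1 (by
    rw [← e, ← commutatorElement_inv, ← br_congr k (t.nP hv) (t.l.memr hu), commutatorElement_inv])
  exact ⟨v, hv, me (mm (t.l.abel0 (t.l.meml this)) k) (by group)⟩

theorem inv (hb : b ∈ Z) (hv : v ∈ Ω T) (k : b * v⁻¹ ∈ 𝐂 (NN Z S)) : ⁅b, v⁆ = b * b := t.l.elinv (t.r.symm.sa hv) hb k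

theorem sym (hb : b ∈ Z) (hv : v ∈ Ω T) (k : ⁅b, v⁆ = b * b) (b1 : b ∉ Ω Z) (hb' : b' ∈ Z) (hw : w ∈ Ω T)
    (k' : ⁅b', w⁆ = b' * b') (b1' : b' ∉ Ω Z) : ⁅b, w⁆ = ⁅b', v⁆ := by
  obtain ⟨v', hv', r⟩ := t.exR hb
  obtain ⟨w', hw', r'⟩ := t.exR hb'
  obtain rfl := t.r.eq_of_br hb b1 hv' hv ((t.inv hb hv' r).trans k.symm)
  obtain rfl := t.r.eq_of_br hb' b1' hw' hw ((t.inv hb' hw' r').trans k'.symm)
  have := t.inv (mm hb hb') (mm hv hw) (me (mm (conj_mem_of_norm (norm_le_norm_cent _ (t.l.nBP hb)) r') r) (by group))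
  rw [t.r.brl hb hb' (t.r.memr (mm hv hw)), t.r.brr hb (t.r.memr hv) (t.r.memr hw), t.r.brr hb' (t.r.memr hv) (t.r.memr hw),
    k, k', t.l.sq_mul' hb hb', mul_assoc, mul_left_cancel_iff, ← mul_assoc, mul_eq_right] at this
  rw [← inv_eq_of_mul_eq_one_right this, inv_of_sq (t.l.sa (t.r.br hb hw))]

theorem tw (hb : b ∈ Z) (b1 : b ∉ Ω Z) (hb' : b' ∈ Z) (b1' : b' ∉ Ω Z) (hv : v ∈ Ω T) (k : ⁅b, v⁆ = b * b) :
    ∃ x ∈ Z, x * x = ⁅b', v⁆ ∧ ∀ y ∈ Z, ∀ w ∈ Ω T, y * y = x * x → ⁅y, w⁆ = y * y → ⁅b', w⁆ = b * b := by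
  obtain ⟨g, hg, H⟩ := t.r.tor t.fu hb b1 hb' b1'
  obtain ⟨m, e1, e2⟩ := H v hv
  have hx := conj_mem_of_norm hg hb
  refine ⟨_, hx, by rw [conj_mul, ← k, e2], fun y hy w hw e k' => ?_⟩
  rw [t.r.eq_of_br hx (fun o => b1 (by simpa [mul_assoc] using cj_om' (im hg) o)) hw m, e1, k]
  rw [← t.r.br_eq hx (t.r.mem_of_sq hy hx e) (t.r.memr hw), k', e, ← br_cj, k, conj_mul]

theorem table (hb : b ∈ Z) (b1 : b ∉ Ω Z) (hb' : b' ∈ Z) (b1' : b' ∉ Ω Z) (n : b' * b ∉ Ω Z) (hv : v ∈ Ω T)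
    (k : ⁅b, v⁆ = b * b) : ⁅b', v⁆ = b' * b' * (b * b) := by
  obtain ⟨w, hw, k'⟩ := t.r.surj' hb' b1' (t.r.sq4 hb')
  have sy := t.sym hb hv k b1 hb' hw k' b1'
  obtain ⟨p, hp, p1, p2⟩ := t.tw hb b1 hb' b1' hv k
  obtain ⟨p', -, p1', p2'⟩ := t.tw hb' b1' hb b1 hw k'
  obtain ⟨x, -, x1, x2⟩ := t.tw hb b1 (mm hb' hb) n hv k
  obtain ⟨u, hu, r⟩ := t.exR hp
  obtain ⟨v', hv', r'⟩ := t.exR hb
  obtain rfl := t.r.eq_of_br hb b1 hv' hv ((t.inv hb hv' r').trans k.symm)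
  have i := t.inv hp hu r
  have e1 := p2 p hp u hu rfl i
  have e2 := p2' p hp u hu (by rw [p1, p1', sy]) i
  have e3 := x2 _ (mm hp hb) _ (mm hu hv) (by rw [x1, t.r.brl hb' hb (t.r.memr hv), t.r.sq_mul' hp hb, p1, k])
    (t.inv (mm hp hb) (mm hu hv) (me (mm (conj_mem_of_norm (norm_le_norm_cent _ (t.l.nBP hp)) r') r) (by group)))
  rw [t.r.brl hb' hb (t.r.memr (mm hu hv)), t.r.brr hb (t.r.memr hu) (t.r.memr hv),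
    t.r.brr hb' (t.r.memr hu) (t.r.memr hv), e1, e2, k, mul_assoc, mul_eq_left, ← mul_assoc] at e3
  have m1 := t.r.br hb' hv
  have m2 := t.r.sq4 hb
  have m3 := t.r.sq4 hb'
  rw [mul_assoc] at e3
  rw [← inv_eq_of_mul_eq_one_left e3, inv_of_sq (t.r.sa (mm m3 m2))]

theorem c4 (hB : B ∈ 𝒞) : ♯(Ω B) = 4 := by
  obtain ⟨b, hb, b', hb', b1, b1', ne⟩ := t.r.two t.fu
  have n : b ∉ Ω Z := fun o => b1 (t.r.sa o)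
  have n' : b' ∉ Ω Z := fun o => b1' (t.r.sa o)
  rw [t.r.h.card_om hB t.r.l]
  refine card_four (t.r.sq4 hb) (t.r.sq4 hb') b1 b1' ne (t.r.sa (t.r.sq4 hb)) fun a ha => ?_
  obtain ⟨x, hx, rfl⟩ := t.r.sqrt t.fu ha
  have q : ∀ y ∈ Z, x * y ∈ Ω Z → x * x = y * y := fun y hy o =>
    t.r.sq_of_mem hy (me (mm o (im (t.r.sq4 hy))) (by group))
  by_contra! H
  obtain ⟨v, hv, k⟩ := t.r.surj' hb n (t.r.sq4 hb)
  have k1 := t.table hb n hb' n' (fun o => ne (t.r.sq_of_mem hb (me (mm o (im (t.r.sq4 hb))) (by group))).symm) hv k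
  have k2 := t.table hb n hx (fun o => H.1 (t.r.sa o)) (fun o => H.2.1 (q b hb o)) hv k
  have k3 := t.table hb n (mm hx hb') (fun o => H.2.2.1 (q b' hb' o)) (fun o => H.2.2.2 (by
    rw [q _ (mm hb' hb) (mul_assoc x b' b ▸ o), t.r.sq_mul' hb' hb, t.r.cA _ _ (t.r.sq4 hb) (t.r.sq4 hb')])) hv k
  rw [t.r.brl hx hb' (t.r.memr hv), k1, k2, t.r.sq_mul' hx hb', ← mul_assoc, mul_right_cancel_iff,
    mul_right_cancel_iff, mul_eq_left] at k3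
  exact b1 k3

end Tri

end CF.Geom.Ta
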