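import Cfsg.Agent.Geom.Ta3

/-! Local hypotheses, and the case without triangles. -/

namespace CF.Geom.Ta
open Subgroup CF.BG CF.Xs CF.Geom.Tm
open scoped commutatorElement
set_option linter.unusedSectionVars false

variable {G : Type*} [Group G] [Finite G]
variable {𝒞 Γ : Set (Subgroup G)} {A B C D E K P Q R S T U V W Y Z : Subgroup G}
  {a a' b b' c c' d e g k l p u v w x y z : G}

theorem two_min {𝒟 : Set (Subgroup G)} (cj' : ∀ U ∈ 𝒟, ∀ g, cj g U ∈ 𝒟) (ab : ∀ U ∈ 𝒟, Abel U) (T : Subgroup G) :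
    PiGrp {2} T → ∀ U ∈ 𝒟, ∀ V ∈ 𝒟, U ≤ T → V ≤ T → ¬ U ≤ 𝐂 V →
      ∃ U ∈ 𝒟, ∃ V ∈ 𝒟, ¬ U ≤ 𝐂 V ∧ (∀ v ∈ V, U ≤ 𝐂 (cj v U)) ∧ ∀ u ∈ U, V ≤ 𝐂 (cj u V) := by
  induction T using card_induction with | h T ih =>
  intro hT U hU V hV l l' n
  by_contra H
  have key : ∀ U ∈ 𝒟, ∀ V ∈ 𝒟, U ≤ T → V ≤ T → ¬ U ≤ 𝐂 V → ∀ v ∈ V, U ≤ 𝐂 (cj v U) := fun U hU V hV l l' n v hv => by
    have m : U ⊔ 𝚽 T ≤ T := sup_le l (Phi_le T)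
    have lt : U ⊔ 𝚽 T < T := m.lt_of_ne fun e => n (eq_of_le_sup_Phi l e.ge ▸ cent_anti l' |>.trans' (by
      rw [eq_of_le_sup_Phi l e.ge] at hU ⊢; exact ab _ hU))
    by_contra o
    exact H (ih _ (card_lt lt) (hT.le m) U hU _ (cj' U hU v) le_sup_left
      (cj_le_of_norm (norm_of_der_le m (hT.der_le_Phi.trans le_sup_right) (l' hv)) le_sup_left) o)
  exact H ⟨U, hU, V, hV, n, key U hU V hV l l' n, key V hV U hU l' l fun e => n (cent_symm e)⟩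

theorem TA.wab (h : TA 𝒞) (hT : PiGrp {2} T) (hB : B ∈ 𝒞) (hC : C ∈ 𝒞) (l : B ≤ T) (l' : C ≤ T) : B ≤ 𝐂 C := by
  by_contra n
  obtain ⟨U, hU, V, hV, n, k, -⟩ := two_min (fun U hU g => h.cj g hU) (fun U => h.ab) T hT B hB C hC l l' n
  have s := ((h.cases hU hV (h.four_arg hU hV fun v hv => k v (om hv))).resolve_left n).symm
  obtain ⟨b, hb, b1⟩ := s.exb
  exact (s.ad_cj hb b1).1.nc (k b hb)

theorem TA.lem2 (h : TA 𝒞) (n : ∀ S T, ¬ C2 𝒞 S T) (hT : PiGrp {2} T) (hB : B ∈ 𝒞) (hC : C ∈ 𝒞) (l : Ω B ≤ T)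
    (l' : Ω C ≤ T) : Cm B C := by
  by_contra o
  obtain ⟨_, ⟨U, hU, rfl⟩, _, ⟨V, hV, rfl⟩, o, k, -⟩ := two_min (𝒟 := (Ω ·) '' 𝒞)
    (by rintro _ ⟨U, hU, rfl⟩ g; exact ⟨_, h.cj g hU, (cj_Om g 2 U).symm⟩)
    (by rintro _ ⟨U, hU, rfl⟩; exact h.cm_refl hU) T hT _ ⟨B, hB, rfl⟩ _ ⟨C, hC, rfl⟩ l l' o
  exact n U V (h.c2_of hU hV o fun v hv => by rw [Cm, ← cj_Om]; exact k v hv)

/-- the subgroup generated by the involutions of a set of members -/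
def EE (Γ : Set (Subgroup G)) : Subgroup G := sSup ((Ω ·) '' Γ)

theorem le_EE (h : D ∈ Γ) : Ω D ≤ EE Γ := le_sSup ⟨D, h, rfl⟩

theorem EE_le (h : ∀ D ∈ Γ, Ω D ≤ U) : EE Γ ≤ U := sSup_le (by rintro _ ⟨D, hD, rfl⟩; exact h D hD)

theorem EE_norm (h : ∀ D ∈ Γ, cj g D ∈ Γ) : g ∈ 𝐍 (EE Γ) :=
  mem_norm_of_cj_le (cj_le_iff.2 (EE_le fun D hD => cj_le_iff.1 (cj_Om g 2 D ▸ le_EE (h D hD))))

theorem TA.EE_pi (h : TA 𝒞) (s : ∀ D ∈ Γ, D ∈ 𝒞) (c : ∀ D ∈ Γ, ∀ E ∈ Γ, Cm D E) : PiGrp {2} (EE Γ) :=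
  piGrp_sSup (L := EE Γ) (by
    rintro _ ⟨D, hD, rfl⟩
    exact ⟨⟨le_EE hD, norm_of_cent (EE_le fun E hE => c E hE D hD)⟩, (h.pi (s D hD)).le (Om_le _ _)⟩)

theorem odd_RR (hx : x ∈ RR K V) (o : PiElt {2}ᶜ x) (hV : PiGrp {2} V) : x ∈ 𝐂 K :=
  cent_of_stable (A := zpowers x) (o.zpowers.coprime' hV)
    (commutator_le.2 fun k hk y hy => br_inv_mem ((mem_RR.1 (zpowers_le.2 hx hy)).2 k hk))
    (fun y hy => (mem_RR.1 (zpowers_le.2 hx hy)).1) (mem_zpowers x)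

/-- maximal `2`-locals of characteristic `2` -/
structure MX (𝒞 : Set (Subgroup G)) : Prop extends TA 𝒞 where
  ch : ∀ {B}, B ∈ 𝒞 → 𝐍 B ⊓ 𝐂 (𝐎 {2} (𝐍 B)) ≤ 𝐎 {2} (𝐍 B)
  mx : ∀ {B E}, B ∈ 𝒞 → PiGrp {2} E → E ≠ ⊥ → 𝐍 B ≤ 𝐍 E → 𝐍 E ≤ 𝐍 B

scoped notation "𝐐 " B:max => Cfsg.piCoreOf {2} (Subgroup.normalizer (SetLike.coe B))

theorem QN (hx : x ∈ 𝐐 B) : x ∈ 𝐍 B := O_le _ _ hx

theorem NQ (hx : x ∈ 𝐍 B) : x ∈ 𝐍 (𝐐 B) := (O_normal _ _).norm hx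

theorem piQ (hU : PiGrp {2} U) (l : U ≤ 𝐍 B) : PiGrp {2} (𝐐 B ⊔ U : Subgroup G) :=
  (O_pi _ _).sup hU (.inr fun _ hx => NQ (l hx))

theorem brJ (hx : x ∈ 𝐂 B) (hg : g ∈ 𝐍 B) : ⁅g, x⁆ ∈ 𝐂 B := br_right hx (norm_le_norm_cent B hg)

theorem Ad.centJ (s : Ad 𝒞 B C) (ht : x ∈ 𝐂 B) (n : x ∈ 𝐍 C) (hc : c ∈ Ω C) : c * x = x * c :=
  br_one.1 (s.cent_r (br_left (om hc) n) (brJ ht (s.omN hc)))

namespace MX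
variable (m : MX 𝒞)
include m

theorem BQ (hB : B ∈ 𝒞) : B ≤ 𝐐 B := le_O (normalIn_norm B) (m.pi hB)

theorem eq_of_norm (hB : B ∈ 𝒞) (hC : C ∈ 𝒞) (hE : PiGrp {2} E) (e1 : E ≠ ⊥) (n : 𝐍 B ≤ 𝐍 E) (n' : 𝐍 C ≤ 𝐍 E) :
    B = C := by
  obtain ⟨g, rfl⟩ := m.tr hB hC
  obtain ⟨a, ha, a1⟩ := m.toTA.exa hB
  refine (cj_of_norm (m.mx hB (O_pi _ _) (ne_bot_of_mem (m.BQ hB (om ha)) a1) (fun _ => NQ) (norm_O _ _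
    (cj_eq_self.1 ?_)))).symm
  rw [cj_norm]; exact le_antisymm (n'.trans (m.mx hB hE e1 n)) (n.trans (m.mx hC hE e1 n'))

theorem eq_of_set (hB : B ∈ 𝒞) (hC : C ∈ 𝒞) (hD : D ∈ Γ) (s : ∀ D ∈ Γ, D ∈ 𝒞) (c : ∀ D ∈ Γ, ∀ E ∈ Γ, Cm D E)
    (n : ∀ g ∈ 𝐍 B, ∀ D ∈ Γ, BG.cj g D ∈ Γ) (n' : ∀ g ∈ 𝐍 C, ∀ D ∈ Γ, BG.cj g D ∈ Γ) : B = C := by
  obtain ⟨a, ha, a1⟩ := m.toTA.exa (s D hD)
  exact m.eq_of_norm hB hC (m.toTA.EE_pi s c) (ne_bot_of_mem (le_EE hD ha) a1) (fun g hg => EE_norm (n g hg))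
    fun g hg => EE_norm (n' g hg)

theorem le_Q (hB : B ∈ 𝒞) (hW : W ⊴ 𝐍 B) (H : ∀ x ∈ W, PiElt {2}ᶜ x → x ∈ 𝐂 (𝐐 B)) : W ≤ 𝐐 B :=
  le_O hW (piGrp_of_forall_elt fun x hx => by
    obtain ⟨y, z, -, hz, y2, z2, rfl⟩ := exists_piPart {2} x
    have k := zpowers_le.2 hx hz
    rwa [((O_pi _ _).elt (m.ch hB ⟨hW.le k, H z k z2⟩)).eq_one z2, mul_one])

theorem le_Q2 (hB : B ∈ 𝒞) (hW : W ⊴ 𝐍 B) (h1 : W ≤ RR B (Ω B)) (hV : PiGrp {2} V) (h2 : W ≤ RR (𝐐 B ⊓ 𝐂 B) V) :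
    W ≤ 𝐐 B := m.le_Q hB hW fun x hx o =>
  odd_RR (V := 𝐐 B ⊓ 𝐂 B) (mem_RR.2 ⟨odd_RR (h2 hx) o hV, fun t ht => ⟨br_right ht (NQ (hW.le hx)),
    br_inv_mem (brJ (odd_RR (h1 hx) o ((m.pi hB).le (Om_le _ _))) (QN ht))⟩⟩) o (O_pi _ _).inf_left

theorem ppQ (hB : B ∈ 𝒞) (hC : C ∈ 𝒞) (p : B ≤ 𝐂 C) (hx : x ∈ 𝐐 B) : C ≤ 𝐂 (BG.cj x C) :=
  m.toTA.wab (piQ (m.pi hC) (norm_of_cent' p)) hC (m.cj x hC) le_sup_right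
    (cj_le_of_mem (mem_sup_left hx) le_sup_right)

theorem sqQ (hB : B ∈ 𝒞) (hC : C ∈ 𝒞) (p : B ≤ 𝐂 C) (hc : c ∈ C) : c * c ∈ 𝐐 B := by
  have n := norm_of_cent' p hc
  have nP : 𝐍 B ≤ 𝐍 (𝚽 (𝐐 B)) := le_norm_Phi fun _ => NQ
  refine m.le_Q hB (W := 𝐍 B ⊓ centMod (𝐐 B) (𝚽 (𝐐 B))) (normalIn_inf_left (norm_centMod (fun _ => NQ) nP))
    (fun x hx o => ?_) ⟨mm n n, nP (mm n n), fun x hx => ?_⟩
  · exact cent_of_comm_le_Phi (zpowers_le.2 (NQ hx.1)) (o.zpowers.coprime' (O_pi _ _)) (commutator_le.2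
      fun k hk y hy => br_inv_mem ((zpowers_le.2 hx.2 hy).2 k hk)) (mem_zpowers x)
  · rw [sq_br, ← pow_two]
    · exact (O_pi _ _).pow_mem_Phi (br_right hx (NQ n))
    · have := m.ppQ hB hC p hx hc _ (conj_mem_cj.2 (im hc))
      rw [br_def, mul_assoc c x, mul_assoc c, mul_assoc c, this]

theorem perp (hB : B ∈ 𝒞) (hC : C ∈ 𝒞) (hD : D ∈ 𝒞) (p : B ≤ 𝐂 C) (p' : B ≤ 𝐂 D) (ha : a ∈ Ω D) :
    Cm C (BG.cj a C) := by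
  obtain ⟨c, hc, c1⟩ := m.ne hC
  obtain ⟨v, hv, v1⟩ := exists_mem_ne_one (((m.pi hC).inf_left (K := 𝐐 B)).Om_ne_bot
    (ne_bot_of_mem ⟨mm hc hc, m.sqQ hB hC p hc⟩ c1))
  have vv := m.toTA.sq hC (Om_mono 2 inf_le_left hv)
  have aa := m.toTA.sq hD ha
  have e := br_fix (u := a) vv (by
    rw [br_eq_mul aa]
    exact sq_mul aa (by rw [conj_mul, aa]; simp) (m.ppQ hB hD p' (om hv).2 (om ha) _ (conj_mem_cj.2 (om ha))))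
  refine m.toTA.cm_of' hC (m.cj a hC) (conj_mem_cj.2 (om hv).1) (by simpa using v1) (om hv).1 v1 ?_
  rw [cj_eq_br, ← mul_assoc, e]

variable (n : ∀ S T, ¬ C2 𝒞 S T)
include n

theorem noperp1 (hB : B ∈ 𝒞) (hC : C ∈ 𝒞) (p : B ≤ 𝐂 C) : B = C := by
  have k : ∀ {B C D}, B ∈ 𝒞 → C ∈ 𝒞 → D ∈ 𝒞 → B ≤ 𝐂 C → Cm B D → Cm C D := fun {B C D} hB hC hD p c => by
    refine m.toTA.lem2 n (piQ ((m.pi hD).le (Om_le 2 D)) fun _ => m.toTA.cmN hB c) hC hD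
      (le_sup_of_le_left ((le_EE (Γ := {C | C ∈ 𝒞 ∧ B ≤ 𝐂 C}) ⟨hC, p⟩).trans (le_O ⟨EE_le fun C hC =>
        (Om_le _ _).trans (norm_of_cent' hC.2), fun g hg => EE_norm fun C hC =>
          ⟨m.cj g hC.1, by rw [← cj_of_norm hg, cj_cent_iff]; exact hC.2⟩⟩ (m.toTA.EE_pi (fun _ h => h.1)
            fun C hC D hD => by_contra fun o => n _ _ (m.toTA.c2_of hC.1 hD.1 o fun _ =>
              m.perp hB hC.1 hD.1 hC.2 hD.2))))) le_sup_right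
  have inv : ∀ {C}, C ∈ {D | D ∈ 𝒞 ∧ ∀ W ∈ 𝒞, Cm D W ↔ Cm B W} → ∀ g ∈ 𝐍 C,
      ∀ D ∈ {D | D ∈ 𝒞 ∧ ∀ W ∈ 𝒞, Cm D W ↔ Cm B W}, BG.cj g D ∈ {D | D ∈ 𝒞 ∧ ∀ W ∈ 𝒞, Cm D W ↔ Cm B W} :=
    fun {C} hC g hg D hD => ⟨m.cj g hD.1, fun W hW => by
      rw [← hC.2 W hW]
      refine ⟨fun c => ?_, fun c => ?_⟩
      · have := ((hC.2 _ (m.cj g⁻¹ hW)).2 ((hD.2 _ (m.cj g⁻¹ hW)).1 (by simpa using c.cj g⁻¹))).cj g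
        rwa [cj_of_norm hg, cj_cj_inv] at this
      · have := c.cj g⁻¹
        rw [cj_of_norm (im hg)] at this
        simpa using ((hD.2 _ (m.cj g⁻¹ hW)).2 ((hC.2 _ (m.cj g⁻¹ hW)).1 this)).cj g⟩
  exact m.eq_of_set (Γ := {D | D ∈ 𝒞 ∧ ∀ W ∈ 𝒞, Cm D W ↔ Cm B W}) hB hC (D := B) ⟨hB, fun _ _ => .rfl⟩ (fun _ h => h.1)
    (fun D hD E hE => (hD.2 E hE.1).2 ((hE.2 E hE.1).1 (m.toTA.cm_refl hE.1))) (inv ⟨hB, fun _ _ => .rfl⟩)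
    (inv ⟨hC, fun W hW => ⟨k hC hB hW (cent_symm p), k hB hC hW p⟩⟩)

theorem nbr (s : Ad 𝒞 B C) : Ω C ≤ 𝐐 B := by
  have hB := s.l
  have k : ∀ {C}, Ad 𝒞 B C → ∀ t ∈ 𝐐 B, Cm C (BG.cj t C) := fun {C} s t ht =>
    m.toTA.lem2 n (piQ ((m.pi s.r).le (Om_le 2 C)) fun _ => s.omN) s.r (m.cj t s.r) le_sup_right
      (cj_Om t 2 C ▸ cj_le_of_mem (mem_sup_left ht) le_sup_right)
  refine (le_EE (Γ := {C | Ad 𝒞 B C}) s).trans (m.le_Q2 hB ⟨EE_le fun C s _ => s.omN, fun g hg => EE_norm fun C s =>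
    by have := Ad.cj s g; rwa [cj_of_norm hg] at this⟩ (EE_le fun C s c hc => mem_RR.2 ⟨fun a ha => Ad.comm s ha hc,
      fun b hb => Ad.br' s hb hc⟩) (V := Ω (𝐐 B ⊓ 𝐂 B)) ((O_pi _ _).le ((Om_le _ _).trans inf_le_left))
    (EE_le fun C s c hc => mem_RR.2 ⟨fun a ha => mem_cent1.1 ((Om_le_iff.2 fun t ht tt => ?_ : _ ≤ 𝐂₁ c) ha),
      fun t ht => mem_Om ⟨br_right ht.1 (NQ (Ad.omN s hc)), brJ ht.2 (Ad.omN s hc)⟩ ?_⟩))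
  swap
  · have cc := (Ad.symm s).sa hc
    rw [pow_two, br_eq_mul cc]
    exact sq_mul cc (by rw [conj_mul, cc]; simp) ((k s t ht.1).comm hc (cj_om t hc)).symm
  replace s : Ad 𝒞 B C := s
  rw [pow_two] at tt
  refine mem_cent1.2 (s.centJ ht.2 (by_contra fun o => ?_) hc).symm
  have r := (m.toTA.cases s.r (m.cj t s.r) (k s t ht.1)).resolve_left fun p =>
    o (cj_eq_self.1 (m.noperp1 n s.r (m.cj t s.r) p).symm)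
  have nP : t ∈ 𝐍 (NN C (BG.cj t C)) := cj_eq_self.1 (by rw [cj_NN, cj_cj, tt, cj_one, NN_symm])
  obtain ⟨Z, hZ, l, nZ⟩ := r.fixpt nP tt
  obtain ⟨r', e⟩ := r.on hZ l (by rintro rfl; exact o nZ)
  obtain ⟨z, hz, z1⟩ := m.toTA.exa hZ
  have zN : z ∈ 𝐍 B := by
    obtain ⟨a, ha, c, hc, rfl⟩ := r.memP.1 (l hz)
    exact mm (s.omN ha) (me (cjm (QN ht.1) (s.omN (om_cj hc))) (by group))
  rcases m.toTA.tri hB hZ (om hz) z1 zN with p | s'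
  · obtain rfl := m.noperp1 n hB hZ p
    rw [← e, NN_symm] at nP
    obtain ⟨b, hb, k⟩ := s.elb (s.el_of nP (fun a ha => ht.2 a (om ha)) nZ)
    have := s.meml ((m.toTA.mem_om hB).2 ⟨hb, (s.elinv tt hb k).symm.trans (br_one.2 (ht.2 b hb))⟩)
    exact o (s.symm.KN (NN_symm B C ▸ me (mm (im k) (s.abel0 this)) (by group)))
  obtain ⟨u, hu, u1⟩ := m.toTA.exa s.r
  have uu := s.symm.sa hu
  have hm : ⁅u, t⁆ ∈ NN C Z := e ▸ br_eq_mul uu t ▸ mm (r.meml hu) (r.memr (cj_om t hu))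
  obtain ⟨a, ha, y, hy, k⟩ := r'.memP.1 hm
  obtain rfl : a = 1 := by_contra fun a1 => o (m.toTA.norm s.r (om ha) a1 (by
    have := mul_cent (br_fix tt (r'.sqP0 _ hm)).symm (inv_cent (s'.centJ ht.2 nZ hy))
    rw [← k, mul_inv_cancel_right] at this; exact this.symm))
  rw [one_mul] at k
  exact o (m.toTA.norm s.r (om hu) u1 (br_one.1 (k ▸ s'.cent_r (om hy) (k ▸ brJ ht.2 (s.omN hu)))).symm)

theorem noad (s : Ad 𝒞 B C) : False := by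
  have k : ∀ {B C D}, B ∈ 𝒞 → C ∈ 𝒞 → D ∈ 𝒞 → Cm B C → Cm B D → Cm C D := fun {B C D} hB hC hD c c' => by
    have q : ∀ {C}, C ∈ 𝒞 → Cm B C → Ω C ≤ 𝐐 B := fun hC c => (m.toTA.cases hB hC c).elim
      (fun p => m.noperp1 n hB hC p ▸ (Om_le _ _).trans (m.BQ hB)) (m.nbr n)
    exact m.toTA.lem2 n (O_pi _ _) hC hD (q hC c) (q hD c')
  refine s.ne (m.eq_of_set (Γ := {D | D ∈ 𝒞 ∧ Cm B D}) s.l s.r (D := B) ⟨s.l, m.toTA.cm_refl s.l⟩ (fun _ h => h.1)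
    (fun D hD E hE => k s.l hD.1 hE.1 hD.2 hE.2) (fun g hg D hD => ⟨m.cj g hD.1, ?_⟩) fun g hg D hD => ⟨m.cj g hD.1, ?_⟩)
  · have := hD.2.cj g; rwa [cj_of_norm hg] at this
  · have := (k s.l s.r hD.1 s.cm hD.2).cj g
    rw [cj_of_norm hg] at this
    exact k s.r s.l (m.cj g hD.1) s.cm.symm this

end MX

end CF.Geom.Ta
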