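import Cfsg.Agent.Geom.Ta4

/-! The case `B ≅ Z₄ × Z₄`: distinct members do not commute. -/

namespace CF.Geom.Ta
open Subgroup CF.BG CF.Xs CF.Geom.Tm
open scoped commutatorElement
set_option linter.unusedSectionVars false

variable {G : Type*} [Group G] [Finite G]
variable {𝒞 Γ : Set (Subgroup G)} {A B B' C D E K P Q R S T U V W Y Z : Subgroup G}
  {a a' b b' c c' d e g k l p u v w x y z : G}

theorem cmul (g x y : G) : g * (x * y) * g⁻¹ = g * x * g⁻¹ * (g * y * g⁻¹) := by group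

structure Q4 (𝒞 : Set (Subgroup G)) : Prop extends MX 𝒞 where
  tri : ∀ {B}, B ∈ 𝒞 → ∃ C D, Tri 𝒞 B C D

theorem MX.q4 (m : MX 𝒞) (t : Tri 𝒞 B C D) : Q4 𝒞 :=
  ⟨m, fun hE => by obtain ⟨g, rfl⟩ := m.tr t.l.l hE; exact ⟨_, _, t.cj g⟩⟩

theorem Q4.fu (q : Q4 𝒞) : Fu 𝒞 := fun B hB => let ⟨_, _, t⟩ := q.tri hB; t.fu B hB

theorem Q4.c4 (q : Q4 𝒞) (hB : B ∈ 𝒞) : ♯(Ω B) = 4 := let ⟨_, _, t⟩ := q.tri hB; t.c4 hB

theorem Q4.perp_cm (q : Q4 𝒞) (hB : B ∈ 𝒞) (hC : C ∈ 𝒞) (hD : D ∈ 𝒞) (p : B ≤ 𝐂 C) (p' : B ≤ 𝐂 D) : Cm C D :=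
  q.toTA.four_arg hC hD fun v hv => by
    obtain ⟨_, _, t⟩ := q.tri hD
    obtain ⟨d, hd, rfl⟩ := t.l.sqrt q.fu hv
    exact q.toMX.ppQ hB hC p (q.toMX.sqQ hB hD p' hd)

namespace Ad
variable (s : Ad 𝒞 B C) (q : Q4 𝒞)
include s q

theorem cases4 (hb : b ∈ B) (hb' : b' ∈ B) (b1 : b * b ≠ 1) (b1' : b' * b' ≠ 1) (ne : b * b ≠ b' * b') (ha : a ∈ Ω B) :
    a = 1 ∨ a = b * b ∨ a = b' * b' ∨ a = b * b * (b' * b') :=
  four_cases (q.c4 s.l) (s.sq4 hb) (s.sq4 hb') b1 b1' ne (s.sa (s.sq4 hb)) ha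

theorem tab (hb : b ∈ B) (hb' : b' ∈ B) (b1 : b * b ≠ 1) (b1' : b' * b' ≠ 1) (ne : b * b ≠ b' * b') (hc : c ∈ Ω C)
    (k : ⁅b, c⁆ = b * b) : ⁅b', c⁆ = b * b * (b' * b') := by
  have c1 : c ≠ 1 := by rintro rfl; exact b1 (by simpa using k.symm)
  rcases s.cases4 q hb hb' b1 b1' ne (s.br hb' hc) with e | e | e | e
  · exact (b1' (s.sa (s.inj hb' (om hc) c1 (br_one.1 e).symm))).elim
  · exact (ne (s.sq_of_mem hb' (s.mem_of_br hb hb' hc c1 (k.trans e.symm)))).elim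
  swap
  · exact e
  refine (s.noinv q.fu hc fun x hx => ?_).elim
  have H : ∀ y ∈ B, x * x = y * y → ⁅y, c⁆ = y * y → ⁅x, c⁆ = x * x := fun y hy e k => by
    rw [s.br_eq hy (s.mem_of_sq hx hy e) (s.memr hc), k, e]
  rcases s.cases4 q hb hb' b1 b1' ne (s.sq4 hx) with o | o | o | o
  exacts [H 1 (one_mem _) (by simpa using o) (by simp), H b hb o k, H b' hb' o e, H _ (mm hb hb')
    (o.trans (s.sq_mul' hb hb').symm) (by rw [s.brl hb hb' (s.memr hc), k, e, s.sq_mul' hb hb'])]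

theorem act (s' : Ad 𝒞 B D) (hb : b ∈ B) (b1 : b * b ≠ 1) (hc : c ∈ Ω C) (hd : d ∈ Ω D) (k : ⁅b, c⁆ = b * b)
    (k' : ⁅b, d⁆ = b * b) : c * d ∈ 𝐂 B := fun x hx => by
  have : ⁅x, c⁆ = ⁅x, d⁆ := by
    by_cases x1 : x * x = 1
    · have := (s.h.mem_om s.l).2 ⟨hx, x1⟩
      rw [br_one.2 (s.comm this hc), br_one.2 (s'.comm this hd)]
    by_cases e : b * b = x * x
    · have := s.mem_of_sq hx hb e.symm
      rw [s.br_eq hb this (s.memr hc), s'.br_eq hb this (s'.memr hd), k, k']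
    rw [s.tab q hb hx b1 x1 e hc k, s'.tab q hb hx b1 x1 e hd k']
  rw [← s.brs hx hc, ← s'.brs hx hd] at this
  have := comm_of_br_eq this
  rw [inv_of_sq (s.symm.sa hc)] at this
  exact this.symm

theorem exinv (hc : c ∈ Ω C) (c1 : c ≠ 1) : ∃ b ∈ B, b * b ≠ 1 ∧ ⁅b, c⁆ = b * b := by
  obtain ⟨b, hb, b', hb', b1, b1', ne⟩ := s.two q.fu
  obtain ⟨u, hu, e⟩ := s.surj' hb (fun o => b1 (s.sa o)) (s.sq4 hb)
  obtain ⟨v, hv, e'⟩ := s.surj' hb' (fun o => b1' (s.sa o)) (s.sq4 hb')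
  have t1 := s.tab q hb hb' b1 b1' ne hu e
  have t2 := s.tab q hb' hb b1' b1 ne.symm hv e'
  rcases four_cases (q.c4 s.r) hu hv (by rintro rfl; exact b1 (by simpa using e.symm))
    (by rintro rfl; exact b1' (by simpa using e'.symm)) (by rintro rfl; exact b1 (by simpa [e'] using t1))
    (s.symm.sa hu) hc with rfl | rfl | rfl | rfl
  exacts [(c1 rfl).elim, ⟨b, hb, b1, e⟩, ⟨b', hb', b1', e'⟩, ⟨_, mm hb hb', by
    rw [s.sq_mul' hb hb']; exact fun o => ne (mul_left_cancel ((s.sa (s.sq4 hb)).trans o.symm)), by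
    rw [s.brl hb hb' (s.memr hc), s.brr hb (s.memr hu) (s.memr hv), s.brr hb' (s.memr hu) (s.memr hv), e, e', t1, t2,
      s.sq_mul' hb hb', s.cA _ _ (s.sq4 hb') (s.sq4 hb), sq_left (s.sa (s.sq4 hb)), mul_assoc (b * b),
      s.sa (s.sq4 hb'), mul_one, s.cA _ _ (s.sq4 hb') (s.sq4 hb)]⟩]

theorem lam (s' : Ad 𝒞 B D) (hd : d ∈ Ω D) : ∃ c ∈ Ω C, c * d ∈ 𝐂 B := by
  by_cases d1 : d = 1
  · exact ⟨1, one_mem _, by simp [d1]⟩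
  obtain ⟨b, hb, b1, k⟩ := s'.exinv q hd d1
  obtain ⟨c, hc, e⟩ := s.surj' hb (fun o => b1 (s.sa o)) (s.sq4 hb)
  exact ⟨c, hc, s.act q s' hb b1 hc hd e k⟩

theorem lemU (s' : Ad 𝒞 B' C) (p : B ≤ 𝐂 B') (hb : b ∈ B) : ∃ b' ∈ B', ∀ c ∈ Ω C, ⁅b * b', c⁆ ∈ 𝐂 C := by
  obtain ⟨c, hc, c1⟩ := s.h.exa s.r
  obtain ⟨a, ha, e⟩ := s'.symm.lam q s.symm (s.br hb hc)
  obtain ⟨b', hb', rfl⟩ := s'.full q.fu hc c1 ha
  have := s.h.pp_of_cent s.r (s.h.cj (b * b') s.r) (conj_mem_cj.2 (om hc)) (fun o => c1 (conj_eq_one_iff.1 o)) (by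
    rw [cj_eq_br, br_mul, cj_of_comm (p hb _ (om ha)).symm]; exact mm e (s.h.ab s.r (om hc)))
  exact ⟨b', hb', fun c hc => mm (cent_symm this (conj_mem_cj.2 (om hc))) (im (s.h.ab s.r (om hc)))⟩

end Ad

/-- the radical of a plane -/
def rad (B B' C : Subgroup G) : Subgroup G := (Ω B ⊔ Ω B') ⊓ 𝐂 C

/-- planes -/
structure Pl (𝒞 : Set (Subgroup G)) (B B' C : Subgroup G) : Prop where
  q : Q4 𝒞
  l : Ad 𝒞 B C
  r : Ad 𝒞 B' C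
  p : B ≤ 𝐂 B'
  ne : B ≠ B'

/-- elations of a plane -/
structure LG (B C Y : Subgroup G) (g : G) : Prop where
  rr : g ∈ RR (𝐂 (Ω C ⊔ Y : Subgroup G)) (Ω C ⊔ Y)
  br : ∀ a ∈ Ω B, ⁅g, a⁆ ∈ Y
  sq : g * g ∈ Ω C ⊔ Y

theorem LG.ce (r : LG B C Y g) (hx : x ∈ Ω C ⊔ Y) : x * g = g * x := (mem_RR.1 r.rr).1 x hx

theorem LG.inv (r : LG B C Y g) : LG B C Y g⁻¹ :=
  ⟨im r.rr, fun a ha => by
    have := r.ce (mem_sup_right (im (r.br a ha)))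
    exact me (im (r.br a ha)) (by rw [← cj_of_comm (inv_cent this.symm), br_def, br_def]; group), me (im r.sq) (by group)⟩

theorem LG.nC (r : LG B C Y g) (h : TA 𝒞) (hC : C ∈ 𝒞) : cj g C = C := by
  obtain ⟨c, hc, c1⟩ := h.exa hC
  exact cj_of_norm (h.norm hC (om hc) c1 (r.ce (mem_sup_left hc)).symm)

namespace Pl
variable (s : Pl 𝒞 B B' C)
include s

theorem memF : x ∈ Ω B ⊔ Ω B' ↔ ∃ a ∈ Ω B, ∃ a' ∈ Ω B', a * a' = x := mem_sup_norm (norm_of_cent (Cm.of_pp s.p))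

theorem FB (hx : x ∈ Ω B ⊔ Ω B') : x ∈ 𝐂 B :=
  sup_le ((Om_le _ _).trans (s.l.h.ab s.l.l)) ((Om_le _ _).trans (cent_symm s.p)) hx

theorem FB' (hx : x ∈ Ω B ⊔ Ω B') : x ∈ 𝐂 B' :=
  sup_le ((Om_le _ _).trans s.p) ((Om_le _ _).trans (s.l.h.ab s.r.l)) hx

theorem FF (hx : x ∈ Ω B ⊔ Ω B') (hy : y ∈ Ω B ⊔ Ω B') : x * y = y * x :=
  (sup_le (cent_symm fun _ h => cent_anti (Om_le _ _) (s.FB h)) (cent_symm fun _ h => cent_anti (Om_le _ _) (s.FB' h)) :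
    _ ≤ 𝐂 (Ω B ⊔ Ω B' : Subgroup G)) hy x hx

theorem sqF (hx : x ∈ Ω B ⊔ Ω B') : x * x = 1 := by
  obtain ⟨a, ha, a', ha', rfl⟩ := s.memF.1 hx
  exact sq_mul (s.l.sa ha) (s.r.sa ha') (s.p (om ha) _ (om ha'))

theorem FC (hx : x ∈ Ω B ⊔ Ω B') : x ∈ 𝐂 (Ω C) := sup_le s.l.cm s.r.cm hx

theorem card_rad : ♯(rad B B' C) ≤ 4 := by
  have n : rad B B' C ≤ 𝐍 (Ω B') := norm_of_cent fun _ h => cent_anti (Om_le _ _) (s.FB' h.1)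
  have := card_le (sup_le inf_le_left le_sup_right : rad B B' C ⊔ Ω B' ≤ Ω B ⊔ Ω B')
  rw [card_sup_of_inf_bot (.inl n) (eq_bot_of_forall fun x hx => s.r.symm.cent_r (om hx.2) hx.1.2)] at this
  have := this.trans (Nat.le_of_dvd (Nat.mul_pos (card_pos' _) (card_pos' _))
    (card_sup_dvd (.inl (norm_of_cent (Cm.of_pp s.p)))))
  rw [s.q.c4 s.l.l, s.q.c4 s.r.l] at this
  omega

theorem memE : x ∈ Ω C ⊔ rad B B' C ↔ ∃ c ∈ Ω C, ∃ y ∈ rad B B' C, c * y = x :=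
  mem_sup_norm (norm_of_cent (cent_symm (cent_mono inf_le_right le_rfl (Om_le _ _))))

theorem dec (hx : x ∈ Ω B ⊔ Ω B') : ∃ a ∈ Ω B, ∃ y ∈ rad B B' C, a * y = x := by
  obtain ⟨a, ha, a', ha', rfl⟩ := s.memF.1 hx
  obtain ⟨c, hc, e⟩ := s.l.symm.lam s.q s.r.symm ha'
  exact ⟨_, mm ha (im hc), _, ⟨mm (mem_sup_left hc) (mem_sup_right ha'), e⟩, by group⟩

theorem lemG (ha : a ∈ Ω B) (a1 : a ≠ 1) (hy : y ∈ rad B B' C) : ∃ g, LG B C (rad B B' C) g ∧ ⁅g, a⁆ = y := by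
  obtain ⟨b, hb, b1⟩ := s.l.exb
  obtain ⟨b', hb', H⟩ := s.l.lemU s.q s.r s.p hb
  have e0 : ∀ c ∈ Ω C, ⁅b * b', c⁆ = ⁅b', c⁆ * ⁅b, c⁆ := fun c hc => by
    rw [br_mul, cj_of_comm (s.p hb _ (om (s.r.br hb' hc))).symm]
  have H' : ∀ c ∈ Ω C, ⁅b * b', c⁆ ∈ rad B B' C := fun c hc =>
    ⟨e0 c hc ▸ mm (mem_sup_right (s.r.br hb' hc)) (mem_sup_left (s.l.br hb hc)), H c hc⟩
  have gB : b * b' ∈ 𝐂 B := mm (s.l.h.ab s.l.l hb) (cent_symm s.p hb')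
  have r := s.l.cj (b * b')
  rw [cj_of_cent gB] at r
  have m : ∀ c ∈ Ω (cj (b * b') C), ∃ d ∈ Ω C, ⁅b * b', d⁆ * d = c := fun c hc =>
    ⟨_, om_cj hc, by rw [← cj_eq_br]; group⟩
  have mE : Ω (cj (b * b') C) ≤ Ω C ⊔ rad B B' C := fun c hc => by
    obtain ⟨d, hd, rfl⟩ := m c hc; exact mm (mem_sup_right (H' d hd)) (mem_sup_left hd)
  have pp : C ≤ 𝐂 (cj (b * b') C) := by
    obtain ⟨c, hc, c1⟩ := s.l.h.exa r.r
    obtain ⟨d, hd, rfl⟩ := m c hc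
    exact s.l.h.pp_of_cent s.l.r r.r (om hc) c1 (mm (H d hd) (s.l.h.ab s.l.r (om hd)))
  obtain ⟨c, hc, rfl⟩ := Bil.surj' (U := Ω C) (g := b * b') (Z := rad B B' C)
    (fun u hu v hv => ((br_inv_mem (H v hv)) u (om hu))) (fun u hu => br_inv_mem (H' u hu)) (fun u hu e => by
      have k := e0 u hu
      rw [br_one.2 e.symm] at k
      refine s.l.fpf' hb b1 (om hu) (br_one.1 (s.l.h.eq_one s.l.l s.r.l s.ne (om (s.l.br hb hu)) ?_)).symm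
      exact inv_eq_of_mul_eq_one_right k.symm ▸ im (om (s.r.br hb' hu))) (s.q.c4 s.l.r ▸ s.card_rad) hy
  obtain ⟨u, hu, e⟩ := s.l.symm.full s.q.fu ha a1 hc
  obtain ⟨v, hv, K⟩ := s.l.symm.lemU s.q r.symm pp hu
  have e1 : ∀ a ∈ Ω B, ⁅u * v, a⁆ = ⁅v, a⁆ * ⁅u, a⁆ := fun a ha => by
    rw [br_mul, cj_of_comm (pp hu _ (om (r.symm.br hv ha))).symm]
  have K' : ∀ a ∈ Ω B, ⁅u * v, a⁆ = ⁅b * b', ⁅u, a⁆⁆ := fun a ha => by
    obtain ⟨d, hd, k⟩ := m _ (r.symm.br hv ha)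
    have k1 := K a ha
    rw [e1 a ha, ← k, mul_assoc] at k1 ⊢
    have := s.l.cent_r (om (mm hd (s.l.symm.br hu ha))) (me (mm (im (s.FB (H' d hd).1)) k1) (by group))
    rw [this, mul_one, ← inv_eq_of_mul_eq_one_right this, inv_of_sq (s.l.symm.sa hd)]
  have cu : u ∈ 𝐂 (Ω C ⊔ rad B B' C : Subgroup G) := cent_symm (sup_le ((Om_le _ _).trans (s.l.h.ab s.l.r)) inf_le_right) hu
  have cv : v ∈ 𝐂 (Ω C ⊔ rad B B' C : Subgroup G) := cent_symm (sup_le ((Om_le _ _).trans pp) fun y hy => by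
    rw [← cj_cent, mem_cj, mul_assoc, mul_cent (s.FB hy.1 b hb) (s.FB' hy.1 b' hb') |>.symm, inv_mul_cancel_left]
    exact hy.2) hv
  refine ⟨u * v, ⟨mem_RR.2 ⟨mm cu cv, fun k hk => ?_⟩, fun a ha => K' a ha ▸ H' _ (s.l.symm.br hu ha), ?_⟩, ?_⟩
  · have f : ∀ {D}, Ad 𝒞 D B → Ω D ≤ Ω C ⊔ rad B B' C → ∀ x ∈ D, ⁅x, k⁆ ∈ Ω C ⊔ rad B B' C := fun {D} r l x hx => by
      obtain ⟨d, hd, d1⟩ := r.h.exa r.l
      exact l (br_inv_mem (r.brN (r.h.norm r.l (om hd) d1 (hk d (l hd)).symm) (fun a ha => hk a (l ha)) hx))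
    rw [br_mul, cj_of_comm (cu _ (f r.symm mE v hv)).symm]
    exact mm (f r.symm mE v hv) (f s.l.symm le_sup_left u hu)
  · rw [mul_assoc, ← mul_assoc v, pp hu v hv, mul_assoc, ← mul_assoc]
    exact mm (mem_sup_left (s.l.symm.sq4 hu)) (mE (r.symm.sq4 hv))
  · rw [K' a ha, e, br_symm (s.sqF (H' c hc).1)]

theorem EF (hx : x ∈ Ω C ⊔ rad B B' C) : x ∈ 𝐂 (Ω B ⊔ Ω B' : Subgroup G) :=
  sup_le (b := rad B B' C) (cent_symm fun _ => s.FC) (fun y hy z hz => s.FF hz hy.1) hx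

variable (r : LG B C (rad B B' C) g)
include r

theorem nF : g ∈ 𝐍 (Ω B ⊔ Ω B' : Subgroup G) := mem_norm_of_cj_le (by
  rintro _ ⟨x, hx, rfl⟩
  obtain ⟨a, ha, y, hy, rfl⟩ := s.dec hx
  refine me (mm (mm (r.br a ha).1 (mem_sup_left ha)) hy.1) ?_
  rw [← cj_eq_br, ← cj_of_comm (r.ce (mem_sup_right hy)).symm, ← cmul, cj_of_comm (r.ce (mem_sup_right hy)).symm]
  rfl)

theorem omF : Ω (cj g B) ≤ Ω B ⊔ Ω B' := cj_Om g 2 B ▸ cj_le_of_norm (s.nF r) le_sup_left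

theorem cj_inv : cj g⁻¹ B = cj g B := by
  obtain ⟨a, ha, a1⟩ := s.l.h.exa s.l.l
  rw [cj_eq_iff, inv_inv, cj_cj, cj_of_norm (s.l.h.norm s.l.l (om ha) a1 (s.EF r.sq a (mem_sup_left ha)).symm)]

variable (t : Tri 𝒞 B C D) (m : Cm B' D)
include t m

theorem FD (hx : x ∈ Ω B ⊔ Ω B') : x ∈ 𝐂 (Ω D) := sup_le t.r.cm m hx

theorem FD' (hx : x ∈ Ω B ⊔ Ω B') : x ∈ 𝐂 (Ω (cj g D)) := by
  rw [← cj_Om, ← cj_cent, mem_cj]; exact s.FD r t m (conj_mem_of_norm' (s.nF r) hx)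

theorem cmD : Cm (cj g B) D := fun _ h => s.FD r t m (s.omF r h)

theorem frm (ha : a ∈ Ω D) (ha' : a' ∈ Ω D) : ∃ b ∈ B, (a' ≠ 1 → b ∉ Ω B) ∧ ⁅a, g * b * g⁻¹⁆ ∈ Ω (cj g B) ∧
    ∃ x ∈ Ω B, ⁅a, g * a' * g⁻¹⁆ = x * ⁅a, g * b * g⁻¹⁆ := by
  obtain ⟨b, hb, k⟩ := t.el ha'
  have aF : a' ∈ 𝐂 (Ω B ⊔ Ω B' : Subgroup G) := fun x hx => (s.FD r t m hx a' ha').symm
  have bF : b ∈ 𝐂 (Ω B ⊔ Ω B' : Subgroup G) := fun x hx => (s.FB hx b hb).symm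
  have e := im ((mem_RR.1 r.rr).2 _ (cent_symm (sup_le (cent_symm (zpowers_le.2 (cent_anti (fun _ => t.l.memr) k)))
    (cent_symm (zpowers_le.2 (cent_anti inf_le_left (mm bF (im aF)))))) (mem_zpowers _)))
  have m1 : ⁅a, g * b * g⁻¹⁆ ∈ Ω (cj g B) := by
    rcases s.l.h.cases (s.l.h.cj g s.l.l) t.r.r (s.cmD r t m) with p | p
    · rw [br_one.2 (p (conj_mem_cj.2 hb) a (om ha))]; exact one_mem _
    · exact p.br' (conj_mem_cj.2 hb) ha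
  refine ⟨b, hb, fun a1 o => ?_, m1, ⁅a, a' * b⁻¹ * ⁅g, b * a'⁻¹⁆⁻¹⁆, br_inv_mem ((?_ : _ ∈ centMod (Ω D) (Ω B)).2 a ha), ?_⟩
  · obtain ⟨c, hc, c1⟩ := s.l.h.exa s.l.r
    exact t.nd (om hc) c1 (om ha') a1 (br_one.2 (me (mm (im k) (t.l.abel0 (t.l.meml o))) (by group) c (t.l.memr hc)))
  · have f : ∀ x, x ∈ 𝐍 B → (∀ a ∈ Ω D, ⁅x, a⁆ ∈ Ω B) → x ∈ centMod (Ω D) (Ω B) := fun x hx h => ⟨norm_Om 2 B hx, h⟩
    refine mm (mm (f _ (t.r.omN ha') fun a ha => ?_) (im (f _ (le_norm_self _ hb) fun a ha => t.r.br hb ha)))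
      (sup_le (a := Ω C) (b := rad B B' C) (fun c hc => f _ (t.l.omN hc) (t.br c hc)) (fun y hy => f _ (cent_le_norm _ (s.FB hy.1)) fun a ha => ?_) e)
    · rw [br_one.2 (t.r.symm.ca ha' (om ha))]; exact one_mem _
    · rw [br_one.2 (s.FD r t m hy.1 a ha).symm]; exact one_mem _
  · rw [← cj_of_comm (mm (mm aF (im bF)) (s.EF e) _ (s.omF r m1)).symm, ← br_mul', br_def g]
    congr 1; group

theorem caseI (ne : B ≠ cj g B) (ad : Ad 𝒞 (cj g B) D) : ∃ Z, ∃ u ∈ Ω Z, Ad 𝒞 Z D ∧ u ∈ rad B B' C ∧ u ≠ 1 := by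
  have hF : ∀ a ∈ Ω D, ∀ v ∈ Ω (cj g D), ⁅a, v⁆ ∈ Ω B ⊔ Ω B' := fun a ha v hv => by
    obtain ⟨b, -, -, k, x, hx, e⟩ := s.frm r t m ha (om_cj hv)
    exact me (mm (mem_sup_left hx) (s.omF r k)) (by rw [← e]; congr 1; group)
  obtain ⟨a, ha, a1⟩ := s.l.h.exa t.r.r
  have u1 : ⁅a, g * a * g⁻¹⁆ ≠ 1 := fun o => by
    obtain ⟨b, hb, b1, k, x, hx, e⟩ := s.frm r t m ha ha
    refine a1 (ad.fpf' (conj_mem_cj.2 hb) (fun o => b1 a1 (by simpa [mul_assoc] using om_cj o)) (om ha) (br_one.1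
      (s.l.h.eq_one s.l.l ad.l ne ?_ (om k))))
    exact inv_eq_of_mul_eq_one_right (e.symm.trans o) ▸ im (om hx)
  obtain ⟨Z, z, -⟩ := C2.tri ⟨s.l.h, t.r.r, s.l.h.cj g t.r.r, fun o => u1 (br_one.2 (o.comm ha (cj_om g ha))),
    fun u hu v hv => s.FD r t m (hF u hu v hv), fun u hu v hv => s.FD' r t m (hF u hu v hv)⟩
  have mu := hF a ha _ (cj_om g ha)
  refine ⟨Z, _, z.br a ha _ (cj_om g ha), z.l, ?_, u1⟩
  obtain ⟨c, hc, y, hy, e⟩ := s.memE.1 r.sq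
  have k : g * ⁅a, g * a * g⁻¹⁆ * g⁻¹ = ⁅a, g * a * g⁻¹⁆ := by
    have m1 := mem_sup_left (T := Ω B') (t.br c hc a ha)
    rw [br_cj, show g * (g * a * g⁻¹) * g⁻¹ = c * (y * a * y⁻¹) * c⁻¹ by
      rw [show g * (g * a * g⁻¹) * g⁻¹ = g * g * a * (g * g)⁻¹ by group, ← e]; group,
      cj_of_comm (s.FD r t m hy.1 a ha).symm, cj_eq_br c, br_mul', br_one.2 (s.FD' r t m m1 _ (cj_om g ha)), one_mul,
      br_symm (s.sqF mu), cj_of_comm (s.FF m1 mu)]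
  obtain ⟨x, hx, y, hy, e⟩ := s.dec mu
  rw [← e, ← conj_mul, cj_of_comm (r.ce (mem_sup_right hy)).symm, mul_right_cancel_iff] at k
  rwa [← e, s.l.h.eq_one s.l.l ad.l ne (om hx) (k ▸ conj_mem_cj.2 (om hx)), one_mul]

theorem caseII (ne : B ≠ cj g B) (p : cj g B ≤ 𝐂 D) : Cm D (cj g D) := fun a ha v hv => by
  obtain ⟨b, hb, -, -, x, hx, e⟩ := s.frm r t m ha (om_cj hv)
  obtain ⟨b', hb', -, -, x', hx', e'⟩ := s.frm r.inv t m (om_cj hv) ha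
  rw [br_one.2 (p (conj_mem_cj.2 hb) a (om ha)), mul_one, show g * (g⁻¹ * v * g) * g⁻¹ = v by group] at e
  have hm : g⁻¹ * b' * g⁻¹⁻¹ ∈ cj g B := s.cj_inv r ▸ conj_mem_cj.2 hb'
  rw [br_one.2 (p hm _ (om (om_cj hv))), mul_one] at e'
  refine br_one.1 (s.l.h.eq_one s.l.l (s.l.h.cj g s.l.l) ne (br_inv_mem (e ▸ om hx)) (mem_cj.2 (me (om hx') ?_)))
  rw [← e', br_def, br_def]; group

omit r

theorem false : False := by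
  have h := s.l.h
  have ne : ∀ {g a}, a ∈ Ω B → ⁅g, a⁆ ∈ rad B B' C → ⁅g, a⁆ ≠ 1 → B ≠ cj g B := fun {g a} ha hy y1 e =>
    y1 (s.l.symm.cent_r (br_right (om ha) (cj_eq_self.1 e.symm)) hy.2)
  have c1 : ∀ a ∈ Ω B, a ≠ 1 → ∀ y ∈ rad B B' C, y ≠ 1 → y * a ∉ 𝐂 D →
      ∃ Z, ∃ u ∈ Ω Z, Ad 𝒞 Z D ∧ u ∈ rad B B' C ∧ u ≠ 1 := fun a ha a1 y hy y1 n => by
    obtain ⟨g, r, rfl⟩ := s.lemG ha a1 hy
    exact s.caseI r t m (ne ha hy y1) ((h.cases (h.cj g s.l.l) t.r.r (s.cmD r t m)).resolve_left fun p =>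
      n (cj_eq_br g a ▸ p (conj_mem_cj.2 (om ha))))
  by_cases H : rad B B' C ≤ 𝐂 D
  · obtain ⟨a', ha', a1'⟩ := h.exa s.r.l
    obtain ⟨a, ha, y, hy, rfl⟩ := s.dec (mem_sup_right ha')
    have a1 : a ≠ 1 := by rintro rfl; exact a1' (s.r.symm.cent_r (om ha') (by simpa using hy.2))
    obtain ⟨Z, u, hu, z, uY, u1⟩ := c1 a ha a1 y hy (by
      rintro rfl; exact a1 (h.eq_one s.l.l s.r.l s.ne (om ha) (by simpa using om ha'))) fun o =>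
        a1 (t.r.symm.cent_r (om ha) (me (mm (im (H hy)) o) (by group)))
    exact u1 (z.symm.cent_r (om hu) (H uY))
  obtain ⟨y, hy, n⟩ := SetLike.not_le_iff_exists.1 H
  obtain ⟨a, ha, e⟩ : ∃ a ∈ Ω B, y * a ∈ 𝐂 D := by
    obtain ⟨a, ha, a', ha', rfl⟩ := s.memF.1 hy.1
    rw [← s.p (om ha) _ (om ha')]
    rcases h.cases s.r.l t.r.r m with p | p
    · exact ⟨_, im ha, by simpa using p (om ha')⟩
    obtain ⟨c, hc, e⟩ := t.r.symm.lam s.q p.symm ha'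
    exact ⟨_, mm (im ha) hc, by rwa [mul_assoc, mul_inv_cancel_left, s.p (om hc) _ (om ha')]⟩
  have a1 : a ≠ 1 := by rintro rfl; exact n (by simpa using e)
  obtain ⟨g, r, rfl⟩ := s.lemG ha a1 hy
  have n1 := ne ha hy (by rintro o; exact n (o ▸ one_mem _))
  have hB' := h.cj g s.l.l
  have hD' := h.cj g t.r.r
  have p : cj g B ≤ 𝐂 D := cent_symm (h.pp_of_cent t.r.r hB' (conj_mem_cj.2 (om ha))
    (fun o => a1 (conj_eq_one_iff.1 o)) (cj_eq_br g a ▸ e))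
  have inj : ∀ x ∈ Ω B, x * g = g * x → x = 1 := fun x hx e =>
    h.eq_one s.l.l hB' n1 (om hx) (cj_of_comm e.symm ▸ conj_mem_cj.2 (om hx))
  obtain ⟨Z, u, hu, z, uY, u1⟩ : ∃ Z, ∃ u ∈ Ω Z, Ad 𝒞 Z D ∧ u ∈ rad B B' C ∧ u ≠ 1 := by
    obtain ⟨x, hx, x1, xa⟩ : ∃ x ∈ Ω B, x ≠ 1 ∧ x ≠ a := by
      obtain ⟨x, hx, x', hx', x1, x1', k⟩ := h.four s.l.l
      by_cases o : x = a
      exacts [⟨x', hx', x1', o ▸ k.symm⟩, ⟨x, hx, x1, o⟩]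
    refine c1 a ha a1 _ (r.br x hx) (fun o => x1 (inj x hx (br_one.1 o).symm)) fun o => xa ?_
    have := t.r.symm.cent_r (om (mm (im ha) hx)) (me (mm (im o) (cj_eq_br g x ▸ p (conj_mem_cj.2 (om hx)))) (by group))
    exact (inv_mul_eq_one.1 this).symm
  have z' := z.cj g
  rw [cj_of_norm (h.norm z.l (om hu) u1 (r.ce (mem_sup_right uY)).symm)] at z'
  have t' := t.cj g
  rw [r.nC h s.l.r] at t'
  obtain ⟨d, hd, d1⟩ := h.exa t.r.r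
  obtain ⟨d', hd', e'⟩ := z'.lam s.q z hd
  have d1' : d' ≠ 1 := by rintro rfl; exact d1 (z.cent_r (om hd) (by simpa using e'))
  obtain ⟨V, hV, hv⟩ : ∃ V ∈ 𝒞, d' * d ∈ Ω V := by
    rcases h.cases t.r.r hD' (s.caseII r t m n1 p) with p' | p'
    swap
    · obtain ⟨V, hV, -, hv⟩ := p'.spread s.q.fu (mm (p'.memr hd') (p'.meml hd)); exact ⟨V, hV, hv⟩
    have p2 : B ≤ 𝐂 (cj g D) := by rwa [← cj_cent_iff (g := g⁻¹), cj_inv_cj, s.cj_inv r]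
    obtain ⟨x, hx, rfl⟩ := Bil.surj' (U := Ω B) (g := g) (Z := rad B B' C)
      (fun u hu v hv => s.FF (mem_sup_left hu) (br_inv_mem (r.br v hv)).1) (fun u hu => br_inv_mem (r.br u hu)) inj
      (s.q.c4 s.l.l ▸ s.card_rad) uY
    have x1 : x ≠ 1 := by rintro rfl; exact u1 (by simp)
    have pB : B ≤ 𝐂 (cj g B) := h.pp_of_cent s.l.l hB' (conj_mem_cj.2 (om hx)) (fun o => x1 (conj_eq_one_iff.1 o))
      (s.FB (s.omF r (cj_om g hx)))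
    obtain ⟨l, hl, k⟩ := t.r.trP s.q.fu hx x1 hd d1
    obtain ⟨l', hl', k'⟩ := t'.r.trP s.q.fu (cj_om g hx) (fun o => x1 (conj_eq_one_iff.1 o)) hd' d1'
    refine ⟨_, h.cj l' (h.cj l z.l), me (cj_om l' (cj_om l hu)) ?_⟩
    rw [br_eq_mul (s.l.sa hx), cmul l, k, cj_of_comm ((sup_le pB (cent_symm p) hl : l ∈ 𝐂 (cj g B)) _
      (conj_mem_cj.2 (om hx))).symm, cmul l', k', cj_of_comm ((sup_le p (cent_symm p') hl' : l' ∈ 𝐂 D) _ (om hd)).symm,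
      p' (om hd) _ (om hd')]
  obtain ⟨c, hc, c1⟩ := h.exa s.l.r
  have k : ⁅c, d' * d⁆ = 1 := by
    by_cases o : d' * d = 1
    · simp [o]
    exact br_one.2 ((s.q.perp_cm z.l s.l.r hV (cent_symm (h.pp_of_cent s.l.r z.l (om hu) u1 uY.2))
      (h.pp_of_cent z.l hV (om hv) o e')).comm hc hv)
  rw [br_mul', cj_of_comm (s.FD' r t m (mem_sup_left (t.br c hc d hd)) d' hd')] at k
  exact t.nd (om hc) c1 (om hd) d1 (h.eq_one s.l.l hB' n1 (om (t.br c hc d hd))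
    (inv_eq_of_mul_eq_one_right k ▸ im (om (t'.br c hc d' hd'))))

end Pl

theorem Q4.noperp (q : Q4 𝒞) (hB : B ∈ 𝒞) (hE : E ∈ 𝒞) (p : B ≤ 𝐂 E) : B = E := by
  have h := q.toTA
  by_contra ne
  obtain ⟨C, D, t⟩ := q.tri hB
  have fin : ∀ {C D E}, Tri 𝒞 B C D → B ≤ 𝐂 E → B ≠ E → Ad 𝒞 E C → Cm E D → False := fun t p ne s m =>
    Pl.false ⟨q, t.l, s, p, ne⟩ t m
  have cen : ∀ {C E}, E ∈ 𝒞 → Ad 𝒞 B C → B ≤ 𝐂 E → ¬ Cm E C → ∃ Z, Tri 𝒞 Z E C ∧ B ≤ 𝐂 Z ∧ B ≠ Z :=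
    fun {C E} hE s p n => by
    have pp : ∀ v ∈ Ω C, B ≤ 𝐂 (cj v E) := fun v hv => by rwa [← cj_of_norm (s.omN hv), cj_cent_iff]
    obtain ⟨Z, z, -⟩ := (h.c2_of hE s.r n fun v hv => q.perp_cm hB hE (h.cj v hE) p (pp v hv)).tri
    obtain ⟨u, hu, u1⟩ := h.exa hE
    obtain ⟨v, hv, v1⟩ := h.exa s.r
    refine ⟨Z, z, h.pp_of_cent hB z.l.l (om (z.br u hu v hv)) (z.nd (om hu) u1 (om hv) v1) ?_, ?_⟩
    · exact br_inv_mem (brJ (cent_symm p (om hu)) (s.omN hv))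
    · rintro rfl; exact z.l.nc p
  have aux : ∀ {C D}, Tri 𝒞 B C D → ¬ Cm E C → False := fun {C D} t n => by
    obtain ⟨Z, z, p', ne'⟩ := cen hE t.l p n
    by_cases m : Cm Z D
    · exact fin t p' ne' z.r m
    obtain ⟨Z', z', p'', ne''⟩ := cen z.l.l t.r p' m
    refine fin t.symm p'' ne'' z'.r ?_
    obtain ⟨a, ha, a1⟩ := h.exa z.l.l
    obtain ⟨d, hd, d1⟩ := h.exa t.r.r
    obtain ⟨c, hc, c1⟩ := h.exa t.l.r
    refine h.cm_of' z'.l.l t.l.r (om hc) c1 (om (z'.br a ha d hd)) (z'.nd (om ha) a1 (om hd) d1) ?_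
    have k := om (t.br c hc d hd)
    rw [← mul_inv_eq_iff_eq_mul, br_cj, cj_of_comm (z.r.comm ha hc).symm, cj_eq_br c d, br_mul', br_one.2 (p' k a (om ha)),
      one_mul, cj_of_comm (p'' k _ (om (z'.br a ha d hd))).symm]
  by_cases m : Cm E C
  · by_cases m' : Cm E D
    · rcases h.cases hE t.l.r m with p1 | s
      · rcases h.cases hE t.r.r m' with p2 | s
        exacts [t.nc (q.perp_cm hE t.l.r t.r.r p1 p2), fin t.symm p ne s m]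
      · exact fin t p ne s m'
    exact aux t.symm m'
  exact aux t m

end CF.Geom.Ta
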