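import Cfsg.Agent.Geom.Ta5

/-! The case `B ≅ Z₄ × Z₄`: the group `S₀` of order 64. -/

namespace CF.Geom.Ta
open Subgroup CF.BG CF.Xs CF.Geom.Tm
open scoped commutatorElement
set_option linter.unusedSectionVars false

variable {G : Type*} [Group G] [Finite G]
variable {𝒞 Γ : Set (Subgroup G)} {A B B' C D E K P Q R S T U V W Y Z : Subgroup G}
  {a a' b b' c c' d e g k l p u v w x y z : G}

theorem Q4.ad (q : Q4 𝒞) (hB : B ∈ 𝒞) (hC : C ∈ 𝒞) (m : Cm B C) (ne : B ≠ C) : Ad 𝒞 B C :=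
  (q.toTA.cases hB hC m).resolve_left fun p => ne (q.noperp hB hC p)

theorem Q4.eq_of_le (q : Q4 𝒞) (hB : B ∈ 𝒞) (hC : C ∈ 𝒞) (l : B ≤ 𝐍 C) : B = C :=
  q.noperp hB hC (q.toTA.pp_of_le hB hC l)

/-- the group `S₀` -/
def SS (B C : Subgroup G) : Subgroup G := B ⊔ NN B C

theorem BS (hb : b ∈ B) : b ∈ SS B C := mem_sup_left hb

theorem PS (hb : b ∈ NN B C) : b ∈ SS B C := mem_sup_right hb

theorem normS (h1 : g ∈ 𝐍 B) (h2 : g ∈ 𝐍 (NN B C)) : g ∈ 𝐍 (SS B C) := mem_norm_sup h1 h2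

namespace Ad
variable (s : Ad 𝒞 B C)
include s

theorem memS : x ∈ SS B C ↔ ∃ b ∈ B, ∃ c ∈ Ω C, b * c = x := by
  refine ⟨fun h => ?_, by rintro ⟨b, hb, c, hc, rfl⟩; exact mm (BS hb) (PS (s.memr hc))⟩
  obtain ⟨b, hb, _, hp, rfl⟩ := (mem_sup_norm fun _ => s.nBP).1 h
  obtain ⟨a, ha, c, hc, rfl⟩ := s.memP.1 hp
  exact ⟨_, mm hb (om ha), c, hc, mul_assoc _ _ _⟩

theorem SN : SS B C ≤ 𝐍 B := sup_le (le_norm_self B) fun _ => s.PN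

theorem SP : SS B C ≤ 𝐍 (NN B C) := sup_le (fun _ => s.nBP) (le_norm_self _)

theorem SL : SS B C ≤ B ⊔ C := sup_le le_sup_left (sup_le_sup inf_le_left inf_le_left)

theorem piS : PiGrp {2} (SS B C) := (s.h.pi s.l).sup (pi_of_sq s.sqP0) (.inl fun _ => s.nBP)

theorem SK (hx : x ∈ SS B C) (k : x ∈ 𝐂 (NN B C)) : x ∈ NN B C := by
  obtain ⟨b, hb, c, hc, rfl⟩ := s.memS.1 hx
  exact mm (s.meml (by_contra fun o => s.not_cent0 (s.nN hb o)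
    (me (mm k (im (s.abel0 (s.memr hc)))) (by group)))) (s.memr hc)

theorem SJ (hx : x ∈ SS B C) (k : x ∈ 𝐂 B) : x ∈ B := by
  obtain ⟨b, hb, c, hc, rfl⟩ := s.memS.1 hx
  rwa [s.cent_r (om hc) (me (mm (im (s.h.ab s.l hb)) k) (by group)), mul_one]

theorem sq_bc (hb : b ∈ B) (hc : c ∈ Ω C) : b * c * (b * c) = b * b * ⁅b, c⁆ := by
  rw [← s.brs hb hc, mul_assoc b b, ← s.ca (s.br' hb hc) hb, ← cj_eq_br, inv_of_sq (s.symm.sa hc)]; group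

theorem inv_dec (hx : x ∈ SS B C) (xx : x * x = 1) (n : x ∉ NN B C) :
    ∃ b ∈ B, ∃ c ∈ Ω C, b * b ≠ 1 ∧ ⁅b, c⁆ = b * b ∧ b * c = x := by
  obtain ⟨b, hb, c, hc, rfl⟩ := s.memS.1 hx
  rw [s.sq_bc hb hc] at xx
  exact ⟨b, hb, c, hc, fun o => n (mm (s.meml ((s.h.mem_om s.l).2 ⟨hb, o⟩)) (s.memr hc)), by
    rw [← inv_eq_of_mul_eq_one_right xx, inv_of_sq (s.sa (s.sq4 hb))], rfl⟩

theorem same (hb : b ∈ B) (hb' : b' ∈ B) (hc : c ∈ Ω C) (hc' : c' ∈ Ω C) (b1 : b * b ≠ 1) (k : ⁅b, c⁆ = b * b)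
    (k' : ⁅b', c'⁆ = b' * b') (e : b * b = b' * b') : c = c' :=
  s.eq_of_br hb (fun o => b1 (s.sa o)) hc hc' (by rw [s.br_eq hb' (s.mem_of_sq hb hb' e) (s.memr hc'), k, k', e])

theorem T2 (hx : x ∈ SS B C) (xx : x * x = 1) (n : x ∉ NN B C) (hy : y ∈ SS B C) (yy : y * y = 1) (n' : y ∉ NN B C)
    (e : x * y ∈ NN B C) : x * y ∈ Ω B := by
  obtain ⟨b, hb, c, hc, b1, k, rfl⟩ := s.inv_dec hx xx n
  obtain ⟨b', hb', c', hc', -, k', rfl⟩ := s.inv_dec hy yy n'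
  have e1 : b * c * (b' * c') = b * b' * ⁅c, b'⁆ * (c * c') := by
    rw [mul_assoc b b', ← s.ca (s.br' hb' hc) hb', ← cj_eq_br]; group
  have m := s.infP (me (mm e (im (s.memr (mm hc hc')))) (by rw [e1, mul_inv_cancel_right]))
    (mm (mm hb hb') (om (s.br' hb' hc)))
  obtain rfl := s.same hb hb' hc hc' b1 k k' (s.sq_of_mem hb'
    (me (mm (mm m (im (s.br' hb' hc))) (im (s.sq4 hb'))) (by group)))
  rwa [e1, s.symm.sa hc, mul_one]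

theorem on_cj (f : Fu 𝒞) (hD : D ∈ 𝒞) (l : Ω D ≤ NN B C) (ne : B ≠ D) : ∃ b ∈ B, BG.cj b C = D := by
  obtain ⟨d, hd, d1⟩ := s.h.exa hD
  obtain ⟨a, ha, c, hc, rfl⟩ := s.memP.1 (l hd)
  have c1 : c ≠ 1 := by rintro rfl; exact ne (s.h.ti s.l hD (om ha) (by simpa using om hd) (by simpa using d1))
  obtain ⟨b, hb, rfl⟩ := s.full f hc c1 ha
  exact ⟨b, hb, s.h.cj_eq s.r hD (om hc) c1 (cj_eq_br b c ▸ om hd)⟩

theorem NJP (hk : k ∈ 𝐂 B) (n : k ∈ 𝐍 (NN B C)) : ∃ b ∈ B, b * k⁻¹ ∈ 𝐂 C := by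
  obtain ⟨b, hb, e⟩ := s.elb (s.el_of n (fun a ha => hk a (om ha)) (cent_le_norm _ hk))
  obtain ⟨a, ha, e'⟩ := s.F2 e (mm (s.h.ab s.l hb) (im hk))
  exact ⟨_, mm (om ha) hb, mul_assoc a b _ ▸ e'⟩

variable (q : Q4 𝒞)
include q

theorem T1 (hx : x ∈ SS B C) (xx : x * x = 1) (n : x ∉ NN B C) (hy : y ∈ SS B C) (yy : y * y = 1) (n' : y ∉ NN B C) :
    x * y = y * x := by
  obtain ⟨b, hb, c, hc, b1, k, rfl⟩ := s.inv_dec hx xx n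
  obtain ⟨b', hb', c', hc', b1', k', rfl⟩ := s.inv_dec hy yy n'
  have e1 : ∀ {b b' c c'}, b' ∈ B → c ∈ Ω C → b * c * (b' * c') = b * b' * ⁅b', c⁆ * (c * c') := fun hb' hc => by
    rw [← s.brs hb' hc, mul_assoc _ _ ⁅_, _⁆, ← s.ca (s.br' hb' hc) hb', ← cj_eq_br]; group
  rw [e1 hb' hc, e1 hb hc', s.h.comm s.l hb hb', s.symm.cA _ _ hc hc']
  congr 2
  by_cases e : b * b = b' * b'
  · rw [← s.same hb hb' hc hc' b1 k k' e, s.br_eq hb' (s.mem_of_sq hb hb' e) (s.memr hc)]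
  · rw [s.tab q hb hb' b1 b1' e hc k, s.tab q hb' hb b1' b1 (Ne.symm e) hc' k', s.cA _ _ (s.sq4 hb) (s.sq4 hb')]

theorem line (s' : Ad 𝒞 B D) (m : Cm C D) : Ω D ≤ NN B C := fun d hd => by
  by_cases ne : C = D
  · exact s.memr (ne ▸ hd)
  have r := q.ad s.r s'.r m ne
  obtain ⟨c, hc, e⟩ := s.lam q s' hd
  obtain ⟨V, hV, -, hv⟩ := r.spread q.fu (mm (r.meml hc) (r.memr hd))
  refine me (mm (im (s.memr hc)) (?_ : c * d ∈ NN B C)) (by group)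
  by_cases o : c * d = 1
  · exact o ▸ one_mem _
  exact s.meml (q.noperp s.l hV (s.h.pp_of_cent s.l hV (om hv) o e) ▸ hv)

theorem lemX (s' : Ad 𝒞 B D) (hd : d ∈ Ω D) (n : d ∈ 𝐍 (NN B C)) (k : d ∉ 𝐂 (NN B C)) : d ∈ SS B C := by
  obtain ⟨b, hb, e⟩ := s.elb (s.el_of n (fun a ha => s'.comm ha hd) (s'.omN hd))
  have dd := s'.symm.sa hd
  have i := s.elinv dd hb e
  have b1 : b ∉ Ω B := fun o => k (me (mm (im e) (s.abel0 (s.meml o))) (by group))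
  have b2 : b * b ≠ 1 := fun o => b1 ((s.h.mem_om s.l).2 ⟨hb, o⟩)
  obtain ⟨c, hc, i'⟩ := s.surj' hb b1 (s.sq4 hb)
  have j := mm (s.act q s' hb b2 hc hd i' i) (im (s.h.ab s.l hb))
  obtain ⟨a, ha, y2⟩ := s.F2 (me (mm (s.abel0 (s.memr hc)) (im e)) (by group)) j
  obtain ⟨y, hy⟩ : ∃ y, y = a * (c * d * b⁻¹) := ⟨_, rfl⟩
  have yL : y ∈ 𝐂 (B ⊔ C : Subgroup G) := by
    rw [cent_sup, hy]; exact ⟨mm (s.h.ab s.l (om ha)) j, y2⟩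
  obtain ⟨x, hx⟩ : ∃ x, x = c⁻¹ * a⁻¹ * b := ⟨_, rfl⟩
  have xb : x * b⁻¹ ∈ NN B C := me (mm (im (s.memr hc)) (im (s.meml ha))) (by rw [hx]; group)
  have xS : x ∈ SS B C := me (mm (PS xb) (BS hb)) (by group)
  have ed : d = x * y := by
    rw [hx, mul_assoc _ b, yL b (mem_sup_left hb), hy]; group
  have xx : x * x = 1 := by
    have := s.sq_bc (mm (im (om ha)) hb) hc
    rw [s.br_eq (b := a⁻¹ * b) hb (me (im ha) (by group)) (s.memr hc), i', s.sq_of_mem (b := a⁻¹ * b) hb (me (im ha) (by group)),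
      s.sa (s.sq4 hb)] at this
    calc _ = c⁻¹ * (a⁻¹ * b * c * (a⁻¹ * b * c)) * c := by rw [hx, inv_of_sq (s.symm.sa hc)]; simp [mul_assoc, s.symm.sa hc]
      _ = _ := by rw [this]; simp
  have key : ∀ a' ∈ Ω B, a' ≠ 1 → ∃ x' ∈ SS B C, ∃ b' ∈ B, x' * x' = 1 ∧ x' ∉ NN B C ∧ x' * b'⁻¹ ∈ NN B C ∧
      b' * b' = a' ∧ x' * y ∈ NN B D := fun a' ha' a1 => by
    obtain ⟨l, hl, nl, el⟩ := s.trA q.fu (s.sq4 hb) b2 ha' a1
    have lP := s.nLP hl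
    have m := conj_mem_of_norm (normS nl lP) xS
    have m1 : l * x * l⁻¹ * (l * x * l⁻¹) = 1 := by rw [conj_mul, xx]; simp
    have xP : x ∉ NN B C := fun o => b1 (s.infP (me (mm (im xb) o) (by group)) hb)
    have m2 : l * x * l⁻¹ ∉ NN B C := fun o => xP (me (conj_mem_of_norm' lP o) (by group))
    have r := s'.cj l
    rw [cj_of_norm nl] at r
    have e1 : l * d * l⁻¹ = l * x * l⁻¹ * y := by rw [ed, cmul, cj_of_comm (yL l hl)]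
    have d1 : d ≠ 1 := by rintro rfl; exact k (one_mem _)
    refine ⟨_, m, _, conj_mem_of_norm nl hb, m1, m2, me (conj_mem_of_norm lP xb) (by group), by rw [conj_mul, el],
      e1 ▸ s'.line q r (s.h.cm_of' s'.r r.r (om (cj_om l hd)) (fun o => d1 (conj_eq_one_iff.1 o)) (om hd) d1 ?_) (cj_om l hd)⟩
    have c1 := yL x (s.SL xS)
    have c2 := yL _ (s.SL m)
    rw [e1, ed]
    exact mul_cent (mul_cent (s.T1 q xS xx xP m m1 m2) c2.symm).symm (mul_cent c1 rfl).symm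
  obtain ⟨a', ha', a1, ne⟩ : ∃ a' ∈ Ω B, a' ≠ 1 ∧ a' ≠ b * b := by
    obtain ⟨x, hx, x', hx', x1, x1', k⟩ := s.h.four s.l
    by_cases o : x = b * b
    exacts [⟨x', hx', x1', o ▸ k.symm⟩, ⟨x, hx, x1, o⟩]
  have n2 : b * b * a' ≠ 1 := fun o => ne (mul_left_cancel (o.trans (s.sa (s.sq4 hb)).symm))
  obtain ⟨x0, h0, b0, g0, s0, n0, p0, q0, r0⟩ := key _ (s.sq4 hb) b2
  obtain ⟨x1, h1, b1, g1, s1, n1, p1, q1, r1⟩ := key _ ha' a1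
  obtain ⟨x2, h2, b2, g2, s2, n2', p2, q2, r2⟩ := key _ (mm (s.sq4 hb) ha') n2
  have mul : ∀ {x x' b b'}, x ∈ SS B C → x * b⁻¹ ∈ NN B C → x' * b'⁻¹ ∈ NN B C → x * x' * (b * b')⁻¹ ∈ NN B C :=
    fun hx h h' => me (mm (conj_mem_of_norm (s.SP hx) h') h) (by group)
  have p01 := mul h0 p0 p1
  have := s.T2 (mm h0 h1) (sq_mul s0 s1 (s.T1 q h1 s1 n1 h0 s0 n0)) (fun o => n2 (by
    rw [← q0, ← q1, ← s.sq_mul' g0 g1]; exact s.sa (s.infP (me (mm (im p01) o) (by group)) (mm g0 g1)))) h2 s2 n2'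
    (me (mm (mul (mm h0 h1) p01 p2) (s.meml ((s.h.mem_om s.l).2 ⟨mm (mm g0 g1) g2, by
      rw [s.sq_mul' (mm g0 g1) g2, s.sq_mul' g0 g1, q0, q1, q2, s.sa (mm (s.sq4 hb) ha')]⟩))) (by group))
  have yy : y * y = 1 := by rwa [ed, mul_assoc, ← mul_assoc y, ← yL x (s.SL xS), mul_assoc, sq_left xx] at dd
  have yP : y ∈ NN B D := me (mm (im (s'.meml this)) (mm (mm r0 r1) r2)) (by
    rw [mul_assoc x0 y, ← mul_assoc y, ← yL x1 (s.SL h1), mul_assoc x1, yy]; group)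
  rw [ed, s.symm.cent_r (om (s'.centP yP (cent_anti le_sup_left yL))) (cent_anti le_sup_right yL), mul_one]
  exact xS

end Ad

namespace Tri
variable (t : Tri 𝒞 B C D) (q : Q4 𝒞)
include t

theorem nK (hd : d ∈ Ω D) (k : d ∈ 𝐂 (NN B C)) : d = 1 := by
  obtain ⟨c, hc, c1⟩ := t.l.h.exa t.l.r
  exact by_contra fun o => t.nd (om hc) c1 (om hd) o (br_one.2 (k c (t.l.memr hc)))

theorem neP : NN B C ≠ NN B D := fun e => by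
  obtain ⟨d, hd, d1⟩ := t.l.h.exa t.r.r
  exact d1 (t.nK hd (t.l.abel0 (e ▸ t.r.memr hd)))

include q

theorem DS (hd : d ∈ Ω D) : d ∈ SS B C := by
  by_cases o : d = 1
  · exact o ▸ one_mem _
  exact t.l.lemX q t.r hd (t.nP hd) fun k => o (t.nK hd k)

theorem SS_eq : SS B D = SS B C := by
  have k : ∀ {C D}, Tri 𝒞 B C D → SS B D ≤ SS B C := fun t x hx => by
    obtain ⟨b, hb, d, hd, rfl⟩ := t.r.memS.1 hx; exact mm (BS hb) (t.DS q hd)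
  exact le_antisymm (k t) (k t.symm)

theorem invS (hx : x ∈ SS B C) (xx : x * x = 1) : x ∈ NN B C ∨ x ∈ NN B D := by
  refine (em _).imp_right fun n => ?_
  obtain ⟨b, hb, c, hc, b1, -, rfl⟩ := t.l.inv_dec hx xx n
  obtain ⟨v, hv, k⟩ := t.exR hb
  have vv := t.r.symm.sa hv
  refine me (mm (t.r.meml (t.l.T2 hx xx n (t.DS q hv) vv (fun o => b1 (t.l.sa (by_contra fun o' =>
    t.l.not_cent0 (t.l.nN hb o') (me (mm k (t.l.abel0 o)) (by group))))) (t.l.SK (mm hx (t.DS q hv)) ?_)))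
    (im (t.r.memr hv))) (by group)
  exact me (mm (t.l.abel0 (conj_mem_of_norm (t.l.nBP hb) (t.l.memr hc))) k) (by rw [inv_of_sq vv]; group)

theorem lemX' (s : Ad 𝒞 B E) (hd : d ∈ Ω E) (d1 : d ≠ 1) (n : d ∈ 𝐍 (NN B C)) : NN B E = NN B C ∨ NN B E = NN B D := by
  by_cases k : d ∈ 𝐂 (NN B C)
  · exact .inl (t.l.on s.r (t.l.line q s (t.l.h.cm_of t.l.r s.r (om hd) d1 (t.l.symm.KN (NN_symm B C ▸ k)))) s.ne).2
  obtain ⟨V, hV, l, hv⟩ := t.r.spread q.fu ((t.invS q (t.l.lemX q s hd n k) (s.symm.sa hd)).resolve_left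
    fun o => k (t.l.abel0 o))
  exact .inr (t.r.on s.r (t.l.h.ti hV s.r (om hv) (om hd) d1 ▸ l) s.ne).2

theorem NB (hg : g ∈ 𝐍 (SS B C)) : g ∈ 𝐍 B :=
  cj_eq_self.1 (q.eq_of_le (t.l.h.cj g t.l.l) t.l.l ((cj_le_of_norm hg le_sup_left).trans t.l.SN))

theorem cjP (hg : g ∈ 𝐍 B) (hd : d ∈ Ω (cj g C)) (d1 : d ≠ 1) (n : d ∈ 𝐍 (NN B C)) :
    cj g (NN B C) = NN B C ∨ cj g (NN B C) = NN B D := by
  have s := t.l.cj g
  rw [cj_NN]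
  rw [cj_of_norm hg] at s ⊢
  exact t.lemX' q s hd d1 n

theorem cjP' (hg : g ∈ 𝐍 (SS B C)) : cj g (NN B C) = NN B C ∨ cj g (NN B C) = NN B D := by
  obtain ⟨c, hc, c1⟩ := t.l.h.exa t.l.r
  exact t.cjP q (t.NB q hg) (cj_om g hc) (fun o => c1 (conj_eq_one_iff.1 o))
    (t.l.SP (conj_mem_of_norm hg (PS (t.l.memr hc))))

theorem nS (hg : g ∈ 𝐍 B) (l : Ω (cj g C) ≤ 𝐍 (SS B C)) : g ∈ 𝐍 (SS B C) := by
  obtain ⟨d, hd, d1, n⟩ : ∃ d ∈ Ω (cj g C), d ≠ 1 ∧ d ∈ 𝐍 (NN B C) := by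
    obtain ⟨u, hu, v, hv, u1, v1, ne⟩ := t.l.h.four (t.l.h.cj g t.l.r)
    rcases t.cjP' q (l hu) with e | e
    · exact ⟨u, hu, u1, cj_eq_self.1 e⟩
    rcases t.cjP' q (l hv) with e' | e'
    · exact ⟨v, hv, v1, cj_eq_self.1 e'⟩
    exact ⟨u⁻¹ * v, mm (im hu) hv, fun o => ne (inv_mul_eq_one.1 o), cj_eq_self.1 (by rw [← cj_cj, e', ← e, cj_inv_cj])⟩
  refine cj_eq_self.1 ?_
  rw [SS, cj_sup, cj_of_norm hg]
  rcases t.cjP q hg hd d1 n with e | e <;> rw [e]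
  exact t.SS_eq q

theorem climb (hT : PiGrp {2} T) (l : SS B C ≤ T) (n : T ≤ 𝐍 B) : T ≤ 𝐍 (SS B C) :=
  (hT.nil.eq_of_inf_norm_le (K := T ⊓ 𝐍 (SS B C)) inf_le_left fun x hx => ⟨hx.1, t.nS q (n hx.1) (cj_Om x 2 C ▸
    (cj_le_of_norm hx.2 fun _ hc => ⟨l (PS (t.l.memr hc)), le_norm_self _ (PS (t.l.memr hc))⟩).trans inf_le_right)⟩).ge.trans
    inf_le_right

theorem swapP (hg : g ∈ 𝐍 (SS B C)) : (cj g (NN B C) = NN B C ∧ cj g (NN B D) = NN B D) ∨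
    (cj g (NN B C) = NN B D ∧ cj g (NN B D) = NN B C) := by
  have k := t.symm.cjP' q (by rwa [t.SS_eq q])
  rcases t.cjP' q hg with e | e
  · exact .inl ⟨e, k.resolve_right fun o => t.neP (cj_inj.1 (e.trans o.symm))⟩
  · exact .inr ⟨e, k.resolve_left fun o => t.neP (cj_inj.1 (e.trans o.symm))⟩

theorem noswap (hj : g ∈ 𝐂 B) (hg : g ∈ 𝐍 (SS B C)) : g ∈ 𝐍 (NN B C) := by
  rcases t.swapP q hg with e | e
  · exact cj_eq_self.1 e.1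
  exfalso
  have n : g * g ∈ 𝐍 (NN B C) := cj_eq_self.1 (by rw [← cj_cj, e.1, e.2])
  obtain ⟨b, hb, k⟩ := t.l.elb (t.l.el_of n (fun a ha => mm hj hj a (om ha)) (cent_le_norm _ (mm hj hj)))
  have key : ∀ c ∈ Ω C, c ≠ 1 → b * b ≠ 1 ∧ ⁅b, c⁆ = b * b := fun c hc c1 => by
    have m := t.l.SJ (br_right (PS (t.l.memr hc)) hg) (br_inv_mem (brJ hj (t.l.omN hc)))
    have m1 : ⁅g, c⁆ * c ∈ NN B D := cj_eq_br g c ▸ e.1 ▸ conj_mem_cj.2 (t.l.memr hc)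
    have k1 := t.r.sqP0 _ m1
    rw [t.l.sq_bc m hc] at k1
    have k2 : ⁅b, c⁆ = ⁅g, c⁆ * ⁅g, c⁆ := by
      rw [← t.l.brs hb hc, br_congr k n (t.l.memr hc), ← commutatorElement_inv, sq_br (hj _ m).symm,
        inv_of_sq (t.l.sa (t.l.sq4 m))]
    have k3 := t.l.sq_of_mem m (t.l.mem_of_br hb m hc c1 (by
      rw [k2, ← inv_eq_of_mul_eq_one_right k1, inv_of_sq (t.l.sa (t.l.sq4 m))]))
    refine ⟨fun o => c1 (t.symm.nK hc (t.r.abel0 (me (mm (im (t.r.meml ((t.l.h.mem_om t.l.l).2 ⟨m, k3 ▸ o⟩))) m1)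
      (by group)))), k2.trans k3.symm⟩
  obtain ⟨u, hu, v, hv, u1, v1, ne⟩ := t.l.h.four t.l.r
  exact ne (t.l.same hb hb hu hv (key u hu u1).1 (key u hu u1).2 (key v hv v1).2 rfl)

theorem QS : 𝐐 B ≤ 𝐍 (SS B C) :=
  le_sup_left.trans (t.climb q (piQ t.l.piS t.l.SN) le_sup_right (sup_le (O_le _ _) t.l.SN))

theorem CQ : Ω C ≤ 𝐐 B :=
  (le_EE (Γ := {C | ∃ D, Tri 𝒞 B C D}) ⟨D, t⟩).trans (q.toMX.le_Q2 t.l.l ⟨EE_le fun C ⟨_, s⟩ _ => s.l.omN,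
    fun g hg => EE_norm fun C ⟨_, s⟩ => ⟨_, by have := s.cj g; rwa [cj_of_norm hg] at this⟩⟩
    (EE_le fun C ⟨_, s⟩ c hc => mem_RR.2 ⟨fun a ha => s.l.comm ha hc, fun b hb => s.l.br' hb hc⟩)
    ((t.l.h.pi t.l.l).le (Om_le 2 B)) (EE_le fun C ⟨_, s⟩ c hc => mem_RR.2 ⟨fun a ha => s.l.comm ha hc, fun r hr => by
      obtain ⟨b, hb, k⟩ := s.l.NJP hr.2 (s.noswap q hr.2 (s.QS q hr.1))
      rw [show r = (b * r⁻¹)⁻¹ * b by group, br_mul', br_one.2 (im k c (om hc)), one_mul]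
      exact cj_om' (im (mm (le_norm_self _ hb) (im (QN hr.1)))) (s.l.br' hb hc)⟩))

theorem MS (hg : g ∈ 𝐍 B) : g ∈ 𝐍 (SS B C) :=
  t.nS q hg (by have := t.cj g; rw [cj_of_norm hg] at this; exact (this.CQ q).trans (t.QS q))

theorem cent_on (s : Ad 𝒞 B E) (l : NN B E = NN B C) (hy : y ∈ 𝐂 B) : y ∈ 𝐂 C ↔ y ∈ 𝐂 E := by
  obtain ⟨b, hb, rfl⟩ := t.l.on_cj q.fu s.r (l ▸ fun _ => s.memr) s.ne
  rw [← cj_cent, mem_cj, mul_assoc, ← hy b hb, inv_mul_cancel_left]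

theorem YY (h1 : y ∈ 𝐂 B) (h2 : y ∈ 𝐂 C) (h3 : y ∈ 𝐂 D) : y = 1 := by
  let Z := 𝐂 B ⊓ 𝐂 (sSup {E | Ad 𝒞 B E ∧ Ω E ≤ SS B C} : Subgroup G)
  have nZ : Z ⊴ 𝐍 B := ⟨inf_le_left.trans (cent_le_norm B), norm_inf_cent (norm_le_norm_cent B) fun g hg =>
    mem_norm_of_cj_le (cj_le_iff.2 (sSup_le fun E hE => cj_le_iff.1 (le_sSup ⟨by
      have := hE.1.cj g; rwa [cj_of_norm hg] at this, cj_Om g 2 E ▸ cj_le_of_norm (t.MS q hg) hE.2⟩)))⟩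
  have e : Z ⊓ 𝐐 B = ⊥ := by_contra fun o => t.l.symm.nl ((norm_of_cent (cent_mono (cent_symm inf_le_right)
    (le_sSup (s := {E | Ad 𝒞 B E ∧ Ω E ≤ SS B C}) ⟨t.l, fun _ hc => PS (t.l.memr hc)⟩) inf_le_left)).trans
      (q.mx t.l.l (O_pi _ _).inf_right o (nZ.inf (O_normal _ _)).norm))
  have m : y ∈ Z := ⟨h1, le_cent_sSup (A := zpowers y) (fun E hE => zpowers_le.2 (by
    obtain ⟨d, hd, d1⟩ := t.l.h.exa hE.1.r
    rcases t.lemX' q hE.1 hd d1 (t.l.SP (hE.2 hd)) with k | k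
    exacts [(t.cent_on q hE.1 k h1).1 h2, (t.symm.cent_on q hE.1 k h1).1 h3])) (mem_zpowers y)⟩
  exact eq_one_of_mem_bot e ⟨m, q.ch t.l.l ⟨nZ.le m, nZ.cent_of_inf_eq_bot (O_normal _ _) e m⟩⟩

theorem JB (hy : y ∈ 𝐂 B) : y ∈ B := by
  have n := t.MS q (cent_le_norm _ hy)
  obtain ⟨b, hb, k⟩ := t.l.NJP hy (t.noswap q hy n)
  obtain ⟨b', hb', k'⟩ := t.r.NJP hy (t.symm.noswap q hy (by rwa [t.SS_eq q]))
  have j := mm (t.l.h.ab t.l.l hb) (im hy)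
  have j' := mm (t.l.h.ab t.l.l hb') (im hy)
  have m := mm hb (im hb')
  have key : ∀ l ∈ B ⊔ C, l ∈ 𝐍 B → l * (b * b'⁻¹) * l⁻¹ = b * b'⁻¹ := fun l hl nl => by
    have s := t.r.cj l
    rw [cj_of_norm nl] at s
    have e : NN B (cj l D) = NN B D := by
      have := ((t.swapP q (t.MS q nl)).resolve_right fun o => t.neP ((cj_of_norm (t.l.nLP hl)).symm.trans o.1)).2
      rwa [cj_NN, cj_of_norm nl] at this
    have k2 := (t.symm.cent_on q s e (conj_mem_of_norm (norm_le_norm_cent B nl) j')).2 (cj_cent l D ▸ conj_mem_cj.2 k')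
    have k3 := cj_of_comm (((cent_sup B C).ge ⟨j, k⟩) l hl)
    refine (inv_mul_eq_one.1 (t.r.symm.cent_r (mm (im m) (conj_mem_of_norm nl m)) (me (mm k' (im k2)) ?_))).symm
    calc _ = (b * b'⁻¹)⁻¹ * (b * y⁻¹ * (l * (b' * y⁻¹) * l⁻¹)⁻¹) := by group
      _ = _ := by rw [← k3]; group
  have b1 : ∀ a ∈ Ω B, (∀ l ∈ B ⊔ C, l ∈ 𝐍 B → l * a * l⁻¹ = a) → a = 1 := fun a ha H => by_contra fun a1 => by
    obtain ⟨x, hx, x', hx', x1, x1', ne⟩ := t.l.h.four t.l.l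
    obtain ⟨l, hl, nl, e⟩ := t.l.trA q.fu ha a1 hx x1
    obtain ⟨l', hl', nl', e'⟩ := t.l.trA q.fu ha a1 hx' x1'
    exact ne (by rw [← e, ← e', H l hl nl, H l' hl' nl'])
  have e := mul_inv_eq_one.1 (b1 _ ((t.l.h.mem_om t.l.l).2 ⟨m, b1 _ (t.l.sq4 m) fun l hl nl => by
    rw [cmul, key l hl nl]⟩) key)
  exact mul_inv_eq_one.1 (t.YY q j k (e ▸ k')) ▸ hb

theorem CA : PiGrp {2} (𝐂 (Ω B)) := piGrp_of_forall_elt fun x hx => by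
  obtain ⟨y, z, -, hz, y2, z2, rfl⟩ := exists_piPart {2} x
  have k := zpowers_le.2 hx hz
  obtain ⟨a, ha, a1⟩ := t.l.h.exa t.l.l
  rwa [((t.l.h.pi t.l.l).elt (t.JB q (odd_RR (mem_RR.2 ⟨k, fun b hb => t.l.brN (t.l.h.norm t.l.l (om ha) a1
    (k a ha).symm) k hb⟩) z2 ((t.l.h.pi t.l.l).le (Om_le _ _))))).eq_one z2, mul_one]

theorem nbr (s : Ad 𝒞 B E) : NN B E = NN B C ∨ NN B E = NN B D := by
  obtain ⟨d, hd, d1⟩ := t.l.h.exa s.r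
  obtain ⟨c, hc, e⟩ := t.l.lam q s hd
  exact t.lemX' q s hd d1 (t.l.SP (me (mm (im (PS (t.l.memr hc))) (BS (t.JB q e))) (by group)))

end Tri

end CF.Geom.Ta
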