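import Cfsg.Agent.Geom.Ta6

/-! The case `B ≅ Z₄ × Z₄`: `S₀` is a Sylow subgroup of the simple normal closure of `B`. -/

namespace CF.Geom.Ta
open Subgroup CF.BG CF.Xs CF.Geom.Tm
open scoped commutatorElement
set_option linter.unusedSectionVars false

variable {G : Type*} [Group G] [Finite G]
variable {𝒞 Γ : Set (Subgroup G)} {A B B' C D E H K N P Q R S T U V W Y Z : Subgroup G}
  {a a' b b' c c' d e g k l p u v w x y z : G}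

theorem brm (hu : u ∈ 𝐍 W) (h1 : ⁅u, g⁆ ∈ W) (h2 : ⁅v, g⁆ ∈ W) : ⁅u * v, g⁆ ∈ W :=
  br_mul u v g ▸ mm (conj_mem_of_norm hu h2) h1

theorem bri (hu : u ∈ 𝐍 W) (h1 : ⁅u, g⁆ ∈ W) : ⁅u⁻¹, g⁆ ∈ W :=
  me (conj_mem_of_norm' hu (im h1)) (by rw [br_def, br_def]; group)

theorem MX.O (m : MX 𝒞) (hB : B ∈ 𝒞) : 𝐎 {2}ᶜ (⊤ : Subgroup G) = ⊥ := by
  have e := (m.ab hB).abelem_Om Nat.prime_two
  obtain ⟨a, ha, a', ha', a1, a1', ne⟩ := m.four hB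
  have c : 4 ≤ ♯(Ω B) := ncard4 a1 a1' ne (m.toTA.sq hB ha) ▸ Set.ncard_le_ncard (sub4 ha ha')
  have n := (O_normal {2}ᶜ (⊤ : Subgroup G)).norm
  have l : 𝐎 {2}ᶜ (⊤ : Subgroup G) ≤ 𝐍 B := e.abel.le_of_cent1 (fun o => by
    have := e.pi.card_eq
    have := Nat.pow_le_pow_right two_pos (e.cyc_iff.1 o)
    omega) (le_top.trans n) (e.pi.coprime (O_pi _ _)) fun x hx x1 y hy => m.toTA.norm hB (om hx) x1 (mem_cent1.1 hy.2)
  exact ((O_pi _ _).le ((le_inf l (cent_symm (O_cent_normal ⟨l, le_top.trans n⟩ (O_pi _ _)))).trans (m.ch hB))).eq_bot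
    (O_pi _ _)

theorem TA.le_ncl (h : TA 𝒞) (hB : B ∈ 𝒞) (hC : C ∈ 𝒞) : C ≤ normalClosure (B : Set G) := by
  obtain ⟨g, rfl⟩ := h.tr hB hC
  exact cj_le_of_norm ((normalIn_top.2 normalClosure_normal).norm (mem_top g)) le_normalClosure

theorem ncl_le (hT : Syl 2 T N) (nN : N ⊴ ⊤) (h : 𝐍 T ≤ 𝐍 B) (hH : N ≤ 𝐍 H) (hB : B ≤ H) :
    normalClosure (B : Set G) ≤ H := (closure_le _).2 fun x hx => by
  obtain ⟨b, hb, e⟩ := Group.mem_conjugatesOfSet_iff.1 hx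
  obtain ⟨g, rfl⟩ := isConj_iff.1 e
  obtain ⟨n, hn, m, hm, rfl⟩ := hT.syl_frattini nN (mem_top g)
  exact me (conj_mem_of_norm (hH hn) (hB (conj_mem_of_norm (h hm.2) hb))) (by group)

/-- the final configuration -/
structure Fin4 (𝒞 : Set (Subgroup G)) (B C D N T : Subgroup G) (z : G) : Prop where
  q : Q4 𝒞
  t : Tri 𝒞 B C D
  eN : N = normalClosure (B : Set G)
  syl : Syl 2 T (N ⊓ 𝐍 B)
  le : SS B C ≤ T
  hz : z ∈ Ω B
  z1 : z ≠ 1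
  zT : z ∈ 𝐂 T

theorem Tri.fin4 (t : Tri 𝒞 B C D) (q : Q4 𝒞) : ∃ T z, Fin4 𝒞 B C D (normalClosure (B : Set G)) T z := by
  obtain ⟨T, hT, l⟩ := exists_syl_le (le_inf (t.l.SL.trans (sup_le le_normalClosure (t.l.h.le_ncl t.l.l t.l.r))) t.l.SN)
    t.l.piS
  obtain ⟨a, ha, a1⟩ := t.l.h.exa t.l.l
  obtain ⟨z, hz, z1⟩ := exists_mem_ne_one (hT.pi.inf_cent_ne_bot ((t.l.h.pi t.l.l).le (Om_le 2 B))
    (le_norm_Om 2 (hT.le.trans inf_le_right)) (ne_bot_of_mem ha a1))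
  exact ⟨T, z, q, t, rfl, hT, l, hz.1, z1, hz.2⟩

namespace Fin4
variable (s : Fin4 𝒞 B C D N T z)
include s

theorem nN : N ⊴ ⊤ := s.eN ▸ normalIn_top.2 normalClosure_normal

theorem inN (hE : E ∈ 𝒞) : E ≤ N := s.eN ▸ s.t.l.h.le_ncl s.t.l.l hE

theorem TN (hx : x ∈ T) : x ∈ 𝐍 B := (s.syl.le hx).2

theorem normT (hg : g ∈ 𝐍 T) : g ∈ 𝐍 B := cj_eq_self.1 (s.q.eq_of_le (s.q.cj g s.t.l.l) s.t.l.l
  ((cj_le_of_norm hg (le_sup_left.trans s.le)).trans fun _ => s.TN))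

theorem syl' : Syl 2 T N := syl_of_syl_norm (s.syl.le.trans inf_le_left)
  (s.syl.of_le (le_inf (s.syl.le.trans inf_le_left) (le_norm_self T)) (inf_le_inf_left _ fun _ => s.normT))

theorem nrm (hH : H ⊴ N) (h1 : H ≠ ⊥) : N ≤ H := by
  have t := s.t
  have sy := s.syl'.inf_normal hH
  have k : T ⊓ H ≠ ⊥ := fun e => h1 (eq_bot_mono (s.q.toMX.O t.l.l)
    ((le_O hH (Hall.pi'_of_eq_bot (e ▸ sy))).trans (O_le_O_of_normal s.nN _)))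
  obtain ⟨a, ha, a1⟩ := exists_mem_ne_one (s.syl.pi.inf_cent_ne_bot sy.pi
    (norm_inf (le_norm_self T) (s.syl'.le.trans hH.norm)) k)
  have aB := t.JB s.q (cent_anti (le_sup_left.trans s.le) ha.2)
  have aA : a ∈ Ω B := by_contra fun o => t.l.not_cent0 (t.l.nN aB o) (cent_anti (le_sup_right.trans s.le) ha.2)
  have f : ∀ {B C a}, Ad 𝒞 B C → a ∈ Ω B → a ≠ 1 → a ∈ H → Ω C ≤ H := fun r ha a1 h c hc => by
    by_cases c1 : c = 1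
    · exact c1 ▸ one_mem _
    obtain ⟨l, hl, rfl⟩ := r.trP s.q.fu ha a1 hc c1
    exact hH.conj_mem (sup_le (s.inN r.l) (s.inN r.r) hl) h
  have hC := f t.l aA a1 ha.1.2
  have hD := f t.r aA a1 ha.1.2
  obtain ⟨c, hc, c1⟩ := t.l.h.exa t.l.r
  have hA := f t.l.symm hc c1 (hC hc)
  have hB : B ≤ H := fun b hb => by
    obtain ⟨c, hc, e⟩ : ∃ c ∈ Ω C, ⁅b, c⁆ = b * b := by
      by_cases o : b ∈ Ω B
      · exact ⟨1, one_mem _, by simp [t.l.sa o]⟩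
      exact t.l.surj' hb o (t.l.sq4 hb)
    refine me (mm (?_ : b * c ∈ H) (im (hC hc))) (by group)
    rcases t.invS s.q (mm (BS hb) (PS (t.l.memr hc))) (by rw [t.l.sq_bc hb hc, e, t.l.sa (t.l.sq4 hb)]) with k | k
    exacts [sup_le hA hC (t.l.NN_eq ▸ k), sup_le hA hD (t.r.NN_eq ▸ k)]
  exact s.eN.le.trans (ncl_le s.syl' s.nN (fun _ => s.normT) hH.norm hB)

theorem perfect : N ≤ ⁅N, N⁆ := s.nrm (der_normal N) fun e =>
  s.t.l.nc ((der_eq_bot.1 e).cent (s.inN s.t.l.l) (s.inN s.t.l.r))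

theorem red (l : SS B C ≤ U) (H : ∀ x ∈ T, ∀ g ∈ N, g ∈ 𝐍 B → g * x * g⁻¹ ∈ T → x⁻¹ * (g * x * g⁻¹) ∈ U) : T ≤ U := by
  have t := s.t
  have key : ∀ x ∈ T, ∀ g ∈ N, g * x * g⁻¹ ∈ T → g * z * g⁻¹ ∈ T → x⁻¹ * (g * x * g⁻¹) ∈ U := fun x hx g hg m mz => by
    have hB' := s.q.cj g t.l.l
    have z1 : g * z * g⁻¹ ≠ 1 := fun o => s.z1 (conj_eq_one_iff.1 o)
    by_cases ne : B = cj g B
    · exact H x hx g hg (cj_eq_self.1 ne.symm) m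
    have r := s.q.ad t.l.l hB' (t.l.h.cm_of t.l.l hB' (conj_mem_cj.2 (om s.hz)) z1 (s.TN mz)) ne
    have lP : NN B (cj g B) ≤ SS B C := by
      rcases t.nbr s.q r with e | e <;> rw [e]
      exacts [le_sup_right, t.SS_eq s.q ▸ le_sup_right]
    obtain ⟨y, hy⟩ : ∃ y, y = g * x * g⁻¹ := ⟨_, rfl⟩
    rw [← hy] at m ⊢
    have n1 := s.TN m
    have n2 : y ∈ 𝐍 (cj g B) := t.l.h.norm hB' (conj_mem_cj.2 (om s.hz)) z1 (hy ▸ cj_comm' g (s.zT x hx))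
    have nP := r.normP n1 n2
    obtain ⟨b, hb, e⟩ := r.sqrt s.q.fu s.hz
    obtain ⟨u, hu, e1, e2⟩ := r.wb s.q.fu hb fun o => s.z1 (e ▸ r.sa o)
    have kb : ⁅y, b⁆ ∈ Ω B := r.mem_of_sq (conj_mem_of_norm n1 hb) hb (by rw [conj_mul, e, cj_of_comm (s.zT y m)])
    have ku : ⁅y, u⁆ ∈ Ω (cj g B) := by
      have m1 := conj_mem_of_norm n2 hu
      refine me ((r.symm.memN (mm (im hu) m1)).1 (cj_eq_self.1 ?_)) ?_
      · rw [← cj_cj, ← cj_cj, ← cj_cj, cj_of_norm (im n1), e1, cj_cj y, show y * b = b * ⁅y, b⁆ * y by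
          rw [← r.ca kb hb, ← cj_eq_br, inv_mul_cancel_right], ← cj_cj, ← cj_cj, cj_of_norm n2,
          cj_of_norm (r.symm.omN kb), ← e1, cj_inv_cj]
      · rw [r.h.comm r.r (im hu) m1, br_def]
    have bP := im (r.nBP hb)
    have kw := brm (mm bP (r.nCP hu)) (brm bP (bri (r.nBP hb) (r.meml (br_inv_mem kb))) (r.memr (br_inv_mem ku)))
      (bri (r.nBP hb) (r.meml (br_inv_mem kb)))
    obtain ⟨w, hw⟩ : ∃ w, w = b⁻¹ * u * b⁻¹ := ⟨_, rfl⟩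
    have wP : w ∈ 𝐍 (NN B (cj g B)) := hw ▸ mm (mm bP (r.nCP hu)) bP
    have kw := bri wP (hw ▸ kw)
    have e3 : w⁻¹ * g * x * (w⁻¹ * g)⁻¹ = ⁅w⁻¹, y⁆ * y := by rw [← cj_eq_br, hy]; group
    have := H x hx (w⁻¹ * g) (mm (im (hw ▸ mm (mm (im (s.inN r.l hb)) (s.inN r.r hu)) (im (s.inN r.l hb)))) hg)
      (cj_eq_self.1 (by rw [← cj_cj, ← (e2 w hw).1, cj_inv_cj])) (e3 ▸ mm (s.le (lP kw)) m)
    rw [e3] at this
    exact me (mm this (im (l (lP (conj_mem_of_norm' nP kw))))) (by group)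
  refine (le_inf le_rfl (s.syl'.le.trans s.perfect)).trans (s.syl'.focal fun x hx g hg m => ?_)
  have zT : z ∈ T := s.le (BS (om s.hz))
  have zN := s.syl'.le zT
  have pz := (s.syl.pi.elt zT).zpowers
  obtain ⟨R, hR, lR⟩ := exists_syl_le (M := N ⊓ 𝐂₁ (g * x * g⁻¹)) (K := T ⊓ 𝐂₁ (g * x * g⁻¹))
    (inf_le_inf_right _ s.syl'.le) s.syl.pi.inf_left
  obtain ⟨c, hc, l1⟩ := hR.syl_cj_le (K := cj g (zpowers z)) (by
    rw [cj_zpowers]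
    exact zpowers_le.2 ⟨cjm hg zN, mem_cent1.2 (cj_comm' g (s.zT x hx).symm)⟩) (pz.cj g)
  obtain ⟨n, hn, l2⟩ := s.syl'.syl_cj_le (hR.le.trans inf_le_left) hR.pi
  have m0 := l2 (conj_mem_cj.2 (lR ⟨m, self_mem_cent1 _⟩))
  have e : n * c * g * x * (n * c * g)⁻¹ = n * (g * x * g⁻¹) * n⁻¹ := by
    rw [← cj_of_comm (mem_cent1.1 hc.2)]; group
  have k1 := key x hx (n * c * g) (mm (mm hn hc.1) hg) (e ▸ m0)
    (me (l2 (conj_mem_cj.2 (l1 (conj_mem_cj.2 (conj_mem_cj.2 (mem_zpowers z)))))) (by group))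
  have k2 := key _ m n hn m0 (l2 (conj_mem_cj.2 (lR ⟨zT, mem_cent1.2 (s.zT _ m).symm⟩)))
  rw [e] at k1
  exact me (mm k1 (im k2)) (by group)

theorem CT (hx : x ∈ N) (c : x ∈ 𝐂 (Ω B)) : x ∈ T := by
  have l : 𝐂 (Ω B) ≤ 𝐍 B := fun x hx => s.t.l.h.norm s.t.l.l (om s.hz) s.z1 (hx z s.hz).symm
  exact s.syl.le_of_normal (normalIn_inf_cent (inf_le_right.trans (norm_Om 2 B))) (s.t.CA s.q).inf_right ⟨⟨hx, l c⟩, c⟩

theorem fixA (hx : x ∈ 𝐍 B) (ha : a ∈ Ω B) (a1 : a ≠ 1) (e : x * a = a * x) (n : x ∉ 𝐂 (Ω B)) (hu : u ∈ Ω B) (u1 : u ≠ 1)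
    (ua : u ≠ a) : x * u * x⁻¹ = a * u := by
  have c := fun y => four_cases (x := y) (s.q.c4 s.t.l.l) ha hu a1 u1 ua.symm (s.t.l.sa ha)
  rcases c _ (cj_om' hx hu) with k | k | k | k
  · exact (u1 (conj_eq_one_iff.1 k)).elim
  · exact (ua (by simpa using k.trans (cj_of_comm e).symm)).elim
  · refine (n fun y hy => ?_).elim
    rw [mul_inv_eq_iff_eq_mul] at k
    rcases c y hy with rfl | rfl | rfl | rfl
    exacts [by simp, e.symm, k.symm, mul_cent e.symm k.symm]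
  · exact k

theorem mul_cent' (hx : x ∈ 𝐍 B) (hy : y ∈ 𝐍 B) (ha : a ∈ Ω B) (a1 : a ≠ 1) (e : x * a = a * x) (e' : y * a = a * y)
    (n : x ∉ 𝐂 (Ω B)) (n' : y ∉ 𝐂 (Ω B)) : x⁻¹ * y ∈ 𝐂 (Ω B) := fun u hu => by
  by_cases u1 : u = 1
  · simp [u1]
  by_cases ua : u = a
  · exact ua ▸ (mul_cent (inv_cent e) e').symm
  have := (s.fixA hx ha a1 e n hu u1 ua).trans (s.fixA hy ha a1 e' n' hu u1 ua).symm
  calc _ = x⁻¹ * (x * u * x⁻¹) * y := by group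
    _ = _ := by rw [this]; group

theorem TA : T ≤ 𝐂 (Ω B) := s.red (fun x hx => by
    obtain ⟨b, hb, c, hc, rfl⟩ := s.t.l.memS.1 hx
    exact mm (cent_anti (Om_le _ _) (s.t.l.h.ab s.t.l.l hb)) (s.t.l.cm.symm hc)) fun x hx g _ hg m => by
  have n := norm_le_norm_cent _ (norm_Om 2 B hg)
  by_cases o : x ∈ 𝐂 (Ω B)
  · exact mm (im o) (conj_mem_of_norm n o)
  exact s.mul_cent' (s.TN hx) (s.TN m) s.hz s.z1 (s.zT x hx) (s.zT _ m) o fun k =>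
    o (me (conj_mem_of_norm' n k) (by group))

theorem TP : T ≤ 𝐍 (NN B C) := s.red s.t.l.SP fun x hx g _ hg m => by
  have f := fun y (hy : y ∈ 𝐍 B) => s.t.swapP s.q (s.t.MS s.q hy)
  refine cj_eq_self.1 ?_
  rw [← cj_cj, ← cj_cj, ← cj_cj, cj_eq_iff, inv_inv, cj_eq_iff]
  rcases f x (s.TN hx) with k | k <;> rcases f g⁻¹ (im hg) with k' | k' <;> simp only [k.1, k.2, k'.1, k'.2]

theorem TS : T ≤ SS B C := s.red le_rfl fun x hx g gN hg m => by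
  have t := s.t
  obtain ⟨l, hl, nl, e⟩ := t.l.trA s.q.fu s.hz s.z1 (cj_om' hg s.hz) fun o => s.z1 (conj_eq_one_iff.1 o)
  have rN : l⁻¹ * g ∈ N ⊓ 𝐍 B := ⟨mm (im (sup_le (s.inN t.l.l) (s.inN t.l.r) hl)) gN, mm (im nl) hg⟩
  have rz : l⁻¹ * g * z = z * (l⁻¹ * g) := by
    calc _ = l⁻¹ * (g * z * g⁻¹) * g := by group
      _ = _ := by rw [← e]; group
  have rA : l⁻¹ * g ∈ 𝐂 (Ω B) := by_contra fun o => by
    have k := s.mul_cent' (im rN.2) rN.2 s.hz s.z1 (inv_cent rz) rz (fun k => o (by simpa using im k)) o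
    rw [inv_inv, ← pow_two] at k
    refine o (s.TA (s.syl.mem_normal (fun y hy => mem_norm_of_cj_le fun _ ⟨u, hu, e⟩ => e ▸ s.CT (cjm hy.1 (s.syl.le hu).1)
      (conj_mem_of_norm (norm_le_norm_cent _ (norm_Om 2 B hy.2)) (s.TA hu))) rN ?_))
    exact ((piNat_self Nat.prime_two).mul ((t.CA s.q).elt k)).dvd (orderOf_dvd_of_pow_eq_one (by
      rw [pow_mul, pow_orderOf_eq_one]))
  have RR' : ∀ y ∈ 𝐂 (Ω B), y ∈ RR B (Ω B) := fun y hy => mem_RR.2 ⟨hy, fun b hb =>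
    t.l.brN (t.l.h.norm t.l.l (om s.hz) s.z1 (hy z s.hz).symm) hy hb⟩
  have k1 := BS (C := C) (t.JB s.q (RR_comm (t.l.h.ab t.l.l) (Om_le _ _) (RR' _ rA) (RR' _ (s.TA hx))))
  obtain ⟨b, hb, k⟩ := t.l.elb (t.l.el_of (s.TP hx) (s.TA hx) (s.TN hx))
  have nS := normS nl (t.l.nLP hl)
  have k2 : ⁅x, l⁆ ∈ SS B C := by
    rw [show x = (b * x⁻¹)⁻¹ * b by group]
    exact brm (normS (t.l.KN (im k)) (cent_le_norm _ (im k))) (br_inv_mem (PS (t.l.KL (im k) hl))) (BS (br_left hb nl))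
  have k3 : ⁅g, x⁆ ∈ SS B C := by
    rw [show g = l * (l⁻¹ * g) by group]; exact brm nS (br_inv_mem k2) k1
  exact me (conj_mem_of_norm' (t.MS s.q (s.TN hx)) k3) (by rw [br_def]; group)

theorem sylS : Syl 2 (SS B C) N := le_antisymm s.TS s.le ▸ s.syl'

theorem centN : 𝐂 N = ⊥ := eq_bot_of_forall fun x hx =>
  s.t.l.symm.cent_r (s.t.JB s.q (cent_anti (s.inN s.t.l.l) hx)) (cent_anti (s.inN s.t.l.r) hx)

theorem simple : IsSimpleGroup N := by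
  obtain ⟨b, hb, b1⟩ := s.t.l.h.exa s.t.l.l
  have : Nontrivial N := (nontrivial_iff_ne_bot N).2 (ne_bot_of_mem (s.inN s.t.l.l (om hb)) b1)
  refine ⟨fun H hH => (em _).imp_right fun o => ?_⟩
  have := s.nrm (normal_iff_map_subtype.1 hH) (mt (map_eq_bot_iff_of_injective H N.subtype_injective).1 o)
  exact eq_top_iff.2 ((map_le_map_iff_of_injective N.subtype_injective).1 (by rwa [map_top_subtype]))

end Fin4

end CF.Geom.Ta
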