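/-
Tensor products of bilinear forms: Gram determinants and type.
-/
import Cfsg.Agent.Geom.Disc

set_option autoImplicit false

namespace CF.Geom

open Module QuadraticMap Matrix TensorProduct Kronecker

variable {F U W : Type*} [Field F] [AddCommGroup U] [Module F U] [AddCommGroup W] [Module F W]

theorem gram_tmul (B₁ : LinearMap.BilinForm F U) (B₂ : LinearMap.BilinForm F W) {ι κ : Type*}
    (b : Basis ι F U) (c : Basis κ F W) :
    gram (B₁.tmul B₂) (b.tensorProduct c) = gram B₁ b ⊗ₖ gram B₂ c := by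
  ext ⟨i, j⟩ ⟨i', j'⟩
  simp [mul_comm]

theorem det_gram_tmul (B₁ : LinearMap.BilinForm F U) (B₂ : LinearMap.BilinForm F W) {ι κ : Type*}
    [Fintype ι] [DecidableEq ι] [Fintype κ] [DecidableEq κ] (b : Basis ι F U) (c : Basis κ F W) :
    (gram (B₁.tmul B₂) (b.tensorProduct c)).det =
      (gram B₁ b).det ^ Fintype.card κ * (gram B₂ c).det ^ Fintype.card ι := by
  rw [gram_tmul, det_kronecker]

theorem tmul_nondegenerate [FiniteDimensional F U] [FiniteDimensional F W]
    {B₁ : LinearMap.BilinForm F U} {B₂ : LinearMap.BilinForm F W} (h₁ : B₁.Nondegenerate)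
    (h₂ : B₂.Nondegenerate) : LinearMap.BilinForm.Nondegenerate (B₁.tmul B₂) :=
  nondegenerate_of_det_gram ((Module.finBasis F U).tensorProduct (Module.finBasis F W)) (by
    rw [det_gram_tmul]
    exact mul_ne_zero (pow_ne_zero _ (det_gram_ne_zero h₁ _)) (pow_ne_zero _ (det_gram_ne_zero h₂ _)))

theorem tmul_isSymm_of_mul {B₁ : LinearMap.BilinForm F U} {B₂ : LinearMap.BilinForm F W}
    (h : ∀ x y x' y', B₂ y y' * B₁ x x' = B₂ y' y * B₁ x' x) :
    LinearMap.BilinForm.IsSymm (B₁.tmul B₂) := by
  refine ⟨fun x y => ?_⟩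
  induction x with
  | zero => simp
  | add a b ha hb => simp [ha, hb]
  | tmul a b =>
    induction y with
    | zero => simp
    | add a b ha hb => simp [ha, hb]
    | tmul a' b' => simpa using h a b a' b'

/-- The type of a symmetric form in odd characteristic via its discriminant. -/
theorem exists_totally_isotropic_iff [Finite F] [FiniteDimensional F U] (h2 : (2 : F) ≠ 0)
    {B : LinearMap.BilinForm F U} (hS : B.IsSymm) (hB : B.Nondegenerate) {m : ℕ}
    (hm : finrank F U = 2 * m) {ι : Type*} [Fintype ι] [DecidableEq ι] (b : Basis ι F U) :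
    (∃ X : Submodule F U, finrank F X = m ∧ ∀ x ∈ X, ∀ y ∈ X, B x y = 0) ↔
      IsSquare ((-1) ^ m * (gram B b).det) := by
  have h1 := isPlus_iff_isSquare h2 (nondegenerate_toQuadraticMap h2 hS hB) hm b
  have h3 : gram (polarBilin (LinearMap.BilinMap.toQuadraticMap B)) b = (2 : F) • gram B b := by
    ext i j; rw [polarBilin_toQuadraticMap hS]; simp
  rw [h3, det_smul, ← Module.finrank_eq_card_basis b, hm,
    show (-1 : F) ^ m * (2 ^ (2 * m) * (gram B b).det) = (2 ^ m) ^ 2 * ((-1) ^ m * (gram B b).det) by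
      ring, isSquare_sq_mul_iff (pow_ne_zero _ h2)] at h1
  rw [← h1]
  refine exists_congr fun X => and_congr (by omega) ⟨fun h u hu => h u hu u hu, fun h x hx y hy => ?_⟩
  have := polar_eq_zero_of_totally_singular h hx hy
  rw [← polarBilin_apply_apply, polarBilin_toQuadraticMap hS] at this
  simpa [h2] using this

end CF.Geom
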